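import Mathlib
import Cfsg.Prelude.Def_Classification2
import Cfsg.Agent.Lib.Stein.RGD
import Cfsg.Agent.Lib.Stein.TypeBC

/-! Tits' theorem on finite (B,N)-pairs of rank at least three: definitions (blueprint/TITS). -/

set_option autoImplicit false

open scoped commutatorElement

namespace Tits

open H63.St Cfsg

/-- The Coxeter matrix of type `A_n`. -/
def mA (n : ℕ) (i j : Fin n) : ℕ := if i = j then 1 else if i.1 + 1 = j.1 ∨ j.1 + 1 = i.1 then 3 else 2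

/-- The Coxeter matrix of type `B_n`. -/
def mB (n : ℕ) (i j : Fin n) : ℕ :=
  if i = j then 1 else if i.1 + 1 = j.1 ∨ j.1 + 1 = i.1 then
    (if i.1 + 1 = n ∨ j.1 + 1 = n then 4 else 3) else 2

/-- The Coxeter matrix of type `D_n`. -/
def mD (n : ℕ) (i j : Fin n) : ℕ :=
  if i = j then 1 else if i.1 + 1 = n then (if j.1 + 3 = n then 3 else 2)
    else if j.1 + 1 = n then (if i.1 + 3 = n then 3 else 2)
    else if i.1 + 1 = j.1 ∨ j.1 + 1 = i.1 then 3 else 2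

/-- The Coxeter matrix of type `E_n` (chain `0, 2, 3, 4, ..`, node `1` joined to `3`). -/
def mE (n : ℕ) (i j : Fin n) : ℕ :=
  if i = j then 1 else if (i.1 = 0 ∧ j.1 = 2) ∨ (i.1 = 2 ∧ j.1 = 0) ∨ (i.1 = 1 ∧ j.1 = 3) ∨
    (i.1 = 3 ∧ j.1 = 1) ∨ (2 ≤ i.1 ∧ i.1 + 1 = j.1) ∨ (2 ≤ j.1 ∧ j.1 + 1 = i.1) then 3 else 2

/-- The Coxeter matrix of type `F₄`. -/
def mF (i j : Fin 4) : ℕ := !![1, 3, 2, 2; 3, 1, 4, 2; 2, 4, 1, 3; 2, 2, 3, 1] i j

/-- The simply laced diagrams of rank at least three. -/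
def SL (n : ℕ) (m : Fin n → Fin n → ℕ) : Prop :=
  (3 ≤ n ∧ m = mA n) ∨ (4 ≤ n ∧ m = mD n) ∨ (6 ≤ n ∧ n ≤ 8 ∧ m = mE n)

/-- A tree grown from the edge `a b` along simple bonds. -/
def Shape {I : Type*} (m : I → I → ℕ) (a b : I) : Prop :=
  a ≠ b ∧ ∃ (ht : I → ℕ) (par : I → I),
    (∀ v, v ≠ a → v ≠ b → ht (par v) < ht v ∧ m (par v) v = 3) ∧
    ∀ u v, u ≠ v → m u v = 2 ∨ (u = a ∧ v = b) ∨ (u = b ∧ v = a) ∨
      (v ≠ a ∧ v ≠ b ∧ u = par v) ∨ (u ≠ a ∧ u ≠ b ∧ v = par u)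

/-- The list of the theorem. -/
def Lie (G : Type*) [Group G] : Prop :=
  IsPSL G ∨ IsPSp G ∨ IsPSU G ∨ IsPOmegaOdd G ∨ IsPOmegaPlus G ∨ IsPOmegaMinus G ∨
    IsExceptionalLieType G

section roots

variable {Φ I : Type*} (R : Roots Φ I)

/-- The Coxeter matrix. -/
noncomputable def cm (i j : I) : ℕ := orderOf (R.σ i * R.σ j)

/-- The roots that are positive whenever `r` and `s` are. -/
def Icc (r s : Φ) : Set Φ := {k | ∀ w ∈ R.W, R.Pos (w r) → R.Pos (w s) → R.Pos (w k)}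

/-- The interval relation is the geometric one. -/
def Full : Prop := ∀ r s k, s ≠ r → s ≠ R.neg r → k ∈ Icc R r s → k ≠ r → k ≠ s → k ∈ R.Itv r s

/-- The standard parabolic subgroup of the Weyl group. -/
def WJ (J : Set I) : Subgroup (Equiv.Perm Φ) := Subgroup.closure (R.σ '' J)

/-- The roots of a standard subsystem. -/
def InJ (J : Set I) (r : Φ) : Prop := ∃ w ∈ WJ R J, ∃ i ∈ J, w (R.α i) = r

/-- Any two roots are conjugate into a standard subsystem of rank two. -/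
def Rk2 : Prop := ∀ r s, ∃ w ∈ R.W, ∃ i j, InJ R {i, j} (w r) ∧ InJ R {i, j} (w s)

/-- No isolated node. -/
def Irr : Prop := ∀ i, ∃ j, 3 ≤ cm R i j

/-- The product `u * v` is reduced. -/
def Red (u v : Equiv.Perm Φ) : Prop := ∀ r, R.Pos r → ¬ R.Pos (v r) → ¬ R.Pos (u (v r))

/-- The path `i - j = k`. -/
def B3 (i j k : I) : Prop := cm R i j = 3 ∧ cm R j k = 4 ∧ cm R i k = 2

/-- The roots of the subsystem of type `B₂` on `j`, `k` in cyclic order. -/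
def rho (j k : I) (n : ZMod 8) : Φ :=
  ![R.neg (R.α k), R.α j, R.σ j (R.α k), R.σ k (R.α j), R.α k, R.neg (R.α j),
    R.neg (R.σ j (R.α k)), R.neg (R.σ k (R.α j))] n

/-- The roots of the subsystem of type `A₂` on `i`, `j`. -/
def rt (i j : I) (a b : Fin 3) : Φ :=
  !![R.α i, R.α i, R.σ i (R.α j); R.neg (R.α i), R.α i, R.α j;
    R.neg (R.σ i (R.α j)), R.neg (R.α j), R.α i] a b

/-- An embedding as a standard subsystem. -/
structure Emb {Φ' I' : Type*} (R' : Roots Φ' I') (g : I' → I) where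
  /-- the map on roots -/
  f : Φ' → Φ
  inj : Function.Injective f
  pos : ∀ r, R.Pos (f r) ↔ R'.Pos r
  neg : ∀ r, f (R'.neg r) = R.neg (f r)
  α : ∀ i, f (R'.α i) = R.α (g i)
  σ : ∀ i r, f (R'.σ i r) = R.σ (g i) (f r)
  itv : ∀ r s, s ≠ r → s ≠ R'.neg r → R.Itv (f r) (f s) ⊆ f '' R'.Itv r s
  itv' : Full R → ∀ r s, s ≠ r → s ≠ R'.neg r → f '' R'.Itv r s ⊆ R.Itv (f r) (f s)
  rng : ∀ r, InJ R (Set.range g) r → r ∈ Set.range f

end roots

section rgd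

variable {Φ I : Type*} {R : Roots Φ I} {G G' : Type*} [Group G] [Group G']

/-- The root groups of the subsystem on `i`, `j` are those of a Steinberg system of type `A₂`. -/
def A2 (E : RGD R G) (i j : I) (K : Type) [Field K] : Prop :=
  ∃ S : PreStA (Fin 3) K G, ∀ a b, a ≠ b → Function.Injective (S.x a b) ∧
    Set.range (S.x a b) = (E.X (rt R i j a b) : Set G)

/-- Faithful, and coordinatised by finite fields on the simple bonds. -/
def Good (E : RGD R G) : Prop :=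
  E.Faith ∧ ∀ i j, cm R i j = 3 → ∃ (K : Type) (_ : Field K) (_ : Fintype K), A2 E i j K

/-- On a double bond `j k`: the two orthogonal roots `α j` and `σ k (α j)` commute. -/
def Flag (E : RGD R G) (j k : I) : Prop :=
  ∀ x ∈ E.X (R.α j), ∀ y ∈ E.X (R.σ k (R.α j)), Commute x y

/-- The order of a simple root group. -/
noncomputable def q (E : RGD R G) (i : I) : ℕ := Nat.card (E.X (R.α i))

/-- The possible parameters on a double bond. -/
def Par (fl : Prop) (q t : ℕ) : Prop :=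
  (fl ∧ (t = q ∨ t = q ^ 2)) ∨ (¬ fl ∧ ((t = q ∧ Odd q) ∨ t ^ 2 = q ∨ t ^ 2 = q ^ 3))

/-- `Y` is the graph of an isomorphism from `A` to `A'`. -/
structure Gr (Y : Subgroup (G × G')) (A : Subgroup G) (A' : Subgroup G') : Prop where
  fst : Y.map (MonoidHom.fst G G') = A
  snd : Y.map (MonoidHom.snd G G') = A'
  inj : ∀ y ∈ Y, y.1 = 1 ↔ y.2 = 1

/-- Compatible isomorphisms between the root groups of a standard subsystem. -/
structure Loc (E : RGD R G) (E' : RGD R G') (J : Set I) (Y : Φ → Subgroup (G × G')) : Prop where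
  gr : ∀ r, InJ R J r → Gr (Y r) (E.X r) (E'.X r)
  comm : ∀ r s, InJ R J r → InJ R J s → s ≠ r → s ≠ R.neg r → ∀ x ∈ Y r, ∀ y ∈ Y s,
    ⁅x, y⁆ ∈ ⨆ k ∈ R.Itv r s, Y k
  act : ∀ i ∈ J, ∀ x ∈ Y (R.α i), x ≠ 1 → ∃ u ∈ Y (R.neg (R.α i)), ∃ u' ∈ Y (R.neg (R.α i)),
    ∀ r, InJ R J r → ∀ y, y ∈ Y r ↔ (u * x * u') * y * (u * x * u')⁻¹ ∈ Y (R.σ i r)

/-- Two families agree on `± α i`. -/
def Agr (R : Roots Φ I) (i : I) (Y Y' : Φ → Subgroup (G × G')) : Prop :=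
  Y (R.α i) = Y' (R.α i) ∧ Y (R.neg (R.α i)) = Y' (R.neg (R.α i))

end rgd

/-- A model: a known group with a good root group datum of Coxeter matrix `m`, with property `Q`. -/
def Model {n : ℕ} (m : Fin n → Fin n → ℕ)
    (Q : ∀ {Φ G : Type} [Group G] {R : Roots Φ (Fin n)}, RGD R G → Prop) : Prop :=
  ∃ (Φ G : Type) (_ : Finite Φ) (_ : Group G) (_ : Finite G) (R : Roots Φ (Fin n)) (E : RGD R G),
    cm R = m ∧ Good E ∧ E.Gp = ⊤ ∧ Lie (G ⧸ Subgroup.center G) ∧ Q E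

/-- The root groups of a Moufang quadrangle. -/
structure Win (G : Type*) [Group G] where
  /-- the root groups -/
  U : ZMod 8 → Subgroup G
  c1 : ∀ i, ∀ x ∈ U i, ∀ y ∈ U (i + 1), Commute x y
  c2 : ∀ i, ∀ x ∈ U i, ∀ y ∈ U (i + 2), ⁅x, y⁆ ∈ U (i + 1)
  c3 : ∀ i, ∀ x ∈ U i, ∀ y ∈ U (i + 3), ∃ a ∈ U (i + 1), ∃ b ∈ U (i + 2), ⁅x, y⁆ = a * b
  ind : ∀ i, ∀ a ∈ U i, ∀ b ∈ U (i + 1), ∀ c ∈ U (i + 2), ∀ d ∈ U (i + 3), a * b * c * d = 1 →
    a = 1 ∧ b = 1 ∧ c = 1 ∧ d = 1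
  ne : ∀ i, ∃ x ∈ U i, x ≠ 1
  mu : ∀ i, ∀ x ∈ U i, x ≠ 1 → ∃ u ∈ U (i + 4), ∃ u' ∈ U (i + 4), ∀ j y,
    y ∈ U j ↔ (u * x * u') * y * (u * x * u')⁻¹ ∈ U (2 * i + 4 - j)

/-- Compatible isomorphisms between the four positive root groups of two quadrangles. -/
structure PosGr {G G' : Type*} [Group G] [Group G'] (U : ZMod 8 → Subgroup G)
    (U' : ZMod 8 → Subgroup G') (Y : ZMod 8 → Subgroup (G × G')) : Prop where
  gr : ∀ n ∈ ({1, 2, 3, 4} : Set (ZMod 8)), Gr (Y n) (U n) (U' n)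
  c13 : ∀ x ∈ Y 1, ∀ y ∈ Y 3, ⁅x, y⁆ ∈ Y 2
  c24 : ∀ x ∈ Y 2, ∀ y ∈ Y 4, ⁅x, y⁆ ∈ Y 3
  c14 : ∀ x ∈ Y 1, ∀ y ∈ Y 4, ∃ a ∈ Y 2, ∃ b ∈ Y 3, ⁅x, y⁆ = a * b

/-- A thick spherical building of type `R` with a Weyl transitive faithful group and an apartment. -/
structure Bd {Φ I : Type*} (R : Roots Φ I) (G X : Type*) [Group G] [MulAction G X] where
  /-- the Weyl distance -/
  δ : X → X → Equiv.Perm Φ
  /-- the apartment -/
  a : Equiv.Perm Φ → X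
  mem : ∀ x y, δ x y ∈ R.W
  smul : ∀ (g : G) x y, δ (g • x) (g • y) = δ x y
  eq_one : ∀ x y, δ x y = 1 ↔ x = y
  symm : ∀ x y, δ y x = (δ x y)⁻¹
  step : ∀ x y z i, δ y z = R.σ i →
    δ x z = δ x y * R.σ i ∨ (δ x z = δ x y ∧ ¬ R.Pos (δ x y (R.α i)))
  ex : ∀ x y i, ∃ z, δ y z = R.σ i ∧ δ x z = δ x y * R.σ i
  thick : ∀ x i, ∃ y z, δ x y = R.σ i ∧ δ x z = R.σ i ∧ y ≠ z
  apt : ∀ v ∈ R.W, ∀ w ∈ R.W, δ (a v) (a w) = v⁻¹ * w
  tr : ∀ x y x' y', δ x y = δ x' y' → ∃ g : G, g • x = x' ∧ g • y = y'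
  faith : ∀ g : G, (∀ x : X, g • x = x) → g = 1

namespace Bd

variable {Φ I : Type*} {R : Roots Φ I} {G X : Type*} [Group G] [MulAction G X] (D : Bd R G X)

/-- The chambers `i`-adjacent to `x`. -/
def Nb (x : X) (i : I) : Set X := {y | D.δ x y = R.σ i}

/-- `g` is trivial on the `i`-panel of `x`. -/
def Tr (g : G) (x : X) (i : I) : Prop := g • x = x ∧ ∀ y ∈ D.Nb x i, g • y = y

/-- The `i`-panel of `x`. -/
def Pn (x : X) (i : I) : Set X := {y | y = x ∨ D.δ x y = R.σ i}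

/-- The kernel on a panel. -/
def Q (x : X) (i : I) : Subgroup G where
  carrier := {g | D.Tr g x i}
  one_mem' := ⟨one_smul _ _, fun _ _ => one_smul _ _⟩
  mul_mem' h h' := ⟨by rw [mul_smul, h'.1, h.1], fun y hy => by rw [mul_smul, h'.2 y hy, h.2 y hy]⟩
  inv_mem' h := ⟨inv_smul_eq_iff.2 h.1.symm, fun y hy => inv_smul_eq_iff.2 (h.2 y hy).symm⟩

/-- The kernel on a residue. -/
def Ker (x : X) (J : Set I) : Subgroup G where
  carrier := {g | ∀ z, D.δ x z ∈ WJ R J → g • z = z}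
  one_mem' _ _ := one_smul _ _
  mul_mem' h h' z hz := by rw [mul_smul, h' z hz, h z hz]
  inv_mem' h z hz := inv_smul_eq_iff.2 (h z hz).symm

/-- `g` acts on the apartment as `v`. -/
def Rep (g : G) (v : Equiv.Perm Φ) : Prop := ∀ w ∈ R.W, g • D.a w = D.a (v * w)

/-- The parameter of the `i`-panels. -/
noncomputable def nb (i : I) : ℕ := (D.Nb (D.a 1) i).ncard

/-- The pointwise stabiliser of the apartment. -/
def H : Subgroup G where
  carrier := {g | ∀ w ∈ R.W, g • D.a w = D.a w}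
  one_mem' _ _ := one_smul _ _
  mul_mem' h h' w hw := by rw [mul_smul, h' w hw, h w hw]
  inv_mem' h w hw := inv_smul_eq_iff.2 (h w hw).symm

/-- The pointwise stabiliser of a half apartment. -/
def GR (r : Φ) : Subgroup G where
  carrier := {g | ∀ w ∈ R.W, R.Pos (w⁻¹ r) → g • D.a w = D.a w}
  one_mem' _ _ _ := one_smul _ _
  mul_mem' h h' w hw hp := by rw [mul_smul, h' w hw hp, h w hw hp]
  inv_mem' h w hw hp := inv_smul_eq_iff.2 (h w hw hp).symm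

/-- `g` is trivial on the panels of the wall `k` that lie in the half apartment `r`. -/
def Wall (g : G) (r k : Φ) : Prop :=
  ∀ w ∈ R.W, ∀ i, R.Pos (w⁻¹ r) → (w (R.α i) = k ∨ w (R.α i) = R.neg k) → D.Tr g (D.a w) i

/-- The root group. -/
def U (r : Φ) : Subgroup G where
  carrier := {g | g ∈ D.GR r ∧ ∀ w ∈ R.W, ∀ i, R.Pos (w⁻¹ r) → w (R.α i) ≠ r → D.Tr g (D.a w) i}
  one_mem' := ⟨one_mem _, fun _ _ _ _ _ => ⟨one_smul _ _, fun _ _ => one_smul _ _⟩⟩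
  mul_mem' h h' := ⟨mul_mem h.1 h'.1, fun w hw i hp hn =>
    ⟨by rw [mul_smul, (h'.2 w hw i hp hn).1, (h.2 w hw i hp hn).1], fun y hy => by
      rw [mul_smul, (h'.2 w hw i hp hn).2 y hy, (h.2 w hw i hp hn).2 y hy]⟩⟩
  inv_mem' h := ⟨inv_mem h.1, fun w hw i hp hn =>
    ⟨inv_smul_eq_iff.2 (h.2 w hw i hp hn).1.symm, fun y hy =>
      inv_smul_eq_iff.2 ((h.2 w hw i hp hn).2 y hy).symm⟩⟩

/-- The Moufang condition for the root `r`. -/
def Mouf (r : Φ) : Prop := ∀ w ∈ R.W, ∀ i, w (R.α i) = r →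
  ∀ y ∈ D.Nb (D.a w) i, ∀ y' ∈ D.Nb (D.a w) i, ∃ u ∈ D.U r, u • y = y'

/-- The root group induces a normal subgroup of the chamber stabiliser on the panel. -/
def Nrm (i : I) : Prop := ∀ g : G, g • D.a 1 = D.a 1 → ∀ v ∈ D.U (R.α i), ∃ v' ∈ D.U (R.α i),
  D.Tr (v'⁻¹ * (g * v * g⁻¹)) (D.a 1) i

/-- Affine coordinates on the `i`-panel of the base chamber. -/
def Pan (i : I) (K : Type) [Field K] : Prop :=
  ∃ φ : K → X, Function.Injective φ ∧ Set.range φ = D.Nb (D.a 1) i ∧ φ 0 = D.a (R.σ i) ∧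
    (∀ g : G, g • D.a 1 = D.a 1 → ∃ (c b : K) (τ : K ≃+* K), c ≠ 0 ∧
      ∀ x, g • φ x = φ (c * τ x + b)) ∧
    ∀ c : K, c ≠ 0 → ∃ h ∈ D.H, ∀ x, h • φ x = φ (c * x)

end Bd

end Tits
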