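import Mathlib
import Cfsg.Agent.Lib.Tits.Defs

/-! Standard parabolic subgroups of the Weyl group of a combinatorial root system. -/

set_option autoImplicit false
set_option linter.unusedSectionVars false

open scoped commutatorElement

namespace Tits

open H63.St Cfsg

variable {Φ I : Type*} {R : Roots Φ I} [Finite Φ]

theorem WJ_le (J : Set I) : WJ R J ≤ R.W := Subgroup.closure_mono (Set.image_subset_range _ _)

theorem WJ_univ : WJ R Set.univ = R.W := by rw [WJ, Set.image_univ]; rfl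

namespace WJ

theorem σ_mem {J : Set I} {i : I} (h : i ∈ J) : R.σ i ∈ WJ R J :=
  Subgroup.subset_closure ⟨i, h, rfl⟩

theorem exists_wp {J : Set I} {w : Equiv.Perm Φ} (hw : w ∈ WJ R J) :
    ∃ L : List I, (∀ i ∈ L, i ∈ J) ∧ R.wp L = w := by
  induction hw using Subgroup.closure_induction with
  | mem x hx => obtain ⟨i, hi, rfl⟩ := hx; exact ⟨[i], by simpa using hi, R.wp_singleton i⟩
  | one => exact ⟨[], by simp, rfl⟩
  | mul x y _ _ h1 h2 =>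
    obtain ⟨L, a, rfl⟩ := h1
    obtain ⟨L', b, rfl⟩ := h2
    exact ⟨L ++ L', fun i hi => (List.mem_append.1 hi).elim (a i) (b i), R.wp_append _ _⟩
  | inv x _ h =>
    obtain ⟨L, a, rfl⟩ := h
    exact ⟨L.reverse, fun i hi => a i (List.mem_reverse.1 hi), R.wp_reverse L⟩

theorem wp_mem {J : Set I} {L : List I} (h : ∀ i ∈ L, i ∈ J) : R.wp L ∈ WJ R J := by
  induction L with
  | nil => exact (WJ R J).one_mem
  | cons a L ih =>
    rw [Roots.wp_cons]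
    exact (WJ R J).mul_mem (σ_mem (h a (by simp))) (ih fun i hi => h i (by simp [hi]))

theorem σ_pos_iff {i : I} {s : Φ} (h1 : s ≠ R.α i) (h2 : s ≠ R.neg (R.α i)) :
    R.Pos (R.σ i s) ↔ R.Pos s := by
  refine ⟨fun h => ?_, fun h => R.σ_pos h h1⟩
  by_contra h3
  have := R.σ_pos ((R.pos_neg s).2 h3) (i := i) fun e => h2 (by rw [← e, R.neg_neg])
  rw [R.σ_neg, R.pos_neg] at this
  exact this h

theorem pos_mul_σ {w : Equiv.Perm Φ} (hw : w ∈ R.W) (i : I) :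
    R.Pos ((w * R.σ i) (R.α i)) ↔ ¬ R.Pos (w (R.α i)) := by
  rw [Equiv.Perm.mul_apply, R.σ_α, Roots.W_neg hw, R.pos_neg]

/-- Strong exchange. -/
theorem del {L : List I} {v : Equiv.Perm Φ} (hv : v ∈ R.W) {i : I} (hr : R.Pos (v (R.α i)))
    (h : ¬ R.Pos (R.wp L (v (R.α i)))) :
    ∃ L1 a L2, L = L1 ++ a :: L2 ∧ R.wp L * (v * R.σ i * v⁻¹) = R.wp (L1 ++ L2) := by
  obtain ⟨L1, a, L2, rfl, e⟩ := Roots.flip hr h
  refine ⟨L1, a, L2, rfl, ?_⟩
  have := Roots.W_conj_σ (R.W.mul_mem (R.wp_mem_W L2) hv) (k := i) (l := a) e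
  rw [Roots.wp_append, Roots.wp_cons, Roots.wp_append, ← this]
  have h2 := R.σ_mul_self i
  calc _ = R.wp L1 * R.wp L2 * v * (R.σ i * R.σ i) * v⁻¹ := by group
    _ = _ := by rw [h2]; group

theorem del' {L : List I} {i : I} (h : ¬ R.Pos (R.wp L (R.α i))) :
    ∃ L1 a L2, L = L1 ++ a :: L2 ∧ R.wp L * R.σ i = R.wp (L1 ++ L2) := by
  simpa using del (v := 1) R.W.one_mem (R.pos_α i) h

theorem eq_one_of_pos {J : Set I} {w : Equiv.Perm Φ} (hw : w ∈ WJ R J)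
    (h : ∀ i ∈ J, R.Pos (w (R.α i))) : w = 1 := by
  obtain ⟨L, hL, rfl⟩ := exists_wp hw
  clear hw
  induction hn : L.length using Nat.strong_induction_on generalizing L with
  | _ n ih =>
    rcases L.eq_nil_or_concat with rfl | ⟨L', i, rfl⟩
    · rfl
    rw [List.concat_eq_append] at hL h hn ⊢
    have h1 := h i (hL i (by simp))
    rw [Roots.wp_append, Roots.wp_singleton, pos_mul_σ (R.wp_mem_W L')] at h1
    obtain ⟨L1, a, L2, rfl, e⟩ := del' h1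
    rw [Roots.wp_append _ _ [i], Roots.wp_singleton, e] at h ⊢
    refine ih _ ?_ _ (fun j hj => hL j ?_) h rfl
    · simp at hn ⊢; omega
    · simp at hj ⊢; tauto

theorem ind {J : Set I} {P : Φ → Prop} (h0 : ∀ i ∈ J, P (R.α i))
    (h1 : ∀ i ∈ J, ∀ r, P r → P (R.σ i r)) {r : Φ} (h : InJ R J r) : P r := by
  obtain ⟨w, hw, i, hi, rfl⟩ := h
  obtain ⟨L, hL, rfl⟩ := exists_wp hw
  clear hw
  induction L with
  | nil => exact h0 i hi
  | cons a L ih =>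
    rw [Roots.wp_cons, Equiv.Perm.mul_apply]
    exact h1 a (hL a (by simp)) _ (ih fun j hj => hL j (by simp [hj]))

theorem cm_eq_one {i j : I} (h : R.α i = R.α j) : cm R i j = 1 := by
  rw [cm, orderOf_eq_one_iff, Roots.σ, h]
  exact R.σ_mul_self j

theorem cm_dvd_two {i j : I} (h : R.σ i (R.α j) = R.α j) : cm R i j ∣ 2 := by
  have := Roots.W_conj_σ (R.σ_mem_W i) h
  rw [R.σ_inv] at this
  refine orderOf_dvd_of_pow_eq_one ?_
  rw [sq, ← mul_assoc, this, R.σ_mul_self]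

end WJ

theorem inJ_univ (r : Φ) : InJ R Set.univ r := by
  obtain ⟨w, hw, i, e⟩ := R.exists_W_α r
  exact ⟨w, WJ_univ (R := R) ▸ hw, i, trivial, e⟩

theorem inJ_α {J : Set I} {i : I} (h : i ∈ J) : InJ R J (R.α i) := ⟨1, (WJ R J).one_mem, i, h, rfl⟩

theorem InJ.neg {J : Set I} {r : Φ} (h : InJ R J r) : InJ R J (R.neg r) := by
  obtain ⟨w, hw, i, hi, rfl⟩ := h
  refine ⟨w * R.σ i, (WJ R J).mul_mem hw (WJ.σ_mem hi), i, hi, ?_⟩
  rw [Equiv.Perm.mul_apply, R.σ_α, Roots.W_neg (WJ_le J hw)]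

theorem InJ.smul {J : Set I} {r : Φ} (h : InJ R J r) {w : Equiv.Perm Φ} (hw : w ∈ WJ R J) :
    InJ R J (w r) := by
  obtain ⟨v, hv, i, hi, rfl⟩ := h
  exact ⟨w * v, (WJ R J).mul_mem hw hv, i, hi, rfl⟩

theorem InJ.mono {J J' : Set I} {r : Φ} (h : InJ R J r) (h' : J ⊆ J') : InJ R J' r := by
  obtain ⟨v, hv, i, hi, rfl⟩ := h
  exact ⟨v, Subgroup.closure_mono (Set.image_mono h') hv, i, h' hi, rfl⟩

theorem inJ_single {i : I} {r : Φ} : InJ R {i} r ↔ r = R.α i ∨ r = R.neg (R.α i) := by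
  refine ⟨fun h => WJ.ind (P := fun r => r = R.α i ∨ r = R.neg (R.α i)) ?_ ?_ h, ?_⟩
  · rintro j rfl; exact Or.inl rfl
  · rintro j rfl r (rfl | rfl)
    · exact Or.inr (R.σ_α _)
    · exact Or.inl (R.σ_neg_α _)
  · have h : InJ R {i} (R.α i) := inJ_α rfl
    rintro (e | e) <;> rw [e]
    · exact h
    · exact h.neg

theorem InJ.of_smul {J : Set I} {r : Φ} {w : Equiv.Perm Φ} (hw : w ∈ WJ R J) (h : InJ R J (w r)) :
    InJ R J r := by
  simpa using h.smul ((WJ R J).inv_mem hw)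

theorem pos_iff_of_not_inJ {J : Set I} {r : Φ} (h : ¬ InJ R J r) {w : Equiv.Perm Φ}
    (hw : w ∈ WJ R J) : R.Pos (w r) ↔ R.Pos r := by
  obtain ⟨L, hL, rfl⟩ := WJ.exists_wp hw
  clear hw
  induction L with
  | nil => rfl
  | cons a L ih =>
    have h1 : ∀ j ∈ L, j ∈ J := fun j hj => hL j (by simp [hj])
    have h2 : ¬ InJ R J (R.wp L r) := fun h2 => h (h2.of_smul (WJ.wp_mem h1))
    have h3 := inJ_α (R := R) (hL a (by simp))
    rw [Roots.wp_cons, Equiv.Perm.mul_apply, WJ.σ_pos_iff (i := a) (s := R.wp L r)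
      (fun e => h2 (by rw [e]; exact h3)) (fun e => h2 (by rw [e]; exact h3.neg)), ih h1]

/-- Minimal coset representatives. -/
theorem exists_coset (J : Set I) {w : Equiv.Perm Φ} (hw : w ∈ R.W) :
    ∃ u ∈ R.W, ∃ v ∈ WJ R J, w = u * v ∧ ∀ r, InJ R J r → (R.Pos (u r) ↔ R.Pos r) := by
  obtain ⟨L, rfl⟩ := Roots.exists_wp hw
  clear hw
  induction hn : L.length using Nat.strong_induction_on generalizing L with
  | _ n ih =>
    by_cases h : ∀ r, InJ R J r → R.Pos r → R.Pos (R.wp L r)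
    · refine ⟨_, R.wp_mem_W L, 1, (WJ R J).one_mem, (mul_one _).symm, fun r hr => ⟨fun h1 => ?_, h r hr⟩⟩
      by_contra h2
      have := h _ hr.neg ((R.pos_neg r).2 h2)
      rw [Roots.W_neg (R.wp_mem_W L), R.pos_neg] at this
      exact this h1
    push Not at h
    obtain ⟨r, ⟨v, hv, i, hi, rfl⟩, h1, h2⟩ := h
    obtain ⟨L1, a, L2, rfl, e⟩ := WJ.del (WJ_le J hv) h1 h2
    obtain ⟨u, hu, v', hv', e', h3⟩ := ih _ (by simp at hn ⊢; omega) (L1 ++ L2) rfl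
    refine ⟨u, hu, v' * (v * R.σ i * v⁻¹)⁻¹, (WJ R J).mul_mem hv' ((WJ R J).inv_mem
      ((WJ R J).mul_mem ((WJ R J).mul_mem hv (WJ.σ_mem hi)) ((WJ R J).inv_mem hv))), ?_, h3⟩
    rw [← mul_assoc, ← e', ← e, mul_inv_cancel_right]

theorem eq_one_of_pos {w : Equiv.Perm Φ} (hw : w ∈ R.W) (h : ∀ i, R.Pos (w (R.α i))) : w = 1 :=
  WJ.eq_one_of_pos (J := Set.univ) (WJ_univ (R := R) ▸ hw) fun i _ => h i

theorem exists_wJ (J : Set I) :
    ∃ w ∈ WJ R J, w * w = 1 ∧ ∀ r, InJ R J r → (R.Pos (w r) ↔ ¬ R.Pos r) := by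
  obtain ⟨w0, hw0, h0⟩ := R.exists_w0
  obtain ⟨u, -, v, hv, rfl, h⟩ := exists_coset J hw0
  have h1 : ∀ r, InJ R J r → (R.Pos (v r) ↔ ¬ R.Pos r) := fun r hr => by
    rw [← h _ (hr.smul hv), ← h0 r, Equiv.Perm.mul_apply]
  refine ⟨v, hv, WJ.eq_one_of_pos ((WJ R J).mul_mem hv hv) fun i hi => ?_, h1⟩
  rw [Equiv.Perm.mul_apply, h1 _ ((inJ_α hi).smul hv), h1 _ (inJ_α hi), not_not]
  exact R.pos_α i

theorem exists_opp {w : Equiv.Perm Φ} (hw : w ∈ R.W) (h : ∀ r, R.Pos (w r) ↔ ¬ R.Pos r) (i : I) :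
    ∃ j, w (R.α j) = R.neg (R.α i) := by
  by_contra hne
  push Not at hne
  have h1 : R.Pos (w⁻¹ (R.neg (R.α i))) := by
    by_contra h1
    have := (h _).2 h1
    simp only [Equiv.Perm.coe_inv, Equiv.apply_symm_apply] at this
    exact R.not_pos_neg_α i this
  refine Roots.neg_of_simple_neg (R.W.mul_mem (R.σ_mem_W i) hw) (fun j => ?_) h1 ?_
  · have h2 : ¬ R.Pos (w (R.α j)) := fun h2 => (h _).1 h2 (R.pos_α j)
    rwa [Equiv.Perm.mul_apply, WJ.σ_pos_iff (i := i) (s := w (R.α j))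
      (fun e => h2 (by rw [e]; exact R.pos_α i)) (hne j)]
  · simp only [Equiv.Perm.mul_apply, Equiv.Perm.coe_inv, Equiv.apply_symm_apply, R.σ_neg_α]
    exact R.pos_α i

theorem σ_mem_WJ_of_inJ {J : Set I} {i : I} (h : InJ R J (R.α i)) : R.σ i ∈ WJ R J := by
  obtain ⟨v, hv, j, hj, e⟩ := h
  rw [← Roots.W_conj_σ (WJ_le J hv) e]
  exact (WJ R J).mul_mem ((WJ R J).mul_mem hv (WJ.σ_mem hj)) ((WJ R J).inv_mem hv)

theorem mem_WJ_of_inv {J : Set I} {w : Equiv.Perm Φ} (hw : w ∈ R.W)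
    (h : ∀ r, R.Pos r → ¬ R.Pos (w r) → InJ R J r) : w ∈ WJ R J := by
  refine Roots.W_induction (P := fun w => (∀ r, R.Pos r → ¬ R.Pos (w r) → InJ R J r) → w ∈ WJ R J)
    (fun w hw h _ => eq_one_of_pos hw h ▸ (WJ R J).one_mem) (fun w hw i hi ih h => ?_) hw h
  have h1 := σ_mem_WJ_of_inJ (h _ (R.pos_α i) hi)
  refine ((WJ R J).mul_mem_cancel_right h1).1 (ih fun r hr h2 => ?_)
  have h3 : r ≠ R.α i := fun e => h2 (e ▸ (WJ.pos_mul_σ hw i).2 hi)
  exact (h _ (R.σ_pos hr h3) h2).of_smul h1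

theorem itv_sub_icc {r s k : Φ} (h1 : s ≠ r) (h2 : s ≠ R.neg r) (h : k ∈ R.Itv r s) :
    k ∈ Icc R r s ∧ k ≠ r ∧ k ≠ s := by
  obtain ⟨w, hw, a, b⟩ := R.exists_W_pos_pos h2
  have h3 := Roots.W_itv hw h
  have h4 : w r ≠ w s := fun e => h1 (w.injective e).symm
  refine ⟨fun v hv a b => R.itv_pos _ _ _ a b (Roots.W_itv hv h), ?_, ?_⟩
  · rintro rfl
    exact R.not_mem_itv b a h4.symm (R.itv_symm _ _ _ h3)
  · rintro rfl
    exact R.not_mem_itv a b h4 h3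

theorem icc_inJ {J : Set I} {r s k : Φ} (hr : InJ R J r) (hs : InJ R J s) (h2 : s ≠ R.neg r)
    (h : k ∈ Icc R r s) : InJ R J k := by
  by_contra hk
  obtain ⟨w0, hw0, h0⟩ := R.exists_w0
  obtain ⟨wJ, hwJ, -, hJ⟩ := exists_wJ (R := R) J
  obtain ⟨w, hw, a, b⟩ : ∃ w ∈ WJ R J, R.Pos (w r) ∧ R.Pos (w s) := by
    obtain ⟨v, hv, i, hi, rfl⟩ := hr
    have hv' := (WJ R J).inv_mem hv
    by_cases h3 : R.Pos (v⁻¹ s)
    · exact ⟨v⁻¹, hv', by simpa using R.pos_α i, h3⟩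
    refine ⟨wJ * R.σ i * v⁻¹, (WJ R J).mul_mem ((WJ R J).mul_mem hwJ (WJ.σ_mem hi)) hv', ?_, ?_⟩
    · simp only [Equiv.Perm.mul_apply, Equiv.Perm.coe_inv, Equiv.symm_apply_apply, R.σ_α]
      exact (hJ _ (inJ_α hi).neg).2 (R.not_pos_neg_α i)
    · simp only [Equiv.Perm.mul_apply]
      rw [hJ _ ((hs.smul hv').smul (WJ.σ_mem hi)), WJ.σ_pos_iff (i := i) (s := v⁻¹ s)
        (fun e => h3 (by rw [e]; exact R.pos_α i))]
      · exact h3
      · intro e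
        apply h2
        rw [← Roots.W_neg (WJ_le J hv), ← e]
        simp
  have h3 := h w (WJ_le J hw) a b
  have h4 := h (w0 * wJ * w) (R.W.mul_mem (R.W.mul_mem hw0 (WJ_le J hwJ)) (WJ_le J hw))
  simp only [Equiv.Perm.mul_apply, h0] at h4
  rw [hJ _ (hr.smul hw), hJ _ (hs.smul hw), pos_iff_of_not_inJ (fun e => hk (e.of_smul hw)) hwJ] at h4
  exact h4 (not_not.2 a) (not_not.2 b) h3

theorem α_eq_or_of_conj {w : Equiv.Perm Φ} (hw : w ∈ R.W) {i j : I} (h : w * R.σ j = R.σ i * w) :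
    w (R.α j) = R.α i ∨ w (R.α j) = R.neg (R.α i) := by
  by_contra hne
  push Not at hne
  have h1 := WJ.pos_mul_σ hw j
  rw [h, Equiv.Perm.mul_apply, WJ.σ_pos_iff hne.1 hne.2] at h1
  tauto

theorem cm_symm (i j : I) : cm R i j = cm R j i := by
  rw [cm, ← orderOf_inv, mul_inv_rev, R.σ_inv, R.σ_inv, cm]

theorem cm_self (i : I) : cm R i i = 1 := WJ.cm_eq_one rfl

theorem σ_α_of_two {i j : I} (h : cm R i j = 2) : R.σ i (R.α j) = R.α j ∧ R.α i ≠ R.α j := by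
  have h1 : R.α i ≠ R.α j := fun e => by rw [WJ.cm_eq_one e] at h; omega
  refine ⟨?_, h1⟩
  have h2 : (R.σ i * R.σ j) ^ 2 = 1 := h ▸ pow_orderOf_eq_one _
  have h3 : R.σ i * R.σ j = R.σ j * R.σ i := by
    rw [sq, mul_eq_one_iff_eq_inv, mul_inv_rev, R.σ_inv, R.σ_inv] at h2
    exact h2
  refine (α_eq_or_of_conj (R.σ_mem_W i) h3).resolve_right fun e => ?_
  exact R.not_pos_neg_α j (e ▸ R.σ_pos (R.pos_α j) h1.symm)

theorem inJ_two {i j : I} (h : cm R i j = 2) {r : Φ} :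
    InJ R {i, j} r ↔ InJ R {i} r ∨ InJ R {j} r := by
  refine ⟨fun h1 => WJ.ind (P := fun r => InJ R {i} r ∨ InJ R {j} r) ?_ ?_ h1, ?_⟩
  · rintro k (rfl | rfl)
    · exact Or.inl (inJ_α rfl)
    · exact Or.inr (inJ_α rfl)
  · have key : ∀ {i j : I}, cm R i j = 2 → ∀ r, InJ R {j} r → InJ R {j} (R.σ i r) := by
      intro i j h r hr
      rcases inJ_single.1 hr with rfl | rfl
      · rwa [(σ_α_of_two h).1]
      · rwa [R.σ_neg, (σ_α_of_two h).1]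
    rintro k (rfl | rfl) r (h2 | h2)
    · exact Or.inl (h2.smul (WJ.σ_mem rfl))
    · exact Or.inr (key h r h2)
    · exact Or.inl (key ((cm_symm _ _).trans h) r h2)
    · exact Or.inr (h2.smul (WJ.σ_mem rfl))
  · rintro (h1 | h1)
    · exact h1.mono (by simp)
    · exact h1.mono (by simp)

theorem WJ.eq_or_neg {i : I} {r s : Φ} (hr : InJ R {i} r) (hs : InJ R {i} s) :
    s = r ∨ s = R.neg r := by
  rcases inJ_single.1 hr with rfl | rfl <;> rcases inJ_single.1 hs with rfl | rfl <;>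
    simp [R.neg_neg]

theorem itv_two {i j : I} (h : cm R i j = 2) {r s : Φ} (hr : InJ R {i} r) (hs : InJ R {j} s) :
    R.Itv r s = ∅ := by
  have h0 : ¬ InJ R {i} s := fun h0 => by
    rcases WJ.eq_or_neg (inJ_α (J := {j}) rfl) hs with rfl | rfl
    · rcases inJ_single.1 h0 with e | e
      · exact (σ_α_of_two h).2 e.symm
      · exact R.not_pos_neg_α i (e ▸ R.pos_α j)
    · rcases inJ_single.1 h0 with e | e
      · exact R.not_pos_neg_α j (e ▸ R.pos_α i)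
      · exact (σ_α_of_two h).2 (R.neg_injective e).symm
  have h1 : s ≠ r := fun e => h0 (e ▸ hr)
  have h2 : s ≠ R.neg r := fun e => h0 (e ▸ hr.neg)
  refine Set.eq_empty_of_forall_notMem fun k hk => ?_
  obtain ⟨a, b, c⟩ := itv_sub_icc h1 h2 hk
  obtain ⟨w, hw, d, e⟩ := R.exists_W_pos_pos h2
  have h3 := a w hw d e
  rcases (inJ_two h).1 (icc_inJ (hr.mono (by simp)) (hs.mono (by simp)) h2 a) with h4 | h4
  · rw [(WJ.eq_or_neg hr h4).resolve_left b, Roots.W_neg hw, R.pos_neg] at h3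
    exact h3 d
  · rw [(WJ.eq_or_neg hs h4).resolve_left c, Roots.W_neg hw, R.pos_neg] at h3
    exact h3 e

theorem σσ_of_three {i j : I} (h : cm R i j = 3) :
    R.σ i (R.σ j (R.α i)) = R.α j ∧ R.σ i (R.α j) = R.σ j (R.α i) := by
  have h1 : R.α i ≠ R.α j := fun e => by rw [WJ.cm_eq_one e] at h; omega
  have h2 : (R.σ i * R.σ j) ^ 3 = 1 := h ▸ pow_orderOf_eq_one _
  have h3 : R.σ i * R.σ j * R.σ i = R.σ j * (R.σ i * R.σ j) := by
    rw [← mul_inv_eq_one, mul_inv_rev, mul_inv_rev, R.σ_inv, R.σ_inv, ← h2]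
    simp only [pow_succ, pow_zero, one_mul, mul_assoc]
  have h4 : R.σ j (R.α i) ≠ R.α i := fun e => by
    have := WJ.cm_dvd_two e
    rw [cm_symm, h] at this
    omega
  have h5 : R.σ i (R.σ j (R.α i)) = R.α j :=
    (α_eq_or_of_conj (R.W.mul_mem (R.σ_mem_W i) (R.σ_mem_W j)) h3).resolve_right fun e =>
      R.not_pos_neg_α j (e ▸ R.σ_pos (R.σ_pos (R.pos_α i) h1) h4)
  exact ⟨h5, by rw [← h5, R.σ_σ]⟩

theorem exists_deep (h : Irr R) (r : Φ) : ∃ w ∈ R.W, R.Pos (w⁻¹ r) ∧ ∀ i, w (R.α i) ≠ r := by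
  obtain ⟨v, hv, i, rfl⟩ := R.exists_W_α r
  obtain ⟨j, hj⟩ := h i
  have h1 : R.α i ≠ R.α j := fun e => by rw [WJ.cm_eq_one e] at hj; omega
  refine ⟨v * R.σ j, R.W.mul_mem hv (R.σ_mem_W j), ?_, fun k e => ?_⟩
  · rw [mul_inv_rev, R.σ_inv]
    simpa using R.σ_pos (R.pos_α i) h1
  · have h2 : R.σ j (R.α i) = R.α k := by rw [← v.injective e, R.σ_σ]
    have h3 : R.σ i (R.α j) ≠ R.α j := fun e => by
      have := Nat.le_of_dvd two_pos (WJ.cm_dvd_two e)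
      omega
    have h4 := R.σ_pos (R.σ_pos (R.pos_α j) h1.symm) h3
    have h5 : R.α j ≠ R.α k := fun e => R.σ_ne_α (R.pos_α i) (h2.trans e.symm)
    have h6 := R.σ_pos (R.pos_α j) h5
    rw [← Roots.W_conj_σ (R.σ_mem_W j) h2, R.σ_inv, Equiv.Perm.mul_apply, Equiv.Perm.mul_apply,
      R.σ_α, R.σ_neg, R.σ_neg, R.pos_neg] at h6
    exact h6 h4

end Tits
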