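import Mathlib
import Cfsg.Agent.Lib.Tits.Defs
import Cfsg.Agent.Lib.Tits.WJ
import Cfsg.Agent.Lib.BN.Words

/-! The Weyl group of a combinatorial root system is a Coxeter group. -/

set_option autoImplicit false
set_option linter.unusedSectionVars false

open scoped commutatorElement

namespace Tits

open H63.St Cfsg

variable {Φ I : Type*} {R : Roots Φ I} [Finite Φ]

namespace Cox

variable {I' W : Type*} [Group W] {s : I' → W} {g : I' → I} {θ : W →* Equiv.Perm Φ}

theorem map_wp (hθ : ∀ i, θ (s i) = R.σ (g i)) (l : List I') :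
    θ (H13.wp s l) = R.wp (l.map g) := by
  induction l with
  | nil => simp [H13.wp_nil]
  | cons a l ih => simp [H13.wp_cons, ih, hθ]

theorem del (hi : Function.Injective θ) (hθ : ∀ i, θ (s i) = R.σ (g i)) {l : List I'} {i : I'}
    (h : ¬ R.Pos (θ (H13.wp s l) (R.α (g i)))) :
    ∃ l1 a l2, l = l1 ++ a :: l2 ∧ H13.wp s l * s i = H13.wp s (l1 ++ l2) := by
  rw [map_wp hθ] at h
  obtain ⟨L1, a, L2, e, e'⟩ := WJ.del' h
  obtain ⟨l1, l', rfl, rfl, e2⟩ := List.map_eq_append_iff.1 e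
  obtain ⟨b, l2, rfl, rfl, rfl⟩ := List.map_eq_cons_iff.1 e2
  refine ⟨l1, b, l2, rfl, hi ?_⟩
  rw [map_mul, map_wp hθ, map_wp hθ, hθ, e', List.map_append]

theorem len_lt (hs : H13.InvGen s) (hi : Function.Injective θ) (hθ : ∀ i, θ (s i) = R.σ (g i))
    {w : W} {i : I'} (h : ¬ R.Pos (θ w (R.α (g i)))) : H13.len s (w * s i) < H13.len s w := by
  obtain ⟨l, hl, rfl⟩ := hs.exists_red w
  obtain ⟨l1, a, l2, rfl, e⟩ := del hi hθ h
  have := H13.len_wp_le s (l1 ++ l2)
  rw [e, hl]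
  simp at this ⊢
  omega

theorem lt_len_iff (hs : H13.InvGen s) (hi : Function.Injective θ) (hθ : ∀ i, θ (s i) = R.σ (g i))
    (w : W) (i : I') : H13.len s w < H13.len s (w * s i) ↔ R.Pos (θ w (R.α (g i))) := by
  refine ⟨fun h => by_contra fun h1 => lt_asymm h (len_lt hs hi hθ h1), fun h => ?_⟩
  have hw : θ w ∈ R.W := by
    obtain ⟨l, rfl⟩ := hs.wp_surjective w
    rw [map_wp hθ]
    exact R.wp_mem_W _
  have := len_lt hs hi hθ (w := w * s i) (i := i) (by
    rw [map_mul, hθ, WJ.pos_mul_σ hw, not_not]; exact h)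
  rwa [hs.cancel_right] at this

theorem exchange (hs : H13.InvGen s) (hi : Function.Injective θ) (hθ : ∀ i, θ (s i) = R.σ (g i)) :
    H13.Exchange s := by
  intro i l hl h
  have h1 : ¬ R.Pos (θ (H13.wp s l.reverse) (R.α (g i))) := by
    rw [← lt_len_iff hs hi hθ, hs.wp_reverse, hs.len_inv, ← hs.len_inv (_ * _), mul_inv_rev, inv_inv,
      hs.inv_eq, hl]
    omega
  obtain ⟨l1, a, l2, e, e'⟩ := del hi hθ h1
  refine ⟨l2.reverse, a, l1.reverse, by rw [← l.reverse_reverse, e]; simp, ?_⟩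
  rw [← List.reverse_append, hs.wp_reverse, ← e', hs.wp_reverse, mul_inv_rev, inv_inv, hs.inv_eq]

/-- The generators of a standard parabolic subgroup. -/
def gen (R : Roots Φ I) (g : I' → I) (i : I') : WJ R (Set.range g) := ⟨R.σ (g i), WJ.σ_mem ⟨i, rfl⟩⟩

theorem invGen (R : Roots Φ I) (g : I' → I) : H13.InvGen (gen R g) := by
  refine ⟨fun i => Subtype.ext (R.σ_mul_self _), eq_top_iff.2 fun w _ => ?_⟩
  obtain ⟨L, hL, e⟩ := WJ.exists_wp w.2
  obtain ⟨l, rfl⟩ : L ∈ Set.range (List.map g) := by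
    rw [Set.range_list_map]; exact hL
  have : w = H13.wp (gen R g) l :=
    Subtype.ext (by rw [← e]; exact (map_wp (θ := (WJ R (Set.range g)).subtype) (fun _ => rfl) l).symm)
  rw [this]
  exact H13.wp_mem _ l fun i _ => Subgroup.subset_closure ⟨i, rfl⟩

end Cox

/-- The Coxeter property of the standard parabolic subgroups of the Weyl group. -/
theorem wp_eq_one {I' Γ : Type*} [Group Γ] (g : I' → I) (t : I' → Γ)
    (ht : ∀ i j, (t i * t j) ^ cm R (g i) (g j) = 1) {L : List I'} (h : R.wp (L.map g) = 1) :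
    (L.map t).prod = 1 := by
  have hs := Cox.invGen R g
  have hθ : ∀ i, (WJ R (Set.range g)).subtype (Cox.gen R g i) = R.σ (g i) := fun _ => rfl
  have hE := Cox.exchange hs (Subgroup.subtype_injective _) hθ
  refine (hs.wp_eq_one_of_rel hE (t := t) (fun i => ?_) (fun a b n hn => ?_) L [] (H13.len_one _)
    (Subtype.ext ?_)).symm
  · simpa [cm_self] using ht i i
  · obtain ⟨k, rfl⟩ : cm R (g a) (g b) ∣ n :=
      orderOf_dvd_of_pow_eq_one (congrArg Subtype.val hn)
    rw [pow_mul, ht, one_pow]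
  · exact ((Cox.map_wp hθ L).trans h).symm

theorem cox_iso {W : Type*} [Group W] {s : I → W} (hs : H13.InvGen s) (hE : H13.Exchange s)
    (hm : ∀ i j, orderOf (s i * s j) = cm R i j) :
    ∃ θ : W →* Equiv.Perm Φ, Function.Injective θ ∧ θ.range = R.W ∧ (∀ i, θ (s i) = R.σ i) ∧
      ∀ w i, H13.len s w < H13.len s (w * s i) ↔ R.Pos (θ w (R.α i)) := by
  have wd : ∀ l l' : List I, H13.wp s l = H13.wp s l' → R.wp l = R.wp l' := fun l l' e => by
    obtain ⟨r, hr, e'⟩ := hs.exists_red (H13.wp s l)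
    have key := hs.wp_eq_one_of_rel hE (t := R.σ) R.σ_mul_self fun a b n hn =>
      orderOf_dvd_iff_pow_eq_one.1 (by
        rw [← cm, ← hm]; exact orderOf_dvd_of_pow_eq_one hn)
    exact (key l r hr e').symm.trans (key l' r hr (e'.trans e))
  choose f hf using hs.wp_surjective
  let θ : W →* Equiv.Perm Φ := MonoidHom.mk' (fun w => R.wp (f w)) fun a b => by
    rw [← Roots.wp_append]
    exact wd _ _ (by rw [H13.wp_append, hf, hf, hf])
  have h1 : ∀ l, θ (H13.wp s l) = R.wp l := fun l => wd _ _ (hf _)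
  have h2 : ∀ i, θ (s i) = R.σ i := fun i => by
    rw [← H13.wp_singleton s, h1, R.wp_singleton]
  have hi : Function.Injective θ := (injective_iff_map_eq_one θ).2 fun w hw => by
    rw [← hf w]
    refine wp_eq_one (R := R) id s (fun i j => ?_) (by rw [List.map_id]; exact hw)
    rw [id, id, ← hm, pow_orderOf_eq_one]
  refine ⟨θ, hi, le_antisymm ?_ fun w hw => ?_, h2, Cox.lt_len_iff (g := id) hs hi h2⟩
  · rintro _ ⟨w, rfl⟩
    exact R.wp_mem_W _
  · obtain ⟨L, rfl⟩ := Roots.exists_wp hw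
    exact ⟨_, h1 L⟩

end Tits
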