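import Mathlib
import Cfsg.Agent.Lib.Tits.Cox
import Cfsg.Agent.Lib.Tits.WJ

set_option autoImplicit false

open scoped commutatorElement

namespace Tits

open H63.St Cfsg

variable {Φ I Φ' I' : Type*} {R : Roots Φ I} {R' : Roots Φ' I'} [Finite Φ] [Finite Φ']

namespace EmbP

lemma conj_iff {w : Equiv.Perm Φ} (hw : w ∈ R.W) (i a : I) :
    (w (R.α i) = R.α a ∨ w (R.α i) = R.neg (R.α a)) ↔ w * R.σ i = R.σ a * w := by
  refine ⟨fun h => ?_, α_eq_or_of_conj hw⟩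
  rcases h with h | h
  · rw [← Roots.W_conj_σ hw h]; simp
  · have h1 : (R.σ a * w) (R.α i) = R.α a := by
      rw [Equiv.Perm.mul_apply, h, R.σ_neg_α]
    have h2 := Roots.W_conj_σ (R.W.mul_mem (R.σ_mem_W a) hw) h1
    have h3 : R.σ a * w * R.σ i = R.σ a * (R.σ a * w) := mul_inv_eq_iff_eq_mul.1 h2
    rw [mul_assoc] at h3
    exact mul_left_cancel h3

omit [Finite Φ] in
lemma pos_σ_of_ne {a : I} {r : Φ} (h : ¬ (r = R.α a ∨ r = R.neg (R.α a))) :
    R.Pos (R.σ a r) ↔ R.Pos r := by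
  push Not at h
  refine ⟨fun h1 => ?_, fun h1 => R.σ_pos h1 h.1⟩
  have := R.σ_pos (i := a) h1 (fun e => h.2 (by rw [← R.σ_α, ← e, R.σ_σ]))
  rwa [R.σ_σ] at this

omit [Finite Φ] in
lemma pos_σ_of_eq {a : I} {r : Φ} (h : r = R.α a ∨ r = R.neg (R.α a)) :
    R.Pos (R.σ a r) ↔ ¬ R.Pos r := by
  rcases h with rfl | rfl
  · rw [R.σ_α, R.pos_neg]
  · rw [R.σ_neg_α, R.not_pos_neg_iff]

variable {g : I' → I}

lemma wp_one_iff (hm : ∀ i j, cm R' i j = cm R (g i) (g j)) (L : List I') :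
    R'.wp L = 1 ↔ R.wp (L.map g) = 1 := by
  constructor
  · intro h
    have := wp_eq_one (R := R') (fun i => i) (fun i => R.σ (g i))
      (fun i j => by rw [hm]; exact pow_orderOf_eq_one _) (L := L) (by simpa using h)
    simpa [Roots.wp, List.map_map, Function.comp_def] using this
  · intro h
    exact wp_eq_one (R := R) g R'.σ (fun i j => by rw [← hm]; exact pow_orderOf_eq_one _) h

lemma wp_eq_iff (hm : ∀ i j, cm R' i j = cm R (g i) (g j)) (L M : List I') :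
    R'.wp L = R'.wp M ↔ R.wp (L.map g) = R.wp (M.map g) := by
  have := wp_one_iff hm (L ++ M.reverse)
  rwa [List.map_append, List.map_reverse, R.wp_append, R'.wp_append, R.wp_reverse, R'.wp_reverse,
    mul_inv_eq_one, mul_inv_eq_one] at this

lemma conj_tr (hm : ∀ i j, cm R' i j = cm R (g i) (g j)) (L : List I') (i a : I') :
    (R'.wp L (R'.α i) = R'.α a ∨ R'.wp L (R'.α i) = R'.neg (R'.α a)) ↔
    (R.wp (L.map g) (R.α (g i)) = R.α (g a) ∨ R.wp (L.map g) (R.α (g i)) = R.neg (R.α (g a))) := by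
  rw [conj_iff (R'.wp_mem_W _), conj_iff (R.wp_mem_W _)]
  have := wp_eq_iff hm (L ++ [i]) (a :: L)
  simpa using this

lemma pos_tr (hm : ∀ i j, cm R' i j = cm R (g i) (g j)) (L : List I') (i : I') :
    R'.Pos (R'.wp L (R'.α i)) ↔ R.Pos (R.wp (L.map g) (R.α (g i))) := by
  induction L with
  | nil => simp [R.pos_α, R'.pos_α]
  | cons a L ih =>
    simp only [List.map_cons, Roots.wp_cons, Equiv.Perm.mul_apply]
    by_cases h : R'.wp L (R'.α i) = R'.α a ∨ R'.wp L (R'.α i) = R'.neg (R'.α a)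
    · rw [pos_σ_of_eq h, pos_σ_of_eq ((conj_tr hm L i a).1 h), ih]
    · rw [pos_σ_of_ne h, pos_σ_of_ne (fun h' => h ((conj_tr hm L i a).2 h')), ih]

lemma α_tr (hm : ∀ i j, cm R' i j = cm R (g i) (g j)) (L : List I') (i a : I') :
    R'.wp L (R'.α i) = R'.α a ↔ R.wp (L.map g) (R.α (g i)) = R.α (g a) := by
  have h1 := conj_tr hm L i a
  have h2 := pos_tr hm L i
  constructor
  · intro h
    rcases h1.1 (Or.inl h) with h3 | h3
    · exact h3
    · exact absurd (h3 ▸ h2.1 (h ▸ R'.pos_α a)) (R.not_pos_neg_α _)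
  · intro h
    rcases h1.2 (Or.inl h) with h3 | h3
    · exact h3
    · exact absurd (h3 ▸ h2.2 (h ▸ R.pos_α _)) (R'.not_pos_neg_α _)

lemma root_tr (hm : ∀ i j, cm R' i j = cm R (g i) (g j)) (L M : List I') (i a : I') :
    R'.wp L (R'.α i) = R'.wp M (R'.α a) ↔
      R.wp (L.map g) (R.α (g i)) = R.wp (M.map g) (R.α (g a)) := by
  have := α_tr hm (M.reverse ++ L) i a
  rwa [List.map_append, List.map_reverse, R.wp_append, R'.wp_append, R.wp_reverse, R'.wp_reverse,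
    Equiv.Perm.mul_apply, Equiv.Perm.mul_apply, Equiv.Perm.inv_eq_iff_eq,
    Equiv.Perm.inv_eq_iff_eq] at this

lemma exists_word (r : Φ) : ∃ p : List I × I, R.wp p.1 (R.α p.2) = r := by
  obtain ⟨w, hw, i, e⟩ := R.exists_W_α r
  obtain ⟨L, rfl⟩ := Roots.exists_wp hw
  exact ⟨(L, i), e⟩

omit [Finite Φ] in
lemma exists_word_WJ {v : Equiv.Perm Φ} (hv : v ∈ WJ R (Set.range g)) :
    ∃ L : List I', R.wp (L.map g) = v := by
  induction hv using Subgroup.closure_induction with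
  | mem x hx =>
    obtain ⟨_, ⟨i, rfl⟩, rfl⟩ := hx
    exact ⟨[i], by simp⟩
  | one => exact ⟨[], rfl⟩
  | mul x y _ _ h1 h2 =>
    obtain ⟨L, rfl⟩ := h1; obtain ⟨L', rfl⟩ := h2
    exact ⟨L ++ L', by rw [List.map_append, R.wp_append]⟩
  | inv x _ h =>
    obtain ⟨L, rfl⟩ := h
    exact ⟨L.reverse, by rw [List.map_reverse, R.wp_reverse]⟩

omit [Finite Φ] in
lemma word_mem_WJ (L : List I') : R.wp (L.map g) ∈ WJ R (Set.range g) := by
  induction L with
  | nil => exact one_mem _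
  | cons a L ih =>
    rw [List.map_cons, R.wp_cons]
    exact mul_mem (Subgroup.subset_closure ⟨_, ⟨a, rfl⟩, rfl⟩) ih

/-- The parabolic decomposition. -/
lemma exists_dec (J : Set I) {w : Equiv.Perm Φ} (hw : w ∈ R.W) :
    ∃ u ∈ R.W, ∃ v ∈ WJ R J, w = u * v ∧ ∀ r, InJ R J r → (R.Pos (u r) ↔ R.Pos r) := by
  classical
  have hex : ∃ n, ∃ L : List I, L.length = n ∧ ∃ v ∈ WJ R J, w = R.wp L * v := by
    obtain ⟨L, rfl⟩ := Roots.exists_wp hw
    exact ⟨_, L, rfl, 1, one_mem _, by simp⟩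
  obtain ⟨L, hL, v, hv, e⟩ := Nat.find_spec hex
  have key : ∀ r, InJ R J r → R.Pos r → R.Pos (R.wp L r) := by
    intro r hr hp
    by_contra hn
    obtain ⟨L1, i, L2, rfl, e1⟩ := Roots.flip hp hn
    obtain ⟨v', hv', j, hj, rfl⟩ := hr
    have h1 := Roots.W_conj_σ (R.W.mul_mem (R.wp_mem_W L2) (WJ_le J hv')) (k := j) (l := i)
      (by rw [Equiv.Perm.mul_apply, e1])
    have h2 : v' * R.σ j * v'⁻¹ ∈ WJ R J :=
      mul_mem (mul_mem hv' (Subgroup.subset_closure ⟨j, hj, rfl⟩)) (inv_mem hv')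
    refine Nat.find_min hex (m := (L1 ++ L2).length) (by rw [← hL]; simp)
      ⟨L1 ++ L2, rfl, v' * R.σ j * v'⁻¹ * v, mul_mem h2 hv, ?_⟩
    rw [e, R.wp_append, R.wp_append, R.wp_cons, ← h1]
    group
  refine ⟨_, R.wp_mem_W L, v, hv, e, fun r hr => ⟨fun h => ?_, key r hr⟩⟩
  by_contra hn
  have := key _ hr.neg ((R.pos_neg r).2 hn)
  rw [Roots.W_neg (R.wp_mem_W L), R.pos_neg] at this
  exact this h

end EmbP

open EmbP

theorem exists_emb (hF : Full R') {g : I' → I} (hm : ∀ i j, cm R' i j = cm R (g i) (g j)) :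
    Nonempty (Emb R R' g) := by
  choose p hp using exists_word (R := R')
  let f : Φ' → Φ := fun r => R.wp ((p r).1.map g) (R.α (g (p r).2))
  have hf : ∀ L i, f (R'.wp L (R'.α i)) = R.wp (L.map g) (R.α (g i)) := fun L i =>
    (root_tr hm _ _ _ _).1 (hp _)
  have hw : ∀ M r, f (R'.wp M r) = R.wp (M.map g) (f r) := by
    intro M r
    have := hf (M ++ (p r).1) (p r).2
    rw [R'.wp_append, Equiv.Perm.mul_apply, hp, List.map_append, R.wp_append,
      Equiv.Perm.mul_apply] at this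
    exact this
  have hinj : Function.Injective f := fun r s h => by
    rw [← hp r, ← hp s]; exact (root_tr hm _ _ _ _).2 h
  have hpos : ∀ r, R.Pos (f r) ↔ R'.Pos r := fun r => by
    rw [← pos_tr hm, hp]
  have hneg : ∀ r, f (R'.neg r) = R.neg (f r) := fun r => by
    have := hf ((p r).1 ++ [(p r).2]) (p r).2
    rw [R'.wp_append, R'.wp_singleton, Equiv.Perm.mul_apply, R'.σ_α,
      Roots.W_neg (R'.wp_mem_W _), hp, List.map_append, R.wp_append, List.map_singleton,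
      R.wp_singleton, Equiv.Perm.mul_apply, R.σ_α, Roots.W_neg (R.wp_mem_W _)] at this
    exact this
  have hJ : ∀ r, InJ R (Set.range g) (f r) := fun r =>
    ⟨_, word_mem_WJ _, _, ⟨_, rfl⟩, rfl⟩
  have hrng : ∀ r, InJ R (Set.range g) r → r ∈ Set.range f := by
    rintro _ ⟨v, hv, _, ⟨i, rfl⟩, rfl⟩
    obtain ⟨L, rfl⟩ := exists_word_WJ hv
    exact ⟨_, hf L i⟩
  refine ⟨⟨f, hinj, hpos, hneg, fun i => by simpa using hf [] i,
    fun i r => by simpa using hw [i] r, ?_, ?_, hrng⟩⟩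
  · intro r s h1 h2 k hk
    have h2' : f s ≠ R.neg (f r) := fun e => h2 (hinj (by rw [hneg, e]))
    obtain ⟨a1, a2, a3⟩ := itv_sub_icc (fun e => h1 (hinj e)) h2' hk
    obtain ⟨k, rfl⟩ := hrng k (icc_inJ (hJ r) (hJ s) h2' a1)
    refine ⟨k, hF r s k h1 h2 ?_ (fun e => a2 (by rw [e])) (fun e => a3 (by rw [e])), rfl⟩
    intro w hw' b1 b2
    obtain ⟨M, rfl⟩ := Roots.exists_wp hw'
    rw [← hpos, hw] at b1 b2 ⊢
    exact a1 _ (R.wp_mem_W _) b1 b2
  · rintro hF' r s h1 h2 _ ⟨k, hk, rfl⟩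
    have h2' : f s ≠ R.neg (f r) := fun e => h2 (hinj (by rw [hneg, e]))
    obtain ⟨a1, a2, a3⟩ := itv_sub_icc h1 h2 hk
    refine hF' _ _ _ (fun e => h1 (hinj e)) h2' ?_ (fun e => a2 (hinj e)) (fun e => a3 (hinj e))
    intro w hw' b1 b2
    obtain ⟨u, -, v, hv, rfl, hu⟩ := exists_dec (Set.range g) hw'
    obtain ⟨M, rfl⟩ := exists_word_WJ hv
    rw [Equiv.Perm.mul_apply, ← hw, hu _ (hJ _), hpos] at b1 b2 ⊢
    exact a1 _ (R'.wp_mem_W _) b1 b2

omit [Finite Φ] [Finite Φ'] in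
lemma Emb.fwd {g : I' → I} (e : Emb R R' g) {J : Set I'} {w : Equiv.Perm Φ'} (hw : w ∈ WJ R' J) :
    ∃ v ∈ WJ R (g '' J), ∀ r, e.f (w r) = v (e.f r) := by
  induction hw using Subgroup.closure_induction with
  | mem x hx =>
    obtain ⟨i, hi, rfl⟩ := hx
    exact ⟨_, Subgroup.subset_closure ⟨_, ⟨i, hi, rfl⟩, rfl⟩, e.σ i⟩
  | one => exact ⟨1, one_mem _, fun _ => rfl⟩
  | mul x y _ _ h1 h2 =>
    obtain ⟨v, hv, h1⟩ := h1; obtain ⟨v', hv', h2⟩ := h2
    exact ⟨v * v', mul_mem hv hv', fun r => by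
      rw [Equiv.Perm.mul_apply, Equiv.Perm.mul_apply, h1, h2]⟩
  | inv x _ h =>
    obtain ⟨v, hv, h⟩ := h
    exact ⟨v⁻¹, inv_mem hv, fun r => by
      rw [eq_comm, Equiv.Perm.inv_eq_iff_eq, ← h]; simp⟩

omit [Finite Φ] [Finite Φ'] in
lemma Emb.bwd {g : I' → I} (e : Emb R R' g) {J : Set I'} {v : Equiv.Perm Φ}
    (hv : v ∈ WJ R (g '' J)) : ∃ w ∈ WJ R' J, ∀ r, e.f (w r) = v (e.f r) := by
  induction hv using Subgroup.closure_induction with
  | mem x hx =>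
    obtain ⟨_, ⟨i, hi, rfl⟩, rfl⟩ := hx
    exact ⟨_, Subgroup.subset_closure ⟨i, hi, rfl⟩, e.σ i⟩
  | one => exact ⟨1, one_mem _, fun _ => rfl⟩
  | mul x y _ _ h1 h2 =>
    obtain ⟨v, hv, h1⟩ := h1; obtain ⟨v', hv', h2⟩ := h2
    exact ⟨v * v', mul_mem hv hv', fun r => by
      rw [Equiv.Perm.mul_apply, Equiv.Perm.mul_apply, h1, h2]⟩
  | inv x _ h =>
    obtain ⟨v, hv, h⟩ := h
    exact ⟨v⁻¹, inv_mem hv, fun r => by
      rw [eq_comm, Equiv.Perm.inv_eq_iff_eq, ← h]; simp⟩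

theorem Emb.inJ {g : I' → I} (e : Emb R R' g) {J : Set I'} {r : Φ'} :
    InJ R (g '' J) (e.f r) ↔ InJ R' J r := by
  constructor
  · rintro ⟨v, hv, _, ⟨i, hi, rfl⟩, h⟩
    obtain ⟨w, hw, h1⟩ := e.bwd hv
    exact ⟨w, hw, i, hi, e.inj (by rw [h1, e.α, h])⟩
  · rintro ⟨w, hw, i, hi, rfl⟩
    obtain ⟨v, hv, h1⟩ := e.fwd hw
    exact ⟨v, hv, _, ⟨i, hi, rfl⟩, by rw [h1, e.α]⟩

theorem Emb.exists_W {g : I' → I} (e : Emb R R' g) {w : Equiv.Perm Φ'} (hw : w ∈ R'.W) :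
    ∃ v ∈ WJ R (Set.range g), ∀ r, e.f (w r) = v (e.f r) := by
  rw [← WJ_univ] at hw
  simpa using e.fwd hw

theorem Emb.exists_rgd {G : Type*} [Group G] {g : I' → I} (e : Emb R R' g) (E : RGD R G) :
    ∃ E' : RGD R' G, (∀ r, E'.X r = E.X (e.f r)) ∧ (E.Faith → E'.Faith) := by
  have hact : ∀ {m : G} {i : I'}, Acts E.X m (R.σ (g i)) →
      Acts (fun r => E.X (e.f r)) m (R'.σ i) := fun h r x => by
    simp only [e.σ]; exact h _ x
  let P : Pre R' G :=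
    { X := fun r => E.X (e.f r)
      comm := by
        intro r s hr hs hrs x hx y hy
        have h := E.comm _ _ ((e.pos r).2 hr) ((e.pos s).2 hs) (fun h => hrs (e.inj h)) x hx y hy
        refine (iSup₂_le fun k hk => ?_ : (⨆ k ∈ R.Itv (e.f r) (e.f s), E.X k) ≤ _) h
        obtain ⟨k, hk', rfl⟩ := e.itv r s hrs.symm
          (fun h => (R'.pos_neg r).1 (h ▸ hs) hr) hk
        exact le_iSup₂ (f := fun k (_ : k ∈ R'.Itv r s) => E.X (e.f k)) k hk'
      n := fun i => E.n (g i)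
      n_acts := fun i => hact (E.acts_n (g i)) }
  refine ⟨⟨P, fun i => ?_, fun i x hx h1 => ?_⟩, fun _ => rfl, fun hF x hx hx' => hF x ?_ ?_⟩
  · obtain ⟨h1, h2⟩ := E.n_mem (g i)
    refine ⟨hact h1, ?_⟩
    simpa only [P, e.neg, e.α] using h2
  · have hx' : x ∈ E.X (R.α (g i)) := by simpa only [P, e.α] using hx
    obtain ⟨u, hu, u', hu', h⟩ := E.rgd2 _ x hx' h1
    exact ⟨u, by simpa only [P, e.neg, e.α] using hu, u', by simpa only [P, e.neg, e.α] using hu',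
      hact h⟩
  · exact (XS_le.2 fun r hr _ hy => E.mem_U ((e.pos r).2 hr) hy : P.U ≤ E.U) hx
  · exact (XS_le.2 fun r hr _ hy => E.mem_V (fun h => hr ((e.pos r).1 h)) hy : P.V ≤ E.V) hx'

omit [Finite Φ] [Finite Φ'] in
lemma Emb.f_rt {g : I' → I} (e : Emb R R' g) (i j : I') (a b : Fin 3) :
    e.f (rt R' i j a b) = rt R (g i) (g j) a b := by
  fin_cases a <;> fin_cases b <;> simp [rt, e.α, e.σ, e.neg]

omit [Finite Φ] [Finite Φ'] in
lemma Emb.f_rho {g : I' → I} (e : Emb R R' g) (j k : I') (n : ZMod 8) :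
    e.f (rho R' j k n) = rho R (g j) (g k) n := by
  fin_cases n
  all_goals
    change e.f _ = _
    simp only [rho]
    first
      | exact e.α _
      | exact (e.σ _ _).trans (by rw [e.α]; rfl)
      | exact (e.neg _).trans (by rw [e.α]; rfl)
      | exact (e.neg _).trans (by rw [e.σ, e.α]; rfl)

/-- Transport along an isomorphism of diagrams. -/
theorem transport {G : Type*} [Group G] (hF : Full R') {g : I' → I} (hg : Function.Surjective g)
    (hm : ∀ i j, cm R' i j = cm R (g i) (g j)) {E : RGD R G} (hE : Good E) :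
    ∃ E' : RGD R' G, Good E' ∧ E'.Gp = E.Gp ∧ (∀ i, q E' i = q E (g i)) ∧
      ∀ j k, Flag E' j k ↔ Flag E (g j) (g k) := by
  obtain ⟨e⟩ := exists_emb hF hm
  obtain ⟨E', hX, hf⟩ := e.exists_rgd E
  refine ⟨E', ⟨hf hE.1, fun i j h => ?_⟩, le_antisymm ?_ ?_, fun i => ?_, fun j k => ?_⟩
  · obtain ⟨K, _, _, S, hS⟩ := hE.2 (g i) (g j) (hm i j ▸ h)
    exact ⟨K, inferInstance, inferInstance, S, fun a b hab => by
      rw [hX, e.f_rt]; exact hS a b hab⟩
  · exact XS_le.2 fun r _ x hx => E.mem_Gp (hX r ▸ hx)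
  · refine XS_le.2 fun r _ x hx => ?_
    obtain ⟨r, rfl⟩ := e.rng r (by rw [hg.range_eq]; exact inJ_univ r)
    exact E'.mem_Gp (r := r) (by rw [hX]; exact hx)
  · simp only [q, hX, e.α]
  · simp only [Flag, hX, e.α, e.σ]

end Tits
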