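import Mathlib
import Cfsg.Agent.Lib.Tits.WJ

set_option autoImplicit false

open scoped commutatorElement

namespace Tits

open H63.St Cfsg

namespace Nice

variable {Φ I M : Type*} [AddCommGroup M] (V : VR Φ I M)

/-- Functions on the roots that are compatible with the reflections. -/
def Lin (f : Φ → ℚ) : Prop := ∀ r s, f (V.rf r s) = f s - V.cf r s * f r

variable {V}

lemma lin_of (φ : M →ₗ[ℤ] ℚ) : Lin V fun r => φ (V.v r) := fun r s => by
  simp [V.v_rf]

lemma Lin.neg {f : Φ → ℚ} (h : Lin V f) (r : Φ) : f (V.neg r) = -f r := by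
  rw [← V.rf_self, h, V.cf_self]; push_cast; ring

lemma Lin.comp {f : Φ → ℚ} (h : Lin V f) {w : Equiv.Perm Φ} (hw : w ∈ V.toRoots.W) :
    Lin V fun r => f (w r) := fun r s => by
  have := Roots.W_refl hw r s
  change V.rf (w r) (w s) = w (V.rf r s) at this
  simp only [← this, h (w r) (w s), V.cf_W hw]

lemma Lin.dom [Finite Φ] {f : Φ → ℚ} (h : Lin V f) :
    ∃ w ∈ V.toRoots.W, ∀ i, 0 ≤ f (w (V.α i)) := by
  obtain ⟨w, hw, hmin⟩ := Set.exists_min_image (V.toRoots.W : Set (Equiv.Perm Φ))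
    (fun w => {r | V.toRoots.Pos r ∧ f (w r) < 0}.ncard) (Set.toFinite _) ⟨1, Subgroup.one_mem _⟩
  refine ⟨w, hw, fun i => ?_⟩
  by_contra hn
  push Not at hn
  have h1 := hmin _ (V.toRoots.W.mul_mem hw (V.toRoots.σ_mem_W i))
  have h2 : V.toRoots.σ i '' {r | V.toRoots.Pos r ∧ f ((w * V.toRoots.σ i) r) < 0} ⊂
      {r | V.toRoots.Pos r ∧ f (w r) < 0} := by
    constructor
    · rintro _ ⟨r, ⟨p1, p2⟩, rfl⟩
      refine ⟨V.toRoots.σ_pos p1 ?_, p2⟩
      rintro rfl
      rw [Equiv.Perm.mul_apply, Roots.σ_α, Roots.W_neg hw, VR.toRoots_neg, h.neg] at p2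
      exact absurd hn (by simpa using p2.le)
    · intro hh
      obtain ⟨r, ⟨p1, -⟩, e⟩ := hh (show V.α i ∈ {r | V.toRoots.Pos r ∧ f (w r) < 0} from
        ⟨V.toRoots.pos_α i, hn⟩)
      exact V.toRoots.σ_ne_α p1 e
  have h3 := Set.ncard_lt_ncard h2
  rw [Set.ncard_image_of_injective _ (Equiv.injective _)] at h3
  exact absurd h1 (not_le.2 h3)

lemma Lin.pos [Finite Φ] {f : Φ → ℚ} (h : Lin V f) (h0 : ∀ i, 0 ≤ f (V.α i)) {r : Φ}
    (hr : V.toRoots.Pos r) : 0 ≤ f r ∧ (f r = 0 → InJ V.toRoots {i | f (V.α i) = 0} r) := by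
  change 0 < V.ht (V.v r) at hr
  induction hn : (V.ht (V.v r)).toNat using Nat.strong_induction_on generalizing r with
  | _ n ih =>
    obtain ⟨i, hi⟩ := V.desc r hr
    by_cases e : r = V.α i
    · subst e
      exact ⟨h0 i, fun e => inJ_α (R := V.toRoots) e⟩
    have h2 := V.rf_pos i r hr e
    have h3 : V.ht (V.v (V.rf (V.α i) r)) = V.ht (V.v r) - V.cf (V.α i) r * V.ht (V.v (V.α i)) := by
      rw [V.v_rf]; simp
    have h4 := mul_pos hi (V.pos_α i)
    obtain ⟨a1, a2⟩ := ih _ (by omega) h2 rfl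
    have h5 := h (V.α i) r
    have h6 : (0 : ℚ) < V.cf (V.α i) r := by exact_mod_cast hi
    have h7 := mul_nonneg h6.le (h0 i)
    refine ⟨by linarith, fun e0 => ?_⟩
    have h8 : f (V.α i) = 0 := by
      have : (V.cf (V.α i) r : ℚ) * f (V.α i) = 0 := by linarith
      exact (mul_eq_zero.1 this).resolve_left h6.ne'
    have h9 := (a2 (by rw [h5, e0, h8]; ring)).smul (w := V.toRoots.σ i)
      (Subgroup.subset_closure ⟨i, h8, rfl⟩)
    rwa [show V.toRoots.σ i (V.rf (V.α i) r) = r from V.rf_rf _ _] at h9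

lemma not_icc [Finite Φ] (φ : M →ₗ[ℤ] ℚ) {r s k : Φ} (hr : 0 < φ (V.v r)) (hs : 0 < φ (V.v s))
    (hk : φ (V.v k) < 0) : k ∉ Icc V.toRoots r s := by
  intro hI
  have h := lin_of (V := V) φ
  obtain ⟨w, hw, h0⟩ := h.dom
  have h1 := h.comp hw
  have key : ∀ x, 0 < φ (V.v x) → V.toRoots.Pos (w⁻¹ x) := by
    intro x hx
    by_contra hn
    have := (h1.pos h0 ((V.toRoots.pos_neg _).2 hn)).1
    rw [VR.toRoots_neg, h1.neg] at this
    simp only [Equiv.Perm.coe_inv, Equiv.apply_symm_apply] at this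
    linarith
  have := (h1.pos h0 (hI _ (V.toRoots.W.inv_mem hw) (key r hr) (key s hs))).1
  simp only [Equiv.Perm.coe_inv, Equiv.apply_symm_apply] at this
  linarith

lemma mult {x y : Φ} {c d : ℤ} (hc : c ≠ 0) (h : c • V.v x = d • V.v y) : x = y ∨ x = V.neg y := by
  by_contra hn
  push Not at hn
  have h0 : c • V.v x = d • V.v y + (0 : ℤ) • V.v y := by simpa using h
  have h1 := V.cf_comb x h0
  have h2 := V.cf_comb y h0
  have h3 := V.cs y x hn.1 hn.2
  rw [V.cf_self] at h1 h2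
  have : c * (V.cf y x * V.cf x y) = c * 4 := by linear_combination V.cf x y * h2 - 2 * h1
  have := mul_left_cancel₀ hc this
  omega

lemma ne_zero {x : Φ} {c : ℤ} (h : c • V.v x = 0) : c = 0 := by
  have h1 := V.cf_comb x (show c • V.v x = (0 : ℤ) • V.v x + (0 : ℤ) • V.v x by simpa using h)
  rw [V.cf_self] at h1
  omega

variable (V)

/-- The Gram determinant. -/
def Δ (r s : Φ) : ℤ := V.B (V.v r) (V.v r) * V.B (V.v s) (V.v s) - V.B (V.v r) (V.v s) ^ 2

/-- The first coordinate. -/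
def f1 (r s : Φ) : M →ₗ[ℤ] ℤ := V.B (V.v s) (V.v s) • V.B (V.v r) - V.B (V.v r) (V.v s) • V.B (V.v s)

/-- The projection. -/
def P (r s : Φ) : M →ₗ[ℤ] M :=
  Δ V r s • LinearMap.id - (f1 V r s).smulRight (V.v r) - (f1 V s r).smulRight (V.v s)

variable {V}

lemma Δ_pos {r s : Φ} (h1 : s ≠ r) (h2 : s ≠ V.neg r) : 0 < Δ V r s := by
  have := V.cs r s h1 h2
  have e1 := V.cf_eq r s
  have e2 := V.cf_eq s r
  rw [V.symm (V.v s) (V.v r)] at e2
  have h4 := mul_pos (V.B_pos r) (V.B_pos s)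
  have : 4 * V.B (V.v r) (V.v s) ^ 2 =
      V.B (V.v r) (V.v r) * V.B (V.v s) (V.v s) * (V.cf r s * V.cf s r) := by
    linear_combination -(V.B (V.v s) (V.v s) * V.cf s r) * e1 - 2 * V.B (V.v r) (V.v s) * e2
  unfold Δ
  nlinarith

lemma f1_left (r s : Φ) : f1 V r s (V.v r) = Δ V r s := by
  simp only [f1, Δ, LinearMap.sub_apply, LinearMap.smul_apply, smul_eq_mul, V.symm (V.v s) (V.v r)]
  ring

lemma f1_left' (r s : Φ) : f1 V s r (V.v s) = Δ V r s := by
  simp only [f1, Δ, LinearMap.sub_apply, LinearMap.smul_apply, smul_eq_mul, V.symm (V.v s) (V.v r)]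
  ring

lemma f1_right (r s : Φ) : f1 V r s (V.v s) = 0 := by
  simp only [f1, LinearMap.sub_apply, LinearMap.smul_apply, smul_eq_mul]
  ring

lemma P_apply (r s : Φ) (x : M) :
    P V r s x = Δ V r s • x - f1 V r s x • V.v r - f1 V s r x • V.v s := by
  simp [P]

lemma P_left (r s : Φ) : P V r s (V.v r) = 0 := by
  rw [P_apply, f1_left, f1_right]; simp

lemma P_right (r s : Φ) : P V r s (V.v s) = 0 := by
  rw [P_apply, f1_left', f1_right]; simp

lemma B_P (r s : Φ) (x y : M) : V.B x (P V r s y) = V.B y (P V r s x) := by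
  simp only [P_apply, f1, map_sub, map_zsmul, LinearMap.sub_apply, LinearMap.smul_apply,
    smul_eq_mul, V.symm y x, V.symm x (V.v r), V.symm x (V.v s), V.symm y (V.v r),
    V.symm y (V.v s), V.symm (V.v s) (V.v r)]
  ring

lemma exists_fun {x : M} (h : ∀ n : ℤ, n • x = 0 → n = 0) : ∃ φ : M →ₗ[ℤ] ℚ, φ x = -1 := by
  obtain ⟨φ, e⟩ := (Module.Baer.of_divisible ℚ).extension_property
    (LinearMap.toSpanSingleton ℤ M x) ((injective_iff_map_eq_zero _).2 fun n hn => h n hn)
    (LinearMap.toSpanSingleton ℤ ℚ (-1))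
  exact ⟨φ, by simpa using LinearMap.congr_fun e 1⟩

lemma exists_gen {α : Type*} (S : Finset α) (f : α → M →ₗ[ℤ] ℤ)
    (h : ∀ k ∈ S, ∃ v, f k v ≠ 0) : ∃ v, ∀ k ∈ S, f k v ≠ 0 := by
  classical
  induction S using Finset.induction_on with
  | empty => exact ⟨0, by simp⟩
  | insert k S hk ih =>
    obtain ⟨v, hv⟩ := ih fun j hj => h j (Finset.mem_insert_of_mem hj)
    obtain ⟨u, hu⟩ := h k (Finset.mem_insert_self _ _)
    refine ⟨(1 + ∑ j ∈ insert k S, |f j u|) • v + u, fun j hj => ?_⟩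
    have h1 : |f j u| ≤ ∑ j ∈ insert k S, |f j u| :=
      Finset.single_le_sum (f := fun j => |f j u|) (fun _ _ => abs_nonneg _) hj
    rw [map_add, map_zsmul, smul_eq_mul]
    by_cases h2 : f j v = 0
    · rcases Finset.mem_insert.1 hj with rfl | hj
      · rwa [h2, mul_zero, zero_add]
      · exact absurd h2 (hv j hj)
    · intro e
      have h3 := abs_le.1 h1
      have h4 := abs_nonneg (f j u)
      rcases lt_or_gt_of_ne h2 with h5 | h5 <;> nlinarith

section tri

variable {w : Equiv.Perm Φ} (hw : w ∈ V.toRoots.W)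
include hw

lemma two {i j : I} (h : V.α i ≠ V.α j) {c d : ℤ} (hc : c ≠ 0)
    (e : c • V.v (w (V.α i)) = d • V.v (w (V.α j))) : False := by
  rcases mult hc e with e | e
  · exact h (w.injective e)
  · rw [← VR.toRoots_neg, ← Roots.W_neg hw] at e
    exact V.toRoots.not_pos_neg_α j ((w.injective e) ▸ V.toRoots.pos_α i)

lemma triA {i j k : I} (h : V.α j ≠ V.α k) {a b c : ℤ} (ha : 0 < a) (hb : 0 < b) (hc : 0 < c)
    (e : a • V.v (w (V.α i)) = b • V.v (w (V.α j)) + c • V.v (w (V.α k))) : False :=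
  V.toRoots.α_not_itv i _ _ (V.toRoots.pos_α j) (V.toRoots.pos_α k) h
    ((Roots.W_itv_iff hw).1 ⟨b, c, a, hb, hc, ha, e⟩)

lemma triB {i j k : I} {a b c : ℤ} (ha : 0 < a) (hb : 0 < b) (hc : 0 < c)
    (e : a • V.v (w (V.α i)) + b • V.v (w (V.α j)) + c • V.v (w (V.α k)) = 0) : False := by
  refine Roots.itv_not_pos (V.toRoots.not_pos_neg_α j) (V.toRoots.not_pos_neg_α k)
    ((Roots.W_itv_iff hw).1 ⟨b, c, a, hb, hc, ha, ?_⟩) (V.toRoots.pos_α i)
  rw [Roots.W_neg hw, Roots.W_neg hw, VR.toRoots_neg, VR.toRoots_neg, V.v_neg, V.v_neg]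
  change a • V.v (w (V.α i)) = b • -V.v (w (V.α j)) + c • -V.v (w (V.α k))
  linear_combination (norm := module) e

lemma tri {i j k : I} (h1 : V.α i ≠ V.α j) (h2 : V.α i ≠ V.α k) (h3 : V.α j ≠ V.α k) {a b c : ℤ}
    (e : a • V.v (w (V.α i)) + b • V.v (w (V.α j)) + c • V.v (w (V.α k)) = 0) : a = 0 := by
  have key : ∀ a b c : ℤ, 0 < a →
      a • V.v (w (V.α i)) + b • V.v (w (V.α j)) + c • V.v (w (V.α k)) = 0 → False := by
    intro a b c ha e
    rcases lt_trichotomy b 0 with hb | rfl | hb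
    · rcases lt_trichotomy c 0 with hc | rfl | hc
      · exact triA hw h3 ha (neg_pos.2 hb) (neg_pos.2 hc) (i := i)
          (by linear_combination (norm := module) e)
      · exact two hw h1 ha.ne' (d := -b) (by linear_combination (norm := module) e)
      · exact triA hw h2 (neg_pos.2 hb) ha hc (i := j) (by linear_combination (norm := module) -e)
    · exact two hw h2 ha.ne' (d := -c) (by linear_combination (norm := module) e)
    · rcases lt_trichotomy c 0 with hc | rfl | hc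
      · exact triA hw h1 (neg_pos.2 hc) ha hb (i := k) (by linear_combination (norm := module) -e)
      · exact two hw h1 ha.ne' (d := -b) (by linear_combination (norm := module) e)
      · exact triB hw ha hb hc e
  rcases lt_trichotomy a 0 with ha | ha | ha
  · exact (key (-a) (-b) (-c) (neg_pos.2 ha) (by linear_combination (norm := module) -e)).elim
  · exact ha
  · exact (key a b c ha e).elim

end tri

end Nice

open Nice

theorem vr_full {Φ I M : Type*} [AddCommGroup M] [Finite Φ] (V : VR Φ I M) : Full V.toRoots := by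
  intro r s k h1 h2 hI hkr hks
  have hΔ : (0 : ℚ) < Δ V r s := by exact_mod_cast Δ_pos h1 h2
  let F : M →ₗ[ℤ] ℚ := (Algebra.linearMap ℤ ℚ).comp (f1 V r s)
  let F' : M →ₗ[ℤ] ℚ := (Algebra.linearMap ℤ ℚ).comp (f1 V s r)
  have a1 : F (V.v r) = Δ V r s := by simp [F, f1_left]
  have a2 : F (V.v s) = 0 := by simp [F, f1_right]
  have a3 : F' (V.v r) = 0 := by simp [F', f1_right]
  have a4 : F' (V.v s) = Δ V r s := by simp [F', f1_left']
  have key : ∀ φ : M →ₗ[ℤ] ℚ, 0 ≤ φ (V.v r) → 0 ≤ φ (V.v s) → 0 ≤ φ (V.v k) := by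
    intro φ p1 p2
    by_contra hn
    push Not at hn
    obtain ⟨N, hN⟩ := exists_nat_gt ((F (V.v k) + F' (V.v k)) / (-φ (V.v k)))
    rw [div_lt_iff₀ (by linarith)] at hN
    have hN0 : (0 : ℚ) ≤ N := Nat.cast_nonneg N
    refine not_icc (N • φ + F + F') ?_ ?_ ?_ hI
    · simp only [LinearMap.add_apply, LinearMap.smul_apply, nsmul_eq_mul, a1, a3]
      nlinarith [mul_nonneg hN0 p1]
    · simp only [LinearMap.add_apply, LinearMap.smul_apply, nsmul_eq_mul, a2, a4]
      nlinarith [mul_nonneg hN0 p2]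
    · simp only [LinearMap.add_apply, LinearMap.smul_apply, nsmul_eq_mul]
      linarith
  have b1 : 0 ≤ f1 V r s (V.v k) := by
    have := key F (by rw [a1]; exact hΔ.le) a2.ge
    simpa [F] using this
  have b2 : 0 ≤ f1 V s r (V.v k) := by
    have := key F' a3.ge (by rw [a4]; exact hΔ.le)
    simpa [F'] using this
  obtain ⟨n, hn, e⟩ : ∃ n : ℤ, 0 < n ∧ n • P V r s (V.v k) = 0 := by
    by_contra hn
    push Not at hn
    obtain ⟨φ, e⟩ := exists_fun (x := P V r s (V.v k)) fun n e => by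
      rcases lt_trichotomy n 0 with h | h | h
      · exact absurd (by rw [neg_smul, e, neg_zero]) (hn (-n) (neg_pos.2 h))
      · exact h
      · exact absurd e (hn n h)
    have := key (φ.comp (P V r s)) (by simp [P_left]) (by simp [P_right])
    rw [LinearMap.comp_apply, e] at this
    norm_num at this
  have hD := mul_pos hn (Δ_pos h1 h2)
  have e' : (n * Δ V r s) • V.v k = (n * f1 V r s (V.v k)) • V.v r + (n * f1 V s r (V.v k)) • V.v s := by
    rw [P_apply] at e
    linear_combination (norm := module) e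
  have neg_case : ∀ (x : Φ) (c : ℤ), 0 ≤ c → (n * Δ V r s) • V.v k = c • V.v x → k = x := by
    intro x c hc e
    refine (mult hD.ne' e).resolve_right fun e2 => ?_
    rw [e2, V.v_neg] at e
    have := ne_zero (V := V) (x := x) (c := n * Δ V r s + c) (by linear_combination (norm := module) -e)
    omega
  rcases b1.eq_or_lt with b1 | b1
  · exact absurd (neg_case s _ (mul_nonneg hn.le b2) (by rw [e', ← b1]; simp)) hks
  rcases b2.eq_or_lt with b2 | b2
  · exact absurd (neg_case r _ (mul_nonneg hn.le b1.le) (by rw [e', ← b2]; simp)) hkr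
  exact ⟨_, _, _, mul_pos hn b1, mul_pos hn b2, hD, e'⟩

theorem vr_rk2 {Φ I M : Type*} [AddCommGroup M] [Finite Φ] (V : VR Φ I M)
    (h : ∀ x, x ≠ 0 → 0 < V.B x x) : Rk2 V.toRoots := by
  classical
  intro r s
  by_cases h0 : s = r ∨ s = V.neg r
  · obtain ⟨w, hw, i, rfl⟩ := V.toRoots.exists_W_α r
    have h1 : InJ V.toRoots {i, i} (w⁻¹ (w (V.toRoots.α i))) := by
      simpa using inJ_α (R := V.toRoots) (J := {i}) rfl
    refine ⟨w⁻¹, V.toRoots.W.inv_mem hw, i, i, h1, ?_⟩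
    rcases h0 with rfl | rfl
    · exact h1
    · rw [← VR.toRoots_neg, Roots.W_neg (V.toRoots.W.inv_mem hw)]; exact h1.neg
  push Not at h0
  have hΔ := Δ_pos h0.1 h0.2
  have := Fintype.ofFinite Φ
  obtain ⟨u, hu⟩ := exists_gen (Finset.univ.filter fun k => P V r s (V.v k) ≠ 0)
    (fun k => V.B (P V r s (V.v k))) fun k hk => ⟨_, (h _ (Finset.mem_filter.1 hk).2).ne'⟩
  let φ : M →ₗ[ℤ] ℚ := (Algebra.linearMap ℤ ℚ).comp ((V.B u).comp (P V r s))
  have hl := lin_of (V := V) φ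
  obtain ⟨w, hw, hd⟩ := hl.dom
  have h1 := hl.comp hw
  have key : ∀ x, φ (V.v x) = 0 → InJ V.toRoots {i | φ (V.v (w (V.α i))) = 0} (w⁻¹ x) := by
    intro x hx
    by_cases hp : V.toRoots.Pos (w⁻¹ x)
    · exact (h1.pos hd hp).2 (by simpa using hx)
    · have := ((h1.pos hd ((V.toRoots.pos_neg _).2 hp)).2 (by
        rw [VR.toRoots_neg, h1.neg]; simpa using hx)).neg
      rwa [V.toRoots.neg_neg] at this
  have k1 := key r (by simp [φ, P_left])
  have k2 := key s (by simp [φ, P_right])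
  have rel : ∀ i, φ (V.v (w (V.α i))) = 0 → ∃ a b : ℤ,
      Δ V r s • V.v (w (V.α i)) = a • V.v r + b • V.v s := by
    intro i hi
    have e : P V r s (V.v (w (V.α i))) = 0 := by
      by_contra hn
      refine hu _ (Finset.mem_filter.2 ⟨Finset.mem_univ _, hn⟩) ?_
      rw [V.symm]
      simpa [φ] using hi
    rw [P_apply] at e
    exact ⟨_, _, by linear_combination (norm := module) e⟩
  suffices H : ∃ i j, ∀ l, φ (V.v (w (V.α l))) = 0 → V.α l = V.α i ∨ V.α l = V.α j by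
    obtain ⟨i, j, H⟩ := H
    have sub : ∀ x, InJ V.toRoots {i | φ (V.v (w (V.α i))) = 0} x → InJ V.toRoots {i, j} x := by
      rintro x ⟨y, hy, l, hl, rfl⟩
      have hy' : y ∈ WJ V.toRoots {i, j} := by
        refine Subgroup.closure_mono ?_ hy
        rintro _ ⟨l, hl, rfl⟩
        rcases H l hl with e | e
        · exact ⟨i, by simp, by simp only [VR.toRoots_σ, e]⟩
        · exact ⟨j, by simp, by simp only [VR.toRoots_σ, e]⟩
      rcases H l hl with e | e
      · exact ⟨y, hy', i, by simp, by simp only [VR.toRoots_α, e]⟩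
      · exact ⟨y, hy', j, by simp, by simp only [VR.toRoots_α, e]⟩
    exact ⟨w⁻¹, V.toRoots.W.inv_mem hw, i, j, sub _ k1, sub _ k2⟩
  by_contra hn
  push Not at hn
  obtain ⟨-, -, i0, -⟩ := V.toRoots.exists_W_α r
  obtain ⟨i, hi, -⟩ := hn i0 i0
  obtain ⟨j, hj, hij, -⟩ := hn i i
  obtain ⟨k, hk, hik, hjk⟩ := hn i j
  obtain ⟨a1, b1, e1⟩ := rel i hi
  obtain ⟨a2, b2, e2⟩ := rel j hj
  obtain ⟨a3, b3, e3⟩ := rel k hk
  have e4 := tri hw hik hjk hij.symm (a := Δ V r s * (a1 * b2 - a2 * b1))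
    (b := Δ V r s * (a2 * b3 - a3 * b2)) (c := Δ V r s * (a3 * b1 - a1 * b3))
    (by linear_combination (norm := module) (a1 * b2 - a2 * b1) • e3 + (a2 * b3 - a3 * b2) • e1 +
      (a3 * b1 - a1 * b3) • e2)
  have e5 : a1 * b2 - a2 * b1 = 0 := (mul_eq_zero.1 e4).resolve_left hΔ.ne'
  by_cases c1 : a2 = 0
  · by_cases c2 : b2 = 0
    · rw [c1, c2] at e2
      exact hΔ.ne' (ne_zero (by simpa using e2))
    · refine two hw hij.symm (mul_ne_zero c2 hΔ.ne') (d := b1 * Δ V r s) ?_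
      linear_combination (norm := module) b2 • e1 - b1 • e2 + e5 • V.v r
  · refine two hw hij.symm (mul_ne_zero c1 hΔ.ne') (d := a1 * Δ V r s) ?_
    linear_combination (norm := module) a2 • e1 - a1 • e2 - e5 • V.v s

end Tits
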