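import Mathlib
import Cfsg.Agent.Lib.Tits.Nice

set_option autoImplicit false

open scoped commutatorElement

namespace Tits

open H63.St Cfsg

namespace NiceC

variable {Φ I M : Type*} [AddCommGroup M] (V : VR Φ I M)

lemma refl_ne_one (r : Φ) : V.refl r ≠ 1 := fun e => V.neg_ne r (by
  rw [← V.rf_self]; exact congrArg (fun f : Equiv.Perm Φ => f r) e)

lemma cm_zero {i j : I} (h : V.cf (V.α i) (V.α j) = 0) : cm V.toRoots i j = 2 := by
  have h' := V.cf_eq_zero_comm.1 h
  refine orderOf_eq_prime ?_ fun e => ?_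
  · ext x
    refine V.inj ?_
    simp only [pow_two, VR.toRoots_σ, Equiv.Perm.mul_apply, VR.refl_apply, V.v_rf, V.cf_rf, h, h',
      V.cf_self, Equiv.Perm.one_apply]
    module
  · have := congrArg (fun f : Equiv.Perm Φ => V.cf (V.α i) (f (V.α i))) e
    simp only [VR.toRoots_σ, Equiv.Perm.mul_apply, VR.refl_apply, V.cf_rf, h, h',
      V.cf_self, Equiv.Perm.one_apply] at this
    omega

lemma cm_one {i j : I} (h : V.cf (V.α i) (V.α j) = -1) (h' : V.cf (V.α j) (V.α i) = -1) :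
    cm V.toRoots i j = 3 := by
  have : Fact (Nat.Prime 3) := ⟨Nat.prime_three⟩
  refine orderOf_eq_prime ?_ fun e => ?_
  · ext x
    refine V.inj ?_
    simp only [pow_succ, pow_zero, one_mul, VR.toRoots_σ, Equiv.Perm.mul_apply, VR.refl_apply,
      V.v_rf, V.cf_rf, h, h', V.cf_self, Equiv.Perm.one_apply]
    module
  · have := congrArg (fun f : Equiv.Perm Φ => V.cf (V.α i) (f (V.α i))) e
    simp only [VR.toRoots_σ, Equiv.Perm.mul_apply, VR.refl_apply, V.cf_rf, h, h',
      V.cf_self, Equiv.Perm.one_apply] at this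
    omega

lemma cm_two {i j : I} (h : V.cf (V.α i) (V.α j) = -1 ∧ V.cf (V.α j) (V.α i) = -2 ∨
    V.cf (V.α i) (V.α j) = -2 ∧ V.cf (V.α j) (V.α i) = -1) : cm V.toRoots i j = 4 := by
  refine orderOf_eq_prime_pow (p := 2) (n := 1) (fun e => ?_) ?_
  · have := congrArg (fun f : Equiv.Perm Φ => V.cf (V.α i) (f (V.α i))) e
    rcases h with ⟨h, h'⟩ | ⟨h, h'⟩ <;>
    · simp only [pow_succ, pow_zero, one_mul, VR.toRoots_σ, Equiv.Perm.mul_apply,
        VR.refl_apply, V.cf_rf, h, h', V.cf_self, Equiv.Perm.one_apply] at this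
      omega
  · ext x
    refine V.inj ?_
    rcases h with ⟨h, h'⟩ | ⟨h, h'⟩ <;>
    · simp only [pow_succ, pow_zero, one_mul, Nat.reduceMul, Nat.reduceAdd, VR.toRoots_σ,
        Equiv.Perm.mul_apply, VR.refl_apply, V.v_rf, V.cf_rf, h, h', V.cf_self,
        Equiv.Perm.one_apply]
      module

lemma dot_pos {ι : Type*} [Fintype ι] (x : ι → ℤ) (h : x ≠ 0) : 0 < dotProductBilin ℤ ℤ x x :=
  lt_of_le_of_ne (Finset.sum_nonneg fun i _ => mul_self_nonneg (x i))
    fun e => h (dotProduct_self_eq_zero.1 e.symm)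

lemma cfC (s : Bool) (m : ℕ) (hs : s = false → 1 ≤ m) (i j : Fin (m + 1)) :
    (VC s m hs).cf ((VC s m hs).α i) ((VC s m hs).α j) =
      VC.co (VC.α1 s i) (VC.α2 i) (VC.α1 s j) + VC.co (VC.α1 s i) (VC.α2 i) (VC.α2 j) := rfl

lemma cfB {m : ℕ} (hs : true = false → 1 ≤ m) (i j : Fin (m + 1)) :
    (VC true m hs).cf ((VC true m hs).α i) ((VC true m hs).α j) =
      if (i : ℕ) = j then 2 else if (i : ℕ) + 1 = j then (if (j : ℕ) = m then -2 else -1)
      else if (j : ℕ) + 1 = i then -1 else 0 := by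
  have hi := i.2
  have hj := j.2
  simp only [cfC, VC.co, VC.δ_val, Fin.ext_iff, VC.α1_val, VC.α2_val, Bool.true_eq_false,
    false_and, if_false]
  grind (splits := 40)

lemma cfD {m : ℕ} (hm : 3 ≤ m) (hs : false = false → 1 ≤ m) (i j : Fin (m + 1)) :
    (VC false m hs).cf ((VC false m hs).α i) ((VC false m hs).α j) =
      if (i : ℕ) = j then 2 else if (i : ℕ) = m then (if (j : ℕ) + 2 = m then -1 else 0)
      else if (j : ℕ) = m then (if (i : ℕ) + 2 = m then -1 else 0)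
      else if (i : ℕ) + 1 = j ∨ (j : ℕ) + 1 = i then -1 else 0 := by
  have hi := i.2
  have hj := j.2
  simp only [cfC, VC.co, VC.δ_val, Fin.ext_iff, VC.α1_val, VC.α2_val, true_and]
  grind (splits := 40)

lemma const {n : ℕ} {m : Fin n → Fin n → ℕ} {a b : Fin n} (h3 : m a b = 3) (h : Shape m a b)
    {α : Type*} (f : Fin n → α) (hf : ∀ i j, m i j = 3 → f i = f j) (i : Fin n) : f i = f a := by
  obtain ⟨-, ht, par, h1, -⟩ := h
  induction hn : ht i using Nat.strong_induction_on generalizing i with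
  | _ k ih =>
    by_cases e1 : i = a
    · rw [e1]
    by_cases e2 : i = b
    · rw [e2]; exact (hf _ _ h3).symm
    obtain ⟨p1, p2⟩ := h1 i e1 e2
    rw [← hf _ _ p2]
    exact ih _ (hn ▸ p1) _ rfl

end NiceC

open NiceC

theorem cm_VA (m : ℕ) : cm (VA m).toRoots = mA m := by
  funext i j
  have cf : ∀ i j : Fin m, (VA m).cf ((VA m).α i) ((VA m).α j) =
      dl i.castSucc j.castSucc - dl i.castSucc j.succ - dl i.succ j.castSucc + dl i.succ j.succ :=
    fun _ _ => rfl
  unfold mA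
  split_ifs with h1 h2
  · rw [h1, cm_self]
  · refine cm_one _ ?_ ?_ <;>
    · simp only [cf, dl, Fin.ext_iff, Fin.val_castSucc, Fin.val_succ]
      split_ifs <;> omega
  · refine cm_zero _ ?_
    simp only [cf, dl, Fin.ext_iff, Fin.val_castSucc, Fin.val_succ] at h1 ⊢
    split_ifs <;> omega

theorem cm_VB (m : ℕ) (hm : 1 ≤ m) (hs : true = false → 1 ≤ m) :
    cm (VC true m hs).toRoots = mB (m + 1) := by
  funext i j
  unfold mB
  have hi := i.2
  have hj := j.2
  split_ifs with h1 h2 h3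
  · rw [h1, cm_self]
  · refine cm_two _ ?_
    rw [cfB, cfB]
    split_ifs <;> omega
  · refine cm_one _ ?_ ?_ <;>
    · rw [cfB]
      split_ifs <;> omega
  · refine cm_zero _ ?_
    rw [Fin.ext_iff] at h1
    rw [cfB]
    split_ifs <;> omega

theorem cm_VD (m : ℕ) (hm : 3 ≤ m) (hs : false = false → 1 ≤ m) :
    cm (VC false m hs).toRoots = mD (m + 1) := by
  funext i j
  unfold mD
  have hi := i.2
  have hj := j.2
  split_ifs with h1 h2 h3 h4 h5 h6
  · rw [h1, cm_self]
  all_goals rw [Fin.ext_iff] at h1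
  · refine cm_one _ ?_ ?_ <;> (rw [cfD hm]; split_ifs <;> omega)
  · refine cm_zero _ ?_; rw [cfD hm]; split_ifs <;> omega
  · refine cm_one _ ?_ ?_ <;> (rw [cfD hm]; split_ifs <;> omega)
  · refine cm_zero _ ?_; rw [cfD hm]; split_ifs <;> omega
  · refine cm_one _ ?_ ?_ <;> (rw [cfD hm]; split_ifs <;> omega)
  · refine cm_zero _ ?_; rw [cfD hm]; split_ifs <;> omega

theorem rk2_VA (m : ℕ) : Rk2 (VA m).toRoots := vr_rk2 _ dot_pos

theorem rk2_VC (s : Bool) (m : ℕ) (hs : s = false → 1 ≤ m) : Rk2 (VC s m hs).toRoots :=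
  vr_rk2 _ dot_pos

theorem shape_SL {n : ℕ} {m : Fin n → Fin n → ℕ} (h : SL n m) : ∃ a b, m a b = 3 ∧ Shape m a b := by
  rcases h with ⟨h, rfl⟩ | ⟨h, rfl⟩ | ⟨h, h', rfl⟩
  · refine ⟨⟨0, by omega⟩, ⟨1, by omega⟩, by simp [mA], by simp, fun v => v,
      fun v => ⟨v - 1, by omega⟩, fun v h1 h2 => ?_, fun u v h1 => ?_⟩
    · simp only [mA, ne_eq, Fin.ext_iff] at h1 h2 ⊢
      split_ifs <;> omega
    · simp only [mA, ne_eq, Fin.ext_iff] at h1 ⊢
      split_ifs <;> omega
  · refine ⟨⟨0, by omega⟩, ⟨1, by omega⟩, ?_, by simp, fun v => v,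
      fun v => ⟨if v.1 + 1 = n then n - 3 else v - 1, by split_ifs <;> omega⟩,
      fun v h1 h2 => ?_, fun u v h1 => ?_⟩
    · simp only [mD, Fin.ext_iff]
      rw [if_neg (by omega), if_neg (by omega), if_neg (by omega), if_pos (by simp)]
    · have := v.2
      simp only [mD, ne_eq, Fin.ext_iff] at h1 h2 ⊢
      split_ifs <;> omega
    · have := v.2
      have := u.2
      simp only [mD, ne_eq, Fin.ext_iff] at h1 ⊢
      split_ifs <;> omega
  · refine ⟨⟨0, by omega⟩, ⟨2, by omega⟩, by simp [mE], by simp, fun v => if v.1 = 1 then 4 else v,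
      fun v => ⟨if v.1 = 1 then 3 else v - 1, by split_ifs <;> omega⟩,
      fun v h1 h2 => ?_, fun u v h1 => ?_⟩
    · simp only [mE, ne_eq, Fin.ext_iff] at h1 h2 ⊢
      split_ifs <;> omega
    · simp only [mE, ne_eq, Fin.ext_iff] at h1 ⊢
      split_ifs <;> omega

theorem shape_B (m : ℕ) : Shape (mB (m + 3)) ⟨m + 1, by omega⟩ (Fin.last _) := by
  refine ⟨by simp [Fin.ext_iff], fun v => m + 3 - v,
    fun v => ⟨min (v + 1) (m + 2), by omega⟩, fun v h1 h2 => ?_, fun u v h1 => ?_⟩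
  · have := v.2
    simp only [mB, ne_eq, Fin.ext_iff, Fin.val_last] at h1 h2 ⊢
    split_ifs <;> omega
  · have := v.2
    have := u.2
    simp only [mB, ne_eq, Fin.ext_iff, Fin.val_last] at h1 ⊢
    split_ifs <;> omega

theorem shape_F : Shape mF 1 2 :=
  ⟨by decide, ![1, 0, 0, 1], ![1, 1, 2, 2], by decide, by decide⟩

theorem nbr_SL {n : ℕ} {m : Fin n → Fin n → ℕ} (h : SL n m) (i : Fin n) : ∃ j, m i j = 3 := by
  have := i.2
  rcases h with ⟨h, rfl⟩ | ⟨h, rfl⟩ | ⟨h, h', rfl⟩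
  · refine ⟨⟨if i.1 = 0 then 1 else i - 1, by split_ifs <;> omega⟩, ?_⟩
    simp only [mA, Fin.ext_iff]
    split_ifs <;> omega
  · refine ⟨⟨if i.1 = 0 then 1 else if i.1 + 1 = n then n - 3 else i - 1,
      by split_ifs <;> omega⟩, ?_⟩
    simp only [mD, Fin.ext_iff]
    split_ifs <;> omega
  · refine ⟨⟨if i.1 = 0 then 2 else if i.1 ≤ 2 then 3 else i - 1, by split_ifs <;> omega⟩, ?_⟩
    simp only [mE, Fin.ext_iff]
    split_ifs <;> omega

/-- a function constant on simple bonds is constant -/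
theorem const_SL {n : ℕ} {m : Fin n → Fin n → ℕ} (h : SL n m) {α : Type*} (f : Fin n → α)
    (hf : ∀ i j, m i j = 3 → f i = f j) (i j : Fin n) : f i = f j := by
  obtain ⟨a, b, h3, hs⟩ := shape_SL h
  rw [const h3 hs f hf i, const h3 hs f hf j]

theorem const_B (m : ℕ) {α : Type*} (f : Fin (m + 1) → α)
    (hf : ∀ i j, mB (m + 1) i j = 3 → f i = f j) (i j : Fin (m + 1)) (hi : i ≠ Fin.last m)
    (hj : j ≠ Fin.last m) : f i = f j := by
  have key : ∀ k (hk : k < m), f ⟨k, by omega⟩ = f 0 := by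
    intro k
    induction k with
    | zero => intro _; rfl
    | succ k ih =>
      intro hk
      rw [← ih (by omega)]
      refine hf _ _ ?_
      simp only [mB, Fin.ext_iff]
      rw [if_neg (by omega), if_pos (by simp), if_neg (by omega)]
  rw [show f i = f 0 from key i (Fin.val_lt_last hi), show f j = f 0 from key j (Fin.val_lt_last hj)]

end Tits
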