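import Mathlib
import Cfsg.Agent.Lib.Tits.Emb
import Cfsg.Agent.Lib.Tits.NiceC

set_option autoImplicit false
set_option linter.unusedSectionVars false

open scoped commutatorElement

namespace Tits

open H63.St Cfsg

variable {Φ I : Type*} {R : Roots Φ I} [Finite Φ]

namespace Rk

omit [Finite Φ] in
theorem σ_mem {J : Set I} {i : I} (h : i ∈ J) : R.σ i ∈ WJ R J := Subgroup.subset_closure ⟨i, h, rfl⟩

omit [Finite Φ] in
theorem WJ_ind {J : Set I} {P : Equiv.Perm Φ → Prop} (h1 : P 1) (h : ∀ u, ∀ i ∈ J, P u → P (u * R.σ i))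
    {v : Equiv.Perm Φ} (hv : v ∈ WJ R J) : P v := by
  induction hv using Subgroup.closure_induction_right with
  | one => exact h1
  | mul_right x _ y hy ih =>
    obtain ⟨i, hi, rfl⟩ := hy
    exact h x i hi ih
  | mul_inv_cancel x _ y hy ih =>
    obtain ⟨i, hi, rfl⟩ := hy
    rw [R.σ_inv]
    exact h x i hi ih

/-- the signs on a standard subsystem are those of an element of the parabolic subgroup. -/
theorem sgn (J : Set I) {w : Equiv.Perm Φ} (hw : w ∈ R.W) :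
    ∃ v ∈ WJ R J, ∀ r, InJ R J r → (R.Pos (w r) ↔ R.Pos (v r)) := by
  obtain ⟨L, rfl⟩ := Roots.exists_wp hw
  clear hw
  induction L with
  | nil => exact ⟨1, one_mem _, fun r _ => Iff.rfl⟩
  | cons k L ih =>
    obtain ⟨v, hv, h⟩ := ih
    have e : R.wp (k :: L) = R.σ k * R.wp L := by simp [Roots.wp]
    have hu := R.wp_mem_W L
    rw [e]
    by_cases hk : ∃ r, InJ R J r ∧ R.wp L r = R.α k
    · obtain ⟨_, ⟨x, hx, l, hl, rfl⟩, e'⟩ := hk
      have := Roots.W_conj_σ (mul_mem hu (WJ_le J hx)) (k := l) e'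
      have hy : x * R.σ l * x⁻¹ ∈ WJ R J := mul_mem (mul_mem hx (σ_mem hl)) (inv_mem hx)
      refine ⟨v * (x * R.σ l * x⁻¹), mul_mem hv hy, fun r hr => ?_⟩
      rw [show R.σ k * R.wp L = R.wp L * (x * R.σ l * x⁻¹) by rw [← this]; group]
      exact h _ (hr.smul hy)
    · push Not at hk
      refine ⟨v, hv, fun r hr => Iff.trans ⟨fun hp => ?_, fun hp => R.σ_pos hp (hk r hr)⟩ (h r hr)⟩
      have := R.σ_pos (i := k) hp fun e' => hk _ hr.neg (by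
        rw [Roots.W_neg hu, ← R.σ_σ k (R.wp L r), show R.σ k (R.wp L r) = R.α k from e', R.σ_α, R.neg_neg])
      rwa [Equiv.Perm.mul_apply, R.σ_σ] at this

theorem mem_itv (hF : Full R) {J : Set I} {r s k : Φ} (hr : InJ R J r) (hs : InJ R J s) (hk : InJ R J k)
    (h1 : s ≠ r) (h2 : s ≠ R.neg r) (h3 : k ≠ r) (h4 : k ≠ s)
    (h : ∀ v ∈ WJ R J, R.Pos (v r) → R.Pos (v s) → R.Pos (v k)) : k ∈ R.Itv r s :=
  hF r s k h1 h2 (fun w hw p1 p2 => by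
    obtain ⟨v, hv, e⟩ := sgn J hw
    exact (e k hk).2 (h v hv ((e r hr).1 p1) ((e s hs).1 p2))) h3 h4

omit [Finite Φ] in
theorem cm_dvd {i j : I} {n : ℕ} (h : (R.σ i * R.σ j) ^ n = 1) : cm R i j ∣ n := orderOf_dvd_of_pow_eq_one h

omit [Finite Φ] in
theorem α_ne {i j : I} (h : cm R i j ≠ 1) : R.α i ≠ R.α j := fun e => h (by
  rw [cm, Roots.σ, Roots.σ, e]
  exact orderOf_eq_one_iff.2 (R.σ_mul_self j))

omit [Finite Φ] in
theorem σ_ne {i j : I} (h : ¬ cm R i j ∣ 2) : R.σ i (R.α j) ≠ R.α j := fun e => h (cm_dvd (by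
  have := Roots.W_conj_σ (R.σ_mem_W i) e
  rw [R.σ_inv] at this
  rw [pow_two, ← mul_assoc, this, R.σ_mul_self]))

theorem fix4 {j k : I} (h : cm R j k = 4) : R.σ j (R.σ k (R.α j)) = R.σ k (R.α j) := by
  have h4 : (R.σ j * R.σ k) ^ 4 = 1 := h ▸ pow_orderOf_eq_one _
  have e : R.σ k * R.σ j * R.σ k * R.σ j = R.σ j * (R.σ k * R.σ j * R.σ k) := by
    rw [← mul_one (R.σ k * R.σ j * R.σ k * R.σ j), ← h4]
    simp only [pow_succ, pow_zero, one_mul, mul_assoc]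
    rw [← mul_assoc (R.σ j) (R.σ j), R.σ_mul_self, one_mul, ← mul_assoc (R.σ k) (R.σ k), R.σ_mul_self, one_mul,
      ← mul_assoc (R.σ j) (R.σ j), R.σ_mul_self, one_mul, ← mul_assoc (R.σ k) (R.σ k), R.σ_mul_self, one_mul]
  rcases α_eq_or_of_conj (mul_mem (mul_mem (R.σ_mem_W k) (R.σ_mem_W j)) (R.σ_mem_W k)) e with e | e
  · rw [← R.σ_σ k (R.σ j _)]
    exact congrArg _ e
  · have hp := R.σ_pos (i := k) (R.pos_α j) (α_ne (by omega))
    have := R.σ_pos (i := j) hp (σ_ne (by rw [cm_symm, h]; decide))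
    rw [← R.σ_σ k (R.σ j _), show R.σ k (R.σ j (R.σ k (R.α j))) = _ from e, R.σ_neg, R.pos_neg] at this
    exact absurd hp this

theorem f3 (a : Fin 3) : a = 0 ∨ a = 1 ∨ a = 2 := by revert a; decide

theorem z8 (n : ZMod 8) : n = 0 ∨ n = 1 ∨ n = 2 ∨ n = 3 ∨ n = 4 ∨ n = 5 ∨ n = 6 ∨ n = 7 := by revert n; decide

/-- the indices of the positive roots. -/
abbrev S (n : ZMod 8) : Prop := n = 1 ∨ n = 2 ∨ n = 3 ∨ n = 4

end Rk

open Rk

theorem rt_neg (i j : I) {a b : Fin 3} (h1 : a ≠ b) : R.neg (rt R i j a b) = rt R i j b a := by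
  rcases f3 a with rfl | rfl | rfl <;> rcases f3 b with rfl | rfl | rfl <;>
    first | exact absurd rfl h1 | rfl | exact R.neg_neg _

theorem rt_pos {i j : I} (h : cm R i j = 3) {a b : Fin 3} (h1 : a ≠ b) :
    R.Pos (rt R i j a b) ↔ a < b := by
  have hc := R.σ_pos (i := i) (R.pos_α j) (α_ne (by omega)).symm
  rcases f3 a with rfl | rfl | rfl <;> rcases f3 b with rfl | rfl | rfl <;>
    first
      | exact absurd rfl h1
      | exact iff_of_true (R.pos_α _) (by decide)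
      | exact iff_of_true hc (by decide)
      | exact iff_of_false (R.not_pos_neg_α _) (by decide)
      | exact iff_of_false ((R.not_pos_neg_iff _).2 hc) (by decide)

theorem rt_σ {i j : I} (h : cm R i j = 3) {a b : Fin 3} (h1 : a ≠ b) :
    R.σ i (rt R i j a b) = rt R i j (Equiv.swap 0 1 a) (Equiv.swap 0 1 b) ∧
    R.σ j (rt R i j a b) = rt R i j (Equiv.swap 1 2 a) (Equiv.swap 1 2 b) := by
  have e := (σσ_of_three h).2
  have e' : R.σ j (R.σ i (R.α j)) = R.α i := by rw [e, R.σ_σ]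
  rcases f3 a with rfl | rfl | rfl <;> rcases f3 b with rfl | rfl | rfl
  · exact absurd rfl h1
  · exact ⟨R.σ_α i, e.symm⟩
  · exact ⟨R.σ_σ _ _, e'⟩
  · exact ⟨R.σ_neg_α i, (R.σ_neg _ _).trans (congrArg _ e.symm)⟩
  · exact absurd rfl h1
  · exact ⟨rfl, R.σ_α j⟩
  · exact ⟨(R.σ_neg _ _).trans (congrArg _ (R.σ_σ _ _)), (R.σ_neg _ _).trans (congrArg _ e')⟩
  · exact ⟨R.σ_neg _ _, R.σ_neg_α j⟩
  · exact absurd rfl h1

theorem Rk.rt_W {i j : I} (h : cm R i j = 3) {v : Equiv.Perm Φ} (hv : v ∈ WJ R {i, j}) :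
    ∃ π : Equiv.Perm (Fin 3), ∀ a b, a ≠ b → v (rt R i j a b) = rt R i j (π a) (π b) := by
  refine WJ_ind (P := fun v => ∃ π : Equiv.Perm (Fin 3), ∀ a b, a ≠ b →
    v (rt R i j a b) = rt R i j (π a) (π b)) ⟨1, fun _ _ _ => rfl⟩ ?_ hv
  rintro u l (rfl | rfl) ⟨π, e⟩
  · exact ⟨π * Equiv.swap 0 1, fun a b ab => by
      rw [Equiv.Perm.mul_apply, (rt_σ h ab).1, e _ _ ((Equiv.injective _).ne ab)]; rfl⟩
  · exact ⟨π * Equiv.swap 1 2, fun a b ab => by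
      rw [Equiv.Perm.mul_apply, (rt_σ h ab).2, e _ _ ((Equiv.injective _).ne ab)]; rfl⟩

theorem Rk.W_rt {i j : I} (h : cm R i j = 3) (π : Equiv.Perm (Fin 3)) :
    ∃ v ∈ WJ R {i, j}, ∀ a b, a ≠ b → v (rt R i j a b) = rt R i j (π a) (π b) := by
  have m : ∀ π π' : Equiv.Perm (Fin 3),
      (∃ v ∈ WJ R {i, j}, ∀ a b, a ≠ b → v (rt R i j a b) = rt R i j (π a) (π b)) →
      (∃ v ∈ WJ R {i, j}, ∀ a b, a ≠ b → v (rt R i j a b) = rt R i j (π' a) (π' b)) →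
      ∃ v ∈ WJ R {i, j}, ∀ a b, a ≠ b → v (rt R i j a b) = rt R i j ((π * π') a) ((π * π') b) := by
    rintro π π' ⟨v, hv, e⟩ ⟨v', hv', e'⟩
    exact ⟨v * v', mul_mem hv hv', fun a b ab => by
      rw [Equiv.Perm.mul_apply, e' a b ab, e _ _ ((Equiv.injective _).ne ab)]; rfl⟩
  have s := (⟨_, σ_mem (.inl rfl), fun a b ab => (rt_σ h ab).1⟩ : ∃ v ∈ WJ R {i, j}, ∀ a b, a ≠ b →
    v (rt R i j a b) = rt R i j (Equiv.swap (0 : Fin 3) 1 a) (Equiv.swap (0 : Fin 3) 1 b))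
  have t := (⟨_, σ_mem (.inr rfl), fun a b ab => (rt_σ h ab).2⟩ : ∃ v ∈ WJ R {i, j}, ∀ a b, a ≠ b →
    v (rt R i j a b) = rt R i j (Equiv.swap (1 : Fin 3) 2 a) (Equiv.swap (1 : Fin 3) 2 b))
  rcases (by revert π; decide : π = Equiv.swap 0 1 * Equiv.swap 0 1 ∨ π = Equiv.swap 0 1 ∨ π = Equiv.swap 1 2 ∨
    π = Equiv.swap 0 1 * Equiv.swap 1 2 ∨ π = Equiv.swap 1 2 * Equiv.swap 0 1 ∨
    π = Equiv.swap 0 1 * Equiv.swap 1 2 * Equiv.swap 0 1) with rfl | rfl | rfl | rfl | rfl | rfl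
  exacts [m _ _ s s, s, t, m _ _ s t, m _ _ t s, m _ _ (m _ _ s t) s]

theorem rt_inJ {i j : I} (h : cm R i j = 3) {r : Φ} :
    InJ R {i, j} r ↔ ∃ a b, a ≠ b ∧ rt R i j a b = r := by
  constructor
  · rintro ⟨v, hv, l, hl, rfl⟩
    obtain ⟨π, e⟩ := rt_W h hv
    rcases hl with rfl | rfl
    · exact ⟨_, _, π.injective.ne (by decide), (e 0 1 (by decide)).symm⟩
    · exact ⟨_, _, π.injective.ne (by decide), (e 1 2 (by decide)).symm⟩
  · rintro ⟨a, b, ab, rfl⟩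
    obtain ⟨π, rfl, rfl⟩ : ∃ π : Equiv.Perm (Fin 3), π 0 = a ∧ π 1 = b := by revert a b; decide
    obtain ⟨v, hv, e⟩ := W_rt h π
    exact ⟨v, hv, i, .inl rfl, e 0 1 (by decide)⟩

theorem rt_inj {i j : I} (h : cm R i j = 3) {a b c d : Fin 3} (h1 : a ≠ b) (h2 : c ≠ d)
    (e : rt R i j a b = rt R i j c d) : a = c ∧ b = d := by
  have : ∀ π : Equiv.Perm (Fin 3), π a < π b ↔ π c < π d := fun π => by
    obtain ⟨v, -, e'⟩ := W_rt h π
    rw [← rt_pos h (π.injective.ne h1), ← rt_pos h (π.injective.ne h2), ← e' a b h1, ← e' c d h2, e]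
  clear e
  revert a b c d
  decide

theorem Rk.rt_sub {i j : I} (h : cm R i j = 3) {a b c d : Fin 3} (h1 : a ≠ b) (h2 : c ≠ d)
    (h3 : ¬ (c = a ∧ d = b)) (h4 : ¬ (c = b ∧ d = a)) {k : Φ} (hk : k ∈ R.Itv (rt R i j a b) (rt R i j c d)) :
    a = d ∧ k = rt R i j c b ∨ b = c ∧ k = rt R i j a d := by
  have n2 : rt R i j c d ≠ R.neg (rt R i j a b) := fun e => h4 (rt_inj h h2 h1.symm (e.trans (rt_neg i j h1)))
  obtain ⟨k1, k2, k3⟩ := itv_sub_icc (fun e => h3 (rt_inj h h2 h1 e)) n2 hk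
  obtain ⟨e, f, ef, rfl⟩ := (rt_inJ h).1 (icc_inJ ((rt_inJ h).2 ⟨a, b, h1, rfl⟩) ((rt_inJ h).2 ⟨c, d, h2, rfl⟩) n2 k1)
  have : ∀ π : Equiv.Perm (Fin 3), π a < π b → π c < π d → π e < π f := fun π => by
    obtain ⟨v, hv, e'⟩ := W_rt h π
    rw [← rt_pos h (π.injective.ne h1), ← rt_pos h (π.injective.ne h2), ← rt_pos h (π.injective.ne ef),
      ← e' a b h1, ← e' c d h2, ← e' e f ef]
    exact k1 v (WJ_le _ hv)
  have k2' : ¬ (e = a ∧ f = b) := fun ⟨e1, e2⟩ => k2 (by rw [e1, e2])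
  have k3' : ¬ (e = c ∧ f = d) := fun ⟨e1, e2⟩ => k3 (by rw [e1, e2])
  have : a = d ∧ e = c ∧ f = b ∨ b = c ∧ e = a ∧ f = d := by
    clear k1 k2 k3 hk n2
    revert a b c d e f
    decide
  rcases this with ⟨e1, rfl, rfl⟩ | ⟨e1, rfl, rfl⟩
  exacts [.inl ⟨e1, rfl⟩, .inr ⟨e1, rfl⟩]

theorem rt_itv0 {i j : I} (h : cm R i j = 3) {a b c d : Fin 3} (h1 : a ≠ b) (h2 : c ≠ d)
    (h3 : a ≠ d) (h4 : b ≠ c) (h5 : ¬ (a = c ∧ b = d)) :
    R.Itv (rt R i j a b) (rt R i j c d) = ∅ :=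
  Set.eq_empty_of_forall_notMem fun _ hk =>
    (rt_sub h h1 h2 (fun e => h5 ⟨e.1.symm, e.2.symm⟩) (fun e => h4 e.1.symm) hk).elim (h3 ·.1) (h4 ·.1)

theorem rt_itv1 (hF : Full R) {i j : I} (h : cm R i j = 3) {a b c : Fin 3} (h1 : a ≠ b)
    (h2 : b ≠ c) (h3 : a ≠ c) : R.Itv (rt R i j a b) (rt R i j b c) = {rt R i j a c} := by
  refine Set.eq_singleton_iff_unique_mem.2 ⟨?_, fun k hk =>
    ((rt_sub h h1 h2 (fun e => h1 e.1.symm) (fun e => h3 e.2.symm) hk).resolve_left (h3 ·.1)).2⟩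
  refine mem_itv hF ((rt_inJ h).2 ⟨a, b, h1, rfl⟩) ((rt_inJ h).2 ⟨b, c, h2, rfl⟩) ((rt_inJ h).2 ⟨a, c, h3, rfl⟩)
    (fun e => h1 (rt_inj h h2 h1 e).1.symm)
    (fun e => h3 (rt_inj h h2 h1.symm (e.trans (rt_neg i j h1))).2.symm)
    (fun e => h2 (rt_inj h h3 h1 e).2.symm) (fun e => h1 (rt_inj h h3 h2 e).1) fun v hv => ?_
  obtain ⟨π, e⟩ := rt_W h hv
  rw [e a b h1, e b c h2, e a c h3, rt_pos h (π.injective.ne h1), rt_pos h (π.injective.ne h2),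
    rt_pos h (π.injective.ne h3)]
  exact lt_trans

theorem rho_neg (j k : I) (n : ZMod 8) : R.neg (rho R j k n) = rho R j k (n + 4) := by
  rcases z8 n with rfl | rfl | rfl | rfl | rfl | rfl | rfl | rfl <;> first | rfl | exact R.neg_neg _

theorem rho_pos {j k : I} (h : cm R j k = 4) (n : ZMod 8) :
    R.Pos (rho R j k n) ↔ n ∈ ({1, 2, 3, 4} : Set (ZMod 8)) := by
  have jk : R.α j ≠ R.α k := α_ne (by omega)
  have hc := R.σ_pos (i := j) (R.pos_α k) jk.symm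
  have hd := R.σ_pos (i := k) (R.pos_α j) jk
  show _ ↔ S n
  rcases z8 n with rfl | rfl | rfl | rfl | rfl | rfl | rfl | rfl
  · exact iff_of_false (R.not_pos_neg_α _) (by decide)
  · exact iff_of_true (R.pos_α _) (by decide)
  · exact iff_of_true hc (by decide)
  · exact iff_of_true hd (by decide)
  · exact iff_of_true (R.pos_α _) (by decide)
  · exact iff_of_false (R.not_pos_neg_α _) (by decide)
  · exact iff_of_false ((R.not_pos_neg_iff _).2 hc) (by decide)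
  · exact iff_of_false ((R.not_pos_neg_iff _).2 hd) (by decide)

theorem rho_σ {j k : I} (h : cm R j k = 4) (n : ZMod 8) :
    R.σ j (rho R j k n) = rho R j k (6 - n) ∧ R.σ k (rho R j k n) = rho R j k (4 - n) := by
  have e := fix4 h
  have e' := fix4 ((cm_symm k j).trans h)
  rcases z8 n with rfl | rfl | rfl | rfl | rfl | rfl | rfl | rfl
  · exact ⟨R.σ_neg _ _, R.σ_neg_α _⟩
  · exact ⟨R.σ_α _, rfl⟩
  · exact ⟨R.σ_σ _ _, e'⟩
  · exact ⟨e, R.σ_σ _ _⟩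
  · exact ⟨rfl, R.σ_α _⟩
  · exact ⟨R.σ_neg_α _, R.σ_neg _ _⟩
  · exact ⟨(R.σ_neg _ _).trans (congrArg _ (R.σ_σ _ _)), (R.σ_neg _ _).trans (congrArg _ e')⟩
  · exact ⟨(R.σ_neg _ _).trans (congrArg _ e), (R.σ_neg _ _).trans (congrArg _ (R.σ_σ _ _))⟩

theorem Rk.pat_σ {j k : I} (h : cm R j k = 4) {u : Equiv.Perm Φ} {m : ZMod 8}
    (e : ∀ n, R.Pos (u (rho R j k n)) ↔ S (n - m)) :
    (∀ n, R.Pos ((u * R.σ j) (rho R j k n)) ↔ S (n - (1 - m))) ∧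
      ∀ n, R.Pos ((u * R.σ k) (rho R j k n)) ↔ S (n - (-1 - m)) := by
  refine ⟨fun n => ?_, fun n => ?_⟩
  · rw [Equiv.Perm.mul_apply, (rho_σ h n).1, e]
    clear e
    revert n m
    decide
  · rw [Equiv.Perm.mul_apply, (rho_σ h n).2, e]
    clear e
    revert n m
    decide

theorem Rk.rho_W {j k : I} (h : cm R j k = 4) {v : Equiv.Perm Φ} (hv : v ∈ WJ R {j, k}) :
    ∃ m, ∀ n, R.Pos (v (rho R j k n)) ↔ S (n - m) := by
  refine WJ_ind (P := fun v => ∃ m, ∀ n, R.Pos (v (rho R j k n)) ↔ S (n - m))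
    ⟨0, fun n => by rw [sub_zero]; exact rho_pos h n⟩ ?_ hv
  rintro u l (rfl | rfl) ⟨m, e⟩
  exacts [⟨_, (pat_σ h e).1⟩, ⟨_, (pat_σ h e).2⟩]

theorem Rk.W_rho {j k : I} (h : cm R j k = 4) (m : ZMod 8) :
    ∃ v ∈ R.W, ∀ n, R.Pos (v (rho R j k n)) ↔ S (n - m) := by
  have s : ∀ m m', (∃ v ∈ R.W, ∀ n, R.Pos (v (rho R j k n)) ↔ S (n - m)) → (m' = 1 - m ∨ m' = -1 - m) →
      ∃ v ∈ R.W, ∀ n, R.Pos (v (rho R j k n)) ↔ S (n - m') := by
    rintro m _ ⟨v, hv, e⟩ (rfl | rfl)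
    exacts [⟨_, mul_mem hv (R.σ_mem_W j), (pat_σ h e).1⟩, ⟨_, mul_mem hv (R.σ_mem_W k), (pat_σ h e).2⟩]
  have h0 : ∃ v ∈ R.W, ∀ n, R.Pos (v (rho R j k n)) ↔ S (n - 0) :=
    ⟨1, one_mem _, fun n => by rw [sub_zero]; exact rho_pos h n⟩
  have h1 := s 0 1 h0 (by decide)
  have h7 := s 0 7 h0 (by decide)
  have h2 := s 7 2 h7 (by decide)
  have h6 := s 1 6 h1 (by decide)
  have h5 := s 2 5 h2 (by decide)
  have h3 := s 6 3 h6 (by decide)
  have h4 := s 5 4 h5 (by decide)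
  rcases z8 m with rfl | rfl | rfl | rfl | rfl | rfl | rfl | rfl <;> assumption

theorem rho_inJ {j k : I} (h : cm R j k = 4) {r : Φ} :
    InJ R {j, k} r ↔ ∃ n, rho R j k n = r := by
  constructor
  · rintro ⟨v, hv, l, hl, rfl⟩
    have := WJ_ind (P := fun v => ∀ n, ∃ n', rho R j k n' = v (rho R j k n)) (fun n => ⟨n, rfl⟩) (by
      rintro u l (rfl | rfl) e n
      · rw [Equiv.Perm.mul_apply, (rho_σ h n).1]
        exact e _
      · rw [Equiv.Perm.mul_apply, (rho_σ h n).2]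
        exact e _) hv
    rcases hl with rfl | rfl
    exacts [this 1, this 4]
  · rintro ⟨n, rfl⟩
    have a : InJ R {j, k} (R.α j) := inJ_α (.inl rfl)
    have b : InJ R {j, k} (R.α k) := inJ_α (.inr rfl)
    have c := b.smul (σ_mem (J := {j, k}) (.inl rfl))
    have d := a.smul (σ_mem (J := {j, k}) (.inr rfl))
    rcases z8 n with rfl | rfl | rfl | rfl | rfl | rfl | rfl | rfl
    exacts [b.neg, a, c, d, b, a.neg, c.neg, d.neg]

theorem rho_inj {j k : I} (h : cm R j k = 4) : Function.Injective (rho R j k) := fun a b e => by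
  have : ∀ m, S (a - m) ↔ S (b - m) := fun m => by
    obtain ⟨v, -, e'⟩ := W_rho h m
    rw [← e', ← e', e]
  clear e
  revert a b
  decide

theorem Rk.rho_mem (hF : Full R) {j k : I} (h : cm R j k = 4) {a b : ZMod 8} (h1 : b ≠ a) (h2 : b ≠ a + 4)
    {x : Φ} : x ∈ R.Itv (rho R j k a) (rho R j k b) ↔
      ∃ l, rho R j k l = x ∧ l ≠ a ∧ l ≠ b ∧ ∀ m, S (a - m) → S (b - m) → S (l - m) := by
  have n1 := (rho_inj h).ne h1
  have n2 : rho R j k b ≠ R.neg (rho R j k a) := by rw [rho_neg]; exact (rho_inj h).ne h2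
  have J := fun n => (rho_inJ h).2 ⟨n, rfl⟩
  constructor
  · intro hx
    obtain ⟨k1, k2, k3⟩ := itv_sub_icc n1 n2 hx
    obtain ⟨l, rfl⟩ := (rho_inJ h).1 (icc_inJ (J a) (J b) n2 k1)
    refine ⟨l, rfl, fun e => k2 (by rw [e]), fun e => k3 (by rw [e]), fun m => ?_⟩
    obtain ⟨v, hv, e⟩ := W_rho h m
    rw [← e, ← e, ← e]
    exact k1 v hv
  · rintro ⟨l, rfl, l1, l2, l3⟩
    refine mem_itv hF (J a) (J b) (J l) n1 n2 ((rho_inj h).ne l1) ((rho_inj h).ne l2) fun v hv => ?_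
    obtain ⟨m, e⟩ := rho_W h hv
    rw [e, e, e]
    exact l3 m

theorem rho_itv (hF : Full R) {j k : I} (h : cm R j k = 4) (n : ZMod 8) :
    R.Itv (rho R j k n) (rho R j k (n + 1)) = ∅ ∧
    R.Itv (rho R j k n) (rho R j k (n + 2)) = {rho R j k (n + 1)} ∧
    R.Itv (rho R j k n) (rho R j k (n + 3)) = {rho R j k (n + 1), rho R j k (n + 2)} := by
  refine ⟨Set.ext fun x => ?_, Set.ext fun x => ?_, Set.ext fun x => ?_⟩ <;>
    rw [rho_mem hF h (by revert n; decide) (by revert n; decide)]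
  · have : ∀ l, ¬ (l ≠ n ∧ l ≠ n + 1 ∧ ∀ m, S (n - m) → S (n + 1 - m) → S (l - m)) := by revert n; decide
    simp only [this, and_false, exists_false, Set.mem_empty_iff_false]
  · have : ∀ l, (l ≠ n ∧ l ≠ n + 2 ∧ ∀ m, S (n - m) → S (n + 2 - m) → S (l - m)) ↔ l = n + 1 := by
      revert n; decide
    simp only [this, exists_eq_right, Set.mem_singleton_iff, eq_comm]
  · have : ∀ l, (l ≠ n ∧ l ≠ n + 3 ∧ ∀ m, S (n - m) → S (n + 3 - m) → S (l - m)) ↔ l = n + 1 ∨ l = n + 2 := by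
      revert n; decide
    simp only [this, and_or_left, exists_or, exists_eq_right, Set.mem_insert_iff, Set.mem_singleton_iff, eq_comm]

end Tits
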