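import Mathlib
import Cfsg.Agent.Lib.Tits.Rk
import Cfsg.Agent.Lib.Stein.SLaced

set_option autoImplicit false

open scoped commutatorElement

namespace Tits

open H63.St Cfsg

variable {Φ I : Type*} {R : Roots Φ I} [Finite Φ] {G G' : Type*} [Group G] [Group G']

namespace WinP

variable {j k : I}

lemma rot (h : cm R j k = 4) (s : ZMod 8) :
    ∃ w ∈ R.W, ∀ n, w (rho R j k n) = rho R j k (n + 2 * s) := by
  have key : ∀ t : ℕ, ∃ w ∈ R.W, ∀ n, w (rho R j k n) = rho R j k (n + 2 * t) := by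
    intro t
    induction t with
    | zero => exact ⟨1, one_mem _, fun n => by simp⟩
    | succ t ih =>
      obtain ⟨w, hw, e⟩ := ih
      refine ⟨R.σ j * R.σ k * w, mul_mem (mul_mem (R.σ_mem_W j) (R.σ_mem_W k)) hw, fun n => ?_⟩
      rw [Equiv.Perm.mul_apply, Equiv.Perm.mul_apply, e, (rho_σ h _).2, (rho_σ h _).1]
      congr 1
      push_cast
      ring
  simpa using key s.val

lemma rfl' (h : cm R j k = 4) (s : ZMod 8) :
    ∃ w ∈ R.W, ∀ n, w (rho R j k n) = rho R j k (4 - (n + 2 * s)) := by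
  obtain ⟨w, hw, e⟩ := rot h s
  exact ⟨R.σ k * w, mul_mem (R.σ_mem_W k) hw, fun n => by
    rw [Equiv.Perm.mul_apply, e, (rho_σ h _).2]⟩

lemma refl_rho (h : cm R j k = 4) (i n : ZMod 8) :
    R.refl (rho R j k i) (rho R j k n) = rho R j k (2 * i + 4 - n) := by
  have c : ∀ i : ZMod 8, ∃ s, i = 1 + 2 * s ∨ i = 4 + 2 * s := by decide
  have z : (8 : ZMod 8) = 0 := rfl
  obtain ⟨s, hs⟩ := c i
  obtain ⟨w, hw, e⟩ := rot h s
  obtain ⟨m, rfl⟩ : ∃ m, n = m + 2 * s := ⟨n - 2 * s, by ring⟩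
  rcases hs with rfl | rfl
  · rw [← e, ← e, Roots.W_refl hw]
    change w (R.σ j _) = _
    rw [(rho_σ h _).1, e]
    congr 1
    ring
  · rw [← e, ← e, Roots.W_refl hw]
    change w (R.σ k _) = _
    rw [(rho_σ h _).2, e]
    congr 1
    linear_combination -z

lemma sep (h : cm R j k = 4) (i : ZMod 8) : ∃ w ∈ R.W, ¬ R.Pos (w (rho R j k i)) ∧
    R.Pos (w (rho R j k (i + 1))) ∧ R.Pos (w (rho R j k (i + 2))) ∧
      R.Pos (w (rho R j k (i + 3))) := by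
  have c : ∀ i : ZMod 8, ∃ s, (i + 2 * s = 0 ∧ i + 1 + 2 * s = 1 ∧ i + 2 + 2 * s = 2 ∧
      i + 3 + 2 * s = 3) ∨ (4 - (i + 2 * s) = 5 ∧ 4 - (i + 1 + 2 * s) = 4 ∧
        4 - (i + 2 + 2 * s) = 3 ∧ 4 - (i + 3 + 2 * s) = 2) := by decide
  obtain ⟨s, ⟨h0, h1, h2, h3⟩ | ⟨h0, h1, h2, h3⟩⟩ := c i
  · obtain ⟨w, hw, e⟩ := rot h s
    refine ⟨w, hw, ?_⟩
    simp only [e, h0, h1, h2, h3, rho_pos h, Set.mem_insert_iff, Set.mem_singleton_iff]
    decide
  · obtain ⟨w, hw, e⟩ := rfl' h s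
    refine ⟨w, hw, ?_⟩
    simp only [e, h0, h1, h2, h3, rho_pos h, Set.mem_insert_iff, Set.mem_singleton_iff]
    decide

lemma first {E : RGD R G} (hE : E.Faith) (h : cm R j k = 4) (i : ZMod 8) {a b c d : G}
    (ha : a ∈ E.X (rho R j k i)) (hb : b ∈ E.X (rho R j k (i + 1)))
    (hc : c ∈ E.X (rho R j k (i + 2))) (hd : d ∈ E.X (rho R j k (i + 3)))
    (e : a * b * c * d = 1) : a = 1 := by
  obtain ⟨w, hw, h0, h1, h2, h3⟩ := sep h i
  obtain ⟨g, hg⟩ := E.exists_acts hw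
  have k1 : g * a * g⁻¹ = (g * b * g⁻¹ * (g * c * g⁻¹) * (g * d * g⁻¹))⁻¹ := by
    rw [show a = (b * c * d)⁻¹ from eq_inv_of_mul_eq_one_left (by rw [← e]; group)]; group
  have k2 : g * a * g⁻¹ ∈ E.U := by
    rw [k1]
    exact inv_mem (mul_mem (mul_mem (E.mem_U h1 (hg.conj_mem hb)) (E.mem_U h2 (hg.conj_mem hc)))
      (E.mem_U h3 (hg.conj_mem hd)))
  simpa using hE _ k2 (E.mem_V h0 (hg.conj_mem ha))

lemma cm' (E : RGD R G) (h : cm R j k = 4) {n m : ZMod 8} (h1 : n ≠ m) (h2 : m ≠ n + 4) {x y : G}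
    (hx : x ∈ E.X (rho R j k n)) (hy : y ∈ E.X (rho R j k m)) :
    ⁅x, y⁆ ∈ XS E.X (R.Itv (rho R j k n) (rho R j k m)) :=
  E.comm_mem' ((rho_inj h).ne h1) (by rw [rho_neg]; exact (rho_inj h).ne h2) hx hy

lemma c1 (hF : Full R) (E : RGD R G) (h : cm R j k = 4) (i : ZMod 8) {x y : G}
    (hx : x ∈ E.X (rho R j k i)) (hy : y ∈ E.X (rho R j k (i + 1))) : Commute x y := by
  have c : ∀ i : ZMod 8, i ≠ i + 1 ∧ i + 1 ≠ i + 4 := by decide
  have := cm' E h (c i).1 (c i).2 hx hy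
  rw [(rho_itv hF h i).1, XS_empty, Subgroup.mem_bot] at this
  exact commutatorElement_eq_one_iff_commute.1 this

end WinP

open WinP

theorem exists_win (hF : Full R) {E : RGD R G} (hE : E.Faith) {j k : I} (h : cm R j k = 4) :
    ∃ W : Win G, ∀ n, W.U n = E.X (rho R j k n) := by
  refine ⟨⟨fun n => E.X (rho R j k n), fun i x hx y hy => c1 hF E h i hx hy,
    fun i x hx y hy => ?_, fun i x hx y hy => ?_, fun i a ha b hb c hc d hd e => ?_, fun i => ?_,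
    fun i x hx h1 => ?_⟩, fun _ => rfl⟩
  · have c : ∀ i : ZMod 8, i ≠ i + 2 ∧ i + 2 ≠ i + 4 := by decide
    have := cm' E h (c i).1 (c i).2 hx hy
    rwa [(rho_itv hF h i).2.1, XS_singleton] at this
  · have c : ∀ i : ZMod 8, i ≠ i + 3 ∧ i + 3 ≠ i + 4 ∧ i + 2 = i + 1 + 1 := by decide
    have := cm' E h (c i).1 (c i).2.1 hx hy
    rw [(rho_itv hF h i).2.2, XS_insert, XS_singleton] at this
    refine exists_mul_of_mem_sup (fun g hg a ha => ?_) this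
    rw [(c1 hF E h (i + 1) hg ((c i).2.2 ▸ ha)).eq, mul_inv_cancel_right]
    exact ha
  · have z : ∀ i : ZMod 8, i + 1 + 1 = i + 2 ∧ i + 1 + 2 = i + 3 ∧ i + 2 + 1 = i + 3 := by decide
    have a1 := first hE h i ha hb hc hd e
    subst a1
    have b1 := first hE h (i + 1) hb ((z i).1.symm ▸ hc) ((z i).2.1.symm ▸ hd) (one_mem _)
      (by simpa using e)
    subst b1
    have c1 := first hE h (i + 2) hc ((z i).2.2.symm ▸ hd) (one_mem _) (one_mem _)
      (by simpa using e)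
    subst c1
    exact ⟨rfl, rfl, rfl, by simpa using e⟩
  · obtain ⟨w, hw, l, e⟩ := R.exists_W_α (rho R j k i)
    obtain ⟨g, hg⟩ := E.exists_acts hw
    obtain ⟨x, hx, h1⟩ := E.exists_ne_one l
    exact ⟨g * x * g⁻¹, e ▸ hg.conj_mem hx, by simpa using h1⟩
  · obtain ⟨u, hu, u', hu', a⟩ := E.rgd2' hx h1
    rw [rho_neg] at hu hu'
    exact ⟨u, hu, u', hu', fun n y => by rw [← refl_rho h]; exact a _ _⟩

theorem loc_of_win (hF : Full R) {E : RGD R G} {E' : RGD R G'} {j k : I} (h : cm R j k = 4)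
    (V : Win (G × G')) (hV : ∀ n, Gr (V.U n) (E.X (rho R j k n)) (E'.X (rho R j k n))) :
    ∃ Y, Loc E E' {j, k} Y := by
  classical
  obtain ⟨Y, hY⟩ : ∃ Y : Φ → Subgroup (G × G'), ∀ n, Y (rho R j k n) = V.U n :=
    ⟨fun r => V.U (Function.invFun (rho R j k) r), fun n => by
      simp only [Function.leftInverse_invFun (rho_inj h) n]⟩
  have key : ∀ n d : ZMod 8, d = 1 ∨ d = 2 ∨ d = 3 → ∀ x ∈ V.U n, ∀ y ∈ V.U (n + d),
      ⁅x, y⁆ ∈ XS Y (R.Itv (rho R j k n) (rho R j k (n + d))) := by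
    rintro n d (rfl | rfl | rfl) x hx y hy
    · rw [commutatorElement_eq_one_iff_commute.2 (V.c1 n x hx y hy)]; exact one_mem _
    · rw [(rho_itv hF h n).2.1, XS_singleton, hY]; exact V.c2 n x hx y hy
    · obtain ⟨a, ha, b, hb, e⟩ := V.c3 n x hx y hy
      rw [(rho_itv hF h n).2.2, XS_insert, XS_singleton, hY, hY, e]
      exact mul_mem (Subgroup.mem_sup_left ha) (Subgroup.mem_sup_right hb)
  have act : ∀ i n₀, R.α i = rho R j k n₀ → ∀ x ∈ Y (R.α i), x ≠ 1 →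
      ∃ u ∈ Y (R.neg (R.α i)), ∃ u' ∈ Y (R.neg (R.α i)), ∀ r, InJ R {j, k} r → ∀ y,
        y ∈ Y r ↔ (u * x * u') * y * (u * x * u')⁻¹ ∈ Y (R.σ i r) := by
    intro i n₀ e x hx h1
    rw [e, hY] at hx
    obtain ⟨u, hu, u', hu', a⟩ := V.mu n₀ x hx h1
    rw [e, rho_neg, hY]
    refine ⟨u, hu, u', hu', fun r hr y => ?_⟩
    obtain ⟨n, rfl⟩ := (rho_inJ h).1 hr
    rw [Roots.σ, e, refl_rho h, hY, hY]
    exact a n y
  refine ⟨Y, fun r hr => ?_, fun r s hr hs h1 h2 x hx y hy => ?_, fun i hi => ?_⟩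
  · obtain ⟨n, rfl⟩ := (rho_inJ h).1 hr
    rw [hY]; exact hV n
  · obtain ⟨n, rfl⟩ := (rho_inJ h).1 hr
    obtain ⟨m, rfl⟩ := (rho_inJ h).1 hs
    rw [hY] at hx hy
    have c : ∀ n m : ZMod 8, m ≠ n → m ≠ n + 4 →
        ∃ d, (d = 1 ∨ d = 2 ∨ d = 3) ∧ (m = n + d ∨ n = m + d) := by decide
    obtain ⟨d, hd, rfl | rfl⟩ := c n m (fun e => h1 (by rw [e])) fun e => h2 (by rw [e, rho_neg])
    · exact key n d hd x hx y hy
    · rw [← commutatorElement_inv, Roots.itv_comm]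
      exact inv_mem (key m d hd y hy x hx)
  · rcases hi with rfl | rfl
    · exact act i 1 rfl
    · exact act i 4 rfl

theorem q_eq {E : RGD R G} {i j : I} (h : cm R i j = 3) : q E i = q E j := by
  have a := (E.acts_n i).mul (E.acts_n j)
  refine card_eq_of_conj (g := E.n i * E.n j) fun x => ?_
  rw [← (σσ_of_three h).1]
  exact a _ x

theorem A2.card {E : RGD R G} {i j : I} {K : Type} [Field K] [Fintype K] (h : A2 E i j K) :
    q E i = Fintype.card K ∧ q E j = Fintype.card K := by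
  obtain ⟨S, hS⟩ := h
  have key : ∀ a b, a ≠ b → Nat.card (E.X (rt R i j a b)) = Fintype.card K := fun a b e => by
    rw [← Nat.card_eq_fintype_card, ← Nat.card_range_of_injective (hS a b e).1, (hS a b e).2]
    rfl
  exact ⟨key 0 1 (by decide), key 1 2 (by decide)⟩

end Tits
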