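import Mathlib
import Cfsg.Agent.Lib.Tits.NiceC
import Cfsg.Agent.Lib.Tits.Win
import Cfsg.Agent.Lib.Stein.SLn

set_option autoImplicit false

open scoped commutatorElement

namespace Tits

open H63.St Cfsg

namespace ModA

variable {ι K G : Type*} [Field K] [Group G]

theorem pull (S : PreStA ι K G) {e : Fin 3 → ι} (he : Function.Injective e) :
    ∃ T : PreStA (Fin 3) K G, ∀ a b t, T.x a b t = S.x (e a) (e b) t :=
  ⟨⟨fun a b => S.x (e a) (e b), fun h => S.add (he.ne h),
    fun h1 h2 h3 h4 => S.c0 (he.ne h1) (he.ne h2) (he.ne h3) (he.ne h4),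
    fun h1 h2 h3 => S.c1 (he.ne h1) (he.ne h2) (he.ne h3)⟩, fun _ _ _ => rfl⟩

theorem flip (S : PreStA ι K G) : ∃ T : PreStA ι K G, ∀ a b t, T.x a b t = S.x b a (-t) :=
  ⟨⟨fun a b t => S.x b a (-t), fun h a b => by rw [S.add h.symm, neg_add],
    fun h1 h2 h3 h4 _ _ => S.c0 h1.symm h2.symm h4 h3 _ _, fun h1 h2 h3 t u => by
      rw [← commutatorElement_inv, S.c1 h2.symm h1.symm h3.symm, ← S.x_neg h3.symm, neg_mul_neg,
        mul_comm]⟩, fun _ _ _ => rfl⟩

theorem tv_inj [Fintype ι] [DecidableEq ι] {i j : ι} (h : i ≠ j) :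
    Function.Injective (SL.tv (K := K) i j) := fun a b e => by
  have := congrArg (fun g : Matrix.SpecialLinearGroup ι K => g.1 i j) e
  simpa [SL.coe_tv h] using this

theorem σ_val {n : ℕ} (i : Fin n) (r : PA n) : ((VA n).toRoots.σ i r).1 =
    (Equiv.swap i.castSucc i.succ r.1.1, Equiv.swap i.castSucc i.succ r.1.2) := rfl

theorem a2 {n : ℕ} (K : Type) [Field K] {i j : Fin n} (h : i.1 + 1 = j.1 ∨ j.1 + 1 = i.1) :
    A2 (SL.E n K) i j K := by
  rcases h with h | h
  · have e0 : j.castSucc = i.succ := Fin.ext (by simp [h])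
    have n1 : j.succ ≠ i.castSucc := fun e => by have := congrArg Fin.val e; simp at this; omega
    have n2 : j.succ ≠ i.succ := fun e => by have := congrArg Fin.val e; simp at this; omega
    have he : Function.Injective ![i.castSucc, i.succ, j.succ] := fun a b e => by
      have := congrArg Fin.val e
      fin_cases a <;> fin_cases b <;> simp at this ⊢ <;> omega
    have s : ((VA n).toRoots.σ i ((VA n).toRoots.α j)).1 = (i.castSucc, j.succ) := by
      rw [σ_val]
      change (Equiv.swap _ _ j.castSucc, Equiv.swap _ _ j.succ) = _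
      rw [e0, Equiv.swap_apply_right, Equiv.swap_apply_of_ne_of_ne n1 n2]
    obtain ⟨T, hT⟩ := pull (SL.st (Fin (n + 1)) K).toPreStA he
    have r : ∀ a b, a ≠ b → (rt (VA n).toRoots i j a b).1 =
        (![i.castSucc, i.succ, j.succ] a, ![i.castSucc, i.succ, j.succ] b) := fun a b hab => by
      fin_cases a <;> fin_cases b
      exacts [absurd rfl hab, rfl, s, rfl, absurd rfl hab, Prod.ext e0 rfl,
        congrArg Prod.swap s, Prod.ext rfl e0, absurd rfl hab]
    refine ⟨T, fun a b hab => ⟨fun t u e => tv_inj (he.ne hab) (by rw [hT, hT] at e; exact e), ?_⟩⟩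
    ext g
    rw [SetLike.mem_coe, SL.mem_X, r a b hab]
    exact exists_congr fun t => by rw [hT]; rfl
  · have e0 : j.succ = i.castSucc := Fin.ext (by simp [h])
    have n1 : j.castSucc ≠ i.castSucc := fun e => by have := congrArg Fin.val e; simp at this; omega
    have n2 : j.castSucc ≠ i.succ := fun e => by have := congrArg Fin.val e; simp at this; omega
    have he : Function.Injective ![i.succ, i.castSucc, j.castSucc] := fun a b e => by
      have := congrArg Fin.val e
      fin_cases a <;> fin_cases b <;> simp at this ⊢ <;> omega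
    have s : ((VA n).toRoots.σ i ((VA n).toRoots.α j)).1 = (j.castSucc, i.succ) := by
      rw [σ_val]
      change (Equiv.swap _ _ j.castSucc, Equiv.swap _ _ j.succ) = _
      rw [e0, Equiv.swap_apply_left, Equiv.swap_apply_of_ne_of_ne n1 n2]
    obtain ⟨T0, hT0⟩ := pull (SL.st (Fin (n + 1)) K).toPreStA he
    obtain ⟨T, hT⟩ := flip T0
    have r : ∀ a b, a ≠ b → (rt (VA n).toRoots i j a b).1 =
        (![i.succ, i.castSucc, j.castSucc] b, ![i.succ, i.castSucc, j.castSucc] a) := fun a b hab => by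
      fin_cases a <;> fin_cases b
      exacts [absurd rfl hab, rfl, s, rfl, absurd rfl hab, Prod.ext rfl e0,
        congrArg Prod.swap s, Prod.ext e0 rfl, absurd rfl hab]
    refine ⟨T, fun a b hab => ⟨fun t u e => neg_injective (tv_inj (he.ne hab.symm)
      (by rw [hT, hT, hT0, hT0] at e; exact e)), ?_⟩⟩
    ext g
    rw [SetLike.mem_coe, SL.mem_X, r a b hab]
    exact ⟨fun ⟨t, e⟩ => ⟨-t, by rw [← e, hT, hT0]; rfl⟩,
      fun ⟨t, e⟩ => ⟨-t, by rw [← e, hT, hT0, neg_neg]; rfl⟩⟩

end ModA

theorem model_A (K : Type) [Field K] [Fintype K] {n : ℕ} (h : 3 ≤ n) :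
    Model (mA n) fun E => ∀ i, q E i = Fintype.card K := by
  refine ⟨PA n, Matrix.SpecialLinearGroup (Fin (n + 1)) K, inferInstance, inferInstance, inferInstance,
    (VA n).toRoots, SL.E n K, cm_VA n, ⟨SL.faith, fun i j e => ⟨K, _, inferInstance, ModA.a2 K ?_⟩⟩,
    SL.top, .inl ⟨K, _, inferInstance, n + 1, by omega, by omega, ⟨MulEquiv.refl _⟩⟩, fun i => ?_⟩
  · rw [cm_VA, mA] at e
    by_contra k
    split_ifs at e <;> omega
  · rw [← Nat.card_eq_fintype_card]
    exact Nat.card_range_of_injective (ModA.tv_inj ((VA n).toRoots.α i).2)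

end Tits
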