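import Mathlib
import Cfsg.Agent.Lib.Tits.WJ

/-! Geometry of the building: galleries, convexity, parallel panels, rigidity (blueprint/TITS). -/

set_option autoImplicit false

open scoped commutatorElement

namespace Tits

open H63.St Cfsg

namespace Geo

variable {Φ I : Type*} {R : Roots Φ I}

theorem not_pos_σ (i : I) : ¬ R.Pos (R.σ i (R.α i)) := by
  rw [R.σ_α]; exact R.not_pos_neg_α i

theorem σ_ne_one (i : I) : R.σ i ≠ 1 := fun h => not_pos_σ i (by rw [h]; exact R.pos_α i)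

theorem mul_σ_ne (w : Equiv.Perm Φ) (i : I) : w * R.σ i ≠ w := fun h =>
  σ_ne_one i (mul_eq_left.1 h)

theorem mul_σσ (w : Equiv.Perm Φ) (i : I) : w * R.σ i * R.σ i = w := by
  rw [mul_assoc, R.σ_mul_self, mul_one]

theorem pos_mul_σ {w : Equiv.Perm Φ} (hw : w ∈ R.W) (i : I) :
    R.Pos ((w * R.σ i) (R.α i)) ↔ ¬ R.Pos (w (R.α i)) := by
  rw [Equiv.Perm.mul_apply, R.σ_α, Roots.W_neg hw, R.pos_neg]

theorem eq_α {i : I} {r : Φ} (h : R.Pos r) (h' : ¬ R.Pos (R.σ i r)) : r = R.α i := by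
  by_contra c
  exact h' (R.σ_pos h c)

theorem red_σ {u v : Equiv.Perm Φ} (hv : v ∈ R.W) {i : I} (h : Red R u v)
    (hi : ¬ R.Pos (v (R.α i))) : Red R u (v * R.σ i) := fun r hr h1 => by
  have : r ≠ R.α i := by
    rintro rfl
    exact h1 ((pos_mul_σ hv i).2 hi)
  exact h _ (R.σ_pos hr this) h1

theorem exists_wpJ {J : Set I} {w : Equiv.Perm Φ} (hw : w ∈ WJ R J) :
    ∃ L : List I, (∀ i ∈ L, i ∈ J) ∧ R.wp L = w := by
  have hw' : w ∈ Subgroup.closure (R.σ '' J) := hw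
  clear hw
  induction hw' using Subgroup.closure_induction with
  | mem x hx =>
    obtain ⟨i, hi, rfl⟩ := hx
    exact ⟨[i], by simpa using hi, R.wp_singleton i⟩
  | one => exact ⟨[], by simp, rfl⟩
  | mul x y _ _ h1 h2 =>
    obtain ⟨L, h, rfl⟩ := h1
    obtain ⟨L', h', rfl⟩ := h2
    exact ⟨L ++ L', fun i hi => (List.mem_append.1 hi).elim (h i) (h' i), R.wp_append _ _⟩
  | inv x _ h1 =>
    obtain ⟨L, h, rfl⟩ := h1
    exact ⟨L.reverse, fun i hi => h i (List.mem_reverse.1 hi), R.wp_reverse L⟩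

theorem descJ_aux {J : Set I} (n : ℕ) : ∀ L : List I, L.length ≤ n → (∀ i ∈ L, i ∈ J) →
    (∀ k ∈ J, R.Pos (R.wp L (R.α k))) → R.wp L = 1 := by
  induction n with
  | zero =>
    intro L h _ _
    rw [List.length_eq_zero_iff.1 (Nat.le_zero.1 h)]; rfl
  | succ n ih =>
    intro L h hJ hp
    rcases List.eq_nil_or_concat L with rfl | ⟨L', k, rfl⟩
    · rfl
    rw [List.concat_eq_append] at h hJ hp ⊢
    have h1 := hp k (hJ k (by simp))
    rw [R.wp_append, R.wp_singleton, pos_mul_σ (R.wp_mem_W _)] at h1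
    obtain ⟨L1, i, L2, rfl, e⟩ := Roots.flip (R.pos_α k) h1
    have e1 : R.wp (L1 ++ i :: L2 ++ [k]) = R.wp (L1 ++ L2) := by
      have := Roots.W_conj_σ (R.wp_mem_W L2) e
      rw [R.wp_append, R.wp_append, R.wp_append, R.wp_cons, R.wp_singleton, ← this]
      simp only [mul_assoc, inv_mul_cancel_left, R.σ_mul_self, mul_one]
    rw [e1] at hp ⊢
    refine ih _ ?_ (fun j hj => hJ j ?_) hp
    · simp only [List.length_append, List.length_cons, List.length_nil] at h ⊢; omega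
    · rcases List.mem_append.1 hj with c | c <;> simp [c]

theorem descJ {J : Set I} {w : Equiv.Perm Φ} (hw : w ∈ WJ R J) (h1 : w ≠ 1) :
    ∃ k ∈ J, ¬ R.Pos (w (R.α k)) := by
  obtain ⟨L, h, rfl⟩ := exists_wpJ hw
  by_contra c
  push Not at c
  exact h1 (descJ_aux _ L le_rfl h c)

theorem σ_mem_WJ {J : Set I} {i : I} (h : i ∈ J) : R.σ i ∈ WJ R J :=
  Subgroup.subset_closure ⟨i, h, rfl⟩

variable [Finite Φ]

theorem exists_α_eq {J : Set I} {i : I} (h : InJ R J (R.α i)) : ∃ k ∈ J, R.α k = R.α i := by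
  obtain ⟨w, hw, k, hk, e⟩ := h
  have : R.σ i ∈ WJ R J := by
    rw [← Roots.W_conj_σ (WJ_le J hw) e]
    exact mul_mem (mul_mem hw (σ_mem_WJ hk)) (inv_mem hw)
  obtain ⟨l, hl, e'⟩ := descJ this (σ_ne_one i)
  exact ⟨l, hl, eq_α (R.pos_α l) e'⟩

/-- Induction inside a standard parabolic subgroup. -/
theorem WJ_induction {J : Set I} {P : Equiv.Perm Φ → Prop} (h0 : P 1)
    (hs : ∀ w ∈ WJ R J, ∀ i ∈ J, ¬ R.Pos (w (R.α i)) → P (w * R.σ i) → P w)
    {w : Equiv.Perm Φ} (hw : w ∈ WJ R J) : P w := by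
  refine Roots.W_induction (P := fun w => w ∈ WJ R J → P w) (fun w hw h _ => ?_)
    (fun w _ i hi ih hJ => ?_) (WJ_le J hw) hw
  · rw [eq_one_of_pos hw h]; exact h0
  · have h1 : InJ R J (R.α i) := by
      by_contra c
      exact hi ((pos_iff_of_not_inJ c hJ).2 (R.pos_α i))
    obtain ⟨k, hk, e⟩ := exists_α_eq h1
    have e' : R.σ k = R.σ i := congrArg R.refl e
    rw [← e] at hi
    rw [← e'] at ih
    exact hs w hJ k hk hi (ih (mul_mem hJ (σ_mem_WJ hk)))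

theorem exists_oppJ {J : Set I} {w : Equiv.Perm Φ} (hw : w ∈ WJ R J) (h2 : w * w = 1)
    (h : ∀ r, InJ R J r → (R.Pos (w r) ↔ ¬ R.Pos r)) {j : I} (hj : j ∈ J) :
    ∃ i ∈ J, w (R.α j) = R.neg (R.α i) := by
  have hW := WJ_le J hw
  have ww : ∀ r, w (w r) = r := fun r => by rw [← Equiv.Perm.mul_apply, h2]; rfl
  obtain ⟨i, hi, e⟩ := descJ (mul_mem (mul_mem hw (σ_mem_WJ hj)) hw) (fun c => σ_ne_one j (by
    have : w * (w * R.σ j * w) * w = w * w * R.σ j * (w * w) := by simp only [mul_assoc]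
    rw [c, mul_one, h2, one_mul, mul_one] at this
    exact this.symm))
  refine ⟨i, hi, ?_⟩
  have h1 : InJ R J (w (R.α i)) := (inJ_α hi).smul hw
  have h3 : R.Pos (R.neg (w (R.α i))) := (R.pos_neg _).2 fun c => (h _ (inJ_α hi)).1 c (R.pos_α i)
  rw [Equiv.Perm.mul_apply, Equiv.Perm.mul_apply, h _ (h1.smul (σ_mem_WJ hj)), not_not] at e
  have h4 := eq_α (i := j) h3 (by rw [R.σ_neg, R.not_pos_neg_iff]; exact e)
  rw [← h4, Roots.W_neg hW, ww]

end Geo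

namespace Bd

open Geo

variable {Φ I : Type*} {R : Roots Φ I} {G X : Type*} [Group G] [MulAction G X] [Finite Φ] (D : Bd R G X)

omit [Finite Φ] in
theorem geo_self (x : X) : D.δ x x = 1 := (D.eq_one x x).2 rfl

omit [Finite Φ] in
theorem geo_adj {x y : X} {i : I} (h : D.δ x y = R.σ i) : D.δ y x = R.σ i := by
  rw [D.symm, h, R.σ_inv]

omit [Finite Φ] in
theorem geo_step {x y z : X} {i : I} (h : D.δ y z = R.σ i) (hp : R.Pos (D.δ x y (R.α i))) :
    D.δ x z = D.δ x y * R.σ i :=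
  (D.step x y z i h).resolve_right fun c => c.2 hp

theorem geo_mul {x z : X} {v : Equiv.Perm Φ} (hv : v ∈ R.W) :
    ∀ y, D.δ z y = v → Red R (D.δ x z) v → D.δ x y = D.δ x z * v := by
  refine Roots.W_induction (P := fun v => ∀ y, D.δ z y = v → Red R (D.δ x z) v →
    D.δ x y = D.δ x z * v) (fun w hw h y e _ => ?_) (fun w hw i hi ih y e h => ?_) hv
  · rw [eq_one_of_pos hw h] at e ⊢
    rw [mul_one, (D.eq_one z y).1 e]
  · obtain ⟨y', h1, h2⟩ := D.ex z y i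
    rw [e] at h2
    have h3 := ih y' h2 (red_σ hw h hi)
    rw [D.geo_step (D.geo_adj h1), h3, ← mul_assoc, mul_σσ]
    rw [h3, ← mul_assoc, pos_mul_σ (mul_mem (D.mem x z) hw)]
    exact h _ (R.pos_α i) hi

theorem δ_mul {x y z : X} (h : Red R (D.δ x z) (D.δ z y)) : D.δ x y = D.δ x z * D.δ z y :=
  D.geo_mul (D.mem z y) y rfl h

theorem exists_mid {x y : X} {u v : Equiv.Perm Φ} (hu : u ∈ R.W) (hv : v ∈ R.W) (h : Red R u v)
    (e : D.δ x y = u * v) : ∃ z, D.δ x z = u ∧ D.δ z y = v := by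
  refine Roots.W_induction (P := fun v => ∀ y, Red R u v → D.δ x y = u * v →
    ∃ z, D.δ x z = u ∧ D.δ z y = v) (fun w hw h y _ e => ?_) (fun w hw i hi ih y h e => ?_) hv y h e
  · rw [eq_one_of_pos hw h] at e ⊢
    exact ⟨y, by rw [e, mul_one], D.geo_self y⟩
  · obtain ⟨y', h1, h2⟩ := D.ex x y i
    obtain ⟨z, h3, h4⟩ := ih y' (red_σ hw h hi) (by rw [h2, e, mul_assoc])
    refine ⟨z, h3, ?_⟩
    rw [D.geo_step (D.geo_adj h1), h4, mul_σσ]
    rw [h4, pos_mul_σ hw]; exact hi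

theorem mid_uniq {x y z z' : X} (h : Red R (D.δ x z) (D.δ z y)) (e1 : D.δ x z' = D.δ x z)
    (e2 : D.δ z' y = D.δ z y) : z' = z := by
  refine Roots.W_induction (P := fun v => ∀ y, Red R (D.δ x z) v → D.δ z y = v → D.δ z' y = v →
    z' = z) (fun w hw h y _ a b => ?_) (fun w hw i hi ih y h a b => ?_) (D.mem z y) y h rfl e2
  · rw [eq_one_of_pos hw h] at a b
    rw [(D.eq_one _ _).1 a, (D.eq_one _ _).1 b]
  · obtain ⟨y', h1, h2⟩ := D.ex z y i
    rw [a] at h2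
    refine ih y' (red_σ hw h hi) h2 ?_
    rcases D.step z' y y' i h1 with c | ⟨c, -⟩
    · rw [c, b]
    · rw [b] at c
      have k1 := D.geo_mul (x := x) (mul_mem hw (R.σ_mem_W i)) y' h2 (red_σ hw h hi)
      have k2 := D.geo_mul (x := x) hw y' c (by rwa [e1])
      rw [e1, k1] at k2
      exact absurd (mul_left_cancel k2) (mul_σ_ne w i)

/-- An element mapping two opposite chambers of the apartment like `v` acts as `v`. -/
theorem rep_of_opp {g : G} {v u w : Equiv.Perm Φ} (hv : v ∈ R.W) (hu : u ∈ R.W) (hw : w ∈ R.W)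
    (h0 : ∀ r, R.Pos (w r) ↔ ¬ R.Pos r) (h1 : g • D.a u = D.a (v * u))
    (h2 : g • D.a (u * w) = D.a (v * (u * w))) : D.Rep g v := by
  intro t ht
  have a1 := D.apt _ (mul_mem hv hu) _ (mul_mem hv ht)
  have a2 := D.apt _ (mul_mem hv ht) _ (mul_mem hv (mul_mem hu hw))
  refine D.mid_uniq (x := D.a (v * u)) (y := D.a (v * (u * w))) (fun r hr _ => ?_) ?_ ?_
  · rw [a1, a2, ← Equiv.Perm.mul_apply, show (v * u)⁻¹ * (v * t) * ((v * t)⁻¹ * (v * (u * w))) = w by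
      group, h0, not_not]
    exact hr
  · rw [a1, ← h1, D.smul, D.apt _ hu _ ht]; group
  · rw [a2, ← h2, D.smul, D.apt _ ht _ (mul_mem hu hw)]; group

theorem exists_rep {v : Equiv.Perm Φ} (hv : v ∈ R.W) : ∃ g : G, D.Rep g v := by
  obtain ⟨w, hw, h0⟩ := R.exists_w0
  obtain ⟨g, h1, h2⟩ := D.tr (D.a 1) (D.a (1 * w)) (D.a (v * 1)) (D.a (v * (1 * w))) (by
    rw [D.apt _ (one_mem _) _ (mul_mem (one_mem _) hw),
      D.apt _ (mul_mem hv (one_mem _)) _ (mul_mem hv (mul_mem (one_mem _) hw))]; group)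
  exact ⟨g, D.rep_of_opp hv (one_mem _) hw h0 h1 h2⟩

theorem geo_wall {g : G} {w v : Equiv.Perm Φ} (hw : w ∈ R.W) (hv : v ∈ R.W) {i : I}
    (h1 : g • D.a w = D.a w) (h2 : g • D.a v = D.a v) (h : ¬ R.Pos (v⁻¹ (w (R.α i)))) :
    g • D.a (w * R.σ i) = D.a (w * R.σ i) := by
  have hw' := mul_mem hw (R.σ_mem_W i)
  refine D.mid_uniq (x := D.a v) (y := D.a w) (fun r hr c => ?_) ?_ ?_
  · have e : (w * R.σ i)⁻¹ * w = R.σ i := by rw [mul_inv_rev, inv_mul_cancel_right, R.σ_inv]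
    rw [D.apt _ hw' _ hw, e] at c ⊢
    rw [D.apt _ hv _ hw', eq_α hr c, Equiv.Perm.mul_apply, Equiv.Perm.mul_apply, R.σ_σ]
    exact h
  · conv_lhs => rw [← h2, D.smul]
  · conv_lhs => rw [← h1, D.smul]

/-- Convex hulls in the apartment are intersections of roots. -/
theorem fix_hull {g : G} {F : Set (Equiv.Perm Φ)} (hF : F ⊆ R.W) (hne : F.Nonempty)
    (h : ∀ w ∈ F, g • D.a w = D.a w) {v : Equiv.Perm Φ} (hv : v ∈ R.W)
    (hh : ∀ r, (∀ w ∈ F, R.Pos (w⁻¹ r)) → R.Pos (v⁻¹ r)) : g • D.a v = D.a v := by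
  obtain ⟨u, hu⟩ := hne
  have hu' : u ∈ R.W := hF hu
  have key : ∀ t ∈ R.W, (∀ r, (∀ w ∈ F, R.Pos (w⁻¹ r)) → R.Pos ((u * t)⁻¹ r)) →
      g • D.a (u * t) = D.a (u * t) := by
    intro t ht
    refine Roots.W_induction (P := fun t => (∀ r, (∀ w ∈ F, R.Pos (w⁻¹ r)) →
      R.Pos ((u * t)⁻¹ r)) → g • D.a (u * t) = D.a (u * t)) (fun t ht k _ => ?_)
      (fun t ht i hi ih k => ?_) ht
    · rw [eq_one_of_pos ht k, mul_one]; exact h u hu
    · have h1 := ih fun r hr => by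
        rw [← mul_assoc, mul_inv_rev, R.σ_inv, Equiv.Perm.mul_apply]
        refine R.σ_pos (k r hr) fun c => hi ?_
        rw [← c, ← Equiv.Perm.mul_apply, mul_inv_rev, mul_inv_cancel_left]
        exact hr u hu
      rw [← mul_assoc] at h1
      have hm := mul_mem (mul_mem hu' ht) (R.σ_mem_W i)
      by_contra c
      refine not_pos_σ (R := R) i ?_
      have := k ((u * t * R.σ i) (R.α i)) fun w hw => by
        by_contra c'
        have := D.geo_wall hm (hF hw) h1 (h w hw) c'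
        rw [mul_σσ] at this
        exact c this
      rwa [← Equiv.Perm.mul_apply, inv_mul_cancel_left] at this
  have := key (u⁻¹ * v) (mul_mem (inv_mem hu') hv) (by rwa [mul_inv_cancel_left])
  rwa [mul_inv_cancel_left] at this

/-- The form needed for the extension lemma. -/
theorem exists_wall {g : G} {u : Equiv.Perm Φ} (hu : u ∈ R.W) (h : g • D.a u = D.a u)
    (hg : g ∉ D.H) : ∃ w ∈ R.W, ∃ i, g • D.a w = D.a w ∧ g • D.a (w * R.σ i) ≠ D.a (w * R.σ i) ∧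
      ∀ v ∈ R.W, g • D.a v = D.a v → R.Pos (v⁻¹ (w (R.α i))) := by
  by_contra c
  refine hg fun w hw => ?_
  have key : ∀ (L : List I) u, u ∈ R.W → g • D.a u = D.a u →
      g • D.a (u * R.wp L) = D.a (u * R.wp L) := by
    intro L
    induction L with
    | nil => intro u _ h; rwa [R.wp_nil, mul_one]
    | cons i L ih =>
      intro u hu h
      rw [R.wp_cons, ← mul_assoc]
      refine ih _ (mul_mem hu (R.σ_mem_W i)) ?_
      by_contra c'
      refine c ⟨u, hu, i, h, c', fun v hv h2 => ?_⟩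
      by_contra c''
      exact c' (D.geo_wall hu hv h h2 c'')
  obtain ⟨L, hL⟩ := Roots.exists_wp (mul_mem (inv_mem hu) hw)
  have := key L u hu h
  rwa [hL, mul_inv_cancel_left] at this

omit [Finite Φ] in
theorem geo_Pn_symm {x y : X} {i : I} (h : y ∈ D.Pn x i) : x ∈ D.Pn y i :=
  h.imp Eq.symm D.geo_adj

omit [Finite Φ] in
theorem geo_Pn_trans {x y z : X} {i : I} (h : y ∈ D.Pn x i) (h' : z ∈ D.Pn y i) :
    z ∈ D.Pn x i := by
  rcases h with rfl | h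
  · exact h'
  rcases h' with rfl | h'
  · exact Or.inr h
  rcases D.step x y z i h' with c | ⟨c, -⟩
  · rw [h, R.σ_mul_self] at c
    exact Or.inl ((D.eq_one _ _).1 c).symm
  · exact Or.inr (c.trans h)

theorem Pn_eq {x y : X} {i : I} (h : y ∈ D.Pn x i) : D.Pn y i = D.Pn x i :=
  Set.ext fun _ => ⟨D.geo_Pn_trans h, D.geo_Pn_trans (D.geo_Pn_symm h)⟩

theorem a_mem_Nb {w : Equiv.Perm Φ} (hw : w ∈ R.W) (i : I) : D.a (w * R.σ i) ∈ D.Nb (D.a w) i := by
  show D.δ _ _ = _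
  rw [D.apt _ hw _ (mul_mem hw (R.σ_mem_W i)), inv_mul_cancel_left]

omit [Finite Φ] in
theorem geo_right (x : X) {y y' : X} {j : I} (h : y' ∈ D.Pn y j) :
    D.δ x y' = D.δ x y ∨ D.δ x y' = D.δ x y * R.σ j := by
  rcases h with rfl | h
  · exact Or.inl rfl
  · exact (D.step x y y' j h).symm.imp_left And.left

omit [Finite Φ] in
theorem geo_par3 {x y : X} {i j : I} (h : D.δ x y (R.α j) = R.α i) {x' y' : X}
    (hx : x' ∈ D.Pn x i) (hy : y' ∈ D.Pn y j) :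
    D.δ x' y' = D.δ x y ∨ D.δ x' y' = D.δ x y * R.σ j := by
  have e : R.σ i * D.δ x y = D.δ x y * R.σ j := by
    rw [← Roots.W_conj_σ (D.mem x y) h, inv_mul_cancel_right]
  have h1 : D.δ x' y' = D.δ x y' ∨ D.δ x' y' = R.σ i * D.δ x y' := by
    refine (D.geo_right y' hx).imp (fun c => ?_) fun c => ?_
    · rw [D.symm, c, ← D.symm]
    · rw [D.symm, c, mul_inv_rev, ← D.symm, R.σ_inv]
  rcases h1 with c | c <;> rcases D.geo_right x hy with c' | c' <;> rw [c, c']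
  · exact Or.inl rfl
  · exact Or.inr rfl
  · exact Or.inr e
  · exact Or.inl (by rw [← mul_assoc, e, mul_σσ])

omit [Finite Φ] in
theorem geo_par1 {x y : X} {i j : I} (h : D.δ x y (R.α j) = R.α i) {x' : X}
    (hx : x' ∈ D.Pn x i) : ∃! y', y' ∈ D.Pn y j ∧ D.δ x' y' = D.δ x y := by
  refine existsUnique_of_exists_of_unique ?_ fun y1 y2 ⟨a1, b1⟩ ⟨a2, b2⟩ => ?_
  · rcases D.geo_par3 h hx (Or.inl rfl) with c | c
    · exact ⟨y, Or.inl rfl, c⟩
    · obtain ⟨z, h1, h2⟩ := D.ex x' y j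
      exact ⟨z, Or.inr h1, by rw [h2, c, mul_σσ]⟩
  · rcases D.geo_Pn_trans (D.geo_Pn_symm a1) a2 with c | c
    · exact c.symm
    · have := D.geo_step (x := x') c (by rw [b1, h]; exact R.pos_α i)
      rw [b1, b2] at this
      exact absurd this.symm (mul_σ_ne _ j)

omit [Finite Φ] in
theorem geo_par2 {x y : X} {i j : I} (h : D.δ x y (R.α j) = R.α i) {y' : X}
    (hy : y' ∈ D.Pn y j) : ∃! x', x' ∈ D.Pn x i ∧ D.δ x' y' = D.δ x y := by
  have h' : D.δ y x (R.α i) = R.α j := by rw [D.symm, ← h]; simp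
  have := D.geo_par1 h' hy
  simpa only [D.symm x y, D.symm _ y', inv_inj] using this

/-- Parallel panels. -/
theorem par {x y : X} {i j : I} (h : D.δ x y (R.α j) = R.α i) :
    (∀ x' ∈ D.Pn x i, ∃! y', y' ∈ D.Pn y j ∧ D.δ x' y' = D.δ x y) ∧
    (∀ y' ∈ D.Pn y j, ∃! x', x' ∈ D.Pn x i ∧ D.δ x' y' = D.δ x y) ∧
    ∀ x' ∈ D.Pn x i, ∀ y' ∈ D.Pn y j, D.δ x' y' = D.δ x y ∨ D.δ x' y' = D.δ x y * R.σ j :=
  ⟨fun _ => D.geo_par1 h, fun _ => D.geo_par2 h, fun _ hx _ hy => D.geo_par3 h hx hy⟩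

omit [Finite Φ] in
theorem geo_smul_Pn {g : G} {y y' : X} {j : I} (hy : g • y = y) (h : y' ∈ D.Pn y j) :
    g • y' ∈ D.Pn y j := by
  rcases h with rfl | h
  · exact Or.inl hy
  · exact Or.inr (by rw [← h, ← D.smul g y y', hy])

omit [Finite Φ] in
theorem geo_tr_Pn {g : G} {x x' : X} {i : I} (h : D.Tr g x i) (hx : x' ∈ D.Pn x i) : g • x' = x' := by
  rcases hx with rfl | hx
  · exact h.1
  · exact h.2 _ hx

omit [Finite Φ] in
/-- Triviality passes to parallel panels that contain a fixed chamber. -/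
theorem geo_tr {g : G} {x y : X} {i j : I}
    (h : D.δ x y (R.α j) = R.α i ∨ D.δ x y (R.α j) = R.neg (R.α i)) (hx : D.Tr g x i)
    (hy : g • y = y) : D.Tr g y j := by
  obtain ⟨y1, m1, h1⟩ : ∃ y1 ∈ D.Pn y j, D.δ x y1 (R.α j) = R.α i := by
    rcases h with h | h
    · exact ⟨y, Or.inl rfl, h⟩
    · obtain ⟨z, h1, h2⟩ := D.ex x y j
      refine ⟨z, Or.inr h1, ?_⟩
      rw [h2, Equiv.Perm.mul_apply, R.σ_α, Roots.W_neg (D.mem x y), h, R.neg_neg]
  refine ⟨hy, fun y' hy' => ?_⟩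
  have m2 : y' ∈ D.Pn y1 j := D.geo_Pn_trans (D.geo_Pn_symm m1) (Or.inr hy')
  obtain ⟨x', ⟨a, b⟩, -⟩ := D.geo_par2 h1 m2
  refine (D.geo_par1 h1 a).unique ⟨?_, ?_⟩ ⟨m2, b⟩
  · exact D.geo_Pn_trans (D.geo_Pn_symm m1) (D.geo_smul_Pn hy (Or.inr hy'))
  · rw [← b, ← D.smul g x' y', D.geo_tr_Pn hx a]

/-- Rigidity in a residue. -/
theorem rigid {g : G} {J : Set I} {v : Equiv.Perm Φ} (hv : v ∈ R.W)
    (h : ∀ w ∈ WJ R J, g • D.a (v * w) = D.a (v * w)) (h' : ∀ i ∈ J, D.Tr g (D.a v) i) :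
    g ∈ D.Ker (D.a v) J := by
  obtain ⟨w, hw, w2, h0⟩ := exists_wJ (R := R) J
  have hW := WJ_le J hw
  have sy : ∀ {x y : X}, D.δ x y = w → D.δ y x = w := fun e => by
    rw [D.symm, e, inv_eq_of_mul_eq_one_right w2]
  have A : ∀ {x y : X}, D.δ x y = w → (∀ i ∈ J, D.Tr g x i) → g • y = y → ∀ j ∈ J, D.Tr g y j :=
    fun e k hy j hj => by
      obtain ⟨i, hi, e'⟩ := exists_oppJ hw w2 h0 hj
      exact D.geo_tr (Or.inr (by rw [e, e'])) (k i hi) hy
  have B : ∀ {x x' : X} {i : I}, i ∈ J → D.δ x x' = R.σ i →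
      ((∀ i ∈ J, D.Tr g x i) ∧ ∃ y, D.δ x y = w ∧ g • y = y) →
      (∀ i ∈ J, D.Tr g x' i) ∧ ∃ y, D.δ x' y = w ∧ g • y = y := by
    rintro x x' i hi e ⟨k, y, ey, gy⟩
    obtain ⟨j, hj, e'⟩ := exists_oppJ hw w2 h0 hi
    have e1 : w (R.α j) = R.neg (R.α i) := by
      rw [← R.neg_neg (R.α j), ← e', Roots.W_neg hW, ← Equiv.Perm.mul_apply, w2]; rfl
    obtain ⟨p, p1, p2⟩ := D.ex x y j
    rw [ey] at p2
    have e2 : D.δ x p (R.α j) = R.α i := by
      rw [p2, Equiv.Perm.mul_apply, R.σ_α, Roots.W_neg hW, e1, R.neg_neg]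
    obtain ⟨p', -, u'⟩ := D.geo_par1 e2 (x' := x') (Or.inr e)
    obtain ⟨y', m, n1, n2⟩ : ∃ y' ∈ D.Pn p j, y' ≠ p ∧ y' ≠ p' := by
      obtain ⟨y1, y2, a1, a2, a3⟩ := D.thick p j
      have b : ∀ z, D.δ p z = R.σ j → z ≠ p := by
        rintro z c rfl
        exact σ_ne_one j (c.symm.trans (D.geo_self _))
      by_cases c : y1 = p'
      · exact ⟨y2, Or.inr a2, b _ a2, fun c' => a3 (c.trans c'.symm)⟩
      · exact ⟨y1, Or.inr a1, b _ a1, c⟩
    have f1 : D.δ x y' = w := by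
      rw [D.geo_step (m.resolve_left n1) (by rw [e2]; exact R.pos_α i), p2, mul_σσ]
    have f2 : D.δ x' y' = w := by
      rcases D.geo_par3 e2 (x' := x') (Or.inr e) m with c | c
      · exact absurd (u' _ ⟨m, c⟩) n2
      · rw [c, p2, mul_σσ]
    have f3 : g • y' = y' := D.geo_tr_Pn (A ey k gy j hj) (D.geo_Pn_trans (Or.inr p1) m)
    exact ⟨A (sy f2) (A f1 k f3) ((k i hi).2 _ e), y', f2, f3⟩
  have C : ∀ t ∈ WJ R J, ∀ z, D.δ (D.a v) z = t → g • z = z ∧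
      (∀ i ∈ J, D.Tr g z i) ∧ ∃ y, D.δ z y = w ∧ g • y = y := by
    intro t ht
    refine WJ_induction (P := fun t => ∀ z, D.δ (D.a v) z = t → g • z = z ∧
      (∀ i ∈ J, D.Tr g z i) ∧ ∃ y, D.δ z y = w ∧ g • y = y) (fun z e => ?_)
      (fun t _ i hi _ ih z e => ?_) ht
    · rw [← (D.eq_one _ _).1 e]
      refine ⟨by simpa using h 1 (one_mem _), h', D.a (v * w), ?_, h w hw⟩
      rw [D.apt _ hv _ (mul_mem hv hW), inv_mul_cancel_left]
    · obtain ⟨z', h1, h2⟩ := D.ex (D.a v) z i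
      have := B hi (D.geo_adj h1) (ih z' (by rw [h2, e])).2
      exact ⟨(this.1 i hi).1, this⟩
  exact fun z hz => (C _ hz z rfl).1

theorem rigid_top {g : G} (hg : g ∈ D.H) {v : Equiv.Perm Φ} (hv : v ∈ R.W)
    (h' : ∀ i, D.Tr g (D.a v) i) : g = 1 :=
  D.faith g fun x => D.rigid (J := Set.univ) hv (fun w hw => hg _ (mul_mem hv (WJ_le _ hw)))
    (fun i _ => h' i) x (by rw [WJ_univ]; exact D.mem _ _)

theorem δ_mem_WJ {J : Set I} {x y z : X} (h1 : D.δ x y ∈ WJ R J) (h2 : D.δ y z ∈ WJ R J) :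
    D.δ x z ∈ WJ R J := by
  refine WJ_induction (P := fun t => ∀ z, D.δ y z = t → D.δ x z ∈ WJ R J) (fun z e => ?_)
    (fun t _ i hi _ ih z e => ?_) h2 z rfl
  · rwa [← (D.eq_one _ _).1 e]
  · obtain ⟨z', a, b⟩ := D.ex y z i
    have k := ih z' (by rw [b, e])
    rcases D.geo_right x (Or.inr (D.geo_adj a) : z ∈ D.Pn z' i) with c | c <;> rw [c]
    · exact k
    · exact mul_mem k (σ_mem_WJ hi)

end Bd

end Tits
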