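import Mathlib
import Cfsg.Agent.Lib.Tits.Geo

/-! Root groups in a building (blueprint/TITS). -/

set_option autoImplicit false

open scoped commutatorElement

namespace Tits

open H63.St Cfsg

namespace Root

variable {Φ I : Type*} {R : Roots Φ I}

theorem inv_app (w : Equiv.Perm Φ) (r : Φ) : w⁻¹ (w r) = r := by simp

theorem app_inv (w : Equiv.Perm Φ) (r : Φ) : w (w⁻¹ r) = r := by simp

theorem w0_inv {w : Equiv.Perm Φ} (h0 : ∀ r, R.Pos (w r) ↔ ¬ R.Pos r) (r : Φ) :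
    R.Pos (w⁻¹ r) ↔ ¬ R.Pos r := by
  have := h0 (w⁻¹ r)
  rw [app_inv] at this
  rw [this, not_not]

theorem conj_σ {w : Equiv.Perm Φ} (hw : w ∈ R.W) {i j : I}
    (h : w (R.α j) = R.α i ∨ w (R.α j) = R.neg (R.α i)) : w * R.σ j * w⁻¹ = R.σ i := by
  rcases h with h | h
  · exact Roots.W_conj_σ hw h
  · have := Roots.W_conj_σ (mul_mem (R.σ_mem_W i) hw) (k := j) (l := i)
      (by rw [Equiv.Perm.mul_apply, h, R.σ_neg_α])
    calc w * R.σ j * w⁻¹ = (R.σ i)⁻¹ * (R.σ i * w * R.σ j * (R.σ i * w)⁻¹) * R.σ i := by group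
      _ = R.σ i := by rw [this]; group

variable [Finite Φ]

theorem inJ_conj {w : Equiv.Perm Φ} (hw : w ∈ R.W) {J J' : Set I}
    (h : ∀ j ∈ J', ∃ i ∈ J, w (R.α j) = R.neg (R.α i)) {s : Φ} (hs : InJ R J' s) :
    InJ R J (w s) := by
  obtain ⟨t, ht, j, hj, rfl⟩ := hs
  have k : WJ R J' ≤ (WJ R J).comap (MulAut.conj w).toMonoidHom := by
    rw [WJ, Subgroup.closure_le]
    rintro _ ⟨j, hj, rfl⟩
    obtain ⟨i, hi, e⟩ := h j hj
    show w * R.σ j * w⁻¹ ∈ WJ R J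
    rw [conj_σ hw (Or.inr e)]
    exact Geo.σ_mem_WJ hi
  obtain ⟨i, hi, e⟩ := h j hj
  have k' : w * t * w⁻¹ ∈ WJ R J := k ht
  have := (inJ_α hi).neg.smul k'
  rwa [← e, Equiv.Perm.mul_apply, inv_app, Equiv.Perm.mul_apply] at this

end Root

namespace Bd

open Geo Root

variable {Φ I : Type*} {R : Roots Φ I} {G X : Type*} [Group G] [MulAction G X] [Finite Φ] (D : Bd R G X)

theorem Rep.inv {g : G} {v : Equiv.Perm Φ} (hv : v ∈ R.W) (h : D.Rep g v) : D.Rep g⁻¹ v⁻¹ :=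
  fun w hw => by
    rw [inv_smul_eq_iff, h _ (mul_mem (inv_mem hv) hw), mul_inv_cancel_left]

omit [Finite Φ] in
theorem root_tr {g h : G} {x : X} {i : I} (k : D.Tr h x i) : D.Tr (g * h * g⁻¹) (g • x) i := by
  refine ⟨by rw [mul_smul, inv_smul_smul, mul_smul, k.1], fun y hy => ?_⟩
  have : g⁻¹ • y ∈ D.Nb x i := by
    show D.δ _ _ = _
    rw [← D.smul g, smul_inv_smul]; exact hy
  rw [mul_smul, mul_smul, k.2 _ this, smul_inv_smul]

theorem tr_conj (g h : G) (x : X) (i : I) : D.Tr (g * h * g⁻¹) (g • x) i ↔ D.Tr h x i :=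
  ⟨fun k => by
    have := D.root_tr (g := g⁻¹) k
    rwa [inv_smul_smul, show g⁻¹ * (g * h * g⁻¹) * g⁻¹⁻¹ = h by group] at this, D.root_tr⟩

omit [Finite Φ] in
theorem root_a {g : G} {v w : Equiv.Perm Φ} (hv : v ∈ R.W) (h : D.Rep g v) (hw : w ∈ R.W) :
    D.a w = g • D.a (v⁻¹ * w) := by
  rw [h _ (mul_mem (inv_mem hv) hw), mul_inv_cancel_left]

omit [Finite Φ] in
theorem root_pos {v w : Equiv.Perm Φ} {r : Φ} (h : R.Pos (w⁻¹ (v r))) :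
    R.Pos ((v⁻¹ * w)⁻¹ r) := by
  rwa [mul_inv_rev, inv_inv, Equiv.Perm.mul_apply]

omit [Finite Φ] in
theorem root_GR {g : G} {v : Equiv.Perm Φ} (hv : v ∈ R.W) (h : D.Rep g v) {r : Φ} {x : G}
    (k : x ∈ D.GR r) : g * x * g⁻¹ ∈ D.GR (v r) := fun w hw hp => by
  rw [D.root_a hv h hw, mul_smul, inv_smul_smul, mul_smul,
    k _ (mul_mem (inv_mem hv) hw) (root_pos hp)]

theorem conj_GR {g : G} {v : Equiv.Perm Φ} (hv : v ∈ R.W) (h : D.Rep g v) (r : Φ) (x : G) :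
    x ∈ D.GR r ↔ g * x * g⁻¹ ∈ D.GR (v r) :=
  ⟨D.root_GR hv h, fun k => by
    have := D.root_GR (inv_mem hv) (Rep.inv D hv h) k
    rwa [inv_app, show g⁻¹ * (g * x * g⁻¹) * g⁻¹⁻¹ = x by group] at this⟩

omit [Finite Φ] in
theorem root_U {g : G} {v : Equiv.Perm Φ} (hv : v ∈ R.W) (h : D.Rep g v) {r : Φ} {x : G}
    (k : x ∈ D.U r) : g * x * g⁻¹ ∈ D.U (v r) := by
  refine ⟨D.root_GR hv h k.1, fun w hw i hp hn => ?_⟩
  rw [D.root_a hv h hw]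
  refine D.root_tr (k.2 _ (mul_mem (inv_mem hv) hw) i (root_pos hp) fun c => hn ?_)
  rw [← c, Equiv.Perm.mul_apply, app_inv]

theorem acts_U {g : G} {v : Equiv.Perm Φ} (hv : v ∈ R.W) (h : D.Rep g v) : Acts D.U g v :=
  fun r x => ⟨D.root_U hv h, fun k => by
    have := D.root_U (inv_mem hv) (Rep.inv D hv h) k
    rwa [inv_app, show g⁻¹ * (g * x * g⁻¹) * g⁻¹⁻¹ = x by group] at this⟩

omit [Finite Φ] in
theorem root_Wall {g : G} {v : Equiv.Perm Φ} (hv : v ∈ R.W) (h : D.Rep g v) {r k : Φ} {x : G}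
    (m : D.Wall x r k) : D.Wall (g * x * g⁻¹) (v r) (v k) := fun w hw i hp hn => by
  rw [D.root_a hv h hw]
  refine D.root_tr (m _ (mul_mem (inv_mem hv) hw) i (root_pos hp) (hn.imp (fun c => ?_) fun c => ?_))
  · rw [Equiv.Perm.mul_apply, c, inv_app]
  · rw [Equiv.Perm.mul_apply, c, ← Roots.W_neg hv, inv_app]

theorem conj_Wall {g : G} {v : Equiv.Perm Φ} (hv : v ∈ R.W) (h : D.Rep g v) (r k : Φ) (x : G) :
    D.Wall x r k ↔ D.Wall (g * x * g⁻¹) (v r) (v k) :=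
  ⟨D.root_Wall hv h, fun m => by
    have := D.root_Wall (inv_mem hv) (Rep.inv D hv h) m
    rwa [inv_app, inv_app, show g⁻¹ * (g * x * g⁻¹) * g⁻¹⁻¹ = x by group] at this⟩

theorem U_le_GR (r : Φ) : D.U r ≤ D.GR r := fun _ h => h.1

theorem H_le_GR (r : Φ) : D.H ≤ D.GR r := fun _ h w hw _ => h w hw

theorem conj_mem_U {r : Φ} {g u : G} (hg : g ∈ D.GR r) (hu : u ∈ D.U r) : g * u * g⁻¹ ∈ D.U r := by
  refine ⟨mul_mem (mul_mem hg hu.1) (inv_mem hg), fun w hw i hp hn => ?_⟩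
  rw [← hg w hw hp]
  exact D.root_tr (hu.2 w hw i hp hn)

theorem ncard_Nb (x : X) (i : I) : (D.Nb x i).ncard = D.nb i := by
  obtain ⟨g, h, -⟩ := D.tr x x (D.a 1) (D.a 1) (by rw [D.geo_self, D.geo_self])
  rw [nb, ← h, ← Set.ncard_image_of_injective _ (MulAction.injective g)]
  congr 1
  ext y
  constructor
  · rintro ⟨z, hz, rfl⟩
    exact (D.smul g x z).trans hz
  · intro hy
    refine ⟨g⁻¹ • y, ?_, smul_inv_smul g y⟩
    show D.δ _ _ = _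
    rw [← D.smul g, smul_inv_smul]; exact hy

omit [Finite Φ] in
theorem root_ne {x y : X} {i : I} (h : y ∈ D.Nb x i) : y ≠ x := by
  rintro rfl
  exact σ_ne_one i (h.symm.trans (D.geo_self _))

omit [Finite Φ] in
theorem root_par {x y : X} {i j : I} (h : D.δ x y (R.α j) = R.α i) {y' : X} (hy : y' ∈ D.Nb y j) :
    ∃ x' ∈ D.Nb x i, D.δ x' y' = D.δ x y := by
  obtain ⟨x', ⟨a, b⟩, -⟩ := D.geo_par2 h (Or.inr hy)
  refine ⟨x', a.resolve_left ?_, b⟩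
  rintro rfl
  exact D.root_ne hy ((D.geo_par1 h (Or.inl rfl)).unique ⟨Or.inr hy, b⟩ ⟨Or.inl rfl, rfl⟩)

theorem nb_eq {w : Equiv.Perm Φ} (hw : w ∈ R.W) {i j : I} (h : w (R.α i) = R.α j) :
    D.nb i = D.nb j := by
  have e : D.δ (D.a 1) (D.a w) (R.α i) = R.α j := by
    rw [D.apt _ (one_mem _) _ hw, inv_one, one_mul, h]
  rw [← D.ncard_Nb (D.a w) i, nb]
  choose f f1 f2 using fun y (hy : y ∈ D.Nb (D.a w) i) => D.root_par e hy
  refine Set.ncard_congr f f1 (fun a b ha hb c => ?_) fun x hx => ?_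
  · exact (D.geo_par1 e (Or.inr (f1 a ha))).unique ⟨Or.inr ha, f2 a ha⟩
      ⟨Or.inr hb, by rw [c, f2 b hb]⟩
  · obtain ⟨y, ⟨a, b⟩, -⟩ := D.geo_par1 e (Or.inr hx)
    have hy : y ∈ D.Nb (D.a w) i := a.resolve_left (by
      rintro rfl
      exact D.root_ne hx ((D.geo_par2 e (Or.inl rfl)).unique ⟨Or.inr hx, b⟩ ⟨Or.inl rfl, rfl⟩))
    exact ⟨y, hy, (D.geo_par2 e a).unique ⟨Or.inr (f1 y hy), f2 y hy⟩ ⟨Or.inr hx, b⟩⟩

theorem root_tr_imp {g : G} {w w' : Equiv.Perm Φ} (hw : w ∈ R.W) (hw' : w' ∈ R.W) {i j : I}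
    (h : w (R.α i) = w' (R.α j) ∨ w (R.α i) = R.neg (w' (R.α j))) (h1 : D.Tr g (D.a w) i)
    (h2 : g • D.a w' = D.a w') : D.Tr g (D.a w') j := by
  refine D.geo_tr ?_ h1 h2
  rw [D.apt _ hw _ hw', Equiv.Perm.mul_apply]
  refine h.imp (fun c => ?_) fun c => ?_
  · rw [← c, inv_app]
  · rw [← R.neg_neg (w' _), ← c, Roots.W_neg (inv_mem hw), inv_app]

/-- Panels on the same wall. -/
theorem tr_iff {g : G} {w w' : Equiv.Perm Φ} (hw : w ∈ R.W) (hw' : w' ∈ R.W) {i j : I}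
    (h : w (R.α i) = w' (R.α j) ∨ w (R.α i) = R.neg (w' (R.α j))) (h1 : g • D.a w = D.a w)
    (h2 : g • D.a w' = D.a w') : D.Tr g (D.a w) i ↔ D.Tr g (D.a w') j :=
  ⟨fun k => D.root_tr_imp hw hw' h k h2, fun k => D.root_tr_imp hw' hw
    (h.imp Eq.symm fun c => by rw [c, R.neg_neg]) k h1⟩

theorem wall_of_tr {g : G} {r : Φ} (hg : g ∈ D.GR r) {w : Equiv.Perm Φ} (hw : w ∈ R.W) {i : I}
    (h : D.Tr g (D.a w) i) : D.Wall g r (w (R.α i)) := fun w' hw' _ hp hn =>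
  D.root_tr_imp hw hw' (hn.imp Eq.symm fun c => by rw [c, R.neg_neg]) h (hg w' hw' hp)

theorem mem_U_iff {g : G} {r : Φ} :
    g ∈ D.U r ↔ g ∈ D.GR r ∧ ∀ k, k ≠ r → k ≠ R.neg r → D.Wall g r k := by
  refine ⟨fun h => ⟨h.1, fun k n1 n2 w hw i hp hn => h.2 w hw i hp fun c => ?_⟩,
    fun h => ⟨h.1, fun w hw i hp hn => h.2 _ hn (fun c => ?_) w hw i hp (Or.inl rfl)⟩⟩
  · rcases hn with d | d
    · exact n1 (d.symm.trans c)
    · exact n2 (by rw [← c, d, R.neg_neg])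
  · rw [← R.neg_neg r, ← c, Roots.W_neg (inv_mem hw), inv_app] at hp
    exact R.not_pos_neg_α i hp

theorem root_close {g : G} {r : Φ} (hg : g ∈ D.GR r) {w : Equiv.Perm Φ} (hw : w ∈ R.W) {J : Set I}
    (hr : ¬ InJ R J (w⁻¹ r)) (hp : R.Pos (w⁻¹ r)) (h : ∀ i ∈ J, D.Tr g (D.a w) i)
    {k : Φ} (hk : InJ R J k) : D.Wall g r (w k) := by
  have K := D.rigid hw (fun t ht => hg _ (mul_mem hw (WJ_le _ ht)) (by
    rw [mul_inv_rev, Equiv.Perm.mul_apply, pos_iff_of_not_inJ hr (inv_mem ht)]; exact hp)) h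
  obtain ⟨t, ht, l, hl, rfl⟩ := hk
  have hm := mul_mem hw (WJ_le _ ht)
  have e : D.δ (D.a w) (D.a (w * t)) ∈ WJ R J := by
    rw [D.apt _ hw _ hm, inv_mul_cancel_left]; exact ht
  exact D.wall_of_tr hg hm ⟨K _ e, fun y hy => K _ (D.δ_mem_WJ e (by
    rw [show D.δ _ y = _ from hy]; exact σ_mem_WJ hl))⟩

/-- Closure in a rank two subsystem not containing `r`. -/
theorem wall_close {g : G} {r : Φ} (hg : g ∈ D.GR r) {w : Equiv.Perm Φ} (hw : w ∈ R.W) {i j : I}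
    (hr : ¬ InJ R {i, j} (w⁻¹ r)) (h1 : D.Wall g r (w (R.α i))) (h2 : D.Wall g r (w (R.α j)))
    {k : Φ} (hk : InJ R {i, j} k) : D.Wall g r (w k) := by
  by_cases hp : R.Pos (w⁻¹ r)
  · refine D.root_close hg hw hr hp ?_ hk
    rintro l (rfl | rfl)
    exacts [h1 w hw _ hp (Or.inl rfl), h2 w hw _ hp (Or.inl rfl)]
  obtain ⟨w0, hw0, h0⟩ := R.exists_w0
  obtain ⟨i', ei⟩ := exists_opp hw0 h0 i
  obtain ⟨j', ej⟩ := exists_opp hw0 h0 j
  have hm := mul_mem hw hw0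
  have hp' : R.Pos ((w * w0)⁻¹ r) := by
    rw [mul_inv_rev, Equiv.Perm.mul_apply, w0_inv h0]; exact hp
  have bk : ∀ {a b : I}, w0 (R.α a) = R.neg (R.α b) → w0⁻¹ (R.α b) = R.neg (R.α a) := fun e => by
    rw [← R.neg_neg (R.α _), ← e, Roots.W_neg (inv_mem hw0), inv_app]
  have := D.root_close (J := {i', j'}) hg hm (fun c => hr ?_) hp' ?_
    (inJ_conj (inv_mem hw0) (J' := {i, j}) ?_ hk)
  · rwa [Equiv.Perm.mul_apply, app_inv] at this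
  · have := inJ_conj hw0 (J := {i, j}) (by
      rintro l (rfl | rfl)
      exacts [⟨i, by simp, ei⟩, ⟨j, by simp, ej⟩]) c
    rwa [mul_inv_rev, Equiv.Perm.mul_apply, app_inv] at this
  · rintro l (rfl | rfl)
    · exact h1 _ hm _ hp' (Or.inr (by rw [Equiv.Perm.mul_apply, ei, Roots.W_neg hw]))
    · exact h2 _ hm _ hp' (Or.inr (by rw [Equiv.Perm.mul_apply, ej, Roots.W_neg hw]))
  · rintro l (rfl | rfl)
    exacts [⟨i', by simp, bk ei⟩, ⟨j', by simp, bk ej⟩]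

theorem GR_trans {w : Equiv.Perm Φ} (hw : w ∈ R.W) (i : I) {y y' : X} (hy : y ∈ D.Nb (D.a w) i)
    (hy' : y' ∈ D.Nb (D.a w) i) : ∃ g ∈ D.GR (w (R.α i)), g • y = y' := by
  obtain ⟨w0, hw0, h0⟩ := R.exists_w0
  have hm := mul_mem (mul_mem hw (R.σ_mem_W i)) hw0
  have e : D.δ (D.a (w * R.σ i * w0)) (D.a w) = w0⁻¹ * R.σ i := by
    rw [D.apt _ hm _ hw, mul_inv_rev, mul_inv_rev, R.σ_inv]; group
  have k : ∀ z ∈ D.Nb (D.a w) i, D.δ (D.a (w * R.σ i * w0)) z = w0⁻¹ := fun z hz => by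
    rw [D.geo_step hz, e, mul_σσ]
    rw [e, Equiv.Perm.mul_apply, w0_inv h0]; exact not_pos_σ i
  obtain ⟨g, g1, g2⟩ := D.tr _ y _ y' ((k y hy).trans (k y' hy').symm)
  have g3 : g • D.a w = D.a w := by
    have m : g • D.a w ∈ D.Pn y' i := Or.inr (by rw [← g2, D.smul]; exact D.geo_adj hy)
    refine (D.geo_Pn_trans (Or.inr hy') m).resolve_right fun c => mul_σ_ne (R := R) w0⁻¹ i ?_
    rw [← e, ← D.smul g, g1]; exact k _ c
  refine ⟨g, fun v hv hp => D.fix_hull (F := {w, w * R.σ i * w0}) ?_ ⟨w, by simp⟩ ?_ hv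
    fun r hr => ?_, g2⟩
  · rintro t (rfl | rfl)
    exacts [hw, hm]
  · rintro t (rfl | rfl)
    exacts [g3, g1]
  · have a1 := hr w (by simp)
    have a2 := hr (w * R.σ i * w0) (by simp)
    rw [mul_inv_rev, mul_inv_rev, Equiv.Perm.mul_apply, w0_inv h0, R.σ_inv,
      Equiv.Perm.mul_apply] at a2
    rw [← eq_α a1 a2, app_inv] at hp
    exact hp

theorem mem_H_of_GR {w : Equiv.Perm Φ} (hw : w ∈ R.W) {i : I} {g : G} (hg : g ∈ D.GR (w (R.α i)))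
    (h : g • D.a (w * R.σ i) = D.a (w * R.σ i)) : g ∈ D.H := by
  obtain ⟨w0, hw0, h0⟩ := R.exists_w0
  have hm := mul_mem hw (R.σ_mem_W i)
  have := D.rep_of_opp (v := 1) (one_mem _) hm hw0 h0 (by rw [one_mul, h]) (by
    rw [one_mul]
    refine hg _ (mul_mem hm hw0) ?_
    rw [mul_inv_rev, mul_inv_rev, Equiv.Perm.mul_apply, w0_inv h0, R.σ_inv, Equiv.Perm.mul_apply,
      inv_app]
    exact not_pos_σ i)
  intro t ht
  rw [this t ht, one_mul]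

theorem U_semireg (hI : Irr R) {w : Equiv.Perm Φ} (hw : w ∈ R.W) {i : I} {u : G}
    (hu : u ∈ D.U (w (R.α i))) {y : X} (hy : y ∈ D.Nb (D.a w) i) (h : u • y = y) : u = 1 := by
  obtain ⟨g, hg, e⟩ := D.GR_trans hw i hy (D.a_mem_Nb hw i)
  have h1 := D.conj_mem_U hg hu
  have h2 := D.mem_H_of_GR hw h1.1 (by rw [← e, mul_smul, inv_smul_smul, mul_smul, h])
  obtain ⟨t, ht, p, n⟩ := exists_deep hI (w (R.α i))
  have h3 := D.rigid_top h2 ht fun j => h1.2 t ht j p (n j)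
  simpa using h3

theorem Mouf.smul {r : Φ} (h : D.Mouf r) {v : Equiv.Perm Φ} (hv : v ∈ R.W) : D.Mouf (v r) := by
  obtain ⟨g, hg⟩ := D.exists_rep hv
  intro w hw i e y hy y' hy'
  have k : ∀ z ∈ D.Nb (D.a w) i, g⁻¹ • z ∈ D.Nb (D.a (v⁻¹ * w)) i := fun z hz => by
    show D.δ _ _ = _
    rw [← D.smul g, smul_inv_smul, ← D.root_a hv hg hw]; exact hz
  obtain ⟨u, hu, e'⟩ := h _ (mul_mem (inv_mem hv) hw) i
    (by rw [Equiv.Perm.mul_apply, e, inv_app]) _ (k y hy) _ (k y' hy')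
  exact ⟨_, D.root_U hv hg hu, by rw [mul_smul, mul_smul, e', smul_inv_smul]⟩

theorem mouf_of_one {w : Equiv.Perm Φ} (hw : w ∈ R.W) {i : I}
    (h : ∀ y ∈ D.Nb (D.a w) i, ∃ u ∈ D.U (w (R.α i)), u • D.a (w * R.σ i) = y) :
    D.Mouf (w (R.α i)) := by
  intro t ht j e y hy y' hy'
  have e0 : D.δ (D.a w) (D.a t) (R.α j) = R.α i := by
    rw [D.apt _ hw _ ht, Equiv.Perm.mul_apply, e, inv_app]
  obtain ⟨x, hx, a⟩ := D.root_par e0 hy
  obtain ⟨x', hx', a'⟩ := D.root_par e0 hy'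
  obtain ⟨u, hu, b⟩ := h x hx
  obtain ⟨u', hu', b'⟩ := h x' hx'
  have m := mul_mem hu' (inv_mem hu)
  have c : (u' * u⁻¹) • x = x' := by rw [← b, mul_smul, inv_smul_smul, b']
  refine ⟨_, m, (D.geo_par1 e0 (Or.inr hx')).unique ⟨D.geo_smul_Pn (m.1 t ht ?_) (Or.inr hy), ?_⟩
    ⟨Or.inr hy', a'⟩⟩
  · rw [← e, inv_app]; exact R.pos_α j
  · rw [← c, D.smul, a]

end Bd

end Tits
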