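import Mathlib
import Cfsg.Agent.Lib.Tits.Root
import Cfsg.Agent.Lib.Tits.Rk
import Cfsg.Agent.Lib.ClGeo.Transv

/-! Coordinates on a residue of type `A₂`: definitions (blueprint/TITS, package Plane). -/

set_option autoImplicit false

namespace Tits.Plane

open H63.St Cfsg Matrix

section roots

variable {Φ I : Type*} (R : Roots Φ I)

/-- The element of `W_{ij} = S₃` with `0 ↦ a`, `2 ↦ b`. -/
def w3 (i j : I) (a b : Fin 3) : Equiv.Perm Φ :=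
  !![1, R.σ j, 1; R.σ i * R.σ j, 1, R.σ i; R.σ i * R.σ j * R.σ i, R.σ j * R.σ i, 1] a b

variable {R} {i j : I}

theorem braid (h : cm R i j = 3) : R.σ i * R.σ j * R.σ i = R.σ j * R.σ i * R.σ j := by
  have := pow_orderOf_eq_one (R.σ i * R.σ j)
  rw [show orderOf _ = 3 from h, pow_three'] at this
  rw [← mul_inv_eq_one, ← this]
  simp only [_root_.mul_inv_rev, R.σ_inv, mul_assoc]

theorem σi_mem : R.σ i ∈ WJ R {i, j} := Subgroup.subset_closure ⟨i, by simp, rfl⟩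
theorem σj_mem : R.σ j ∈ WJ R {i, j} := Subgroup.subset_closure ⟨j, by simp, rfl⟩

theorem w3_mem (a b : Fin 3) : w3 R i j a b ∈ WJ R {i, j} := by
  have h1 := σi_mem (R := R) (i := i) (j := j)
  have h2 := σj_mem (R := R) (i := i) (j := j)
  fin_cases a <;> fin_cases b <;> simp only [w3] <;>
    first | exact one_mem _ | exact h1 | exact h2 | exact mul_mem h1 h2 | exact mul_mem h2 h1 |
      exact mul_mem (mul_mem h1 h2) h1

theorem w3_02 : w3 R i j 0 2 = 1 := rfl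
theorem w3_12 : w3 R i j 1 2 = R.σ i := rfl
theorem w3_01 : w3 R i j 0 1 = R.σ j := rfl

theorem w3_σ (h : cm R i j = 3) {a b m : Fin 3} (h1 : a ≠ b) (h2 : m ≠ a) (h3 : m ≠ b) :
    w3 R i j a b * R.σ i = w3 R i j m b ∧ w3 R i j a b * R.σ j = w3 R i j a m := by
  have e := braid h
  have e1 : ∀ x, x * R.σ i * R.σ i = x := fun x => by rw [mul_assoc, R.σ_mul_self, mul_one]
  have e2 : ∀ x, x * R.σ j * R.σ j = x := fun x => by rw [mul_assoc, R.σ_mul_self, mul_one]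
  fin_cases a <;> fin_cases b <;> fin_cases m <;>
    first | exact absurd rfl h1 | exact absurd rfl h2 | exact absurd rfl h3 | skip
  exacts [⟨rfl, R.σ_mul_self j⟩, ⟨one_mul _, one_mul _⟩, ⟨rfl, e2 _⟩, ⟨R.σ_mul_self i, rfl⟩,
    ⟨e1 _, (congrArg (· * R.σ j) e).trans (e2 _)⟩, ⟨e1 _, e.symm⟩]

theorem third {a b : Fin 3} (h : a ≠ b) : ∃ m, m ≠ a ∧ m ≠ b := by revert a b; decide

theorem mem_WJ3 (h : cm R i j = 3) {w : Equiv.Perm Φ} (hw : w ∈ WJ R {i, j}) :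
    ∃ a b, a ≠ b ∧ w = w3 R i j a b := by
  refine Subgroup.closure_induction_right (p := fun w _ => ∃ a b, a ≠ b ∧ w = w3 R i j a b)
    ⟨0, 2, by decide, rfl⟩ ?_ ?_ hw
  all_goals
    rintro _ - _ ⟨k, rfl | rfl, rfl⟩ ⟨a, b, e, rfl⟩ <;> obtain ⟨m, m1, m2⟩ := third e
  exacts [⟨m, b, m2, (w3_σ h e m1 m2).1⟩, ⟨a, m, m1.symm, (w3_σ h e m1 m2).2⟩,
    ⟨m, b, m2, by rw [R.σ_inv, (w3_σ h e m1 m2).1]⟩, ⟨a, m, m1.symm, by rw [R.σ_inv, (w3_σ h e m1 m2).2]⟩]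

variable [Finite Φ]

theorem σi_ne_σj (h : cm R i j = 3) : R.σ i ≠ R.σ j := fun e => by
  rw [cm, e, R.σ_mul_self, orderOf_one] at h
  omega

theorem σ_ne_one (i : I) : R.σ i ≠ 1 := fun e =>
  R.not_pos_neg_α i (by rw [← R.σ_α, e]; exact R.pos_α i)

theorem w3_rt (h : cm R i j = 3) {a b m : Fin 3} (h1 : a ≠ b) (h2 : m ≠ a) (h3 : m ≠ b) {p q : Fin 3}
    (e : p ≠ q) : w3 R i j a b (rt R i j p q) = rt R i j (![a, m, b] p) (![a, m, b] q) := by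
  have k1 : ∀ {p q : Fin 3}, p ≠ q → Equiv.swap 0 1 p ≠ Equiv.swap 0 1 q := fun e => by simpa using e
  have k2 : ∀ {p q : Fin 3}, p ≠ q → Equiv.swap 1 2 p ≠ Equiv.swap 1 2 q := fun e => by simpa using e
  fin_cases a <;> fin_cases b <;> fin_cases m <;>
    first | exact absurd rfl h1 | exact absurd rfl h2 | exact absurd rfl h3 | skip
  · refine (rt_σ h e).2.trans ?_
    congr 1 <;> revert p q <;> decide
  · show rt R i j p q = _
    congr 1 <;> revert p q <;> decide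
  · show R.σ i (R.σ j _) = _
    rw [(rt_σ h e).2, (rt_σ h (k2 e)).1]
    congr 1 <;> revert p q <;> decide
  · refine (rt_σ h e).1.trans ?_
    congr 1 <;> revert p q <;> decide
  · show R.σ i (R.σ j (R.σ i _)) = _
    rw [(rt_σ h e).1, (rt_σ h (k1 e)).2, (rt_σ h (k2 (k1 e))).1]
    congr 1 <;> revert p q <;> decide
  · show R.σ j (R.σ i _) = _
    rw [(rt_σ h e).1, (rt_σ h (k1 e)).2]
    congr 1 <;> revert p q <;> decide

theorem w3_α (h : cm R i j = 3) {a b m : Fin 3} (h1 : a ≠ b) (h2 : m ≠ a) (h3 : m ≠ b) :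
    w3 R i j a b (R.α i) = rt R i j a m ∧ w3 R i j a b (R.α j) = rt R i j m b :=
  ⟨w3_rt h h1 h2 h3 (p := 0) (q := 1) (by decide), w3_rt h h1 h2 h3 (p := 1) (q := 2) (by decide)⟩

theorem pos_w3 (h : cm R i j = 3) {a b c d : Fin 3} (h1 : a ≠ b) (h2 : c ≠ d) :
    R.Pos ((w3 R i j a b)⁻¹ (rt R i j c d)) ↔ c = a ∨ d = b := by
  obtain ⟨m, p, q, m1, m2, e, rfl, rfl, k⟩ : ∃ m p q : Fin 3, m ≠ a ∧ m ≠ b ∧ p ≠ q ∧
      c = ![a, m, b] p ∧ d = ![a, m, b] q ∧ (p < q ↔ c = a ∨ d = b) := by revert a b c d; decide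
  rw [← w3_rt h h1 m1 m2 e, Equiv.Perm.inv_def, Equiv.symm_apply_apply, rt_pos h e, k]

end roots

variable {K : Type} [Field K]

/-- A flag: a point `v` on a line `w`. -/
def Fl (v w : Fin 3 → K) : Prop := v ≠ 0 ∧ w ≠ 0 ∧ w ⬝ᵥ v = 0

theorem fl_single {a b : Fin 3} (h : a ≠ b) : Fl (Pi.single a (1 : K)) (Pi.single b 1) :=
  ⟨by simp, by simp, by simp [h.symm]⟩

theorem Fl.sl {v w : Fin 3 → K} (h : Fl v w) (A : SpecialLinearGroup (Fin 3) K) :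
    Fl (A.1 *ᵥ v) (w ᵥ* (A⁻¹).1) := by
  have e : (A⁻¹).1 * A.1 = 1 := congrArg Subtype.val (inv_mul_cancel A)
  refine ⟨H30.SL_mulVec_ne_zero A h.1, fun k => h.2.1 ?_, ?_⟩
  · rw [← vecMul_one w, ← e, ← vecMul_vecMul, k, zero_vecMul]
  · rw [dotProduct_mulVec, vecMul_vecMul, e, vecMul_one, h.2.2]

theorem par_symm {v v' : Fin 3 → K} (h : v' ≠ 0) (e : ∃ s : K, s • v = v') : ∃ s : K, s • v' = v := by
  obtain ⟨s, rfl⟩ := e
  exact ⟨s⁻¹, inv_smul_smul₀ (left_ne_zero_of_smul h) v⟩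

theorem exists_fl {v : Fin 3 → K} (h : v ≠ 0) : ∃ w, Fl v w := by
  by_cases h0 : v 0 = 0
  · exact ⟨Pi.single 0 1, h, by simp, by simpa using h0⟩
  · exact ⟨![v 1, -v 0, 0], h, fun e => h0 (neg_eq_zero.1 (congrFun e 1)), by
      simp [dotProduct, Fin.sum_univ_three, mul_comm]⟩

theorem Fl.symm {v w : Fin 3 → K} (h : Fl v w) : Fl w v := ⟨h.2.1, h.1, dotProduct_comm w v ▸ h.2.2⟩

variable {Φ I : Type*} {R : Roots Φ I} {G X : Type*} [Group G] [MulAction G X]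

/-- `g` acts on the flags as the matrix `A`. -/
def Ind (c : (Fin 3 → K) → (Fin 3 → K) → X) (g : G) (A : SpecialLinearGroup (Fin 3) K) : Prop :=
  ∀ v w, Fl v w → g • c v w = c (A.1 *ᵥ v) (w ᵥ* (A⁻¹).1)

/-- Coordinates on the residue `{i, j}` of the base chamber: points are `j`-panels, lines are
`i`-panels; `L` is a Levi subgroup. -/
structure Co (D : Bd R G X) (i j : I) (c : (Fin 3 → K) → (Fin 3 → K) → X) (L : Subgroup G) : Prop where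
  mem : ∀ {v w}, Fl v w → D.δ (D.a 1) (c v w) ∈ WJ R {i, j}
  surj : ∀ z, D.δ (D.a 1) z ∈ WJ R {i, j} → ∃ v w, Fl v w ∧ c v w = z
  pt : ∀ {v w v' w'}, Fl v w → Fl v' w' → (c v' w' ∈ D.Pn (c v w) j ↔ ∃ s : K, s • v = v')
  ln : ∀ {v w v' w'}, Fl v w → Fl v' w' → (c v' w' ∈ D.Pn (c v w) i ↔ ∃ s : K, s • w = w')
  apt : ∀ a b, a ≠ b → D.a (w3 R i j a b) = c (Pi.single a 1) (Pi.single b 1)
  lev : ∀ A, ∃ g ∈ L, Ind c g A
  fix : ∀ g ∈ L, ∀ F : Set (Equiv.Perm Φ), F ⊆ WJ R {i, j} → F.Nonempty →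
    (∀ w ∈ F, g • D.a w = D.a w) → ∀ v ∈ R.W,
    (∀ r, InJ R {i, j} r → (∀ w ∈ F, R.Pos (w⁻¹ r)) → R.Pos (v⁻¹ r)) → g • D.a v = D.a v

variable {c : (Fin 3 → K) → (Fin 3 → K) → X} {L : Subgroup G} {D : Bd R G X} {i j : I}

theorem Ind.one : Ind c (1 : G) 1 := fun v w _ => by simp

theorem Ind.mul {g g' : G} {A B : SpecialLinearGroup (Fin 3) K} (h : Ind c g A) (h' : Ind c g' B) :
    Ind c (g * g') (A * B) := fun v w f => by
  rw [mul_smul, h' v w f, h _ _ (f.sl B), mulVec_mulVec, vecMul_vecMul, _root_.mul_inv_rev]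
  rfl

theorem Ind.inv {g : G} {A : SpecialLinearGroup (Fin 3) K} (h : Ind c g A) : Ind c g⁻¹ A⁻¹ :=
  fun v w f => by
  rw [inv_smul_eq_iff, h _ _ (f.sl A⁻¹), mulVec_mulVec, vecMul_vecMul, inv_inv,
    show A.1 * (A⁻¹).1 = 1 from congrArg Subtype.val (mul_inv_cancel A), one_mulVec, vecMul_one]

theorem smul_Pn (D : Bd R G X) (g : G) {x y : X} {k : I} : g • y ∈ D.Pn (g • x) k ↔ y ∈ D.Pn x k :=
  or_congr (smul_left_cancel_iff g) (by rw [D.smul])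

theorem Co.ind_one (C : Co D i j c L) {g : G} : Ind c g 1 ↔ g ∈ D.Ker (D.a 1) {i, j} :=
  ⟨fun h z hz => by
    obtain ⟨v, w, f, rfl⟩ := C.surj z hz
    simpa using h v w f, fun h v w f => by simpa using h _ (C.mem f)⟩

variable [Finite Φ]

theorem Co.eq_iff (C : Co D i j c L) (h : cm R i j = 3) {v w v' w' : Fin 3 → K} (f : Fl v w)
    (f' : Fl v' w') : c v' w' = c v w ↔ (∃ s : K, s • v = v') ∧ ∃ s : K, s • w = w' := by
  rw [← C.pt f f', ← C.ln f f']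
  refine ⟨fun e => ⟨Or.inl e, Or.inl e⟩, fun ⟨a, b⟩ => a.elim id fun a => b.elim id fun b => ?_⟩
  exact absurd (b.symm.trans a) (σi_ne_σj h)

/-- The elements of `L` fixing the chambers `(a, b) ∈ F` of the hexagon. -/
theorem Co.fix3 (C : Co D i j c L) (h : cm R i j = 3) {g : G} (hg : g ∈ L) (F : List (Fin 3 × Fin 3))
    (h0 : F ≠ []) (h1 : ∀ x ∈ F, x.1 ≠ x.2)
    (h2 : ∀ x ∈ F, g • c (Pi.single x.1 1) (Pi.single x.2 1) = c (Pi.single x.1 1) (Pi.single x.2 1))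
    {v : Equiv.Perm Φ} (hv : v ∈ R.W) (h3 : ∀ p q, p ≠ q → (∀ x ∈ F, p = x.1 ∨ q = x.2) →
      R.Pos (v⁻¹ (rt R i j p q))) : g • D.a v = D.a v := by
  refine C.fix g hg {w | ∃ x ∈ F, w = w3 R i j x.1 x.2} ?_ ?_ ?_ v hv fun r hr k => ?_
  · rintro _ ⟨x, -, rfl⟩
    exact w3_mem _ _
  · obtain ⟨x, hx⟩ := List.exists_mem_of_ne_nil F h0
    exact ⟨_, x, hx, rfl⟩
  · rintro _ ⟨x, hx, rfl⟩
    rw [C.apt _ _ (h1 x hx), h2 x hx]
  · obtain ⟨p, q, e, rfl⟩ := (rt_inJ h).1 hr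
    exact h3 p q e fun x hx => (pos_w3 h (h1 x hx) e).1 (k _ ⟨x, hx, rfl⟩)

end Tits.Plane
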