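import Mathlib
import Cfsg.Agent.Lib.Tits.Plane0
import Cfsg.Agent.Lib.H81.PlaneOW

/-! The projective plane of a residue of type `A₂` and its Levi subgroup. -/

set_option autoImplicit false
set_option linter.unusedSectionVars false

namespace Tits.Plane

open H63.St Cfsg Pointwise

variable {Φ I : Type*} {R : Roots Φ I} {G X : Type*} [Group G] [MulAction G X] [Finite Φ]
  (D : Bd R G X) {i j : I}

theorem w3_inj (h : cm R i j = 3) {a b c d : Fin 3} (h1 : a ≠ b) (h2 : c ≠ d)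
    (e : w3 R i j a b = w3 R i j c d) : a = c ∧ b = d := by
  obtain ⟨m, m1, m2⟩ := third h1
  obtain ⟨n, n1, n2⟩ := third h2
  have := w3_rt h h1 m1 m2 (p := 0) (q := 2) (by decide)
  rw [e, w3_rt h h2 n1 n2 (by decide)] at this
  exact ⟨(rt_inj h h2 h1 this).1.symm, (rt_inj h h2 h1 this).2.symm⟩

theorem self_Pn (x : X) (k : I) : x ∈ D.Pn x k := Or.inl rfl

theorem Pn_symm {x y : X} {k : I} (h : y ∈ D.Pn x k) : x ∈ D.Pn y k := D.Pn_eq h ▸ self_Pn D x k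

theorem Pn_trans {x y z : X} {k : I} (h : y ∈ D.Pn x k) (h' : z ∈ D.Pn y k) : z ∈ D.Pn x k :=
  D.Pn_eq h ▸ h'

theorem smul_set_Pn (g : G) (x : X) (k : I) : g • D.Pn x k = D.Pn (g • x) k := Set.ext fun y => by
  rw [Set.mem_smul_set_iff_inv_smul_mem, ← smul_Pn D g, smul_inv_smul]

theorem δ_self (x : X) : D.δ x x = 1 := (D.eq_one x x).2 rfl

theorem ex' (x y : X) (k : I) : ∃ z ∈ D.Pn x k, D.δ z y = R.σ k * D.δ x y := by
  obtain ⟨z, h1, h2⟩ := D.ex y x k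
  exact ⟨z, Or.inr h1, by rw [D.symm, h2, mul_inv_rev, R.σ_inv, ← D.symm]⟩

theorem δ_ij (h : cm R i j = 3) {x y z : X} (h1 : D.δ x y = R.σ i) (h2 : D.δ y z = R.σ j) :
    D.δ x z = R.σ i * R.σ j :=
  h1 ▸ (D.step x y z j h2).resolve_right fun e =>
    e.2 (h1 ▸ (rt_pos h (a := 0) (b := 2) (by decide)).2 (by decide))

theorem δ_ji (h : cm R i j = 3) {x y z : X} (h1 : y ∈ D.Pn x j) (h2 : z ∈ D.Pn y i) :
    D.δ x z = w3 R i j 0 2 ∨ D.δ x z = w3 R i j 1 2 ∨ D.δ x z = w3 R i j 0 1 ∨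
      D.δ x z = w3 R i j 2 1 := by
  rcases h1 with rfl | h1 <;> rcases h2 with rfl | h2
  exacts [Or.inl (δ_self D _), Or.inr (Or.inl h2), Or.inr (Or.inr (Or.inl h1)),
    Or.inr (Or.inr (Or.inr (δ_ij D ((cm_symm j i).trans h) h1 h2)))]

theorem join0 (h : cm R i j = 3) {x y : X} (e : D.δ x y ∈ WJ R {i, j}) :
    ∃ x' ∈ D.Pn x j, ∃ y' ∈ D.Pn y j, y' ∈ D.Pn x' i := by
  have e1 : ∀ x, x * R.σ j * R.σ j = x := fun x => by rw [mul_assoc, R.σ_mul_self, mul_one]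
  have e2 : ∀ x, R.σ j * (R.σ j * x) = x := fun x => by rw [← mul_assoc, R.σ_mul_self, one_mul]
  obtain ⟨y', y1, y2⟩ := D.ex x y j
  obtain ⟨x', x1, x2⟩ := ex' D x y j
  obtain ⟨x'', x3, x4⟩ := ex' D x y' j
  obtain ⟨a, b, ne, e⟩ := mem_WJ3 h e
  rw [y2] at x4
  rw [e] at y2 x2 x4
  fin_cases a <;> fin_cases b <;> first | exact absurd rfl ne | skip
  · exact ⟨x, self_Pn D _ _, y', Or.inr y1, Or.inl ((D.eq_one _ _).1 (y2.trans (R.σ_mul_self j))).symm⟩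
  · exact ⟨x, self_Pn D _ _, y, self_Pn D _ _, Or.inl ((D.eq_one _ _).1 e).symm⟩
  · exact ⟨x, self_Pn D _ _, y', Or.inr y1, Or.inr (y2.trans (e1 _))⟩
  · exact ⟨x, self_Pn D _ _, y, self_Pn D _ _, Or.inr e⟩
  · refine ⟨x'', x3, y', Or.inr y1, Or.inr (x4.trans ?_)⟩
    show R.σ j * (R.σ i * R.σ j * R.σ i * R.σ j) = _
    rw [braid h, e1, e2]
  · exact ⟨x', x1, y, self_Pn D _ _, Or.inr (x2.trans (e2 _))⟩

theorem uniq0 (h : cm R i j = 3) {x1 x2 y1 y2 : X} (a : x2 ∈ D.Pn x1 j) (b : y2 ∈ D.Pn y1 j)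
    (c : x1 ∈ D.Pn y1 i) (d : x2 ∈ D.Pn y2 i) : x1 = y1 ∨ x2 = x1 := by
  by_contra! hn
  have := δ_ji D h b d
  rw [δ_ij D h (c.resolve_left hn.1) (a.resolve_left hn.2)] at this
  rcases this with e | e | e | e <;>
    exact absurd (w3_inj h (a := 1) (b := 0) (by decide) (by decide) e) (by decide)

theorem eq_of_Pn (h : cm R i j = 3) {x y : X} (a : y ∈ D.Pn x j) (b : y ∈ D.Pn x i) : y = x :=
  a.elim id fun a => b.elim id fun b => absurd (b.symm.trans a) (σi_ne_σj h)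

/-- The residue. -/
def Res (x : X) (J : Set I) : Set X := {z | D.δ x z ∈ WJ R J}

theorem Res_eq {x y : X} {J : Set I} (h : y ∈ Res D x J) : Res D y J = Res D x J :=
  Set.ext fun _ => ⟨D.δ_mem_WJ h, D.δ_mem_WJ (by rw [D.symm]; exact inv_mem h)⟩

theorem smul_Res (g : G) (x : X) (J : Set I) : g • Res D x J = Res D (g • x) J := Set.ext fun y => by
  rw [Set.mem_smul_set_iff_inv_smul_mem, Res, Res, Set.mem_setOf_eq, Set.mem_setOf_eq, ← D.smul g,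
    smul_inv_smul]

theorem Pn_Res {x y z : X} {J : Set I} {k : I} (hk : k ∈ J) (h : y ∈ Res D x J) (h' : z ∈ D.Pn y k) :
    z ∈ Res D x J :=
  h'.elim (· ▸ h) fun e => D.δ_mem_WJ h (e ▸ Subgroup.subset_closure ⟨k, hk, rfl⟩)

theorem a_Res {J : Set I} {w : Equiv.Perm Φ} (h : w ∈ WJ R J) : D.a w ∈ Res D (D.a 1) J := by
  show D.δ _ _ ∈ WJ R _
  rwa [D.apt _ (one_mem _) _ (WJ_le J h), inv_one, one_mul]

theorem exists_levi (h : cm R i j = 3) : ∃ L : Subgroup G,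
    (∀ g ∈ L, g • Res D (D.a 1) {i, j} = Res D (D.a 1) {i, j}) ∧
    (∀ g ∈ L, ∀ F : Set (Equiv.Perm Φ), F ⊆ WJ R {i, j} → F.Nonempty →
      (∀ w ∈ F, g • D.a w = D.a w) → ∀ v ∈ R.W,
      (∀ r, InJ R {i, j} r → (∀ w ∈ F, R.Pos (w⁻¹ r)) → R.Pos (v⁻¹ r)) → g • D.a v = D.a v) ∧
    ∀ c ∈ Res D (D.a 1) {i, j}, ∀ c' ∈ Res D (D.a 1) {i, j}, ∀ d d', D.δ c d = w3 R i j 2 0 →
      D.δ c' d' = w3 R i j 2 0 → ∃ g ∈ L, g • c = c' ∧ g • d = d' := by
  obtain ⟨w0, hw0, p0⟩ := R.exists_w0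
  choose o ho using exists_opp hw0 p0
  have co : ∀ k, w0 * R.σ (o k) * w0⁻¹ = R.σ k := fun k => by
    have := R.W_conj_σ (mul_mem (R.σ_mem_W k) hw0) (k := o k) (l := k)
      (by rw [Equiv.Perm.mul_apply, ho, R.σ_neg_α])
    rw [← mul_left_cancel_iff (a := R.σ k), ← mul_right_cancel_iff (a := (R.σ k)⁻¹)]
    exact Eq.trans (by group) (this.trans (by group))
  have cw : ∀ v, v ∈ WJ R {o i, o j} ↔ w0 * v * w0⁻¹ ∈ WJ R {i, j} := fun v => by
    rw [show WJ R {i, j} = (WJ R {o i, o j}).map (MulAut.conj w0).toMonoidHom by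
      rw [WJ, WJ, MonoidHom.map_closure]
      simp [Set.image_insert_eq, co]]
    exact (Subgroup.mem_map_iff_mem (f := (MulAut.conj w0).toMonoidHom) (MulAut.conj w0).injective).symm
  have cr : ∀ r, InJ R {o i, o j} r → InJ R {i, j} (w0 r) := by
    rintro _ ⟨v, hv, k, hk, rfl⟩
    have : InJ R {i, j} (w0 (R.α k)) := by
      rcases hk with rfl | rfl <;> rw [ho] <;> exact (inJ_α (by simp)).neg
    simpa using this.smul ((cw v).1 hv)
  set wJ := w3 R i j 2 0 with hwJ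
  have mJ : wJ ∈ WJ R {i, j} := w3_mem 2 0
  have pJ : ∀ r, InJ R {i, j} r → (R.Pos (wJ r) ↔ ¬ R.Pos r) := fun r hr => by
    obtain ⟨p, q, e, rfl⟩ := (rt_inJ h).1 hr
    have : ![2, 1, 0] p ≠ (![2, 1, 0] q : Fin 3) := by clear hr; revert p q; decide
    rw [w3_rt h (m := 1) (by decide) (by decide) (by decide) e, rt_pos h this, rt_pos h e]
    clear hr
    revert p q
    decide
  have J2 : wJ * wJ = 1 := by
    show R.σ i * R.σ j * R.σ i * (R.σ i * R.σ j * R.σ i) = 1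
    rw [mul_eq_one_iff_eq_inv]
    simp only [mul_inv_rev, R.σ_inv, mul_assoc]
  have mu : wJ * w0 ∈ R.W := mul_mem (WJ_le _ mJ) hw0
  have r1 : ∀ v ∈ WJ R {o i, o j}, Red R (wJ * w0) v := fun v hv r a b => by
    have : InJ R {o i, o j} r := by_contra fun k => b ((pos_iff_of_not_inJ k hv).2 a)
    rw [Equiv.Perm.mul_apply, pJ _ (cr _ (this.smul hv)), not_not, p0]
    exact b
  have r2 : ∀ v ∈ WJ R {i, j}, Red R v (wJ * w0) := fun v hv r a b => by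
    have k : ¬ InJ R {i, j} (w0 r) := fun k => b ((pJ _ k).2 fun e => (p0 r).1 e a)
    rw [Equiv.Perm.mul_apply, ← Equiv.Perm.mul_apply, pos_iff_of_not_inJ k (mul_mem hv mJ), p0]
    exact not_not.2 a
  have am : ∀ u ∈ WJ R {i, j}, D.a (u * (wJ * w0)) ∈ Res D (D.a w0) {o i, o j} := fun u hu => by
    show D.δ _ _ ∈ WJ R _
    rw [D.apt _ hw0 _ (mul_mem (WJ_le _ hu) mu), cw]
    simpa [mul_assoc] using mul_mem hu mJ
  have pr : ∀ d ∈ Res D (D.a 1) {i, j}, ∃ c ∈ Res D (D.a w0) {o i, o j}, D.δ d c = wJ * w0 := by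
    intro d hd
    have a1 : D.δ d (D.a 1) ∈ WJ R {i, j} := by rw [D.symm]; exact inv_mem hd
    have a2 : D.δ (D.a 1) (D.a (wJ * w0)) = wJ * w0 := by
      rw [D.apt _ (one_mem _) _ mu, inv_one, one_mul]
    have a3 : (wJ * w0)⁻¹ * D.δ d (D.a 1) * (wJ * w0) ∈ WJ R {o i, o j} := by
      rw [cw]
      simpa [mul_assoc] using mul_mem (inv_mem mJ) (mul_mem a1 mJ)
    obtain ⟨c, c1, c2⟩ := D.exists_mid (x := d) (y := D.a (wJ * w0)) mu (WJ_le _ a3) (r1 _ a3) (by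
      rw [D.δ_mul (z := D.a 1) (by rw [a2]; exact r2 _ a1), a2]; group)
    exact ⟨c, D.δ_mem_WJ (y := D.a (wJ * w0)) (one_mul (wJ * w0) ▸ am 1 (one_mem _) :) (by rw [D.symm, c2]; exact inv_mem a3), c1⟩
  refine ⟨MulAction.stabilizer G (Res D (D.a 1) {i, j}) ⊓
    MulAction.stabilizer G (Res D (D.a w0) {o i, o j}), fun g hg => hg.1,
    fun g hg F h1 h2 h3 v hv h4 => ?_, fun c hc c' hc' d d' e e' => ?_⟩
  · refine D.fix_hull (F := F ∪ {x | ∃ u ∈ F, x = u * (wJ * w0)}) ?_ h2.inl ?_ hv fun r hr => ?_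
    · rintro _ (k | ⟨u, hu, rfl⟩)
      exacts [WJ_le _ (h1 k), mul_mem (WJ_le _ (h1 hu)) mu]
    · rintro _ (k | ⟨u, hu, rfl⟩)
      · exact h3 _ k
      have a1 := am u (h1 hu)
      have a2 : g • D.a (u * (wJ * w0)) ∈ Res D (D.a w0) {o i, o j} :=
        hg.2 ▸ Set.smul_mem_smul_set a1
      rw [← Res_eq D a1] at a2
      have a3 : D.δ (D.a u) (D.a (u * (wJ * w0))) = wJ * w0 := by
        rw [D.apt _ (WJ_le _ (h1 hu)) _ (mul_mem (WJ_le _ (h1 hu)) mu), inv_mul_cancel_left]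
      have := D.δ_mul (x := D.a u) (z := D.a (u * (wJ * w0))) (y := g • D.a (u * (wJ * w0)))
        (by rw [a3]; exact r1 _ a2)
      rw [a3, ← h3 u hu, D.smul, a3, left_eq_mul, D.eq_one] at this
      exact this.symm
    · refine h4 r (by_contra fun k => ?_) fun w hw => hr w (Or.inl hw)
      obtain ⟨u, hu⟩ := h2
      have a1 := hr u (Or.inl hu)
      have a2 := hr _ (Or.inr ⟨u, hu, rfl⟩)
      rw [pos_iff_of_not_inJ k (inv_mem (h1 hu))] at a1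
      rw [← mul_assoc, mul_inv_rev, Equiv.Perm.mul_apply] at a2
      refine (p0 _).1 ?_ a2
      rwa [Equiv.Perm.inv_def, Equiv.apply_symm_apply,
        pos_iff_of_not_inJ k (inv_mem (mul_mem (h1 hu) mJ))]
  · have k : ∀ {c d}, c ∈ Res D (D.a 1) {i, j} → D.δ c d = wJ → ∃ x ∈ Res D (D.a w0) {o i, o j},
        D.δ d x = wJ * w0 ∧ D.δ c x = w0 := fun {c d} hc e => by
      obtain ⟨x, x1, x2⟩ := pr d (D.δ_mem_WJ hc (e ▸ mJ))
      exact ⟨x, x1, x2, by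
        rw [D.δ_mul (z := d) (by rw [e, x2]; exact r2 _ mJ), e, x2, ← mul_assoc, J2, one_mul]⟩
    obtain ⟨x, x1, x2, x3⟩ := k hc e
    obtain ⟨x', y1, y2, y3⟩ := k hc' e'
    obtain ⟨g, g1, g2⟩ := D.tr c x c' x' (x3.trans y3.symm)
    refine ⟨g, ⟨?_, ?_⟩, g1, D.mid_uniq (x := c') (y := x') (by rw [e', y2]; exact r2 _ mJ) ?_ ?_⟩
    · show g • _ = _
      rw [← Res_eq D hc, smul_Res, g1, Res_eq D hc', Res_eq D hc]
    · show g • _ = _
      rw [← Res_eq D x1, smul_Res, g2, Res_eq D y1, Res_eq D x1]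
    · rw [e', ← g1, D.smul, e]
    · rw [y2, ← g2, D.smul, x2]

end Tits.Plane
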