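import Mathlib
import Cfsg.Agent.Lib.Tits.Plane1
import Cfsg.Agent.Lib.H81.ElationPSL

/-! Coordinates on a residue of type `A₂`. -/

set_option autoImplicit false
set_option linter.unusedSectionVars false

namespace Tits.Plane

open H63.St Cfsg Pointwise Matrix H81

section lin

variable {K : Type} [Field K]

theorem exists_dot {u : Fin 3 → K} (h : u ≠ 0) : ∃ t, u ⬝ᵥ t = 1 := by
  obtain ⟨a, ha⟩ := Function.ne_iff.1 h
  exact ⟨Pi.single a (u a)⁻¹, by rw [dotProduct_single, mul_inv_cancel₀ ha]⟩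

theorem span_iff {u v x : Fin 3 → K} (h : u ⨯₃ v ≠ 0) :
    (∃ a b : K, a • u + b • v = x) ↔ (u ⨯₃ v) ⬝ᵥ x = 0 := by
  refine ⟨?_, fun e => ?_⟩
  · rintro ⟨a, b, rfl⟩
    simp [cross_apply, dotProduct, Fin.sum_univ_three]
    ring
  obtain ⟨t, ht⟩ := exists_dot h
  refine ⟨(x ⨯₃ v) ⬝ᵥ t, (u ⨯₃ x) ⬝ᵥ t, funext fun k => ?_⟩
  simp [cross_apply, dotProduct, Fin.sum_univ_three] at ht e
  fin_cases k <;> simp [cross_apply, dotProduct, Fin.sum_univ_three]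
  · linear_combination x 0 * ht - t 0 * e
  · linear_combination x 1 * ht - t 1 * e
  · linear_combination x 2 * ht - t 2 * e

theorem cross_ne {u v : Fin 3 → K} (hv : v ≠ 0) : u ⨯₃ v ≠ 0 ↔ ¬ ∃ s : K, s • v = u := by
  refine ⟨?_, fun h e => h ?_⟩
  · rintro h ⟨s, rfl⟩
    simp at h
  obtain ⟨t, ht⟩ := exists_dot hv
  have := cross_cross_eq_smul_sub_smul u v t
  rw [e, map_zero, LinearMap.zero_apply, ht, one_smul, eq_comm, sub_eq_zero] at this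
  exact ⟨_, this⟩

theorem exists_cross {w : Fin 3 → K} (h : w ≠ 0) : ∃ u v, u ⨯₃ v = w := by
  obtain ⟨u, -, hu, e⟩ := exists_fl h
  obtain ⟨t, ht⟩ := exists_dot hu
  exact ⟨u, w ⨯₃ t, by rw [cross_cross_eq_smul_sub_smul', ht, dotProduct_comm, e]; simp⟩

theorem par_of_dot {w w' : Fin 3 → K} (h : w ≠ 0) (e : ∀ v, v ≠ 0 → w ⬝ᵥ v = 0 → w' ⬝ᵥ v = 0) :
    ∃ s : K, s • w = w' := by
  obtain ⟨t, ht⟩ := exists_dot h
  refine ⟨w' ⬝ᵥ t, funext fun k => ?_⟩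
  have : w' ⬝ᵥ (Pi.single k 1 - w k • t) = 0 := by
    by_cases h0 : Pi.single k 1 - w k • t = 0
    · rw [h0, dotProduct_zero]
    · exact e _ h0 (by simp [ht])
  simp [sub_eq_zero] at this
  simp [this, mul_comm]

end lin

/-- Coordinates of a plane with a doubly transitive group, adapted to a triangle. -/
theorem exists_coord {Γ P Ln : Type*} [Group Γ] [Finite Γ] [MulAction Γ P] [MulAction Γ Ln]
    (π : Pl Γ P Ln) (h : π.Two) (p : Fin 3 → P) (l : Fin 3 → Ln) (t : ∀ a b, π.I (p a) (l b) ↔ a ≠ b) :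
    ∃ (K : Type) (_ : Field K) (_ : Fintype K) (ψ χ : (Fin 3 → K) → _),
      (∀ x, ∃ v, v ≠ 0 ∧ ψ v = x) ∧ (∀ x, ∃ w, w ≠ 0 ∧ χ w = x) ∧
      (∀ v v', v ≠ 0 → v' ≠ 0 → (ψ v' = ψ v ↔ ∃ s : K, s • v = v')) ∧
      (∀ v v', v ≠ 0 → v' ≠ 0 → (χ v' = χ v ↔ ∃ s : K, s • v = v')) ∧
      (∀ v w, v ≠ 0 → w ≠ 0 → (π.I (ψ v) (χ w) ↔ w ⬝ᵥ v = 0)) ∧
      (∀ a, ψ (Pi.single a 1) = p a) ∧ (∀ a, χ (Pi.single a 1) = l a) ∧
      ∀ a b (e : a ≠ b) (s : K), ∃ τ : Γ, ∀ v w, Fl v w →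
        τ • ψ v = ψ ((SpecialLinearGroup.transvection e s).1 *ᵥ v) ∧
        τ • χ w = χ (w ᵥ* (SpecialLinearGroup.transvection e s)⁻¹.1) := by
  obtain ⟨q, _, E, hE⟩ := h.central.exists_elat
  obtain ⟨K, i1, i2, n, ψ0, hψ0⟩ := E.exists_isCoord
  have key : ∀ {W : Type} [AddCommGroup W] [Module K W] {ψ : W → P}, IsCoord E.Col K ψ →
      ∀ {u v w : W} {k : Ln}, u ≠ 0 → v ≠ 0 → w ≠ 0 → ψ u ≠ ψ v → π.I (ψ u) k →
      π.I (ψ v) k → (π.I (ψ w) k ↔ ∃ a b : K, a • u + b • v = w) := fun hψ _ _ _ _ hu hv hw hne h1 h2 => by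
    rw [← hψ.col_iff hu hv hw hne, hE hne]
    exact (Pl.col_iff hne h1 h2).symm
  have pne : ∀ {a b}, a ≠ b → p a ≠ p b := fun {a b} e k => (t b b).1 (k ▸ (t a b).2 e) rfl
  choose u u0 hu using fun a => hψ0.surj (p a)
  have k12 : ∀ {w}, w ≠ 0 → (π.I (ψ0 w) (l 0) ↔ ∃ a b : K, a • u 1 + b • u 2 = w) := fun hw =>
    key hψ0 (u0 1) (u0 2) hw (by rw [hu, hu]; exact pne (by decide)) (hu 1 ▸ (t 1 0).2 (by decide))
      (hu 2 ▸ (t 2 0).2 (by decide))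
  have li : LinearIndependent K u := by
    rw [show u = Fin.cons (u 0) ![u 1, u 2] from funext fun a => by fin_cases a <;> rfl,
      linearIndependent_finCons]
    refine ⟨hψ0.linearIndependent (u0 1) (u0 2) (by rw [hu, hu]; exact pne (by decide)), fun e => ?_⟩
    rw [Matrix.range_cons_cons_empty, Submodule.mem_span_pair, ← k12 (u0 0), hu, t] at e
    exact e rfl
  have sp : ⊤ ≤ Submodule.span K (Set.range u) := fun v _ => by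
    have m : ∀ a, u a ∈ Submodule.span K (Set.range u) := fun a => Submodule.subset_span ⟨a, rfl⟩
    by_cases hv : v = 0
    · exact hv ▸ zero_mem _
    obtain ⟨k, k1, k2⟩ := π.join (p 0) (ψ0 v)
    obtain ⟨z, z1, z2⟩ := π.meet k (l 0)
    obtain ⟨z, z0, rfl⟩ := hψ0.surj z
    obtain ⟨a, b, rfl⟩ := (key hψ0 (u0 0) z0 hv (fun e => (t 0 0).1 (hu 0 ▸ e ▸ z2) rfl)
      (hu 0 ▸ k1) z1).1 k2
    obtain ⟨c, d, rfl⟩ := (k12 z0).1 z2
    exact add_mem (Submodule.smul_mem _ _ (m 0)) (Submodule.smul_mem _ _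
      (add_mem (Submodule.smul_mem _ _ (m 1)) (Submodule.smul_mem _ _ (m 2))))
  obtain ⟨ψ, hψ, hp⟩ : ∃ ψ : (Fin 3 → K) → P, IsCoord E.Col K ψ ∧ ∀ a, ψ (Pi.single a 1) = p a :=
    ⟨_, hψ0.comp (Module.Basis.mk li sp).equivFun.symm, fun a => by
      rw [← hu]; simp [Pi.single_apply]⟩
  have cr : ∀ {u v : Fin 3 → K} {k : Ln}, u ≠ 0 → v ≠ 0 → ψ u ≠ ψ v → π.I (ψ u) k → π.I (ψ v) k →
      u ⨯₃ v ≠ 0 ∧ ∀ x, x ≠ 0 → (π.I (ψ x) k ↔ (u ⨯₃ v) ⬝ᵥ x = 0) := fun hu hv ne h1 h2 => by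
    have := (cross_ne hv).2 (mt (hψ.eq_iff hu hv).2 ne)
    exact ⟨this, fun x hx => (key hψ hu hv hx ne h1 h2).trans (span_iff this)⟩
  have : ∀ w : Fin 3 → K, ∃ k, w ≠ 0 → ∀ x, x ≠ 0 → (π.I (ψ x) k ↔ w ⬝ᵥ x = 0) := fun w => by
    by_cases hw : w = 0
    · exact ⟨l 0, fun e => absurd hw e⟩
    obtain ⟨u, v, rfl⟩ := exists_cross hw
    have hu : u ≠ 0 := by rintro rfl; simp at hw
    have hv : v ≠ 0 := by rintro rfl; simp at hw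
    obtain ⟨k, k1, k2⟩ := π.join (ψ u) (ψ v)
    exact ⟨k, fun _ => (cr hu hv (mt (hψ.eq_iff hu hv).1 ((cross_ne hv).1 hw)) k1 k2).2⟩
  choose χ hχ using this
  have two : ∀ k, ∃ u v, u ≠ 0 ∧ v ≠ 0 ∧ ψ u ≠ ψ v ∧ π.I (ψ u) k ∧ π.I (ψ v) k := fun k => by
    obtain ⟨a, ha, -⟩ := π.meet k k
    obtain ⟨b, hb, hba, -⟩ := π.exists_pt k a a
    obtain ⟨u, hu, rfl⟩ := hψ.surj b
    obtain ⟨v, hv, rfl⟩ := hψ.surj a
    exact ⟨u, v, hu, hv, hba, hb, ha⟩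
  have ext : ∀ {k k'}, (∀ x, x ≠ 0 → π.I (ψ x) k → π.I (ψ x) k') → k = k' := fun {k k'} e => by
    obtain ⟨u, v, hu, hv, ne, h1, h2⟩ := two k
    exact Inc.line_eq ne h1 h2 (e u hu h1) (e v hv h2)
  refine ⟨K, i1, i2, ψ, χ, hψ.surj, fun k => ?_, fun v v' hv hv' => hψ.eq_iff hv' hv,
    fun w w' hw hw' => ⟨fun e => par_of_dot hw fun v hv k => (hχ w' hw' v hv).1 (e ▸ (hχ w hw v hv).2 k),
      fun ⟨s, e⟩ => (ext fun x hx k => (hχ _ hw' x hx).2 ?_).symm⟩, fun v w hv hw => hχ w hw v hv, hp,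
    fun a => ?_, fun a b e s => ?_⟩
  · obtain ⟨u, v, hu, hv, ne, h1, h2⟩ := two k
    obtain ⟨c1, c2⟩ := cr hu hv ne h1 h2
    exact ⟨_, c1, ext fun x hx k => (c2 x hx).2 ((hχ _ c1 x hx).1 k)⟩
  · rw [← e, smul_dotProduct, (hχ w hw x hx).1 k, smul_zero]
  · obtain ⟨b, c, h1, h2, h3⟩ : ∃ b c, b ≠ c ∧ b ≠ a ∧ c ≠ a := by revert a; decide
    have k : ∀ {b}, b ≠ a → π.I (p b) (χ (Pi.single a 1)) := fun e =>
      hp _ ▸ (hχ _ (by simp) _ (by simp)).2 (fl_single e).2.2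
    exact Inc.line_eq (pne h1) (k h2) (k h3) ((t _ _).2 h2) ((t _ _).2 h3)
  · obtain ⟨τ, -, h1⟩ := Elat.exists_of_transv hψ (u := Pi.single a 1) (by simp) (w := Pi.single b s)
      (by simp [e.symm])
    have h2 : ∀ v, v ≠ 0 → τ • ψ v = ψ ((SpecialLinearGroup.transvection e s).1 *ᵥ v) := fun v hv => by
      rw [h1 v hv]
      congr 1
      change _ = (1 + single a b s) *ᵥ v
      rw [add_mulVec, one_mulVec, single_mulVec]
      ext x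
      simp [Function.update_apply, Pi.single_apply]
    refine ⟨τ, fun v w f => ⟨h2 v f.1, ?_⟩⟩
    obtain ⟨u, v, hu, hv, ne, k1, k2⟩ := two (χ w)
    have k : ∀ {x}, x ≠ 0 → π.I (ψ x) (χ w) →
        π.I (τ • ψ x) (χ (w ᵥ* (SpecialLinearGroup.transvection e s)⁻¹.1)) := fun hx k =>
      have := Fl.sl ⟨hx, f.2.1, (hχ w f.2.1 _ hx).1 k⟩ (SpecialLinearGroup.transvection e s)
      h2 _ hx ▸ (hχ _ this.2.1 _ this.1).2 this.2.2
    exact Inc.line_eq (mt (smul_left_cancel τ) ne) ((π.smul τ _ _).2 k1) ((π.smul τ _ _).2 k2) (k hu k1)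
      (k hv k2)

variable {Φ I : Type*} {R : Roots Φ I} {G X : Type*} [Group G] [MulAction G X] [Finite Φ]
  (D : Bd R G X) {i j : I}

/-- The `k`-panels of the residue. -/
def Pns (J : Set I) (k : I) (L : Subgroup G) (hL : ∀ g ∈ L, g • Res D (D.a 1) J = Res D (D.a 1) J) :
    SubMulAction L (Set X) where
  carrier := {S | ∃ z ∈ Res D (D.a 1) J, S = D.Pn z k}
  smul_mem' := by
    rintro g _ ⟨z, hz, rfl⟩
    exact ⟨g.1 • z, hL g g.2 ▸ Set.smul_mem_smul_set hz, smul_set_Pn D g.1 z k⟩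

variable {D} {J : Set I} {k : I} {L : Subgroup G}
  {hL : ∀ g ∈ L, g • Res D (D.a 1) J = Res D (D.a 1) J}

theorem Pns.eq (p : Pns D J k L hL) {z : X} (h : z ∈ p.1) : p.1 = D.Pn z k := by
  obtain ⟨y, -, e⟩ := p.2
  exact e.trans (D.Pn_eq (e ▸ h)).symm

theorem Pns.ext {p q : Pns D J k L hL} {z : X} (h : z ∈ p.1) (h' : z ∈ q.1) : p = q :=
  Subtype.ext ((Pns.eq p h).trans (Pns.eq q h').symm)

theorem Pns.res (hk : k ∈ J) (p : Pns D J k L hL) {z : X} (h : z ∈ p.1) : z ∈ Res D (D.a 1) J := by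
  obtain ⟨_, y, hy, rfl⟩ := p
  exact Pn_Res D hk hy h

theorem Pns.ne (p : Pns D J k L hL) : ∃ z, z ∈ p.1 := by
  obtain ⟨_, y, -, rfl⟩ := p
  exact ⟨y, self_Pn D _ _⟩

theorem Pns.join (h : cm R i j = 3) (hJ : J = {i, j}) (p q : Pns D J j L hL) :
    ∃ l : Pns D J i L hL, (p.1 ∩ l.1).Nonempty ∧ (q.1 ∩ l.1).Nonempty := by
  subst hJ
  obtain ⟨x, hx⟩ := Pns.ne p
  obtain ⟨y, hy⟩ := Pns.ne q
  have a := Pns.res (by simp) p hx
  obtain ⟨x', x1, y', y1, e⟩ := join0 D h (x := x) (y := y)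
    (show y ∈ Res D x _ from (Res_eq D a).symm ▸ Pns.res (by simp) q hy)
  exact ⟨⟨_, x', Pn_Res D (by simp) a x1, rfl⟩, ⟨x', Pns.eq p hx ▸ x1, self_Pn D _ _⟩,
    y', Pns.eq q hy ▸ y1, e⟩

theorem Pns.three (h : cm R i j = 3) (hJ : J = {i, j}) (l : Pns D J i L hL) (p q : Pns D J j L hL) :
    ∃ r : Pns D J j L hL, (r.1 ∩ l.1).Nonempty ∧ r ≠ p ∧ r ≠ q := by
  subst hJ
  obtain ⟨x, hx⟩ := Pns.ne l
  obtain ⟨y, z, hy, hz, ne⟩ := D.thick x i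
  have m : ∀ u, u ∈ D.Pn x i → u ∈ Res D (D.a 1) {i, j} := fun u hu =>
    Pn_Res D (by simp) (Pns.res (by simp) l hx) hu
  have n : ∀ {u}, D.δ x u = R.σ i → x ≠ u := by
    rintro _ e rfl
    exact σ_ne_one i (e.symm.trans (δ_self D x))
  by_contra! hn
  have k : ∀ u, u ∈ D.Pn x i → u ∈ p.1 ∨ u ∈ q.1 := fun u hu => by
    have := hn ⟨_, u, m u hu, rfl⟩ ⟨u, self_Pn D _ _, Pns.eq l hx ▸ hu⟩
    by_cases e : (⟨_, u, m u hu, rfl⟩ : Pns D {i, j} j L hL) = p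
    exacts [Or.inl (e ▸ self_Pn D _ _), Or.inr (this e ▸ self_Pn D _ _)]
  have e : ∀ (p : Pns D {i, j} j L hL) {u v}, u ∈ D.Pn x i → v ∈ D.Pn x i → u ∈ p.1 → v ∈ p.1 → u = v :=
    fun p _ _ a b c d => eq_of_Pn D h (Pns.eq p d ▸ c) (Pn_trans D (Pn_symm D b) a)
  have a1 := self_Pn D x i
  have a2 : y ∈ D.Pn x i := Or.inr hy
  have a3 : z ∈ D.Pn x i := Or.inr hz
  rcases k x a1 with b | b <;> rcases k y a2 with c | c <;> rcases k z a3 with d | d <;>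
    first | exact n hy (e _ a1 a2 b c) | exact n hz (e _ a1 a3 b d) | exact ne (e _ a2 a3 c d)

variable (D)

theorem exists_co [Finite G] (h : cm R i j = 3) : ∃ (K : Type) (_ : Field K) (_ : Fintype K)
    (c : (Fin 3 → K) → (Fin 3 → K) → X) (L : Subgroup G), Co D i j c L := by
  obtain ⟨L, hL, fx, tr⟩ := exists_levi D h
  have h' : cm R j i = 3 := (cm_symm j i).trans h
  have : Finite X := Finite.of_surjective (fun g : G => g • D.a 1) fun x =>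
    (D.tr _ _ x x ((δ_self D _).trans (δ_self D _).symm)).imp fun _ e => e.1
  have un : ∀ {a b : Pns D {i, j} j L hL} {l k : Pns D {i, j} i L hL}, (a.1 ∩ l.1).Nonempty →
      (b.1 ∩ l.1).Nonempty → (a.1 ∩ k.1).Nonempty → (b.1 ∩ k.1).Nonempty → a = b ∨ l = k := by
    rintro a b l k ⟨x1, a1, a2⟩ ⟨y1, b1, b2⟩ ⟨x2, c1, c2⟩ ⟨y2, d1, d2⟩
    rcases uniq0 D h (x1 := x1) (x2 := x2) (y1 := y1) (y2 := y2) (Pns.eq a a1 ▸ c1) (Pns.eq b b1 ▸ d1)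
      (Pns.eq l b2 ▸ a2) (Pns.eq k d2 ▸ c2) with rfl | rfl
    exacts [Or.inl (Pns.ext a1 b1), Or.inr (Pns.ext a2 c2)]
  let p : Fin 3 → Pns D {i, j} j L hL := fun a => ⟨_, _, a_Res D (w3_mem a (a + 1)), rfl⟩
  let l : Fin 3 → Pns D {i, j} i L hL := fun a => ⟨_, _, a_Res D (w3_mem (a + 1) a), rfl⟩
  have n1 : ∀ a : Fin 3, a ≠ a + 1 := by decide
  have mp : ∀ a b, a ≠ b → D.a (w3 R i j a b) ∈ (p a).1 := fun a b e => by
    by_cases k : b = a + 1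
    · exact k ▸ self_Pn D _ _
    · exact Or.inr ((w3_σ h (n1 a) e.symm k).2 ▸ D.a_mem_Nb (WJ_le _ (w3_mem _ _)) j)
  have ml : ∀ a b, a ≠ b → D.a (w3 R i j a b) ∈ (l b).1 := fun a b e => by
    by_cases k : a = b + 1
    · exact k ▸ self_Pn D _ _
    · exact Or.inr ((w3_σ h (n1 b).symm k e).1 ▸ D.a_mem_Nb (WJ_le _ (w3_mem _ _)) i)
  have t : ∀ a b, ((p a).1 ∩ (l b).1).Nonempty ↔ a ≠ b := fun a b => by
    refine ⟨?_, fun e => ⟨_, mp a b e, ml a b e⟩⟩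
    rintro ⟨z, z1, z2⟩ rfl
    have := δ_ji D h z1 (Pn_symm D z2)
    obtain ⟨m, m1, m2⟩ := third (n1 a)
    rw [D.apt _ (WJ_le _ (w3_mem _ _)) _ (WJ_le _ (w3_mem _ _))] at this
    simp only [inv_mul_eq_iff_eq_mul] at this
    rw [w3_02, w3_12, w3_01, show w3 R i j 2 1 = R.σ j * R.σ i from rfl, mul_one, ← mul_assoc,
      (w3_σ h (n1 a) m1 m2).1, (w3_σ h (n1 a) m1 m2).2, (w3_σ h m1.symm (n1 a).symm m2.symm).1] at this
    rcases this with e | e | e | e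
    exacts [n1 a (w3_inj h (n1 a).symm (n1 a) e).2, n1 a (w3_inj h (n1 a).symm m2 e).2,
      m1 (w3_inj h (n1 a).symm m1.symm e).2.symm, m1 (w3_inj h (n1 a).symm m2.symm e).2.symm]
  obtain ⟨π0, hπ⟩ : ∃ π : Inc (Pns D {i, j} j L hL) (Pns D {i, j} i L hL),
      ∀ a l, π.I a l ↔ (a.1 ∩ l.1).Nonempty := by
    obtain ⟨p1, a1, a2, a3⟩ := Pns.three h rfl (l 0) (p 1) (p 2)
    obtain ⟨l1, b1, b2, b3⟩ := Pns.three h' (Set.pair_comm _ _) (p 2) (l 0) (l 1)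
    rw [Set.inter_comm] at b1
    have pn : ∀ a b, a ≠ b → p a ≠ p b := fun a b e k => (t b b).1 (k ▸ (t a b).2 e) rfl
    have ln : ∀ a b, a ≠ b → l a ≠ l b := fun a b e k => (t a a).1 (k ▸ (t a b).2 e) rfl
    refine exists_inc (fun a l => (a.1 ∩ l.1).Nonempty) (fun a b _ => Pns.join h rfl a b)
      (fun a b _ => by simpa only [Set.inter_comm] using Pns.join h' (Set.pair_comm _ _) a b) un
      (p₁ := p1) (p₂ := p 0) (p₃ := p 1) (l₁ := l1) (l₂ := l 2) (l₃ := l 1)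
      ⟨fun e => ?_, fun e => ?_, fun e => ?_, (t _ _).2 (by decide), (t _ _).2 (by decide), fun e => ?_,
        (t _ _).2 (by decide), fun e => (t _ _).1 e rfl⟩
    · exact (un a1 ((t 1 0).2 (by decide)) e ((t 1 2).2 (by decide))).elim a2 (ln _ _ (by decide))
    · exact (un a1 ((t 2 0).2 (by decide)) e ((t 2 1).2 (by decide))).elim a3 (ln _ _ (by decide))
    · exact (un e b1 ((t 0 1).2 (by decide)) ((t 2 1).2 (by decide))).elim (pn _ _ (by decide)) b3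
    · exact (un e b1 ((t 1 0).2 (by decide)) ((t 2 0).2 (by decide))).elim (pn _ _ (by decide)) b2
  let ρ : L →* π0.Aut := ((MulAction.toPermHom L _).prod (MulAction.toPermHom L _)).codRestrict _
    fun g a l => by
      rw [hπ, hπ]
      show (g • a.1 ∩ g • l.1).Nonempty ↔ _
      rw [← Set.smul_set_inter, Set.smul_set_nonempty]
  let π : Pl ρ.range _ _ := ⟨π0, fun g => π0.toPl.smul g.1, fun e => Subtype.ext (π0.toPl.faith e),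
    fun e => Subtype.ext (π0.toPl.faith' e)⟩
  have op : ∀ a b : Pns D {i, j} j L hL, a ≠ b → ∃ x ∈ a.1, ∃ y ∈ b.1, D.δ x y = w3 R i j 2 0 := by
    intro a b ne
    obtain ⟨l, ⟨x, x1, x2⟩, y, y1, y2⟩ := Pns.join h rfl a b
    have e : D.δ x y = R.σ i := (show y ∈ D.Pn x i from Pns.eq l x2 ▸ y2).resolve_left
      fun e => ne (Pns.ext x1 (e ▸ y1))
    obtain ⟨y', y3, y4⟩ := D.ex x y j
    obtain ⟨x', x3, x4⟩ := ex' D x y' j
    exact ⟨x', Pns.eq a x1 ▸ x3, y', Pns.eq b y1 ▸ Or.inr y3, by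
      rw [x4, y4, e, ← mul_assoc, ← braid h]; rfl⟩
  have := π0.finAut
  obtain ⟨K, i1, i2, ψ, χ, s1, s2, e1, e2, hI, hp, hl, lv⟩ := exists_coord π (fun a b a' b' ne ne' => by
    obtain ⟨x, x1, y, y1, e⟩ := op a b ne
    obtain ⟨x', x2, y', y2, e'⟩ := op a' b' ne'
    obtain ⟨g, hg, g1, g2⟩ := tr x (Pns.res (by simp) a x1) x' (Pns.res (by simp) a' x2) y y' e e'
    exact ⟨⟨ρ ⟨g, hg⟩, _, rfl⟩, Pns.ext (g1 ▸ Set.smul_mem_smul_set x1) x2,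
      Pns.ext (g2 ▸ Set.smul_mem_smul_set y1) y2⟩) p l fun a b => (hπ _ _).trans (t a b)
  have : ∀ v w, ∃ z, Fl v w → z ∈ (ψ v).1 ∧ z ∈ (χ w).1 := fun v w => by
    by_cases f : Fl v w
    · exact ((hπ _ _).1 ((hI v w f.1 f.2.1).2 f.2.2)).imp fun _ e _ => e
    · exact ⟨D.a 1, fun e => absurd e f⟩
  choose c hc using this
  have uq : ∀ {v w z}, Fl v w → z ∈ (ψ v).1 → z ∈ (χ w).1 → z = c v w := fun f a b =>
    eq_of_Pn D h (Pns.eq _ (hc _ _ f).1 ▸ a) (Pns.eq _ (hc _ _ f).2 ▸ b)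
  refine ⟨K, i1, i2, c, L, fun f => Pns.res (by simp) _ (hc _ _ f).1, fun z hz => ?_,
    fun f f' => ?_, fun f f' => ?_, fun a b e => uq (fl_single e) (hp a ▸ mp a b e) (hl b ▸ ml a b e),
    H10.SL_transvection_induction _ ⟨1, one_mem _, Ind.one⟩ (fun a b e s => ?_)
      fun _ _ ⟨g, a, b⟩ ⟨g', a', b'⟩ => ⟨g * g', mul_mem a a', b.mul b'⟩, fx⟩
  · obtain ⟨v, hv, a⟩ := s1 ⟨_, z, hz, rfl⟩
    obtain ⟨w, hw, b⟩ := s2 ⟨_, z, hz, rfl⟩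
    have a' : z ∈ (ψ v).1 := a ▸ self_Pn D _ _
    have b' : z ∈ (χ w).1 := b ▸ self_Pn D _ _
    have f : Fl v w := ⟨hv, hw, (hI v w hv hw).1 ((hπ _ _).2 ⟨z, a', b'⟩)⟩
    exact ⟨v, w, f, (uq f a' b').symm⟩
  · rw [← e1 _ _ f.1 f'.1, ← Pns.eq _ (hc _ _ f).1]
    exact ⟨Pns.ext (hc _ _ f').1, fun e => e ▸ (hc _ _ f').1⟩
  · rw [← e2 _ _ f.2.1 f'.2.1, ← Pns.eq _ (hc _ _ f).2]
    exact ⟨Pns.ext (hc _ _ f').2, fun e => e ▸ (hc _ _ f').2⟩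
  · obtain ⟨⟨_, g, rfl⟩, hg⟩ := lv a b e s
    exact ⟨g, g.2, fun v w f => uq (f.sl _) ((hg v w f).1 ▸ Set.smul_mem_smul_set (hc _ _ f).1)
      ((hg v w f).2 ▸ Set.smul_mem_smul_set (hc _ _ f).2)⟩

end Tits.Plane
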