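import Mathlib
import Cfsg.Agent.Lib.Tits.Plane0

/-! Panels in coordinates. -/

set_option autoImplicit false

namespace Tits.Plane

open H63.St Cfsg Matrix

variable {Φ I : Type*} {R : Roots Φ I} {G X : Type*} [Group G] [MulAction G X] [Finite Φ]
  {K : Type} [Field K] {c : (Fin 3 → K) → (Fin 3 → K) → X} {L : Subgroup G} {D : Bd R G X}
  {i j : I} {v w : Fin 3 → K}

namespace B

theorem self (v : Fin 3 → K) : ∃ s : K, s • v = v := ⟨1, one_smul _ _⟩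

theorem fl_left {v' : Fin 3 → K} (f : Fl v w) (h : v' ≠ 0) (e : ∃ s : K, s • v = v') : Fl v' w := by
  obtain ⟨s, rfl⟩ := e
  exact ⟨h, f.2.1, by rw [dotProduct_smul, f.2.2, smul_zero]⟩

theorem pn_WJ {x y : X} (hx : D.δ (D.a 1) x ∈ WJ R {i, j}) (h : y ∈ D.Pn x i ∨ y ∈ D.Pn x j) :
    D.δ (D.a 1) y ∈ WJ R {i, j} := by
  rcases h with (rfl | h) | rfl | h
  exacts [hx, D.δ_mem_WJ hx (h ▸ σi_mem), hx, D.δ_mem_WJ hx (h ▸ σj_mem)]

theorem nb_iff {x y : X} {k : I} : y ∈ D.Nb x k ↔ y ∈ D.Pn x k ∧ y ≠ x :=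
  ⟨fun h => ⟨Or.inr h, D.root_ne h⟩, fun h => h.1.resolve_left h.2⟩

theorem pn_i (C : Co D i j c L) (h : cm R i j = 3) (f : Fl v w) {y : X} :
    y ∈ D.Pn (c v w) i ↔ ∃ v', Fl v' w ∧ y = c v' w := by
  refine ⟨fun k => ?_, fun ⟨v', f', e⟩ => e ▸ (C.ln f f').2 (self w)⟩
  obtain ⟨v', w', f', rfl⟩ := C.surj y (pn_WJ (C.mem f) (Or.inl k))
  have p := (C.ln f f').1 k
  have f2 : Fl v' w := (fl_left f'.symm f.2.1 (par_symm f'.2.1 p)).symm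
  exact ⟨v', f2, (C.eq_iff h f2 f').2 ⟨self _, p⟩⟩

theorem pn_j (C : Co D i j c L) (h : cm R i j = 3) (f : Fl v w) {y : X} :
    y ∈ D.Pn (c v w) j ↔ ∃ w', Fl v w' ∧ y = c v w' := by
  refine ⟨fun k => ?_, fun ⟨w', f', e⟩ => e ▸ (C.pt f f').2 (self v)⟩
  obtain ⟨v', w', f', rfl⟩ := C.surj y (pn_WJ (C.mem f) (Or.inr k))
  have p := (C.pt f f').1 k
  have f2 : Fl v w' := fl_left f' f.1 (par_symm f'.1 p)
  exact ⟨w', f2, (C.eq_iff h f2 f').2 ⟨p, self _⟩⟩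

theorem tr_i (C : Co D i j c L) (h : cm R i j = 3) (f : Fl v w) {g : G}
    (k : ∀ v', Fl v' w → g • c v' w = c v' w) : D.Tr g (c v w) i :=
  ⟨k v f, fun y hy => by
    obtain ⟨v', f', rfl⟩ := (pn_i C h f).1 (Or.inr hy : y ∈ D.Pn _ i)
    exact k v' f'⟩

theorem tr_j (C : Co D i j c L) (h : cm R i j = 3) (f : Fl v w) {g : G}
    (k : ∀ w', Fl v w' → g • c v w' = c v w') : D.Tr g (c v w) j :=
  ⟨k w f, fun y hy => by
    obtain ⟨w', f', rfl⟩ := (pn_j C h f).1 (Or.inr hy : y ∈ D.Pn _ j)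
    exact k w' f'⟩

theorem a_one (C : Co D i j c L) : D.a 1 = c (Pi.single 0 1) (Pi.single 2 1) := C.apt 0 2 (by decide)

theorem fl_coord {a : Fin 3} (f : Fl v (Pi.single a 1)) : v a = 0 := by simpa using f.2.2

theorem w3_W (a b : Fin 3) : w3 R i j a b ∈ R.W := WJ_le _ (w3_mem a b)

theorem a_WJ {u : Equiv.Perm Φ} (hu : u ∈ WJ R {i, j}) : D.δ (D.a 1) (D.a u) ∈ WJ R {i, j} := by
  rw [D.apt 1 (one_mem _) u (WJ_le _ hu), inv_one, one_mul]; exact hu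

omit [Finite Φ] in
theorem fix_one {g : G} (k : Ind c g 1) (f : Fl v w) : g • c v w = c v w := by simpa using k v w f

end B

end Tits.Plane
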