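import Mathlib
import Cfsg.Agent.Lib.Tits.PlaneB
import Cfsg.Agent.Lib.Stein.SLn

set_option autoImplicit false
set_option linter.unusedSectionVars false

namespace Tits.Plane

open H63.St Cfsg Matrix
open scoped commutatorElement

variable {Φ I : Type*} {R : Roots Φ I} {G X : Type*} [Group G] [MulAction G X] [Finite Φ] [Finite G]
  {K : Type} [Field K] [Fintype K] {c : (Fin 3 → K) → (Fin 3 → K) → X} {L : Subgroup G} {D : Bd R G X}
  {i j : I}

namespace A

open B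

variable {a b d : Fin 3}

theorem tv_v (h : a ≠ b) (t : K) (v : Fin 3 → K) :
    (SL.tv a b t).1 *ᵥ v = v + (t * v b) • Pi.single a 1 := by
  rw [SL.coe_tv h, add_mulVec, one_mulVec, smul_mulVec, single_mulVec_eq, smul_smul, one_mul]

theorem tv_inv (h : a ≠ b) (t : K) : (SL.tv a b t)⁻¹ = SL.tv a b (-t) := by
  rw [SL.tv_eq h, SL.tv_eq h, SpecialLinearGroup.transvection_inv]

theorem tv_w (h : a ≠ b) (t : K) {w : Fin 3 → K} (k : w a = 0) : w ᵥ* ((SL.tv a b t)⁻¹).1 = w := by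
  rw [tv_inv h, SL.coe_tv h, vecMul_add, vecMul_one, vecMul_smul, add_eq_left]
  ext q
  simp [vecMul, dotProduct, single_apply, ite_and, k]

theorem fixT (h : a ≠ b) {g : G} {t : K} (k : Ind c g (SL.tv a b t)) {v w : Fin 3 → K} (f : Fl v w)
    (h1 : v b = 0) (h2 : w a = 0) : g • c v w = c v w := by
  rw [k v w f, tv_v h, tv_w h t h2, h1, mul_zero, zero_smul, add_zero]

theorem tri (ab : a ≠ b) (da : d ≠ a) (db : d ≠ b) (q : Fin 3) : q = a ∨ q = b ∨ q = d := by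
  revert a b d q; decide

theorem tv_add (h : a ≠ b) (s t : K) : SL.tv a b s * SL.tv a b t = SL.tv a b (s + t) :=
  (SL.st (Fin 3) K).add h s t

theorem tv_c1 (h : a ≠ b) (h2 : b ≠ d) (h3 : a ≠ d) (s t : K) :
    SL.tv a b s * SL.tv b d t * (SL.tv a b s)⁻¹ * (SL.tv b d t)⁻¹ = SL.tv a d (s * t) :=
  (SL.st (Fin 3) K).c1 h h2 h3 s t

theorem ext3 (ab : a ≠ b) (da : d ≠ a) (db : d ≠ b) {v w : Fin 3 → K} (h1 : v a = w a) (h2 : v b = w b)
    (h3 : v d = w d) : v = w := by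
  ext q
  rcases tri ab da db q with rfl | rfl | rfl <;> assumption

theorem fl_t (da : d ≠ a) (db : d ≠ b) (ab : a ≠ b) (t : K) :
    Fl (Pi.single b 1 + t • Pi.single a 1 : Fin 3 → K) (Pi.single d 1) :=
  ⟨fun e => by simpa [ab.symm] using congrFun e b, by simp, by simp [da, db]⟩

theorem uniq (C : Co D i j c L) (h : cm R i j = 3) (ab : a ≠ b) {u : G} (hu : u ∈ D.U (rt R i j a b))
    (k : Ind c u 1) : u = 1 := by
  obtain ⟨d, da, db⟩ := third ab
  have e := (w3_α h da.symm ab.symm db.symm).1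
  have hw := w3_W (R := R) (i := i) (j := j) a d
  have ker := C.ind_one.1 k
  refine D.rigid_top (D.mem_H_of_GR hw (i := i) (e ▸ hu.1)
    (ker _ (a_WJ (mul_mem (w3_mem a d) σi_mem)))) hw fun m => ?_
  by_cases n : w3 R i j a d (R.α m) = rt R i j a b
  · have : R.σ m = R.σ i := congrArg R.refl ((w3 R i j a d).injective (n.trans e.symm))
    exact ⟨ker _ (a_WJ (w3_mem a d)), fun y hy =>
      ker _ (pn_WJ (a_WJ (w3_mem a d)) (Or.inl (Or.inr (this ▸ hy))))⟩
  · exact hu.2 _ hw m ((pos_w3 h da.symm ab).2 (Or.inl rfl)) n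

/-- a collineation fixing two points fixes the line through them -/
theorem hexa (C : Co D i j c L) (h : cm R i j = 3) (ab : a ≠ b) (da : d ≠ a) (db : d ≠ b) {g : G}
    (h1 : g • c (Pi.single b 1) (Pi.single d 1) = c (Pi.single b 1) (Pi.single d 1))
    (h2 : g • c (Pi.single d 1) (Pi.single b 1) = c (Pi.single d 1) (Pi.single b 1)) :
    g • c (Pi.single b 1) (Pi.single a 1) = c (Pi.single b 1) (Pi.single a 1) := by
  have f1 := fl_single (K := K) db.symm
  have f2 := fl_single (K := K) db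
  have f3 := fl_single (K := K) ab.symm
  have f4 := fl_single (K := K) da
  obtain ⟨w1, g1, e1⟩ := (pn_j C h f1).1 (h1 ▸ (smul_Pn D g).2 ((C.pt f1 f3).2 (self _)))
  obtain ⟨w2, g2, e2⟩ := (pn_j C h f2).1 (h2 ▸ (smul_Pn D g).2 ((C.pt f2 f4).2 (self _)))
  obtain ⟨s, hs⟩ := (C.ln g2 g1).1 (e1 ▸ e2 ▸ (smul_Pn D g).2 ((C.ln f4 f3).2 (self _)))
  have z1 := fl_coord g1.symm
  have z2 : w1 d = 0 := by rw [← hs, Pi.smul_apply, fl_coord g2.symm, smul_zero]
  rw [e1]
  exact (C.eq_iff h f3 g1).2 ⟨self _, w1 a, ext3 ab da db (by simp) (by simp [ab.symm, z1])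
    (by simp [da, z2])⟩

theorem ind_of (C : Co D i j c L) (h : cm R i j = 3) (ab : a ≠ b) (da : d ≠ a) (db : d ≠ b) {u : G}
    (hu : u ∈ D.U (rt R i j a b)) {t : K} (e : u • c (Pi.single b 1) (Pi.single d 1) =
      c (Pi.single b 1 + t • Pi.single a 1) (Pi.single d 1)) : Ind c u (SL.tv a b t) := by
  obtain ⟨τ, -, k⟩ := C.lev (SL.tv a b t)
  have hw := w3_W (R := R) (i := i) (j := j) a b
  have f0 := fl_single (K := K) ab
  have al := w3_α h ab da db
  have ps := (pos_w3 h ab ab).2 (Or.inl rfl)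
  have ti : D.Tr (τ⁻¹ * u) (D.a (w3 R i j a b)) i := mul_mem (S := Subgroup G) (s := D.Q _ i)
    (inv_mem (C.apt a b ab ▸ tr_i C h f0 fun v f => fixT ab k f (fl_coord f) (by simp [ab])))
    (hu.2 _ hw i ps fun n => db (rt_inj h da.symm ab (al.1.symm.trans n)).2)
  have tj : D.Tr (τ⁻¹ * u) (D.a (w3 R i j a b)) j := mul_mem (S := Subgroup G) (s := D.Q _ j)
    (inv_mem (C.apt a b ab ▸ tr_j C h f0 fun w f => fixT ab k f (by simp [ab.symm]) (fl_coord f.symm)))
    (hu.2 _ hw j ps fun n => da (rt_inj h db ab (al.2.symm.trans n)).1)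
  have ti' := C.apt a b ab ▸ ti
  have tj' := C.apt a b ab ▸ tj
  have x1 := D.geo_tr_Pn ti' ((C.ln f0 (fl_single db)).2 (self _))
  have x2 := D.geo_tr_Pn tj' ((C.pt f0 (fl_single da.symm)).2 (self _))
  have x3 : (τ⁻¹ * u) • c (Pi.single b 1) (Pi.single d 1) = c (Pi.single b 1) (Pi.single d 1) := by
    rw [mul_smul, e, inv_smul_eq_iff, k _ _ (fl_single db.symm), tv_v ab, tv_w ab t (by simp [da.symm])]
    simp
  have ker : τ⁻¹ * u ∈ D.Ker (D.a (w3 R i j a b)) {i, j} := by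
    refine D.rigid hw (fun w m => ?_) (by rintro _ (rfl | rfl); exacts [ti, tj])
    obtain ⟨p, q, pq, e⟩ := mem_WJ3 h (mul_mem (w3_mem a b) m)
    rw [e, C.apt p q pq]
    rcases tri ab da db p with rfl | rfl | rfl <;> rcases tri ab da db q with rfl | rfl | rfl
    exacts [absurd rfl pq, ti'.1, x2, hexa C h ab da db x3 x1, absurd rfl pq, x3,
      hexa C h da.symm ab.symm db.symm x1 x3, x1, absurd rfl pq]
  have := k.mul ((C.ind_one (g := τ⁻¹ * u)).2 fun z hz => ker z (D.δ_mem_WJ (by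
    rw [D.symm]; exact inv_mem (a_WJ (w3_mem a b))) hz))
  rwa [mul_one, mul_inv_cancel_left] at this

theorem ex_t (C : Co D i j c L) (h : cm R i j = 3) (ab : a ≠ b) {u : G} (hu : u ∈ D.U (rt R i j a b)) :
    ∃ t, Ind c u (SL.tv a b t) := by
  obtain ⟨d, da, db⟩ := third ab
  have f0 := fl_single (K := K) da.symm
  have f1 := fl_single (K := K) db.symm
  have e0 := hu.1 _ (w3_W a d) ((pos_w3 h da.symm ab).2 (Or.inl rfl))
  rw [C.apt _ _ da.symm] at e0
  obtain ⟨v, f, e⟩ := (pn_i C h f0).1 (e0 ▸ (smul_Pn D u).2 ((C.ln f0 f1).2 (self _)))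
  have vd := fl_coord f
  have vb : v b ≠ 0 := fun k => by
    have := (C.eq_iff h f0 f).2 ⟨⟨v a, ext3 ab da db (by simp) (by simp [ab.symm, k]) (by simp [da, vd])⟩,
      self _⟩
    rw [← e, ← e0, smul_left_cancel_iff] at this
    obtain ⟨s, hs⟩ := ((C.eq_iff h f0 f1).1 this).1
    simpa [ab.symm] using congrFun hs b
  exact ⟨v a / v b, ind_of C h ab da db hu (e.trans ((C.eq_iff h (fl_t da db ab _) f).2
    ⟨⟨v b, ext3 ab da db (by simp [ab, mul_div_cancel₀ _ vb]) (by simp [ab.symm]) (by simp [da, db, vd])⟩,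
      self _⟩))⟩

theorem ex_u (C : Co D i j c L) (h : cm R i j = 3) (hM : ∀ r, D.Mouf r) (ab : a ≠ b) (t : K) :
    ∃ u ∈ D.U (rt R i j a b), Ind c u (SL.tv a b t) := by
  obtain ⟨d, da, db⟩ := third ab
  have f0 := fl_single (K := K) da.symm
  have nb : ∀ s : K, c (Pi.single b 1 + s • Pi.single a 1) (Pi.single d 1) ∈ D.Nb (D.a (w3 R i j a d)) i :=
    fun s => by
    rw [C.apt _ _ da.symm, nb_iff]
    refine ⟨(C.ln f0 (fl_t da db ab s)).2 (self _), fun e => ?_⟩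
    obtain ⟨r, hr⟩ := ((C.eq_iff h f0 (fl_t da db ab s)).1 e).1
    simpa [ab.symm] using congrFun hr b
  obtain ⟨u, hu, e⟩ := hM _ _ (w3_W a d) i (w3_α h da.symm ab.symm db.symm).1 _ (nb 0) _ (nb t)
  rw [zero_smul, add_zero] at e
  exact ⟨u, hu, ind_of C h ab da db hu e⟩

theorem t_inj (C : Co D i j c L) (h : cm R i j = 3) (ab : a ≠ b) {g : G} {s t : K}
    (k : Ind c g (SL.tv a b s)) (k' : Ind c g (SL.tv a b t)) : s = t := by
  obtain ⟨d, da, db⟩ := third ab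
  have f := fl_single (K := K) db.symm
  obtain ⟨r, hr⟩ := ((C.eq_iff h (f.sl _) (f.sl _)).1 ((k _ _ f).symm.trans (k' _ _ f))).1
  rw [tv_v ab, tv_v ab] at hr
  have e1 := congrFun hr b
  have e2 := congrFun hr a
  simp [ab, ab.symm] at e1 e2
  rw [← e2, e1, one_mul]

end A

open A B

theorem Co.a2 (C : Co D i j c L) (hF : Full R) (h : cm R i j = 3) (E : RGD R G) (hE : E.X = D.U)
    (hM : ∀ r, D.Mouf r) : A2 E i j K := by
  have ex : ∀ (a b : Fin 3) (t : K), ∃ u : G, a ≠ b → u ∈ D.U (rt R i j a b) ∧ Ind c u (SL.tv a b t) :=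
    fun a b t => by
    by_cases ab : a = b
    · exact ⟨1, fun k => absurd ab k⟩
    · obtain ⟨u, hu⟩ := ex_u C h hM ab t
      exact ⟨u, fun _ => hu⟩
  choose x hx using ex
  have un : ∀ {a b : Fin 3} (ab : a ≠ b) {u : G} {t : K}, u ∈ D.U (rt R i j a b) →
      Ind c u (SL.tv a b t) → u = x a b t := fun {a b} ab u t hu k =>
    mul_inv_eq_one.1 (uniq C h ab (mul_mem hu (inv_mem (hx _ _ t ab).1))
      (mul_inv_cancel (SL.tv a b t) ▸ k.mul (hx _ _ t ab).2.inv))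
  have ad : ∀ {a b : Fin 3}, a ≠ b → ∀ s t, x a b s * x a b t = x a b (s + t) := fun ab s t =>
    un ab (mul_mem (hx _ _ s ab).1 (hx _ _ t ab).1)
      (tv_add ab s t ▸ (hx _ _ s ab).2.mul (hx _ _ t ab).2)
  refine ⟨⟨x, ad, fun {a b p q} ab pq aq bp s t => ?_, fun {a b p} ab bp ap s t => ?_⟩, fun a b ab =>
    ⟨fun s t e => t_inj C h ab (hx _ _ s ab).2 ((show x a b s = x a b t from e) ▸ (hx _ _ t ab).2), ?_⟩⟩
  · by_cases e : a = p ∧ b = q
    · obtain ⟨rfl, rfl⟩ := e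
      exact (ad ab s t).trans (add_comm s t ▸ (ad ab t s).symm)
    · have := E.comm_mem' (r := rt R i j a b) (s := rt R i j p q) (fun k => e (rt_inj h ab pq k))
        (fun k => bp (rt_inj h pq ab.symm (k.trans (rt_neg i j ab))).1.symm)
        (hE ▸ (hx _ _ s ab).1) (hE ▸ (hx _ _ t pq).1)
      rw [rt_itv0 h ab pq aq bp e, XS_empty] at this
      exact commutatorElement_eq_one_iff_commute.1 this
  · have := E.comm_mem' (r := rt R i j a b) (s := rt R i j b p) (fun k => ab (rt_inj h ab bp k).1)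
      (fun k => ap (rt_inj h bp ab.symm (k.trans (rt_neg i j ab))).2.symm)
      (hE ▸ (hx _ _ s ab).1) (hE ▸ (hx _ _ t bp).1)
    rw [rt_itv1 hF h ab bp ap, XS_singleton, hE] at this
    exact un ap this (tv_c1 ab bp ap s t ▸
      (((hx _ _ s ab).2.mul (hx _ _ t bp).2).mul (hx _ _ s ab).2.inv).mul (hx _ _ t bp).2.inv)
  · change Set.range (x a b) = _
    rw [hE]
    ext u
    refine ⟨by rintro ⟨t, rfl⟩; exact (hx _ _ t ab).1, fun hu => ?_⟩
    obtain ⟨t, k⟩ := ex_t C h ab hu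
    exact ⟨t, (un ab hu k).symm⟩

end Tits.Plane
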