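import Mathlib
import Cfsg.Agent.Lib.Tits.PlaneB

set_option autoImplicit false
set_option linter.unusedSectionVars false

namespace Tits.Plane

open H63.St Cfsg Matrix

variable {Φ I : Type*} {R : Roots Φ I} {G X : Type*} [Group G] [MulAction G X] [Finite Φ] [Finite G]
  {K : Type} [Field K] [Fintype K] {c : (Fin 3 → K) → (Fin 3 → K) → X} {L : Subgroup G} {D : Bd R G X}
  {i j : I}

namespace E

open B

/-- The elations with centre `e₀`. -/
def T (y : K × K) : SpecialLinearGroup (Fin 3) K :=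
  ⟨!![1, y.1, y.2; 0, 1, 0; 0, 0, 1], by simp [det_fin_three]⟩

theorem T_val (y : K × K) : (T y).1 = !![1, y.1, y.2; 0, 1, 0; 0, 0, 1] := rfl

theorem T_mul (y z : K × K) : T y * T z = T (y + z) := Subtype.ext (by
  change (T y).1 * (T z).1 = _
  rw [T_val, T_val, T_val]
  simp [add_comm])

theorem T_zero : T (0 : K × K) = 1 := Subtype.ext (by rw [T_val]; exact (one_fin_three).symm)

theorem T_inv (y : K × K) : (T y)⁻¹ = T (-y) :=
  inv_eq_of_mul_eq_one_right (by rw [T_mul, add_neg_cancel, T_zero])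

theorem T_v (y : K × K) (v : Fin 3 → K) (h : y.1 * v 1 + y.2 * v 2 = 0) : (T y).1 *ᵥ v = v := by
  ext a
  fin_cases a <;> simp [T_val, mulVec, dotProduct, Fin.sum_univ_three, add_assoc, h]

theorem T_w (y : K × K) (w : Fin 3 → K) (h : w 0 = 0) : w ᵥ* ((T y)⁻¹).1 = w := by
  ext a
  fin_cases a <;> simp [T_inv, T_val, vecMul, dotProduct, Fin.sum_univ_three, h]

theorem fixT {g : G} {y : K × K} (k : Ind c g (T y)) {v w : Fin 3 → K} (f : Fl v w)
    (h : y.1 * v 1 + y.2 * v 2 = 0) (h' : w 0 = 0) : g • c v w = c v w := by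
  rw [k v w f, T_v y v h, T_w y w h']

theorem uniq0 (C : Co D i j c L) (h : cm R i j = 3) {g : G} {y : K × K} (k : Ind c g (T y))
    (k' : Ind c g 1) : y = 0 := by
  have e : ∀ a b : Fin 3, a ≠ b → ∃ s : K, s • (T y).1 *ᵥ Pi.single a 1 = Pi.single a 1 := fun a b ab => by
    have f := fl_single (K := K) ab
    exact ((C.eq_iff h (f.sl _) f).1 ((fix_one k' f).symm.trans (k _ _ f))).1
  obtain ⟨s, e1⟩ := e 1 2 (by decide)
  obtain ⟨t, e2⟩ := e 2 1 (by decide)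
  have a0 := congrFun e1 0
  have a1 := congrFun e1 1
  have b0 := congrFun e2 0
  have b2 := congrFun e2 2
  simp [T_val] at a0 a1 b0 b2
  subst a1 b2
  exact Prod.ext (by simpa using a0) (by simpa using b0)

theorem exA (y : K × K) : ∃ (A : SpecialLinearGroup (Fin 3) K) (t : K),
    A.1 *ᵥ Pi.single 0 1 = Pi.single 0 1 ∧ A * T y * A⁻¹ = T (0, t) := by
  by_cases h : y = 0
  · exact ⟨1, 0, one_mulVec _, by rw [h, one_mul, inv_one, mul_one]; rfl⟩
  obtain ⟨a, b, e⟩ : ∃ a b : K, a * y.2 - b * y.1 = 1 := by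
    by_cases h1 : y.1 = 0
    · exact ⟨y.2⁻¹, 0, by simp [inv_mul_cancel₀ fun h2 : y.2 = 0 => h (Prod.ext h1 h2)]⟩
    · exact ⟨0, -y.1⁻¹, by simp [h1]⟩
  obtain ⟨A, hA⟩ : ∃ A : SpecialLinearGroup (Fin 3) K, A.1 = !![1, 0, 0; 0, a, b; 0, y.1, y.2] :=
    ⟨⟨_, by simp [det_fin_three, e]⟩, rfl⟩
  refine ⟨A, 1, ?_, mul_inv_eq_iff_eq_mul.2 (Subtype.ext ?_)⟩
  · ext a; fin_cases a <;> simp [hA]
  · change A.1 * (T y).1 = (T (0, 1)).1 * A.1
    rw [hA, T_val, T_val]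
    simp

variable (c L) in
/-- The elements of `L` inducing such elations. -/
def Eh : Subgroup G where
  carrier := {g | g ∈ L ∧ ∃ y, Ind c g (T y)}
  one_mem' := ⟨one_mem _, 0, T_zero (K := K) ▸ Ind.one⟩
  mul_mem' := fun ⟨a, y, h⟩ ⟨b, z, k⟩ => ⟨mul_mem a b, y + z, T_mul y z ▸ h.mul k⟩
  inv_mem' := fun ⟨a, y, h⟩ => ⟨inv_mem a, -y, T_inv y ▸ h.inv⟩

theorem eqns : True := by
  have := @T.eq_1
  have := @Eh.eq_1.{0, 0}
  trivial

end E

open E B

theorem Co.el (C : Co D i j c L) (h : cm R i j = 3) {p f : ℕ} [Fact p.Prime]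
    (hp : Fintype.card K = p ^ f) :
    ∃ S : Subgroup G, IsPGroup p S ∧
      (∀ g ∈ S, D.Tr g (D.a 1) j ∧ ∀ w ∈ R.W, R.Pos (w⁻¹ (R.α i)) →
        R.Pos (w⁻¹ (R.σ i (R.α j))) → g • D.a w = D.a w) ∧
      (p ^ f) ^ 2 ≤ (D.Ker (D.a 1) {i, j}).relIndex S ∧
      ∀ g ∈ S, ∃ l : G, l • D.a 1 ∈ D.Pn (D.a 1) j ∧ l * g * l⁻¹ ∈ D.GR (R.σ i (R.α j)) ∧
        D.Tr (l * g * l⁻¹) (D.a 1) i ∧
        (l * g * l⁻¹ ∈ D.Ker (D.a 1) {i, j} → g ∈ D.Ker (D.a 1) {i, j}) := by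
  choose y hy using fun g : Eh c L => g.2.2
  have un : ∀ (g : Eh c L) z, Ind c g.1 (T z) → y g = z := fun g z k => by
    have := (hy g).mul k.inv
    rw [T_inv, T_mul, mul_inv_cancel] at this
    exact add_neg_eq_zero.1 (uniq0 C h this Ind.one)
  let ψ : Eh c L →* Multiplicative (K × K) := MonoidHom.mk' (fun g => Multiplicative.ofAdd (y g))
    fun a b => congrArg Multiplicative.ofAdd (un _ _ (T_mul (y a) (y b) ▸ (hy a).mul (hy b)))
  have hs : Function.Surjective ψ := fun z => by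
    obtain ⟨g, hg, k⟩ := C.lev (T z.toAdd)
    exact ⟨⟨g, hg, _, k⟩, congrArg Multiplicative.ofAdd (un _ _ k)⟩
  have cK : Nat.card (Multiplicative (K × K)) = p ^ (f * 2) := by
    rw [Nat.card_congr Multiplicative.toAdd, Nat.card_prod, Nat.card_eq_fintype_card, hp, pow_mul, sq]
  obtain ⟨P⟩ : Nonempty (Sylow p (Eh c L)) := inferInstance
  have hP : (P : Subgroup (Eh c L)).map ψ = ⊤ :=
    ((P.mapSurjective hs).is_maximal' ((IsPGroup.of_card cK).to_subgroup ⊤) le_top).symm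
  have le : (P : Subgroup (Eh c L)).map (Eh c L).subtype ≤ Eh c L := Subgroup.map_subtype_le _
  have f02 := fl_single (K := K) (a := 0) (b := 2) (by decide)
  refine ⟨(P : Subgroup (Eh c L)).map (Eh c L).subtype, P.isPGroup'.map _, fun g hg => ?_, ?_,
    fun g hg => ?_⟩
  · obtain ⟨gL, z, k⟩ := le hg
    refine ⟨a_one C ▸ tr_j C h f02 fun w' f' => fixT k f' (by simp) (fl_coord f'.symm),
      fun w hw h1 h2 => C.fix3 h gL [(0, 2), (0, 1)] (by simp) (by decide) ?_ hw fun p q pq e => ?_⟩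
    · simp only [List.forall_mem_cons]
      exact ⟨fixT k f02 (by simp) (by simp), fixT k (fl_single (by decide)) (by simp) (by simp), by simp⟩
    · rcases (by decide : ∀ p q : Fin 3, p ≠ q → (∀ x ∈ [((0 : Fin 3), (2 : Fin 3)), (0, 1)],
        p = x.1 ∨ q = x.2) → p = 0 ∧ (q = 1 ∨ q = 2)) p q pq e with ⟨rfl, rfl | rfl⟩
      exacts [h1, h2]
  · let φ := ψ.comp (Subgroup.inclusion le)
    have k1 : (D.Ker (D.a 1) {i, j}).subgroupOf _ = φ.ker := by
      ext g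
      rw [Subgroup.mem_subgroupOf, ← C.ind_one, MonoidHom.mem_ker]
      refine ⟨fun k => congrArg Multiplicative.ofAdd (un _ 0 (T_zero (K := K) ▸ k)), fun k => ?_⟩
      have := hy (Subgroup.inclusion le g)
      rwa [show y (Subgroup.inclusion le g) = 0 from k, T_zero] at this
    have k2 : φ.range = ⊤ := eq_top_iff.2 fun z _ => by
      obtain ⟨g, hg, e⟩ : z ∈ (P : Subgroup (Eh c L)).map ψ := hP ▸ Subgroup.mem_top z
      exact ⟨⟨g.1, g, hg, rfl⟩, e⟩
    rw [Subgroup.relIndex, k1, Subgroup.index_ker, k2, Subgroup.card_top, cK, pow_mul]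
  · obtain ⟨gL, z, k⟩ := le hg
    obtain ⟨A, t, e1, e2⟩ := exA z
    obtain ⟨l, hl, kl⟩ := C.lev A
    have k' : Ind c (l * g * l⁻¹) (T (0, t)) := e2 ▸ (kl.mul k).mul kl.inv
    refine ⟨l, ?_, fun w hw h1 => C.fix3 h (mul_mem (mul_mem hl gL) (inv_mem hl))
      [(0, 2), (1, 2), (0, 1)] (by simp) (by decide) ?_ hw fun p q pq e => ?_,
      a_one C ▸ tr_i C h f02 fun v' f' => fixT k' f' (by simp [fl_coord f']) (by simp), fun m => ?_⟩
    · rw [a_one C, kl _ _ f02]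
      exact (C.pt f02 (f02.sl A)).2 ⟨1, by rw [e1, one_smul]⟩
    · simp only [List.forall_mem_cons]
      exact ⟨fixT k' f02 (by simp) (by simp), fixT k' (fl_single (by decide)) (by simp) (by simp),
        fixT k' (fl_single (by decide)) (by simp) (by simp), by simp⟩
    · obtain ⟨rfl, rfl⟩ := (by decide : ∀ p q : Fin 3, p ≠ q →
        (∀ x ∈ [((0 : Fin 3), (2 : Fin 3)), (1, 2), (0, 1)], p = x.1 ∨ q = x.2) → p = 0 ∧ q = 2) p q pq e
      exact h1
    · have := (kl.inv.mul (C.ind_one.2 m)).mul kl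
      rw [mul_one, inv_mul_cancel, show l⁻¹ * (l * g * l⁻¹) * l = g by group] at this
      exact C.ind_one.1 this

end Tits.Plane
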