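import Mathlib
import Cfsg.Agent.Lib.Tits.PlaneB

set_option autoImplicit false
set_option linter.unusedSectionVars false

namespace Tits.Plane

open H63.St Cfsg Matrix

variable {Φ I : Type*} {R : Roots Φ I} {G X : Type*} [Group G] [MulAction G X] [Finite Φ] [Finite G]
  {K : Type} [Field K] [Fintype K] {c : (Fin 3 → K) → (Fin 3 → K) → X} {L : Subgroup G} {D : Bd R G X}
  {i j : I}

namespace P

open B

theorem alg {γ κ : K → K} {F : K → K → K} (hγ : Function.Injective γ) (hκ : κ 1 ≠ κ 0)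
    (e : ∀ x s u d, F (s + x * d) (u + d) - F s u = γ x * (κ (u + d) - κ u)) :
    ∃ (a b : K) (τ : K ≃+* K), a ≠ 0 ∧ ∀ x, γ x = a * τ x + b := by
  have k0 := sub_ne_zero.2 hκ
  have b1 : γ 1 - γ 0 ≠ 0 := sub_ne_zero.2 fun h => one_ne_zero (hγ h)
  have e0 : ∀ x s d, F (s + x * d) d - F s 0 = γ x * (κ d - κ 0) := fun x s d => by
    simpa using e x s 0 d
  have e1 : ∀ x d, F (x * d) 0 - F 0 0 = (γ x - γ 0) * (κ d - κ 0) := fun x d => by
    have h1 := e0 x 0 d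
    have h2 := e0 0 (x * d) d
    simp only [zero_add, zero_mul, add_zero] at h1 h2
    linear_combination h1 - h2
  have e2 : ∀ s, F s 0 - F 0 0 = (γ s - γ 0) * (κ 1 - κ 0) := fun s => by simpa using e1 s 1
  have ad : ∀ s x, γ (s + x) - γ 0 = γ s - γ 0 + (γ x - γ 0) := fun s x => mul_right_cancel₀ k0 (by
    have h1 := e0 x s 1
    have h2 := e0 (s + x) 0 1
    simp only [zero_add, mul_one] at h1 h2
    linear_combination h1 - h2 + e2 s)
  have mu : ∀ x d, (γ (x * d) - γ 0) * (γ 1 - γ 0) = (γ x - γ 0) * (γ d - γ 0) := fun x d =>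
    mul_right_cancel₀ k0 (by
      have h3 := e1 1 d
      rw [one_mul] at h3
      linear_combination (γ 1 - γ 0) * (e1 x d - e2 (x * d)) + (γ x - γ 0) * (e2 d - h3))
  let τ : K →+* K :=
    { toFun := fun x => (γ x - γ 0) / (γ 1 - γ 0)
      map_one' := div_self b1
      map_zero' := by simp
      map_add' := fun x y => by rw [ad, add_div]
      map_mul' := fun x y => by field_simp; exact mu x y }
  refine ⟨γ 1 - γ 0, γ 0, RingEquiv.ofBijective τ (Finite.injective_iff_bijective.1 τ.injective), b1,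
    fun x => ?_⟩
  change _ = _ * ((γ x - γ 0) / (γ 1 - γ 0)) + _
  field_simp; ring

theorem dot3 (w v : Fin 3 → K) : w ⬝ᵥ v = w 0 * v 0 + w 1 * v 1 + w 2 * v 2 := by
  simp [dotProduct, Fin.sum_univ_three]

theorem ext3 {v w : Fin 3 → K} (h0 : v 0 = w 0) (h1 : v 1 = w 1) (h2 : v 2 = w 2) : v = w := by
  ext a; fin_cases a <;> assumption

theorem ne1 (a b : K) : (![a, 1, b] : Fin 3 → K) ≠ 0 := fun h => one_ne_zero (congrFun h 1)
theorem ne2 (a b : K) : (![a, b, 1] : Fin 3 → K) ≠ 0 := fun h => one_ne_zero (congrFun h 2)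
theorem ne0 (a b : K) : (![1, a, b] : Fin 3 → K) ≠ 0 := fun h => one_ne_zero (congrFun h 0)

/-- A collineation fixing the flag `e₀`, `e₂` is semi-affine on the line. -/
theorem semi {f f' : (Fin 3 → K) → (Fin 3 → K)} (inc : ∀ v w, Fl v w → Fl (f v) (f' w))
    (pf : ∀ v v', v ≠ 0 → v' ≠ 0 → (∃ s : K, s • f v = f v') → ∃ s : K, s • v = v')
    (pf' : ∀ v v', v ≠ 0 → v' ≠ 0 → (∃ s : K, s • f' v = f' v') → ∃ s : K, s • v = v')
    (h0 : ∃ s : K, s • ![1, 0, 0] = f ![1, 0, 0]) (h2 : ∃ s : K, s • ![0, 0, 1] = f' ![0, 0, 1]) :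
    ∃ (a b : K) (τ : K ≃+* K), a ≠ 0 ∧ ∀ x, ∃ s : K, s • ![a * τ x + b, 1, 0] = f ![x, 1, 0] := by
  obtain ⟨s0, h0⟩ := h0
  obtain ⟨s2, h2⟩ := h2
  have f02 := inc ![1, 0, 0] ![0, 0, 1] ⟨ne0 _ _, ne2 _ _, by simp⟩
  have n0 : s0 ≠ 0 := left_ne_zero_of_smul (h0 ▸ f02.1)
  have n2 : s2 ≠ 0 := left_ne_zero_of_smul (h2 ▸ f02.2.1)
  have p0 : ∀ v, v ≠ 0 → f v 1 = 0 → f v 2 = 0 → v 1 = 0 ∧ v 2 = 0 := fun v hv a b => by
    obtain ⟨s, rfl⟩ := pf _ v (ne0 0 0) hv ⟨f v 0 / s0, by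
      rw [← h0]; exact ext3 (by simp [n0]) (by simp [a]) (by simp [b])⟩
    simp
  have P2 : ∀ x, f ![x, 1, 0] 2 = 0 := fun x => by
    have := (inc ![x, 1, 0] ![0, 0, 1] ⟨ne1 _ _, ne2 _ _, by simp⟩).2.2
    rw [← h2, dot3] at this
    simpa [n2] using this
  have P1 : ∀ x, f ![x, 1, 0] 1 ≠ 0 := fun x k => by simpa using (p0 _ (ne1 _ _) k (P2 x)).1
  have l0 : ∀ u, f' ![0, 1, -u] 0 = 0 := fun u => by
    have := (inc ![1, 0, 0] ![0, 1, -u] ⟨ne0 _ _, ne1 _ _, by simp⟩).2.2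
    rw [← h0, dot3] at this
    simpa [n0] using this
  have l1 : ∀ u, f' ![0, 1, -u] 1 ≠ 0 := fun u k => by
    obtain ⟨s, e⟩ := pf' _ _ (ne2 0 0) (ne1 0 (-u)) ⟨f' ![0, 1, -u] 2 / s2, by
      rw [← h2]; exact ext3 (by simp [l0]) (by simp [k]) (by simp [n2])⟩
    simpa using congrFun e 1
  have Ql : ∀ s u, f' ![0, 1, -u] 1 * f ![s, u, 1] 1 + f' ![0, 1, -u] 2 * f ![s, u, 1] 2 = 0 :=
    fun s u => by
    have := (inc ![s, u, 1] ![0, 1, -u] ⟨ne2 _ _, ne1 _ _, by simp⟩).2.2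
    rwa [dot3, l0, zero_mul, zero_add] at this
  have Q2 : ∀ s u, f ![s, u, 1] 2 ≠ 0 := fun s u k => by
    have := Ql s u
    rw [k, mul_zero, add_zero, mul_eq_zero] at this
    simpa using (p0 _ (ne2 _ _) (this.resolve_left (l1 u)) k).2
  obtain ⟨a, b, τ, ha, e⟩ := alg (γ := fun x => f ![x, 1, 0] 0 / f ![x, 1, 0] 1)
    (κ := fun u => -f' ![0, 1, -u] 2 / f' ![0, 1, -u] 1)
    (F := fun s u => f ![s, u, 1] 0 / f ![s, u, 1] 2) (fun x y k => by
      have a := P1 x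
      have b := P1 y
      obtain ⟨s, e⟩ := pf _ _ (ne1 x 0) (ne1 y 0) ⟨f ![y, 1, 0] 1 / f ![x, 1, 0] 1,
        ext3 (by simp only [Pi.smul_apply, smul_eq_mul]; field_simp at k ⊢; linear_combination k)
          (by simp [a]) (by simp [P2])⟩
      have e0 := congrFun e 0
      have e1 := congrFun e 1
      simp at e0 e1
      rw [← e0, e1, one_mul]) (fun k => by
      have a := l1 1
      have b := l1 0
      obtain ⟨s, e⟩ := pf' _ _ (ne1 0 (-1)) (ne1 0 (-0)) ⟨f' ![0, 1, -0] 1 / f' ![0, 1, -1] 1,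
        ext3 (by simp only [Pi.smul_apply, l0, smul_zero]) (by simp [a])
          (by simp only [Pi.smul_apply, smul_eq_mul]; field_simp at k ⊢; linear_combination -k)⟩
      have e1 := congrFun e 1
      have e2 := congrFun e 2
      simp at e1 e2
      exact one_ne_zero (e1.symm.trans e2)) (fun x s u d => by
      have g1 := inc ![x, 1, 0] ![1, -x, x * u - s] ⟨ne1 _ _, ne0 _ _, by simp⟩
      have g2 := (inc ![s, u, 1] ![1, -x, x * u - s] ⟨ne2 _ _, ne0 _ _, by simp; ring⟩).2.2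
      have g3 := (inc ![s + x * d, u + d, 1] ![1, -x, x * u - s]
        ⟨ne2 _ _, ne0 _ _, by simp; ring⟩).2.2
      have g0 := g1.2.1
      have g1 := g1.2.2
      have a1 := P1 x
      have a2 := Q2 s u
      have a3 := Q2 (s + x * d) (u + d)
      have a4 := l1 u
      have a5 := l1 (u + d)
      have q1 := Ql s u
      have q2 := Ql (s + x * d) (u + d)
      rw [dot3] at g1 g2 g3
      rw [P2, mul_zero, add_zero] at g1
      generalize f' ![1, -x, x * u - s] = n at *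
      generalize f ![x, 1, 0] = p at *
      generalize f ![s, u, 1] = q at *
      generalize f ![s + x * d, u + d, 1] = r at *
      generalize f' ![0, 1, -u] = l at *
      generalize f' ![0, 1, -(u + d)] = m at *
      have k1 : -l 2 / l 1 = q 1 / q 2 := by field_simp; linear_combination -q1
      have k2 : -m 2 / m 1 = r 1 / r 2 := by field_simp; linear_combination -q2
      have nn : n 0 ≠ 0 := fun k => by
        have b1 : n 1 = 0 := by simpa [k, a1] using g1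
        have b2 : n 2 = 0 := by simpa [k, b1, a2] using g2
        exact g0 (ext3 k b1 b2)
      rw [k1, k2]
      field_simp
      apply mul_left_cancel₀ nn
      linear_combination (q 2 * p 1) * g3 - (r 2 * p 1) * g2 - (q 2 * r 1 - r 2 * q 1) * g1)
  exact ⟨a, b, τ, ha, fun x => ⟨f ![x, 1, 0] 1, ext3 (by simp [← e x, mul_div_cancel₀ _ (P1 x)])
    (by simp) (by simp [P2])⟩⟩

theorem exf (C : Co D i j c L) (h : cm R i j = 3) {g : G} (hg : g • D.a 1 = D.a 1) :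
    ∃ f f' : (Fin 3 → K) → (Fin 3 → K), ∀ v w, Fl v w → Fl (f v) (f' w) ∧ g • c v w = c (f v) (f' w) := by
  have res : ∀ v w, Fl v w → ∃ v' w', Fl v' w' ∧ c v' w' = g • c v w := fun v w f =>
    C.surj _ (by rw [← hg, D.smul]; exact C.mem f)
  have a : ∀ v : Fin 3 → K, ∃ v', ∀ w, Fl v w → ∃ w', Fl v' w' ∧ g • c v w = c v' w' := fun v => by
    by_cases hv : v = 0
    · exact ⟨0, fun w f => absurd hv f.1⟩
    obtain ⟨w0, f0⟩ := exists_fl hv
    obtain ⟨v', w', f', e⟩ := res v w0 f0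
    exact ⟨v', fun w f => (pn_j C h f').1 (e ▸ (smul_Pn D g).2 ((C.pt f0 f).2 (self v)))⟩
  have b : ∀ w : Fin 3 → K, ∃ w', ∀ v, Fl v w → ∃ v', Fl v' w' ∧ g • c v w = c v' w' := fun w => by
    by_cases hw : w = 0
    · exact ⟨0, fun v f => absurd hw f.2.1⟩
    obtain ⟨v0, f0⟩ := exists_fl hw
    obtain ⟨v', w', f', e⟩ := res v0 w f0.symm
    exact ⟨w', fun v f => (pn_i C h f').1 (e ▸ (smul_Pn D g).2 ((C.ln f0.symm f).2 (self w)))⟩
  choose f hf using a
  choose f' hf' using b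
  refine ⟨f, f', fun v w k => ?_⟩
  obtain ⟨w1, k1, e1⟩ := hf v w k
  obtain ⟨v1, k2, e2⟩ := hf' w v k
  have p := (C.eq_iff h k2 k1).1 (e1.symm.trans e2)
  have k3 := fl_left k2 k1.1 p.1
  exact ⟨k3, e2.trans ((C.eq_iff h k2 k3).2 ⟨p.1, self _⟩).symm⟩

theorem s0 : (Pi.single 0 1 : Fin 3 → K) = ![1, 0, 0] := ext3 (by simp) (by simp) (by simp)
theorem s1 : (Pi.single 1 1 : Fin 3 → K) = ![0, 1, 0] := ext3 (by simp) (by simp) (by simp)
theorem s2 : (Pi.single 2 1 : Fin 3 → K) = ![0, 0, 1] := ext3 (by simp) (by simp) (by simp)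

end P

open P B

theorem Co.pan (C : Co D i j c L) (h : cm R i j = 3) : D.Pan i K ∧ Fintype.card K = D.nb i := by
  have fx : ∀ x : K, Fl ![x, 1, 0] (Pi.single 2 1) := fun x => ⟨ne1 _ _, by simp, by simp⟩
  have f02 := fl_single (K := K) (a := 0) (b := 2) (by decide)
  have inj : Function.Injective fun x : K => c ![x, 1, 0] (Pi.single 2 1) := fun x y e => by
    obtain ⟨s, e⟩ := ((C.eq_iff h (fx y) (fx x)).1 e).1
    have e0 := congrFun e 0
    have e1 := congrFun e 1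
    simp at e0 e1
    rw [← e0, e1, one_mul]
  have rg : Set.range (fun x : K => c ![x, 1, 0] (Pi.single 2 1)) = D.Nb (D.a 1) i := by
    ext y
    rw [nb_iff, a_one C, pn_i C h f02]
    constructor
    · rintro ⟨x, rfl⟩
      refine ⟨⟨_, fx x, rfl⟩, fun e => ?_⟩
      obtain ⟨s, e⟩ := ((C.eq_iff h f02 (fx x)).1 e).1
      simpa using congrFun e 1
    · rintro ⟨⟨v, f, rfl⟩, ne⟩
      have v2 := fl_coord f
      have v1 : v 1 ≠ 0 := fun k => ne ((C.eq_iff h f02 f).2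
        ⟨⟨v 0, ext3 (by simp) (by simp [k]) (by simp [v2])⟩, self _⟩)
      exact ⟨v 0 / v 1, ((C.eq_iff h (fx _) f).2
        ⟨⟨v 1, ext3 (by simp [mul_div_cancel₀ _ v1]) (by simp) (by simp [v2])⟩, self _⟩).symm⟩
  refine ⟨⟨_, inj, rg, ?_, fun g hg => ?_, fun a ha => ?_⟩, ?_⟩
  · rw [← s1]; exact (C.apt 1 2 (by decide)).symm
  · obtain ⟨f, f', hf⟩ := exf C h hg
    have e := (hf _ _ f02).2
    rw [← a_one C, hg, a_one C] at e
    have p := (C.eq_iff h f02 (hf _ _ f02).1).1 e.symm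
    obtain ⟨a, b, τ, ha, k⟩ := semi (f := f) (f' := f') (fun v w k => (hf v w k).1)
      (fun v v' hv hv' k => by
        obtain ⟨w, f1⟩ := exists_fl hv
        obtain ⟨w', f2⟩ := exists_fl hv'
        rw [← C.pt (hf _ _ f1).1 (hf _ _ f2).1, ← (hf _ _ f1).2, ← (hf _ _ f2).2, smul_Pn] at k
        exact (C.pt f1 f2).1 k)
      (fun v v' hv hv' k => by
        obtain ⟨w, f1⟩ := exists_fl hv
        obtain ⟨w', f2⟩ := exists_fl hv'
        rw [← C.ln (hf _ _ f1.symm).1 (hf _ _ f2.symm).1, ← (hf _ _ f1.symm).2, ← (hf _ _ f2.symm).2,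
          smul_Pn] at k
        exact (C.ln f1.symm f2.symm).1 k) (s0 (K := K) ▸ p.1) (s2 (K := K) ▸ p.2)
    exact ⟨a, b, τ, ha, fun x => (hf _ _ (fx x)).2.trans
      ((C.eq_iff h (fx _) (hf _ _ (fx x)).1).2 ⟨k x, p.2⟩)⟩
  · obtain ⟨A, B, hA, hB, hAB⟩ : ∃ A B : SpecialLinearGroup (Fin 3) K, A.1 = diagonal ![a, 1, a⁻¹] ∧
        B.1 = diagonal ![a⁻¹, 1, a] ∧ A⁻¹ = B := by
      refine ⟨⟨diagonal ![a, 1, a⁻¹], by simp [Fin.prod_univ_three, ha]⟩,
        ⟨diagonal ![a⁻¹, 1, a], by simp [Fin.prod_univ_three, ha]⟩, rfl, rfl,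
        inv_eq_of_mul_eq_one_right (Subtype.ext ?_)⟩
      change diagonal _ * diagonal _ = (1 : Matrix (Fin 3) (Fin 3) K)
      rw [diagonal_mul_diagonal, ← diagonal_one]
      congr 1
      exact ext3 (by simp [ha]) (by simp) (by simp [ha])
    obtain ⟨g, hg, k⟩ := C.lev A
    have sv : ∀ (d : Fin 3 → K) (p : Fin 3), d p • (Pi.single p 1 : Fin 3 → K) =
        diagonal d *ᵥ Pi.single p 1 ∧ d p • (Pi.single p 1 : Fin 3 → K) = Pi.single p 1 ᵥ* diagonal d :=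
      fun d p => by
      constructor <;> ext q <;> by_cases e : q = p <;> simp [mulVec_diagonal, vecMul_diagonal, e]
    refine ⟨g, fun w hw => C.fix3 h hg [(0, 1), (0, 2), (1, 0), (1, 2), (2, 0), (2, 1)] (by simp)
      (by decide) (fun x hx => ?_) hw fun p q pq e => absurd e ?_, fun x => ?_⟩
    · have f := fl_single (K := K) ((by decide : ∀ x ∈ [((0 : Fin 3), (1 : Fin 3)), (0, 2), (1, 0), (1, 2),
        (2, 0), (2, 1)], x.1 ≠ x.2) x hx)
      rw [k _ _ f]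
      exact (C.eq_iff h f (f.sl A)).2 ⟨⟨_, hA ▸ (sv _ _).1⟩, ⟨_, hAB ▸ hB ▸ (sv _ _).2⟩⟩
    · clear e; revert p q; decide
    · change g • c _ _ = c _ _
      rw [k _ _ (fx x)]
      exact (C.eq_iff h (fx _) ((fx x).sl A)).2 ⟨⟨1, by
        rw [hA]; exact ext3 (by simp [mulVec_diagonal]) (by simp [mulVec_diagonal])
          (by simp [mulVec_diagonal])⟩, ⟨_, hAB ▸ hB ▸ (sv _ _).2⟩⟩
  · rw [Bd.nb, ← rg, Set.ncard_range_of_injective inj, Nat.card_eq_fintype_card]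

end Tits.Plane
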