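import Mathlib
import Cfsg.Agent.Lib.Tits.Plane2
import Cfsg.Agent.Lib.Tits.PlaneP
import Cfsg.Agent.Lib.Tits.PlaneA
import Cfsg.Agent.Lib.Tits.PlaneE

set_option autoImplicit false

open scoped commutatorElement

namespace Tits

open H63.St Cfsg

namespace Bd

variable {Φ I : Type*} {R : Roots Φ I} {G X : Type*} [Group G] [MulAction G X] [Finite Φ] (D : Bd R G X) [Finite G]

theorem exists_pan {i j : I} (h : cm R i j = 3) :
    ∃ (K : Type) (_ : Field K) (_ : Fintype K), D.Pan i K ∧ Fintype.card K = D.nb i := by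
  obtain ⟨K, i1, i2, c, L, C⟩ := Plane.exists_co D h
  exact ⟨K, i1, i2, C.pan h⟩

theorem exists_a2 (hF : Full R) {i j : I} (h : cm R i j = 3) (E : RGD R G) (hE : E.X = D.U)
    (hM : ∀ r, D.Mouf r) : ∃ (K : Type) (_ : Field K) (_ : Fintype K), A2 E i j K := by
  obtain ⟨K, i1, i2, c, L, C⟩ := Plane.exists_co D h
  exact ⟨K, i1, i2, C.a2 hF h E hE hM⟩

/-- Elations with centre the point of the base chamber. -/
theorem exists_el {i j : I} (h : cm R i j = 3) {p f : ℕ} [Fact p.Prime] (hp : D.nb j = p ^ f) :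
    ∃ S : Subgroup G, IsPGroup p S ∧
      (∀ g ∈ S, D.Tr g (D.a 1) j ∧ ∀ w ∈ R.W, R.Pos (w⁻¹ (R.α i)) →
        R.Pos (w⁻¹ (R.σ i (R.α j))) → g • D.a w = D.a w) ∧
      (p ^ f) ^ 2 ≤ (D.Ker (D.a 1) {i, j}).relIndex S ∧
      ∀ g ∈ S, ∃ l : G, l • D.a 1 ∈ D.Pn (D.a 1) j ∧ l * g * l⁻¹ ∈ D.GR (R.σ i (R.α j)) ∧
        D.Tr (l * g * l⁻¹) (D.a 1) i ∧
        (l * g * l⁻¹ ∈ D.Ker (D.a 1) {i, j} → g ∈ D.Ker (D.a 1) {i, j}) := by
  obtain ⟨K, i1, i2, c, L, C⟩ := Plane.exists_co D h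
  exact C.el h ((C.pan h).2.trans ((D.nb_eq (mul_mem (R.σ_mem_W i) (R.σ_mem_W j))
    (σσ_of_three h).1).trans hp))

end Bd

end Tits
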