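import Mathlib
import Cfsg.Agent.Lib.Tits.Defs

set_option autoImplicit false

open scoped commutatorElement

namespace Tits

open H63.St Cfsg

namespace GRp

variable {G G' : Type*} [Group G] [Group G']

theorem mv (W : Win G) {i j : ZMod 8} {x : G} (h : x ∈ W.U i) (e : i = j) : x ∈ W.U j := e ▸ h

/-- the reflected quadrangle -/
def rev (W : Win G) : Win G where
  U n := W.U (-n)
  c1 i x hx y hy := (W.c1 (-(i + 1)) y hy x (mv W hx (by ring))).symm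
  c2 i x hx y hy := by
    rw [← commutatorElement_inv]
    exact inv_mem (mv W (W.c2 (-(i + 2)) y hy x (mv W hx (by ring))) (by ring))
  c3 i x hx y hy := by
    obtain ⟨a, ha, b, hb, e⟩ := W.c3 (-(i + 3)) y hy x (mv W hx (by ring))
    exact ⟨b⁻¹, inv_mem (mv W hb (by ring)), a⁻¹, inv_mem (mv W ha (by ring)), by
      rw [← commutatorElement_inv, e, mul_inv_rev]⟩
  ind i a ha b hb c hc d hd e := by
    obtain ⟨h1, h2, h3, h4⟩ := W.ind (-(i + 3)) d⁻¹ (inv_mem hd) c⁻¹ (inv_mem (mv W hc (by ring)))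
      b⁻¹ (inv_mem (mv W hb (by ring))) a⁻¹ (inv_mem (mv W ha (by ring))) (by
        rw [← inv_eq_one, ← e]; group)
    exact ⟨inv_eq_one.1 h4, inv_eq_one.1 h3, inv_eq_one.1 h2, inv_eq_one.1 h1⟩
  ne i := W.ne _
  mu i x hx x1 := by
    obtain ⟨u, hu, u', hu', h⟩ := W.mu (-i) x hx x1
    refine ⟨u, mv W hu (by clear * -; revert i; decide), u', mv W hu' (by clear * -; revert i; decide), fun j y => ?_⟩
    rw [h, show 2 * -i + 4 - -j = -(2 * i + 4 - j) by clear * -; revert i j; decide]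

/-- conjugation by `m` maps `A` onto `B` -/
def Cj {Γ : Type*} [Group Γ] (m : Γ) (A B : Subgroup Γ) : Prop := ∀ y, y ∈ A ↔ m * y * m⁻¹ ∈ B

theorem Cj.inv {Γ : Type*} [Group Γ] {m : Γ} {A B : Subgroup Γ} (h : Cj m A B) : Cj m⁻¹ B A := fun y => by
  rw [h, show m * (m⁻¹ * y * m⁻¹⁻¹) * m⁻¹ = y by group]

theorem Cj.uq {Γ : Type*} [Group Γ] {m : Γ} {A B C : Subgroup Γ} (h : Cj m A B) (k : Cj m A C) : B = C :=
  Subgroup.ext fun y => (h.inv y).trans (k.inv y).symm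

theorem cj_map {Γ : Type*} [Group Γ] (m : Γ) (A : Subgroup Γ) :
    Cj m A (A.map (MulAut.conj m).toMonoidHom) := fun _ =>
  (Subgroup.mem_map_iff_mem (f := (MulAut.conj m).toMonoidHom) (MulAut.conj m).injective).symm

section gr
variable {Y Z : Subgroup (G × G')} {A B : Subgroup G} {A' B' : Subgroup G'}

theorem gr_le (h : Gr Y A A') {y : G × G'} (hy : y ∈ Y) : y ∈ A.prod A' :=
  ⟨h.fst ▸ ⟨y, hy, rfl⟩, h.snd ▸ ⟨y, hy, rfl⟩⟩

theorem gr_eq (h : Gr Y A A') (k : Gr Z A A') (l : Z ≤ Y) : Z = Y := by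
  refine le_antisymm l fun y hy => ?_
  obtain ⟨z, hz, e⟩ := k.fst.ge (gr_le h hy).1
  have m := Y.mul_mem (Y.inv_mem (l hz)) hy
  have e1 : (z⁻¹ * y).1 = 1 := inv_mul_eq_one.2 e
  rwa [← inv_mul_eq_one.1 (Prod.ext e1 ((h.inj _ m).1 e1) : z⁻¹ * y = 1)]

theorem gr_cj (h : Gr Y A A') {m : G × G'} (k : Cj m (A.prod A') (B.prod B')) (c : Cj m Y Z) :
    Gr Z B B' := by
  refine ⟨le_antisymm ?_ fun b hb => ?_, le_antisymm ?_ fun b hb => ?_, fun z hz => ?_⟩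
  · rintro _ ⟨z, hz, rfl⟩
    exact ((k.inv z).2 (gr_le h ((c.inv z).1 hz))).1
  · obtain ⟨y, hy, e⟩ := h.fst.ge ((k.inv (b, 1)).1 ⟨hb, one_mem _⟩).1
    refine ⟨_, (c y).1 hy, ?_⟩
    have e' : y.1 = m.1⁻¹ * b * m.1⁻¹⁻¹ := e
    show m.1 * y.1 * m.1⁻¹ = b
    rw [e']; group
  · rintro _ ⟨z, hz, rfl⟩
    exact ((k.inv z).2 (gr_le h ((c.inv z).1 hz))).2
  · obtain ⟨y, hy, e⟩ := h.snd.ge ((k.inv (1, b)).1 ⟨one_mem _, hb⟩).2
    refine ⟨_, (c y).1 hy, ?_⟩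
    have e' : y.2 = m.2⁻¹ * b * m.2⁻¹⁻¹ := e
    show m.2 * y.2 * m.2⁻¹ = b
    rw [e']; group
  · have := h.inj _ ((c.inv z).1 hz)
    simpa [mul_assoc, inv_mul_eq_one] using this

theorem cj_of_gr (h : Gr Y A A') (h' : Gr Z B B') {m : G × G'} (k : Cj m (A.prod A') (B.prod B'))
    (l : ∀ y ∈ Y, m * y * m⁻¹ ∈ Z) : Cj m Y Z := by
  rw [← gr_eq h' (gr_cj h k (cj_map m Y)) (by rintro _ ⟨y, hy, rfl⟩; exact l y hy)]
  exact cj_map m Y

end gr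

variable (W : Win G) (W' : Win G')

/-- products of root groups -/
def P (n : ZMod 8) : Subgroup (G × G') := (W.U n).prod (W'.U n)

/-- `u x u'` is a `μ`-element -/
structure Mu (i : ZMod 8) (x u u' : G × G') : Prop where
  hu : u ∈ P W W' (i + 4)
  hu' : u' ∈ P W W' (i + 4)
  act : ∀ j k, k = 2 * i + 4 - j → Cj (u * x * u') (P W W' j) (P W W' k)

/-- four consecutive compatible graphs -/
structure Wd (i : ZMod 8) (A B C D : Subgroup (G × G')) : Prop where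
  gA : Gr A (W.U i) (W'.U i)
  gB : Gr B (W.U (i + 1)) (W'.U (i + 1))
  gC : Gr C (W.U (i + 2)) (W'.U (i + 2))
  gD : Gr D (W.U (i + 3)) (W'.U (i + 3))
  ac : ∀ x ∈ A, ∀ y ∈ C, ⁅x, y⁆ ∈ B
  bd : ∀ x ∈ B, ∀ y ∈ D, ⁅x, y⁆ ∈ C
  ad : ∀ x ∈ A, ∀ y ∈ D, ∃ b ∈ B, ∃ c ∈ C, ⁅x, y⁆ = b * c

variable {W W'} {i j k l : ZMod 8} {x y a b c d u u' : G × G'} {A B C D E : Subgroup (G × G')}

theorem p1 (hx : x ∈ P W W' i) (hy : y ∈ P W W' j) (e : j = i + 1) : x * y = y * x :=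
  Prod.ext (W.c1 i _ hx.1 _ (mv W hy.1 e)) (W'.c1 i _ hx.2 _ (mv W' hy.2 e))

theorem p2 (hx : x ∈ P W W' i) (hy : y ∈ P W W' j) (e : j = i + 2) (e' : i + 1 = k) :
    ⁅x, y⁆ ∈ P W W' k :=
  ⟨mv W (W.c2 i _ hx.1 _ (mv W hy.1 e)) e', mv W' (W'.c2 i _ hx.2 _ (mv W' hy.2 e)) e'⟩

theorem p3 (hx : x ∈ P W W' i) (hy : y ∈ P W W' j) (e : j = i + 3) (e' : i + 1 = k) (e'' : i + 2 = l) :
    ∃ a ∈ P W W' k, ∃ b ∈ P W W' l, ⁅x, y⁆ = a * b := by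
  obtain ⟨a, ha, b, hb, h⟩ := W.c3 i _ hx.1 _ (mv W hy.1 e)
  obtain ⟨a', ha', b', hb', h'⟩ := W'.c3 i _ hx.2 _ (mv W' hy.2 e)
  exact ⟨(a, a'), ⟨mv W ha e', mv W' ha' e'⟩, (b, b'), ⟨mv W hb e'', mv W' hb' e''⟩, Prod.ext h h'⟩

theorem pind (ha : a ∈ P W W' i) (hb : b ∈ P W W' (i + 1)) (hc : c ∈ P W W' (i + 2))
    (hd : d ∈ P W W' (i + 3)) (e : a * b * c * d = 1) : a = 1 ∧ b = 1 ∧ c = 1 ∧ d = 1 := by
  obtain ⟨h1, h2, h3, h4⟩ := W.ind i _ ha.1 _ hb.1 _ hc.1 _ hd.1 (congrArg Prod.fst e)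
  obtain ⟨k1, k2, k3, k4⟩ := W'.ind i _ ha.2 _ hb.2 _ hc.2 _ hd.2 (congrArg Prod.snd e)
  exact ⟨Prod.ext h1 k1, Prod.ext h2 k2, Prod.ext h3 k3, Prod.ext h4 k4⟩

theorem puq {a' b' c' : G × G'} (ha : a ∈ P W W' i) (hb : b ∈ P W W' (i + 1)) (hc : c ∈ P W W' (i + 2))
    (ha' : a' ∈ P W W' i) (hb' : b' ∈ P W W' (i + 1)) (hc' : c' ∈ P W W' (i + 2))
    (e : a * b * c = a' * b' * c') : a = a' ∧ b = b' ∧ c = c' := by
  have cm := p1 (inv_mem hb') (mul_mem hc (inv_mem hc')) (by ring)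
  obtain ⟨h1, h2, h3, -⟩ := pind (mul_mem (inv_mem ha') ha) (mul_mem hb (inv_mem hb'))
    (mul_mem hc (inv_mem hc')) (one_mem _) (by
      calc a'⁻¹ * a * (b * b'⁻¹) * (c * c'⁻¹) * 1 = a'⁻¹ * a * b * (b'⁻¹ * (c * c'⁻¹)) := by group
        _ = a'⁻¹ * (a * b * c) * c'⁻¹ * b'⁻¹ := by rw [cm]; group
        _ = 1 := by rw [e]; group)
  exact ⟨(inv_mul_eq_one.1 h1).symm, mul_inv_eq_one.1 h2, mul_inv_eq_one.1 h3⟩

theorem exists_mu (h : Gr A (W.U i) (W'.U i)) (hx : x ∈ A) (x1 : x ≠ 1) : ∃ u u', Mu W W' i x u u' := by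
  have h1 : x.1 ≠ 1 := fun e => x1 (Prod.ext e ((h.inj x hx).1 e))
  obtain ⟨u, hu, u', hu', k⟩ := W.mu i _ (gr_le h hx).1 h1
  obtain ⟨v, hv, v', hv', k'⟩ := W'.mu i _ (gr_le h hx).2 fun e => h1 ((h.inj x hx).2 e)
  exact ⟨(u, v), (u', v'), ⟨hu, hv⟩, ⟨hu', hv'⟩, fun j _ e y => e ▸ and_congr (k j y.1) (k' j y.2)⟩

theorem exists_ne (h : Gr A (W.U i) (W'.U i)) : ∃ x ∈ A, x ≠ 1 := by
  obtain ⟨x, hx, x1⟩ := W.ne i
  obtain ⟨y, hy, rfl⟩ := h.fst.ge hx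
  exact ⟨y, hy, fun e => x1 (by rw [e, map_one])⟩

theorem Mu.inv (h : Mu W W' i x u u') : Mu W W' i x⁻¹ u'⁻¹ u⁻¹ :=
  ⟨inv_mem h.hu', inv_mem h.hu, fun j k e => by
    rw [show u'⁻¹ * x⁻¹ * u⁻¹ = (u * x * u')⁻¹ by group]
    exact (h.act k j (by rw [e]; ring)).inv⟩

theorem Mu.rev (h : Mu W W' i x u u') (e : j = -i) : Mu (rev W) (rev W') j x u u' := by
  subst e
  have e1 : -(-i + 4) = i + 4 := by clear * -; revert i; decide
  refine ⟨?_, ?_, fun j k e => h.act (-j) (-k) (by rw [e]; clear e h e1; revert i j; decide)⟩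
  · change u ∈ P W W' _; rw [e1]; exact h.hu
  · change u' ∈ P W W' _; rw [e1]; exact h.hu'

theorem Wd.rev (h : Wd W W' i A B C D) (e : j = -(i + 3)) : Wd (rev W) (rev W') j D C B A := by
  subst e
  have t : ∀ {Y : Subgroup (G × G')} {a b : ZMod 8}, Gr Y (W.U a) (W'.U a) → a = -b →
      Gr Y ((GRp.rev W).U b) ((GRp.rev W').U b) := fun h e => by subst e; exact h
  refine ⟨t h.gD (by ring), t h.gC (by ring), t h.gB (by ring), t h.gA (by ring), fun x hx y hy => ?_,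
    fun x hx y hy => ?_, fun x hx y hy => ?_⟩
  · rw [← commutatorElement_inv]; exact inv_mem (h.bd y hy x hx)
  · rw [← commutatorElement_inv]; exact inv_mem (h.ac y hy x hx)
  · obtain ⟨b, hb, c, hc, e⟩ := h.ad y hy x hx
    exact ⟨c⁻¹, inv_mem hc, b⁻¹, inv_mem hb, by rw [← commutatorElement_inv, e, mul_inv_rev]⟩

theorem one (h : Mu W W' (i + 3) a u u') (hx : x ∈ P W W' i) (hb : b ∈ P W W' (i + 1))
    (hc : c ∈ P W W' (i + 2)) (e : ⁅x⁻¹, a⁆ = b * c) :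
    u * a * u' * x * (u * a * u')⁻¹ = c ∧ ⁅u⁻¹, c⁆ = x * b := by
  have hz := (h.act i (i + 2) (by clear * -; revert i; decide) x).1 hx
  obtain ⟨b1, h1, b2, h2, e2⟩ := p3 (k := i) (l := i + 1) (inv_mem h.hu) hz (by clear * -; revert i; decide)
    (by clear * -; revert i; decide) (by clear * -; revert i; decide)
  have cm := p1 h.hu' hx (by clear * -; revert i; decide)
  obtain ⟨r1, r2, r3⟩ := puq h1 h2 hz hx hb hc (by
    rw [← e2, mul_assoc x, ← e]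
    calc _ = a * (u' * x) * u'⁻¹ * a⁻¹ := by group
      _ = _ := by rw [cm]; group)
  exact ⟨r3, by rw [← r3, e2, r1, r2]⟩

theorem two (h : Mu W W' (i + 3) a u u') (ha : a ∈ P W W' (i + 3)) (hx : x ∈ P W W' (i + 1))
    (hb : b ∈ P W W' (i + 1)) (hc : c ∈ P W W' (i + 2)) (e : ⁅⁅u', x⁆⁻¹, a⁆ = b * c) :
    u * a * u' * x * (u * a * u')⁻¹ = b * x ∧ c * ⁅x⁻¹, a⁆ = 1 := by
  have hz := (h.act (i + 1) (i + 1) (by clear * -; revert i; decide) x).1 hx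
  have h1 := p2 (k := i) (inv_mem h.hu) hz (by clear * -; revert i; decide) (by clear * -; revert i; decide)
  have h2 := p2 (k := i) h.hu' hx (by clear * -; revert i; decide) (by clear * -; revert i; decide)
  have h3 := p2 (k := i + 2) (inv_mem hx) ha (by ring) (by ring)
  have cm := p1 hx hc (by ring)
  obtain ⟨-, r2, r3⟩ := puq h1 hz (one_mem _) h2 (mul_mem hb hx) (mul_mem hc h3) (by
    calc _ = ⁅u', x⁆ * ⁅⁅u', x⁆⁻¹, a⁆ * x * ⁅x⁻¹, a⁆ := by group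
      _ = ⁅u', x⁆ * b * (c * x) * ⁅x⁻¹, a⁆ := by rw [e]; simp only [mul_assoc]
      _ = _ := by rw [← cm]; simp only [mul_assoc])
  exact ⟨r2, r3.symm⟩

theorem key1 (h : Wd W W' i A B C D) (ha : a ∈ D) (m : Mu W W' (i + 3) a u u') :
    Cj (u * a * u') A C ∧ ∀ z ∈ C, ∃ x ∈ A, ∃ b ∈ B, ⁅u⁻¹, z⁆ = x * b := by
  have k : ∀ x ∈ A, u * a * u' * x * (u * a * u')⁻¹ ∈ C ∧
      ∃ b ∈ B, ⁅u⁻¹, u * a * u' * x * (u * a * u')⁻¹⁆ = x * b := fun x hx => by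
    obtain ⟨b, hb, c, hc, e⟩ := h.ad _ (inv_mem hx) a ha
    obtain ⟨r1, r2⟩ := one m (gr_le h.gA hx) (gr_le h.gB hb) (gr_le h.gC hc) e
    exact ⟨r1 ▸ hc, b, hb, r1 ▸ r2⟩
  have c := cj_of_gr h.gA h.gC (m.act i (i + 2) (by clear * -; revert i; decide)) fun x hx => (k x hx).1
  refine ⟨c, fun z hz => ?_⟩
  obtain ⟨b, hb, e⟩ := (k _ ((c.inv z).1 hz)).2
  exact ⟨_, (c.inv z).1 hz, b, hb, by rw [← e]; congr 1; group⟩

theorem key (h : Wd W W' i A B C D) (ha : a ∈ D) (m : Mu W W' (i + 3) a u u') :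
    Cj (u * a * u') A C ∧ Cj (u * a * u') C A ∧ Cj (u * a * u') B B := by
  have c1 := (key1 h ha m).1
  have c2 := (key1 h (inv_mem ha) m.inv).1.inv
  rw [show (u'⁻¹ * a⁻¹ * u⁻¹)⁻¹ = u * a * u' by group] at c2
  refine ⟨c1, c2, cj_of_gr h.gB h.gB (m.act (i + 1) (i + 1) (by clear * -; revert i; decide)) fun x hx => ?_⟩
  have aP := gr_le h.gD ha
  have xP := gr_le h.gB hx
  have h2 := p2 (k := i) m.hu' xP (by clear * -; revert i; decide) (by clear * -; revert i; decide)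
  obtain ⟨b, hb, c, hc, e⟩ := p3 (inv_mem h2) aP rfl rfl rfl
  have hA : ⁅u', x⁆ ∈ A := by
    rw [c1, (one m h2 hb hc e).1, eq_inv_of_mul_eq_one_left (two m aP xP hb hc e).2]
    exact inv_mem (h.bd _ (inv_mem hx) a ha)
  obtain ⟨b', hb', c', hc', e'⟩ := h.ad _ (inv_mem hA) a ha
  rw [(two m aP xP (gr_le h.gB hb') (gr_le h.gC hc') e').1]
  exact mul_mem hb' hx

theorem mem_left (h : Wd W W' i A B C D) (hy : y ∈ P W W' i)
    (k : ∀ z ∈ D, ∃ b ∈ B, ∃ c ∈ C, ⁅y, z⁆ = b * c) : y ∈ A := by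
  obtain ⟨a, ha, a1⟩ := exists_ne h.gD
  obtain ⟨u, u', m⟩ := exists_mu h.gD ha a1
  obtain ⟨b, hb, c, hc, e⟩ := k a ha
  rw [← inv_mem_iff, (key1 h ha m).1, (one m (inv_mem hy) (gr_le h.gB hb) (gr_le h.gC hc) (by rwa [inv_inv])).1]
  exact hc

theorem left (h : Wd W W' (i + 1) B C D E) (ha : a ∈ E) (m : Mu W W' (i + 1 + 3) a u u')
    (c : Cj (u * a * u') E A) : Wd W W' i A B C D := by
  obtain ⟨c1, c2, c3⟩ := key h ha m
  have t : ∀ {Y : Subgroup (G × G')} {a b : ZMod 8}, Gr Y (W.U a) (W'.U a) → a = b →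
      Gr Y (W.U b) (W'.U b) := fun h e => e ▸ h
  generalize hg : u * a * u' = g at c c1 c2 c3
  refine ⟨gr_cj h.gD (hg ▸ m.act _ i (by clear * -; revert i; decide)) c, h.gA, t h.gB (by ring),
    t h.gC (by ring), fun x hx y hy => ?_, h.ac, fun x hx y hy => ?_⟩
  · have := (c2 _).1 (inv_mem (h.bd _ ((c3.inv y).1 hy) _ ((c.inv x).1 hx)))
    convert this using 1
    group
  · obtain ⟨b, hb, d, hd, e⟩ := h.ad _ ((c1.inv y).1 hy) _ ((c.inv x).1 hx)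
    refine ⟨_, (c2 _).1 (inv_mem hd), _, (c3 _).1 (inv_mem hb), ?_⟩
    calc _ = g * ⁅g⁻¹ * y * g⁻¹⁻¹, g⁻¹ * x * g⁻¹⁻¹⁆⁻¹ * g⁻¹ := by group
      _ = _ := by rw [e]; group

theorem exists_left (h : Wd W W' j B C D E) (e : j = i + 1) : ∃ A, Wd W W' i A B C D := by
  subst e
  obtain ⟨a, ha, a1⟩ := exists_ne h.gD
  obtain ⟨u, u', m⟩ := exists_mu h.gD ha a1
  exact ⟨_, left h ha m (cj_map _ _)⟩

theorem key2 (h : Wd W W' i A B C D) (h' : Wd W W' (i + 1) B C D E) (ha : a ∈ E)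
    (m : Mu W W' (i + 1 + 3) a u u') : Cj (u * a * u') E A ∧ u ∈ A := by
  have k := left h' ha m (cj_map _ _)
  have e := gr_eq h.gA k.gA fun y hy => mem_left h (gr_le k.gA hy) (k.ad y hy)
  refine ⟨e ▸ cj_map _ _, (inv_mem_iff (H := A)).1 (mem_left h (inv_mem ?_) (key1 h' ha m).2)⟩
  have := m.hu
  rwa [show i + 1 + 3 + 4 = i by clear * -; revert i; decide] at this

theorem per {A5 A6 A7 A8 : Subgroup (G × G')} (h0 : Wd W W' i A B C D) (h1 : Wd W W' j B C D E)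
    (h4 : Wd W W' k E A5 A6 A7) (h5 : Wd W W' l A5 A6 A7 A8) (e1 : j = i + 1) (e4 : k = i + 4)
    (e5 : l = i + 5) : A = A8 := by
  subst e1 e4 e5
  obtain ⟨a, ha, a1⟩ := exists_ne h1.gD
  obtain ⟨u, u', m⟩ := exists_mu h1.gD ha a1
  exact (key2 h0 h1 ha m).1.uq (key2 (h5.rev rfl) (h4.rev (by ring)) ha (m.rev (by ring))).1

theorem half {V : ZMod 8 → Subgroup (G × G')}
    (h : ∀ i a b c, a = i + 1 → b = i + 2 → c = i + 3 → Wd W W' i (V i) (V a) (V b) (V c))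
    (ha : a ∈ V i) (m : Mu W W' i a u u') : u ∈ V (i + 4) ∧ u' ∈ V (i + 4) ∧
      ∀ j k, k = 2 * i + 4 - j → j ∈ ({i, i + 4, i + 5, i + 6, i + 7} : Set (ZMod 8)) →
        Cj (u * a * u') (V j) (V k) := by
  have e0 : i = i + 4 + 1 + 3 := by clear * -; revert i; decide
  have w0 := h (i + 4) (i + 5) (i + 6) (i + 7) (by ring) (by ring) (by ring)
  have w1 := h (i + 4 + 1) (i + 6) (i + 7) i (by ring) (by ring) e0
  rw [show V (i + 4 + 1) = V (i + 5) by congr 1; ring] at w1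
  obtain ⟨c0, k0⟩ := key2 w0 w1 ha (e0 ▸ m)
  obtain ⟨c1, k1⟩ := key2 w0 w1 (inv_mem ha) (e0 ▸ m.inv)
  have c1' := c1.inv
  rw [show (u'⁻¹ * a⁻¹ * u⁻¹)⁻¹ = u * a * u' by group] at c1'
  obtain ⟨c2, c3, c4⟩ := key w1 ha (e0 ▸ m)
  refine ⟨k0, (inv_mem_iff (H := V _)).1 k1, ?_⟩
  rintro j k e (rfl | rfl | rfl | rfl | rfl)
  · rwa [show k = j + 4 by rw [e]; ring]
  · rwa [show k = i by rw [e]; ring]
  · rwa [show k = i + 7 by rw [e]; clear * -; revert i; decide]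
  · rwa [show k = i + 6 by rw [e]; clear * -; revert i; decide]
  · rwa [show k = i + 5 by rw [e]; clear * -; revert i; decide]

theorem fam {V : ZMod 8 → Subgroup (G × G')}
    (h : ∀ i, Wd W W' i (V i) (V (i + 1)) (V (i + 2)) (V (i + 3))) :
    ∃ V : Win (G × G'), ∀ n, Gr (V.U n) (W.U n) (W'.U n) := by
  have h1 : ∀ i a b c, a = i + 1 → b = i + 2 → c = i + 3 → Wd W W' i (V i) (V a) (V b) (V c) := by
    rintro i _ _ _ rfl rfl rfl; exact h i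
  refine ⟨⟨V, fun i x hx y hy => p1 (gr_le (h i).gA hx) (gr_le (h i).gB hy) rfl, fun i => (h i).ac,
    fun i => (h i).ad, fun i a ha b hb c hc d hd => pind (gr_le (h i).gA ha) (gr_le (h i).gB hb)
      (gr_le (h i).gC hc) (gr_le (h i).gD hd), fun i => exists_ne (h i).gA, fun i x hx x1 => ?_⟩,
    fun n => (h n).gA⟩
  obtain ⟨u, u', m⟩ := exists_mu (h i).gA hx x1
  obtain ⟨k1, k2, k3⟩ := half h1 hx m
  obtain ⟨-, -, k4⟩ := half (W := rev W) (W' := rev W') (V := fun n => V (-n)) (i := -i)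
    (by rintro i _ _ _ rfl rfl rfl
        exact (h1 (-(i + 3)) _ _ _ (by ring) (by ring) (by ring)).rev (by ring))
    (by simpa using hx) (m.rev rfl)
  refine ⟨u, k1, u', k2, fun j => ?_⟩
  by_cases e : j ∈ ({i, i + 4, i + 5, i + 6, i + 7} : Set (ZMod 8))
  · exact k3 j _ rfl e
  · have := k4 (-j) (-(2 * i + 4 - j)) (by clear * -; revert i j; decide) (by
      simp only [Set.mem_insert_iff, Set.mem_singleton_iff] at e ⊢
      clear * - e; revert i j; decide)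
    simp only [neg_neg] at this
    exact this

end GRp

/-- A Moufang quadrangle is determined by its positive root groups. -/
theorem win_prod {G G' : Type*} [Group G] [Group G'] (W : Win G) (W' : Win G')
    {Y : ZMod 8 → Subgroup (G × G')} (h : PosGr W.U W'.U Y) :
    ∃ V : Win (G × G'), ∀ n, Gr (V.U n) (W.U n) (W'.U n) := by
  have w1 : GRp.Wd W W' 1 (Y 1) (Y 2) (Y 3) (Y 4) := ⟨h.gr 1 (by simp), h.gr 2 (by simp), h.gr 3 (by simp),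
    h.gr 4 (by simp), h.c13, h.c24, h.c14⟩
  obtain ⟨A0, w0⟩ := GRp.exists_left (i := 0) w1 rfl
  obtain ⟨A7, w7⟩ := GRp.exists_left (i := 7) w0 rfl
  obtain ⟨A6, w6⟩ := GRp.exists_left (i := 6) w7 rfl
  obtain ⟨A5, w5⟩ := GRp.exists_left (i := 5) w6 rfl
  obtain ⟨A4, w4⟩ := GRp.exists_left (i := 4) w5 rfl
  obtain ⟨A3, w3⟩ := GRp.exists_left (i := 3) w4 rfl
  obtain ⟨A2, w2⟩ := GRp.exists_left (i := 2) w3 rfl
  obtain rfl := GRp.per w4 w5 w0 w1 rfl rfl rfl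
  obtain rfl := GRp.per w3 w4 w7 w0 rfl rfl rfl
  obtain rfl := GRp.per w2 w3 w6 w7 rfl rfl rfl
  refine GRp.fam (V := ![A0, Y 1, Y 2, Y 3, Y 4, A5, A6, A7]) fun i => ?_
  fin_cases i
  exacts [w0, w1, w2, w3, w4, w5, w6, w7]

end Tits
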