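import Mathlib
import Cfsg.Agent.Lib.Tits.Win

/-! Local compatible isomorphisms of root groups: restriction, commuting nodes, simple bonds. -/

set_option autoImplicit false

open scoped commutatorElement

namespace Tits

open H63.St Cfsg

variable {Φ I : Type*} {R : Roots Φ I} [Finite Φ] {G G' : Type*} [Group G] [Group G'] {E : RGD R G} {E' : RGD R G'}

namespace LocP

theorem not_two {i : I} {r s : Φ} (hr : InJ R {i} r) (hs : InJ R {i} s) (h1 : s ≠ r)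
    (h2 : s ≠ R.neg r) : False := by
  rcases inJ_single.1 hr with rfl | rfl <;> rcases inJ_single.1 hs with e | e
  · exact h1 e
  · exact h2 e
  · exact h2 (by rw [R.neg_neg]; exact e)
  · exact h1 e

theorem σ_inJ {i : I} {r : Φ} (hr : InJ R {i} r) : InJ R {i} (R.σ i r) :=
  hr.smul (Subgroup.subset_closure ⟨i, rfl, rfl⟩)

theorem disj {i j : I} (h : cm R i j = 2) {r : Φ} (hr : InJ R {i} r) (hs : InJ R {j} r) : False := by
  have hne := (σ_α_of_two h).2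
  rcases inJ_single.1 hr with rfl | rfl <;> rcases inJ_single.1 hs with e | e
  · exact hne e
  · exact R.not_pos_neg_α j (e ▸ R.pos_α i)
  · exact R.not_pos_neg_α i (e ▸ R.pos_α j)
  · exact hne (R.neg_injective e)

theorem σ_fix {i j : I} (h : cm R i j = 2) {r : Φ} (hs : InJ R {j} r) : R.σ i r = r := by
  rcases inJ_single.1 hs with rfl | rfl
  · exact (σ_α_of_two h).1
  · rw [R.σ_neg, (σ_α_of_two h).1]

theorem mem_fst {Y : Subgroup (G × G')} {A : Subgroup G} {A' : Subgroup G'} (h : Gr Y A A')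
    {y : G × G'} (hy : y ∈ Y) : y.1 ∈ A := h.fst ▸ ⟨y, hy, rfl⟩

theorem mem_snd {Y : Subgroup (G × G')} {A : Subgroup G} {A' : Subgroup G'} (h : Gr Y A A')
    {y : G × G'} (hy : y ∈ Y) : y.2 ∈ A' := h.snd ▸ ⟨y, hy, rfl⟩

theorem comm_X {i j : I} (h : cm R i j = 2) {r s : Φ} (hr : InJ R {i} r) (hs : InJ R {j} s)
    {x y : G} (hx : x ∈ E.X r) (hy : y ∈ E.X s) : Commute x y := by
  have h1 : r ≠ s := fun e => disj h hr (e ▸ hs)
  have h2 : s ≠ R.neg r := fun e => disj h hr.neg (e ▸ hs)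
  have := E.toPre.comm_mem' h1 h2 hx hy
  rw [itv_two h hr hs, XS_empty, Subgroup.mem_bot] at this
  exact commutatorElement_eq_one_iff_commute.1 this

theorem comm_Y {i j : I} (h : cm R i j = 2) {Y Y' : Φ → Subgroup (G × G')} (h1 : Loc E E' {i} Y)
    (h2 : Loc E E' {j} Y') {r s : Φ} (hr : InJ R {i} r) (hs : InJ R {j} s)
    {x y : G × G'} (hx : x ∈ Y r) (hy : y ∈ Y' s) : Commute x y :=
  Prod.ext (comm_X h hr hs (mem_fst (h1.gr r hr) hx) (mem_fst (h2.gr s hs) hy))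
    (comm_X h hr hs (mem_snd (h1.gr r hr) hx) (mem_snd (h2.gr s hs) hy))

theorem act_two {i j : I} (h : cm R i j = 2) {Y Y' Z : Φ → Subgroup (G × G')} (h1 : Loc E E' {i} Y)
    (h2 : Loc E E' {j} Y') (z1 : ∀ r, InJ R {i} r → Z r = Y r) (z2 : ∀ r, InJ R {j} r → Z r = Y' r)
    {x : G × G'} (hx : x ∈ Z (R.α i)) (hx1 : x ≠ 1) :
    ∃ u ∈ Z (R.neg (R.α i)), ∃ u' ∈ Z (R.neg (R.α i)), ∀ r, (InJ R {i} r ∨ InJ R {j} r) →
      ∀ y, y ∈ Z r ↔ (u * x * u') * y * (u * x * u')⁻¹ ∈ Z (R.σ i r) := by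
  have a1 : InJ R {i} (R.α i) := inJ_α rfl
  rw [z1 _ a1] at hx
  obtain ⟨u, hu, u', hu', e⟩ := h1.act i rfl x hx hx1
  rw [z1 _ a1.neg]
  refine ⟨u, hu, u', hu', fun r hr y => ?_⟩
  rcases hr with hr | hr
  · rw [z1 _ hr, z1 _ (σ_inJ hr)]; exact e r hr y
  · rw [σ_fix h hr, z2 _ hr]
    have c : ∀ y ∈ Y' r, Commute (u * x * u') y := fun y hy =>
      ((comm_Y h h1 h2 a1.neg hr hu hy).mul_left (comm_Y h h1 h2 a1 hr hx hy)).mul_left
        (comm_Y h h1 h2 a1.neg hr hu' hy)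
    refine ⟨fun hy => ?_, fun hy => ?_⟩
    · rw [(c y hy).eq, mul_inv_cancel_right]; exact hy
    · have e2 := (c _ hy).eq
      rw [mul_assoc _ (u * x * u')⁻¹, inv_mul_cancel, mul_one] at e2
      have e3 : u * x * u' * y * (u * x * u')⁻¹ = y := mul_left_cancel e2
      rwa [e3] at hy

theorem third : ∀ a b : Fin 3, a ≠ b → ∃ c, b ≠ c ∧ a ≠ c := by decide

theorem exists_st {K : Type} [Field K] (S : PreStA (Fin 3) K G) (S' : PreStA (Fin 3) K G')
    (h1 : ∀ a b, a ≠ b → Function.Injective (S.x a b)) :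
    ∃ P : StA (Fin (2 + 1)) K (G × G'), ∀ a b t, P.x a b t = (S.x a b t, S'.x a b t) := by
  let Q : PreStA (Fin 3) K (G × G') :=
    { x := fun a b t => (S.x a b t, S'.x a b t)
      add := fun h a b => Prod.ext (S.add h a b) (S'.add h a b)
      c0 := fun a b c d t u => Prod.ext (S.c0 a b c d t u).eq (S'.c0 a b c d t u).eq
      c1 := fun a b c t u => Prod.ext (S.c1 a b c t u) (S'.c1 a b c t u) }
  refine ⟨⟨Q, fun {a b} h t ht u => ?_, fun {a b} h t ht e => ht ?_⟩, fun _ _ _ => rfl⟩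
  · obtain ⟨c, h2, h3⟩ := third a b h
    exact Q.rel_of_third h h2 h3 ht u
  · exact h1 a b h ((congrArg Prod.fst e).trans (S.x_zero h).symm)

end LocP

open LocP

theorem Loc.single {J : Set I} {Y : Φ → Subgroup (G × G')} (h : Loc E E' J Y) {i : I}
    (hi : i ∈ J) : Loc E E' {i} Y := by
  have hs : ({i} : Set I) ⊆ J := Set.singleton_subset_iff.2 hi
  refine ⟨fun r hr => h.gr r (hr.mono hs),
    fun r s hr hs' => h.comm r s (hr.mono hs) (hs'.mono hs), ?_⟩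
  rintro k rfl x hx hx1
  obtain ⟨u, hu, u', hu', e⟩ := h.act _ hi x hx hx1
  exact ⟨u, hu, u', hu', fun r hr => e r (hr.mono hs)⟩

theorem Loc.congr {i : I} {Y Y' : Φ → Subgroup (G × G')} (h : Loc E E' {i} Y) (h' : Agr R i Y Y') :
    Loc E E' {i} Y' := by
  have z : ∀ r, InJ R {i} r → Y' r = Y r := fun r hr => by
    rcases inJ_single.1 hr with rfl | rfl
    · exact h'.1.symm
    · exact h'.2.symm
  refine ⟨fun r hr => z r hr ▸ h.gr r hr, fun r s hr hs h1 h2 => (not_two hr hs h1 h2).elim, ?_⟩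
  rintro k rfl x hx hx1
  rw [← h'.1] at hx
  obtain ⟨u, hu, u', hu', e⟩ := h.act _ rfl x hx hx1
  rw [← h'.2]
  refine ⟨u, hu, u', hu', fun r hr y => ?_⟩
  rw [z r hr, z _ (σ_inJ hr)]
  exact e r hr y

theorem loc_two (hE : E.Faith) (hE' : E'.Faith) {i j : I} (h : cm R i j = 2)
    {Y Y' : Φ → Subgroup (G × G')} (h1 : Loc E E' {i} Y) (h2 : Loc E E' {j} Y') :
    ∃ Z, Loc E E' {i, j} Z ∧ Agr R i Z Y ∧ Agr R j Z Y' := by
  classical
  have _ := hE
  have _ := hE'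
  have h' : cm R j i = 2 := (cm_symm j i).trans h
  let Z : Φ → Subgroup (G × G') := fun r => if InJ R {i} r then Y r else Y' r
  have z1 : ∀ r, InJ R {i} r → Z r = Y r := fun r hr => if_pos hr
  have z2 : ∀ r, InJ R {j} r → Z r = Y' r := fun r hr => if_neg fun h0 => disj h h0 hr
  have a1 : InJ R {i} (R.α i) := inJ_α rfl
  have a2 : InJ R {j} (R.α j) := inJ_α rfl
  refine ⟨Z, ⟨fun r hr => ?_, fun r s hr hs n1 n2 x hx y hy => ?_, ?_⟩,
    ⟨z1 _ a1, z1 _ a1.neg⟩, ⟨z2 _ a2, z2 _ a2.neg⟩⟩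
  · rcases (inJ_two h).1 hr with hr | hr
    · rw [z1 r hr]; exact h1.gr r hr
    · rw [z2 r hr]; exact h2.gr r hr
  · rcases (inJ_two h).1 hr with hr | hr <;> rcases (inJ_two h).1 hs with hs | hs
    · exact (not_two hr hs n1 n2).elim
    · rw [z1 r hr] at hx; rw [z2 s hs] at hy
      rw [commutatorElement_eq_one_iff_commute.2 (comm_Y h h1 h2 hr hs hx hy)]
      exact one_mem _
    · rw [z2 r hr] at hx; rw [z1 s hs] at hy
      rw [commutatorElement_eq_one_iff_commute.2 (comm_Y h' h2 h1 hr hs hx hy)]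
      exact one_mem _
    · exact (not_two hr hs n1 n2).elim
  · rintro k (rfl | rfl) x hx hx1
    · obtain ⟨u, hu, u', hu', e⟩ := act_two h h1 h2 z1 z2 hx hx1
      exact ⟨u, hu, u', hu', fun r hr => e r ((inJ_two h).1 hr)⟩
    · obtain ⟨u, hu, u', hu', e⟩ := act_two h' h2 h1 z2 z1 hx hx1
      exact ⟨u, hu, u', hu', fun r hr => e r ((inJ_two h).1 hr).symm⟩

theorem loc_of_a2 (hF : Full R) {i j : I} (h : cm R i j = 3) {K : Type} [Field K]
    (S : PreStA (Fin 3) K G) (S' : PreStA (Fin 3) K G')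
    (h1 : ∀ a b, a ≠ b → Function.Injective (S.x a b) ∧
      Set.range (S.x a b) = (E.X (rt R i j a b) : Set G))
    (h2 : ∀ a b, a ≠ b → Function.Injective (S'.x a b) ∧
      Set.range (S'.x a b) = (E'.X (rt R i j a b) : Set G')) :
    ∃ Z, Loc E E' {i, j} Z ∧ ∀ a b, a ≠ b → ∀ y,
      y ∈ Z (rt R i j a b) ↔ ∃ t, y = (S.x a b t, S'.x a b t) := by
  obtain ⟨P, hP⟩ := exists_st S S' fun a b hab => (h1 a b hab).1
  obtain ⟨Z, hZ⟩ : ∃ Z : Φ → Subgroup (G × G'),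
      ∀ a b, a ≠ b → ∀ y, y ∈ Z (rt R i j a b) ↔ ∃ t, P.x a b t = y := by
    refine ⟨fun r => ⨅ (p : PA 2) (_ : rt R i j p.1.1 p.1.2 = r), P.X p, ?_⟩
    intro a b hab y
    simp only [Subgroup.mem_iInf]
    refine ⟨fun hy => P.mem_X.1 (hy ⟨(a, b), hab⟩ rfl), fun hy p hp => ?_⟩
    obtain ⟨e1, e2⟩ := rt_inj h p.2 hab hp
    rw [P.mem_X, e1, e2]; exact hy
  have act : ∀ (k : I) (a b : Fin 3), a ≠ b → R.α k = rt R i j a b →
      (∀ c d, c ≠ d → R.σ k (rt R i j c d) = rt R i j (Equiv.swap a b c) (Equiv.swap a b d)) →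
      ∀ x ∈ Z (R.α k), x ≠ 1 → ∃ u ∈ Z (R.neg (R.α k)), ∃ u' ∈ Z (R.neg (R.α k)),
        ∀ r, InJ R {i, j} r → ∀ y, y ∈ Z r ↔ (u * x * u') * y * (u * x * u')⁻¹ ∈ Z (R.σ k r) := by
    intro k a b hab e hσ x hx hx1
    rw [e] at hx
    obtain ⟨t, rfl⟩ := (hZ a b hab x).1 hx
    have ht : t ≠ 0 := by rintro rfl; exact hx1 (P.x_zero hab)
    have hs : -t⁻¹ ≠ 0 := neg_ne_zero.2 (inv_ne_zero ht)
    have hu : P.x b a (-t⁻¹) ∈ Z (R.neg (R.α k)) := by
      rw [e, rt_neg i j hab]; exact (hZ b a hab.symm _).2 ⟨_, rfl⟩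
    refine ⟨_, hu, _, hu, fun r hr y => ?_⟩
    obtain ⟨c, d, hcd, rfl⟩ := (rt_inJ h).1 hr
    have ew : P.x b a (-t⁻¹) * P.x a b t * P.x b a (-t⁻¹) = P.w b a (-t⁻¹) := by
      simp [PreStA.w]
    rw [ew, hσ c d hcd, hZ c d hcd, hZ _ _ ((Equiv.swap a b).injective.ne hcd)]
    have wc := fun u => P.w_conj hab.symm hcd hs u
    rw [Equiv.swap_comm b a] at wc
    refine ⟨?_, ?_⟩
    · rintro ⟨u, rfl⟩; exact ⟨_, (wc u).symm⟩
    · rintro ⟨u, hu⟩
      have n0 : StA.μ b a (-t⁻¹) c * (StA.μ b a (-t⁻¹) d)⁻¹ ≠ 0 :=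
        mul_ne_zero (StA.μ_ne _ _ hs _) (inv_ne_zero (StA.μ_ne _ _ hs _))
      refine ⟨(StA.μ b a (-t⁻¹) c * (StA.μ b a (-t⁻¹) d)⁻¹)⁻¹ * u, ?_⟩
      have := wc ((StA.μ b a (-t⁻¹) c * (StA.μ b a (-t⁻¹) d)⁻¹)⁻¹ * u)
      rw [mul_inv_cancel_left₀ n0, hu] at this
      exact mul_left_cancel (mul_right_cancel this)
  refine ⟨Z, ⟨fun r hr => ?_, fun r s hr hs n1 n2 x hx y hy => ?_, ?_⟩, fun a b hab y => ?_⟩
  · obtain ⟨a, b, hab, rfl⟩ := (rt_inJ h).1 hr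
    refine ⟨?_, ?_, fun y hy => ?_⟩
    · ext g
      rw [← SetLike.mem_coe (p := E.X _), ← (h1 a b hab).2]
      constructor
      · rintro ⟨y, hy, rfl⟩
        obtain ⟨t, rfl⟩ := (hZ a b hab y).1 hy
        exact ⟨t, by rw [hP]; rfl⟩
      · rintro ⟨t, rfl⟩
        exact ⟨P.x a b t, (hZ a b hab _).2 ⟨t, rfl⟩, by rw [hP]; rfl⟩
    · ext g
      rw [← SetLike.mem_coe (p := E'.X _), ← (h2 a b hab).2]
      constructor
      · rintro ⟨y, hy, rfl⟩
        obtain ⟨t, rfl⟩ := (hZ a b hab y).1 hy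
        exact ⟨t, by rw [hP]; rfl⟩
      · rintro ⟨t, rfl⟩
        exact ⟨P.x a b t, (hZ a b hab _).2 ⟨t, rfl⟩, by rw [hP]; rfl⟩
    · obtain ⟨t, rfl⟩ := (hZ a b hab y).1 hy
      rw [hP]
      refine ⟨fun e => ?_, fun e => ?_⟩
      · obtain rfl : t = 0 := (h1 a b hab).1 (e.trans (S.x_zero hab).symm)
        exact S'.x_zero hab
      · obtain rfl : t = 0 := (h2 a b hab).1 (e.trans (S'.x_zero hab).symm)
        exact S.x_zero hab
  · obtain ⟨a, b, hab, rfl⟩ := (rt_inJ h).1 hr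
    obtain ⟨c, d, hcd, rfl⟩ := (rt_inJ h).1 hs
    obtain ⟨t, rfl⟩ := (hZ a b hab x).1 hx
    obtain ⟨u, rfl⟩ := (hZ c d hcd y).1 hy
    rw [rt_neg i j hab] at n2
    by_cases e1 : b = c
    · subst e1
      have had : a ≠ d := by rintro rfl; exact n2 rfl
      rw [P.c1 hab hcd had, rt_itv1 hF h hab hcd had]
      exact mem_XS (X := Z) (S := {rt R i j a d}) (Set.mem_singleton _) ((hZ a d had _).2 ⟨_, rfl⟩)
    by_cases e2 : a = d
    · subst e2
      rw [← commutatorElement_inv, P.c1 hcd hab (Ne.symm e1), Roots.itv_comm,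
        rt_itv1 hF h hcd hab (Ne.symm e1)]
      exact inv_mem (mem_XS (X := Z) (S := {rt R i j c b}) (Set.mem_singleton _)
        ((hZ c b (Ne.symm e1) _).2 ⟨_, rfl⟩))
    rw [commutatorElement_eq_one_iff_commute.2 (P.c0 hab hcd e2 e1 t u)]
    exact one_mem _
  · rintro k (rfl | rfl)
    · exact act k 0 1 (by decide) rfl fun c d hcd => (rt_σ h hcd).1
    · exact act k 1 2 (by decide) rfl fun c d hcd => (rt_σ h hcd).2
  · rw [hZ a b hab]
    exact exists_congr fun t => by rw [hP, eq_comm]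

end Tits
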