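import Mathlib
import Cfsg.Agent.Lib.Tits.Loc
import Cfsg.Agent.Lib.Tits.Cox

set_option autoImplicit false

open scoped commutatorElement

namespace Tits

open H63.St Cfsg

variable {Φ I : Type*} {R : Roots Φ I} [Finite Φ] {G G' : Type*} [Group G] [Group G'] {E : RGD R G} {E' : RGD R G'}

namespace Glue

omit [Finite Φ] in
theorem eq_one (hE : E.Faith) {i : I} {c : G} (hc : c ∈ E.X (R.neg (R.α i)))
    (h : ∀ z ∈ E.X (R.α i), c * z * c⁻¹ ∈ E.X (R.α i)) : c = 1 := by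
  have hc' := (E.acts_n i).conj_mem hc
  rw [R.σ_neg_α] at hc'
  refine conj_eq_one_iff.1 (RGD.eq_one_of_conj_neg hE hc' fun y hy =>
    ⟨_, ?_, 1, one_mem _, (mul_one _).symm⟩)
  have h1 := (E.acts_n i).inv_conj_mem hy
  rw [R.σ_inv, R.σ_neg_α] at h1
  have h2 := (E.acts_n i).conj_mem (h _ h1)
  rw [R.σ_α] at h2
  convert h2 using 1
  group

omit [Finite Φ] in
/-- an element of `X(-α) x X(-α)` exchanging `X(α)` and `X(-α)` induces the reflection -/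
theorem acts_of (hE : E.Faith) {i : I} {x v v' : G} (hx : x ∈ E.X (R.α i)) (x1 : x ≠ 1)
    (hv : v ∈ E.X (R.neg (R.α i))) (hv' : v' ∈ E.X (R.neg (R.α i)))
    (h1 : ∀ z ∈ E.X (R.α i), v * x * v' * z * (v * x * v')⁻¹ ∈ E.X (R.neg (R.α i)))
    (h2 : ∀ z ∈ E.X (R.neg (R.α i)), v * x * v' * z * (v * x * v')⁻¹ ∈ E.X (R.α i)) :
    Acts E.X (v * x * v') (R.σ i) := by
  obtain ⟨u, hu, u', hu', h⟩ := E.rgd2 i x hx x1
  have a := mul_mem hu (inv_mem hv)
  have e1 : u'⁻¹ * v' = 1 := eq_one hE (mul_mem (inv_mem hu') hv') fun z hz => by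
    rw [h, R.σ_α]
    convert mul_mem (mul_mem a (h1 z hz)) (inv_mem a) using 1
    group
  obtain rfl : u' = v' := inv_mul_eq_one.1 e1
  have e2 : v * u⁻¹ = 1 := eq_one hE (mul_mem hv (inv_mem hu)) fun z hz => by
    have h3 := h.inv_conj_mem hz
    rw [R.σ_inv, R.σ_α] at h3
    convert h2 _ h3 using 1
    group
  rwa [mul_inv_eq_one.1 e2]

omit [Finite Φ] in
theorem simple_of {J : Set I} [Finite Φ] {u : Equiv.Perm Φ} (hu : u ∈ R.W)
    (h : ∀ a ∈ J, R.Pos (u (R.α a))) {β : Φ} (hβ : InJ R J β) {j : I} (e : u β = R.α j) :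
    ∃ a ∈ J, β = R.α a := by
  obtain ⟨u0, -, v0, hv0, rfl, s⟩ := exists_coset J hu
  obtain rfl : v0 = 1 := WJ.eq_one_of_pos hv0 fun a ha => (s _ ((inJ_α ha).smul hv0)).1 (h a ha)
  rw [mul_one] at *
  obtain ⟨v, hv, c, hc, rfl⟩ := hβ
  have ht : v * R.σ c * v⁻¹ ∈ WJ R J := mul_mem (mul_mem hv (WJ.σ_mem hc)) (inv_mem hv)
  have e2 := Roots.W_conj_σ (mul_mem hu (WJ_le J hv)) (k := c) e
  by_contra n
  have := WJ.eq_one_of_pos ht fun a ha => (s _ ((inJ_α ha).smul ht)).1 (by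
    have := R.σ_pos (i := j) (h a ha) fun e' => n ⟨a, ha, u0.injective (e.trans e'.symm)⟩
    rw [← e2] at this
    simpa using this)
  have e3 : R.σ c = 1 := conj_eq_one_iff.1 this
  have := R.σ_α c
  rw [e3] at this
  exact R.not_pos_neg_α c (this ▸ R.pos_α c)

/-- `g` moves `Y r` to `Y s` -/
def Mv {Γ : Type*} [Group Γ] (Y : Φ → Subgroup Γ) (g : Γ) (r s : Φ) : Prop :=
  ∀ y, y ∈ Y r ↔ g * y * g⁻¹ ∈ Y s

section Mv

omit [Finite Φ]

variable {Γ : Type*} [Group Γ] {Y : Φ → Subgroup Γ} {g g' : Γ} {r s k : Φ}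

theorem Mv.one : Mv Y 1 r r := fun y => by simp

theorem Mv.mul (h : Mv Y g s k) (h' : Mv Y g' r s) : Mv Y (g * g') r k := fun y => by
  rw [h' y, h]; simp [mul_assoc]

theorem Mv.inv (h : Mv Y g r s) : Mv Y g⁻¹ s r := fun y => by
  rw [h]; simp [mul_assoc]

end Mv

variable (E E') in
/-- the action on both families of root groups -/
def Ac (g : G × G') (w : Equiv.Perm Φ) : Prop := Acts E.X g.1 w ∧ Acts E'.X g.2 w

variable (R) in
/-- `g` moves the rank one datum at `i` to the one at `j` -/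
def Sw (Y : Φ → Subgroup (G × G')) (g : G × G') (i j : I) : Prop :=
  Mv Y g (R.α i) (R.α j) ∧ Mv Y g (R.neg (R.α i)) (R.neg (R.α j))

variable (E E') in
/-- the representatives of the simple reflections -/
def M (Y : Φ → Subgroup (G × G')) (i : I) : Set (G × G') :=
  {m | Ac E E' m (R.σ i) ∧ ∃ x ∈ Y (R.α i), x ≠ 1 ∧ ∃ u ∈ Y (R.neg (R.α i)),
    ∃ u' ∈ Y (R.neg (R.α i)), m = u * x * u'}

variable {Y : Φ → Subgroup (G × G')}

section

omit [Finite Φ]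

variable {g g' : G × G'} {w w' : Equiv.Perm Φ} {i j k : I}

theorem Ac.one : Ac E E' 1 1 := ⟨acts_one, acts_one⟩
theorem Ac.mul (h : Ac E E' g w) (h' : Ac E E' g' w') : Ac E E' (g * g') (w * w') :=
  ⟨h.1.mul h'.1, h.2.mul h'.2⟩
theorem Ac.inv (h : Ac E E' g w) : Ac E E' g⁻¹ w⁻¹ := ⟨h.1.inv, h.2.inv⟩
theorem Sw.mul (h : Sw R Y g j k) (h' : Sw R Y g' i j) : Sw R Y (g * g') i k :=
  ⟨h.1.mul h'.1, h.2.mul h'.2⟩
theorem Sw.inv (h : Sw R Y g i j) : Sw R Y g⁻¹ j i := ⟨h.1.inv, h.2.inv⟩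

variable (E E' Y) in
/-- the torus -/
def H : Subgroup (G × G') where
  carrier := {h | Ac E E' h 1 ∧ ∀ i, Sw R Y h i i}
  one_mem' := ⟨Ac.one, fun _ => ⟨Mv.one, Mv.one⟩⟩
  mul_mem' h h' := ⟨by simpa using h.1.mul h'.1, fun i => (h.2 i).mul (h'.2 i)⟩
  inv_mem' h := ⟨by simpa using h.1.inv, fun i => (h.2 i).inv⟩

theorem M_inv (h : g ∈ M E E' Y i) : g⁻¹ ∈ M E E' Y i := by
  obtain ⟨h1, x, hx, hx1, u, hu, u', hu', rfl⟩ := h
  exact ⟨by simpa only [R.σ_inv] using h1.inv, x⁻¹, inv_mem hx, by simpa using hx1, u'⁻¹,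
    inv_mem hu', u⁻¹, inv_mem hu, by group⟩

theorem M_conj (hg : Ac E E' g w) (hw : w ∈ R.W) (e : w (R.α i) = R.α j) (s : Sw R Y g i j)
    (h : g' ∈ M E E' Y i) : g * g' * g⁻¹ ∈ M E E' Y j := by
  obtain ⟨h1, x, hx, hx1, u, hu, u', hu', rfl⟩ := h
  refine ⟨?_, g * x * g⁻¹, (s.1 _).1 hx, by simpa using hx1, g * u * g⁻¹, (s.2 _).1 hu,
    g * u' * g⁻¹, (s.2 _).1 hu', by group⟩
  rw [← Roots.W_conj_σ hw e]
  exact (hg.mul h1).mul hg.inv

theorem gr_conj {r : Φ} {A B : Subgroup (G × G')} (h : Gr A (E.X r) (E'.X r)) (a : Ac E E' g w)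
    (e : ∀ y, y ∈ A ↔ g * y * g⁻¹ ∈ B) : Gr B (E.X (w r)) (E'.X (w r)) := by
  have e' : ∀ y ∈ B, g⁻¹ * y * g ∈ A := fun y hy => (e _).2 (by simpa [mul_assoc] using hy)
  refine ⟨le_antisymm ?_ fun z hz => ?_, le_antisymm ?_ fun z hz => ?_, fun y hy => ?_⟩
  · rintro _ ⟨y, hy, rfl⟩
    simpa [mul_assoc] using a.1.conj_mem (h.fst.le ⟨_, e' y hy, rfl⟩)
  · obtain ⟨y, hy, e1⟩ := h.fst.ge ((a.1 r (g.1⁻¹ * z * g.1)).2 (by simpa [mul_assoc] using hz))
    exact ⟨_, (e y).1 hy, by simp [show y.1 = _ from e1, mul_assoc]⟩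
  · rintro _ ⟨y, hy, rfl⟩
    simpa [mul_assoc] using a.2.conj_mem (h.snd.le ⟨_, e' y hy, rfl⟩)
  · obtain ⟨y, hy, e1⟩ := h.snd.ge ((a.2 r (g.2⁻¹ * z * g.2)).2 (by simpa [mul_assoc] using hz))
    exact ⟨_, (e y).1 hy, by simp [show y.2 = _ from e1, mul_assoc]⟩
  · have := h.inj _ (e' y hy)
    simpa [mul_assoc, inv_mul_eq_one] using this

end

/-- the hypotheses -/
structure Hy (E : RGD R G) (E' : RGD R G') (Y : Φ → Subgroup (G × G'))
    (Z : I → I → Φ → Subgroup (G × G')) : Prop where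
  f : E.Faith
  f' : E'.Faith
  loc : ∀ i j, Loc E E' {i, j} (Z i j)
  ag : ∀ i j, ∀ k ∈ ({i, j} : Set I), Agr R k (Z i j) Y

variable {Z : I → I → Φ → Subgroup (G × G')} (h : Hy E E' Y Z)
include h

theorem Hy.ex {i j k : I} (hk : k ∈ ({i, j} : Set I)) {x : G × G'} (hx : x ∈ Y (R.α k)) (x1 : x ≠ 1) :
    ∃ u ∈ Y (R.neg (R.α k)), ∃ u' ∈ Y (R.neg (R.α k)), Ac E E' (u * x * u') (R.σ k) ∧
      ∀ r, InJ R {i, j} r → Mv (Z i j) (u * x * u') r (R.σ k r) := by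
  obtain ⟨a1, a2⟩ := h.ag i j k hk
  rw [← a1] at hx
  rw [← a2]
  obtain ⟨u, hu, u', hu', e⟩ := (h.loc i j).act k hk x hx x1
  have g1 := (h.loc i j).gr _ (inJ_α hk)
  have g2 := (h.loc i j).gr _ (inJ_α hk).neg
  have e1 := e _ (inJ_α hk)
  have e2 := e _ (inJ_α hk).neg
  rw [R.σ_α] at e1
  rw [R.σ_neg_α] at e2
  have n : x.1 ≠ 1 := fun c => x1 (Prod.ext c ((g1.inj x hx).1 c))
  refine ⟨u, hu, u', hu', ⟨acts_of h.f (g1.fst.le ⟨x, hx, rfl⟩) n (g2.fst.le ⟨u, hu, rfl⟩)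
    (g2.fst.le ⟨u', hu', rfl⟩) (fun z hz => ?_) fun z hz => ?_,
    acts_of h.f' (g1.snd.le ⟨x, hx, rfl⟩) (fun c => n ((g1.inj x hx).2 c)) (g2.snd.le ⟨u, hu, rfl⟩)
    (g2.snd.le ⟨u', hu', rfl⟩) (fun z hz => ?_) fun z hz => ?_⟩, e⟩
  · obtain ⟨y, hy, rfl⟩ := g1.fst.ge hz
    exact g2.fst.le ⟨_, (e1 y).1 hy, rfl⟩
  · obtain ⟨y, hy, rfl⟩ := g2.fst.ge hz
    exact g1.fst.le ⟨_, (e2 y).1 hy, rfl⟩
  · obtain ⟨y, hy, rfl⟩ := g1.snd.ge hz
    exact g2.snd.le ⟨_, (e1 y).1 hy, rfl⟩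
  · obtain ⟨y, hy, rfl⟩ := g2.snd.ge hz
    exact g1.snd.le ⟨_, (e2 y).1 hy, rfl⟩

theorem Hy.gr (i : I) : Gr (Y (R.α i)) (E.X (R.α i)) (E'.X (R.α i)) ∧
    Gr (Y (R.neg (R.α i))) (E.X (R.neg (R.α i))) (E'.X (R.neg (R.α i))) := by
  obtain ⟨a1, a2⟩ := h.ag i i i (by simp)
  rw [← a1, ← a2]
  exact ⟨(h.loc i i).gr _ (inJ_α (by simp)), (h.loc i i).gr _ (inJ_α (by simp)).neg⟩

theorem Hy.mv {i j k : I} (hk : k ∈ ({i, j} : Set I)) {m : G × G'} (hm : m ∈ M E E' Y k) {r : Φ}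
    (hr : InJ R {i, j} r) : Mv (Z i j) m r (R.σ k r) := by
  obtain ⟨a, x, hx, x1, u, hu, u', hu', rfl⟩ := hm
  obtain ⟨v, hv, v', hv', a', e⟩ := h.ex hk hx x1
  have g := (h.gr k).2
  have : u * x * u' = v * x * v' := Prod.ext
    (RGD.M_unique h.f (g.fst.le ⟨u, hu, rfl⟩) (g.fst.le ⟨u', hu', rfl⟩) (g.fst.le ⟨v, hv, rfl⟩)
      (g.fst.le ⟨v', hv', rfl⟩) a.1 a'.1)
    (RGD.M_unique h.f' (g.snd.le ⟨u, hu, rfl⟩) (g.snd.le ⟨u', hu', rfl⟩) (g.snd.le ⟨v, hv, rfl⟩)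
      (g.snd.le ⟨v', hv', rfl⟩) a.2 a'.2)
  rw [this]
  exact e r hr

theorem Hy.ne (i : I) : ∃ m, m ∈ M E E' Y i := by
  obtain ⟨z, hz, z1⟩ := E.exists_ne_one i
  obtain ⟨x, hx, rfl⟩ := (h.gr i).1.fst.ge hz
  have x1 : x ≠ 1 := fun c => z1 (by rw [c]; rfl)
  obtain ⟨u, hu, u', hu', a, -⟩ := h.ex (i := i) (j := i) (by simp) hx x1
  exact ⟨_, a, x, hx, x1, u, hu, u', hu', rfl⟩

theorem Hy.sw {i j a b : I} (ha : a ∈ ({i, j} : Set I)) (hb : b ∈ ({i, j} : Set I)) {g : G × G'}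
    {w : Equiv.Perm Φ} (hw : w ∈ R.W) (e : w (R.α a) = R.α b)
    (m : ∀ r, InJ R {i, j} r → Mv (Z i j) g r (w r)) : Sw R Y g a b := by
  have m1 := m _ (inJ_α ha)
  have m2 := m _ (inJ_α ha).neg
  rw [Roots.W_neg hw] at m2
  rw [e] at m1 m2
  exact ⟨fun y => by rw [← (h.ag i j a ha).1, ← (h.ag i j b hb).1]; exact m1 y,
    fun y => by rw [← (h.ag i j a ha).2, ← (h.ag i j b hb).2]; exact m2 y⟩

theorem Hy.mul {i : I} {m m' : G × G'} (hm : m ∈ M E E' Y i) (hm' : m' ∈ M E E' Y i) :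
    m * m' ∈ H E E' Y :=
  ⟨R.σ_mul_self i ▸ hm.1.mul hm'.1, fun j => h.sw (i := i) (j := j) (by simp) (by simp) (one_mem _) rfl
    fun r hr => by
      have := (h.mv (by simp) hm (hr.smul (WJ.σ_mem (i := i) (by simp)))).mul (h.mv (by simp) hm' hr)
      rwa [R.σ_σ] at this⟩

theorem Hy.cj {i : I} {m t : G × G'} (hm : m ∈ M E E' Y i) (ht : t ∈ H E E' Y) :
    m * t * m⁻¹ ∈ H E E' Y := by
  convert mul_mem (h.mul hm (M_conj ht.1 (one_mem _) rfl (ht.2 i) (M_inv hm))) ht using 1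
  group

variable {n : I → G × G'} (hn : ∀ i, n i ∈ M E E' Y i)
include hn

theorem Hy.cjw (L : List I) {t : G × G'} (ht : t ∈ H E E' Y) :
    (L.map n).prod * t * (L.map n).prod⁻¹ ∈ H E E' Y := by
  induction L with
  | nil => simpa using ht
  | cons a L ih => simpa [mul_assoc] using h.cj (hn a) ih

omit h [Finite Φ] in
theorem acw (L : List I) : Ac E E' (L.map n).prod (R.wp L) := by
  induction L with
  | nil => exact Ac.one
  | cons a L ih => exact (hn a).1.mul ih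

theorem Hy.mvw {i j : I} {L : List I} (hL : ∀ k ∈ L, k ∈ ({i, j} : Set I)) {r : Φ}
    (hr : InJ R {i, j} r) : Mv (Z i j) (L.map n).prod r (R.wp L r) := by
  induction L with
  | nil => exact Mv.one
  | cons a L ih =>
    have hL' : ∀ k ∈ L, k ∈ ({i, j} : Set I) := fun k hk => hL k (by simp [hk])
    exact (h.mv (hL a (by simp)) (hn a) (hr.smul (WJ.wp_mem hL'))).mul (ih hL')

theorem Hy.del {L : List I} (ih : ∀ L' : List I, L'.length < L.length → ∀ i j,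
      R.wp L' (R.α i) = R.α j → Sw R Y (L'.map n).prod i j) {k : I} (hk : ¬ R.Pos (R.wp L (R.α k))) :
    ∃ L' : List I, L'.length + 1 = L.length ∧ R.wp L * R.σ k = R.wp L' ∧
      ∃ t ∈ H E E' Y, (L.map n).prod * n k = t * (L'.map n).prod := by
  obtain ⟨L1, a, L2, rfl, e⟩ := Roots.flip (R.pos_α k) hk
  have h2 := M_conj (acw hn L2) (R.wp_mem_W _) e (ih L2 (by simp; omega) _ _ e) (hn k)
  have h3 := Roots.W_conj_σ (R.wp_mem_W L2) e
  refine ⟨L1 ++ L2, by simp; omega, ?_, _, h.cjw hn L1 (h.mul (hn a) h2), by simp [mul_assoc]⟩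
  rw [R.wp_append, R.wp_append, R.wp_cons, ← h3]
  simp only [mul_assoc, inv_mul_cancel_left, R.σ_mul_self, mul_one]

theorem Hy.red (J : Set I) {L : List I} (ih : ∀ L' : List I, L'.length < L.length → ∀ i j,
      R.wp L' (R.α i) = R.α j → Sw R Y (L'.map n).prod i j) :
    ∃ L' V : List I, L'.length ≤ L.length ∧ ((∃ k ∈ J, ¬ R.Pos (R.wp L (R.α k))) → L'.length < L.length) ∧
      (∀ k ∈ V, k ∈ J) ∧ (∀ k ∈ J, R.Pos (R.wp L' (R.α k))) ∧ R.wp L * R.wp V = R.wp L' ∧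
      ∃ t ∈ H E E' Y, (L.map n).prod * (V.map n).prod = t * (L'.map n).prod := by
  induction hl : L.length using Nat.strong_induction_on generalizing L with
  | _ m ih2 =>
    subst hl
    by_cases c : ∃ k ∈ J, ¬ R.Pos (R.wp L (R.α k))
    · obtain ⟨k, hk, c⟩ := c
      obtain ⟨L1, l1, e1, t, ht, e2⟩ := h.del hn ih c
      obtain ⟨L', V, l2, -, hV, hp, e3, t', ht', e4⟩ :=
        ih2 _ (by omega) (L := L1) (fun L' hl => ih L' (by omega)) rfl
      refine ⟨L', k :: V, by omega, fun _ => by omega, by simpa using ⟨hk, hV⟩, hp,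
        by rw [R.wp_cons, ← mul_assoc, e1, e3], t * t', mul_mem ht ht', ?_⟩
      rw [List.map_cons, List.prod_cons, ← mul_assoc, e2, mul_assoc, e4, mul_assoc]
    · exact ⟨L, [], le_rfl, fun c' => absurd c' c, by simp, by simpa using c, by simp, 1, one_mem _,
        by simp⟩

theorem Hy.sww (L : List I) : ∀ i j, R.wp L (R.α i) = R.α j → Sw R Y (L.map n).prod i j := by
  induction hl : L.length using Nat.strong_induction_on generalizing L with
  | _ m ih =>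
    subst hl
    intro i j e
    have ih' := fun (L' : List I) hl => ih _ hl L' rfl
    by_cases c : ∃ k, ¬ R.Pos (R.wp L (R.α k))
    · obtain ⟨k, c⟩ := c
      obtain ⟨L', V, -, l, hV, hp, e1, t, ht, e2⟩ := h.red hn {i, k} ih'
      have e3 : R.wp L' ((R.wp V)⁻¹ (R.α i)) = R.α j := by rw [← e1]; simpa using e
      obtain ⟨a, ha, e4⟩ := simple_of (R.wp_mem_W _) hp
        ((inJ_α (by simp)).smul (inv_mem (WJ.wp_mem hV))) e3
      have s1 := h.sw ha (b := i) (by simp) (R.wp_mem_W V) (by rw [← e4]; simp)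
        fun r hr => h.mvw hn hV hr
      rw [eq_mul_inv_of_mul_eq e2]
      exact ((ht.2 j).mul (ih' L' (l ⟨k, by simp, c⟩) a j (e4 ▸ e3))).mul s1.inv
    · rcases List.eq_nil_or_concat L with rfl | ⟨L', k, rfl⟩
      · have e' : R.α i = R.α j := e
        exact ⟨e' ▸ Mv.one, e' ▸ Mv.one⟩
      · rw [List.concat_eq_append] at *
        have h1 : ¬ R.Pos (R.wp L' (R.α k)) := fun p => c ⟨k, by
          rwa [R.wp_append, R.wp_singleton, WJ.pos_mul_σ (R.wp_mem_W _), not_not]⟩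
        obtain ⟨L1, l1, e1, t, ht, e2⟩ := h.del hn (fun L'' hl => ih' L'' (by simp; omega)) h1
        rw [R.wp_append, R.wp_singleton, e1] at e
        rw [List.map_append, List.prod_append, List.map_singleton, List.prod_singleton, e2]
        exact (ht.2 j).mul (ih' L1 (by simp; omega) i j e)

omit h hn

variable (E E' Y) in
/-- the pairs of a representative and its Weyl group element -/
def N : Subgroup ((G × G') × Equiv.Perm Φ) :=
  Subgroup.closure {p | ∃ i, p.1 ∈ M E E' Y i ∧ p.2 = R.σ i}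

omit [Finite Φ] in
include hn in
theorem memw (L : List I) : ((L.map n).prod, R.wp L) ∈ N E E' Y := by
  induction L with
  | nil => exact one_mem _
  | cons a L ih =>
    have : (n a, R.σ a) ∈ N E E' Y := Subgroup.subset_closure ⟨a, hn a, rfl⟩
    rw [List.map_cons, List.prod_cons, R.wp_cons]
    exact mul_mem this ih

include h hn in
theorem Hy.swN {p : (G × G') × Equiv.Perm Φ} (hp : p ∈ N E E' Y) {i j : I}
    (e : p.2 (R.α i) = R.α j) : Sw R Y p.1 i j := by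
  have key : ∃ L : List I, p.2 = R.wp L ∧ ∃ t ∈ H E E' Y, p.1 = t * (L.map n).prod := by
    clear e
    have step : ∀ i, ∀ m ∈ M E E' Y i, ∀ p : (G × G') × Equiv.Perm Φ,
        (∃ L : List I, p.2 = R.wp L ∧ ∃ t ∈ H E E' Y, p.1 = t * (L.map n).prod) →
        ∃ L : List I, R.σ i * p.2 = R.wp L ∧ ∃ t ∈ H E E' Y, m * p.1 = t * (L.map n).prod := by
      rintro i m hm p ⟨L, e1, t, ht, e2⟩
      refine ⟨i :: L, by rw [e1, R.wp_cons], _, mul_mem (h.cj hm ht) (h.mul hm (M_inv (hn i))), ?_⟩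
      rw [e2, List.map_cons, List.prod_cons]; group
    induction hp using Subgroup.closure_induction_left with
    | one => exact ⟨[], rfl, 1, one_mem _, by simp⟩
    | mul_left x hx y _ ih =>
      obtain ⟨i, hm, e⟩ := hx
      rw [Prod.snd_mul, e]
      exact step i _ hm y ih
    | inv_mul_cancel x hx y _ ih =>
      obtain ⟨i, hm, e⟩ := hx
      rw [Prod.snd_mul, Prod.snd_inv, e, R.σ_inv]
      exact step i _ (M_inv hm) y ih
  obtain ⟨L, e1, t, ht, e2⟩ := key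
  rw [e2]
  exact (ht.2 j).mul (h.sww hn L i j (e1 ▸ e))

end Glue

open Glue in
/-- The Curtis–Tits theorem for isomorphisms of root group data. -/
theorem glue (hR : Rk2 R) (hE : E.Faith) (hE' : E'.Faith) (Y : Φ → Subgroup (G × G'))
    (h : ∀ i j, ∃ Z, Loc E E' {i, j} Z ∧ Agr R i Z Y ∧ Agr R j Z Y) :
    ∃ Z, Loc E E' Set.univ Z := by
  choose Z h1 h2 h3 using h
  have h : Hy E E' Y Z := ⟨hE, hE', h1, fun i j k hk => by
    rcases hk with rfl | rfl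
    exacts [h2 _ _, h3 _ _]⟩
  choose n hn using h.ne
  have : ∀ r, ∃ (L : List I) (a : I), R.wp L (R.α a) = r := fun r => by
    obtain ⟨w, hw, a, e⟩ := R.exists_W_α r
    obtain ⟨L, rfl⟩ := Roots.exists_wp hw
    exact ⟨L, a, e⟩
  choose L a hL using this
  let T : Φ → Subgroup (G × G') := fun r =>
    (Y (R.α (a r))).comap (MulAut.conj ((L r).map n).prod⁻¹).toMonoidHom
  have hT : ∀ r y, y ∈ Y (R.α (a r)) ↔ ((L r).map n).prod * y * ((L r).map n).prod⁻¹ ∈ T r :=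
    fun r y => by simp [T, mul_assoc]
  have ac : ∀ p ∈ N E E' Y, Acts T p.1 p.2 := fun p hp r y => by
    have := (h.swN hn (mul_mem (inv_mem (memw hn (L (p.2 r)))) (mul_mem hp (memw hn (L r))))
      (i := a r) (j := a (p.2 r)) (by simp [hL, Equiv.symm_apply_eq])).1
      (((L r).map n).prod⁻¹ * y * ((L r).map n).prod)
    rw [hT, hT] at this
    simpa [mul_assoc] using this
  have t1 : ∀ i, T (R.α i) = Y (R.α i) := fun i => Subgroup.ext fun y => by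
    have := (h.sww hn _ _ _ (hL (R.α i))).1
      (((L (R.α i)).map n).prod⁻¹ * y * ((L (R.α i)).map n).prod)
    rw [hT] at this
    simpa [mul_assoc] using this
  have t2 : ∀ i j r, InJ R {i, j} r → T r = Z i j r := by
    rintro i j _ ⟨w, hw, k, hk, rfl⟩
    obtain ⟨V, hV, rfl⟩ := WJ.exists_wp hw
    ext y
    have e1 := ac _ (memw hn V) (R.α k) ((V.map n).prod⁻¹ * y * (V.map n).prod)
    have e2 := h.mvw hn hV (inJ_α hk) ((V.map n).prod⁻¹ * y * (V.map n).prod)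
    rw [t1, ← (h.ag i j k hk).1, e2] at e1
    simpa [mul_assoc] using e1.symm
  refine ⟨T, fun r _ => ?_, fun r s _ _ n1 n2 x hx y hy => ?_, fun i _ x hx x1 => ?_⟩
  · have := gr_conj (h.gr (a r)).1 (acw hn (L r)) (hT r)
    rwa [hL] at this
  · obtain ⟨w, hw, i, j, hr, hs⟩ := hR r s
    obtain ⟨V, rfl⟩ := Roots.exists_wp hw
    have A := ac _ (memw hn V)
    have m1 : R.wp V s ≠ R.wp V r := fun e => n1 ((R.wp V).injective e)
    have m2 : R.wp V s ≠ R.neg (R.wp V r) := fun e =>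
      n2 ((R.wp V).injective (e.trans (Roots.W_neg hw r).symm))
    have c := (h1 i j).comm _ _ hr hs m1 m2 _ (t2 i j _ hr ▸ A.conj_mem hx) _ (t2 i j _ hs ▸ A.conj_mem hy)
    have c2 : (⨆ k ∈ R.Itv (R.wp V r) (R.wp V s), Z i j k) ≤ XS T (R.Itv (R.wp V r) (R.wp V s)) :=
      iSup₂_le fun k hk => by
        rw [← t2 i j k (icc_inJ hr hs m2 (itv_sub_icc m1 m2 hk).1)]
        exact le_XS hk
    have c3 := A.inv_conj_mem_XS (T := R.Itv r s)
      (fun k hk => by simpa using Roots.W_itv (inv_mem hw) hk) (c2 c)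
    have e : ∀ g : G × G', g⁻¹ * ⁅g * x * g⁻¹, g * y * g⁻¹⁆ * g⁻¹⁻¹ = ⁅x, y⁆ := fun g => by
      simp only [commutatorElement_def]; group
    simp only [inv_inv] at e
    rwa [e] at c3
  · rw [t1] at hx
    obtain ⟨u, hu, u', hu', A, -⟩ := h.ex (i := i) (j := i) (by simp) hx x1
    have e : T (R.neg (R.α i)) = Y (R.neg (R.α i)) :=
      (t2 i i _ (inJ_α (by simp)).neg).trans (h2 i i).2
    rw [e]
    exact ⟨u, hu, u', hu', fun r _ => ac (u * x * u', R.σ i)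
      (Subgroup.subset_closure ⟨i, ⟨A, x, hx, x1, u, hu, u', hu', rfl⟩, rfl⟩) r⟩

end Tits
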