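import Mathlib
import Cfsg.Agent.Lib.Tits.Loc

set_option autoImplicit false
set_option linter.unusedSectionVars false

open scoped commutatorElement

namespace Tits

open H63.St Cfsg

namespace Loc3

variable {ι K K' G G' : Type*} [Field K] [Field K'] [Group G] [Group G']

/-- twist by a field isomorphism and a diagonal automorphism -/
def tw (S : PreStA ι K' G) (τ : K ≃+* K') (d : ι → K'ˣ) : PreStA ι K G where
  x a b t := S.x a b (d a * τ t * (d b : K')⁻¹)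
  add h a b := by rw [S.add h, map_add, mul_add, add_mul]
  c0 h1 h2 h3 h4 _ _ := S.c0 h1 h2 h3 h4 _ _
  c1 h1 h2 h3 t u := by rw [S.c1 h1 h2 h3, map_mul]; congr 1; field_simp

theorem tw_ok (S : PreStA ι K' G) (τ : K ≃+* K') (d : ι → K'ˣ) {A : ι → ι → Set G}
    (h : ∀ a b, a ≠ b → Function.Injective (S.x a b) ∧ Set.range (S.x a b) = A a b) (a b : ι) (n : a ≠ b) :
    Function.Injective ((tw S τ d).x a b) ∧ Set.range ((tw S τ d).x a b) = A a b := by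
  have : Function.Bijective fun t => (d a * τ t * (d b : K')⁻¹ : K') :=
    ⟨fun t u e => by simpa using e, fun s => ⟨τ.symm ((d a : K')⁻¹ * s * d b), by simp [mul_assoc]⟩⟩
  exact ⟨(h a b n).1.comp this.1, (this.2.range_comp _).trans (h a b n).2⟩

theorem gr {Y : Subgroup (G × G')} {A : Subgroup G} {A' : Subgroup G'} (h : Gr Y A A') {f : K → G} {f' : K' → G'}
    (a : ∀ s t, f s * f t = f (s + t)) (a' : ∀ s t, f' s * f' t = f' (s + t))
    (i : Function.Injective f ∧ Set.range f = A) (i' : Function.Injective f' ∧ Set.range f' = A') :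
    ∃ φ : K ≃+ K', ∀ y, y ∈ Y ↔ ∃ t, y = (f t, f' (φ t)) := by
  have m : ∀ y ∈ Y, ∃ t s, y = (f t, f' s) := fun y hy => by
    obtain ⟨t, e⟩ : y.1 ∈ Set.range f := i.2 ▸ h.fst ▸ Subgroup.mem_map_of_mem _ hy
    obtain ⟨s, e'⟩ : y.2 ∈ Set.range f' := i'.2 ▸ h.snd ▸ Subgroup.mem_map_of_mem _ hy
    exact ⟨t, s, Prod.ext e.symm e'.symm⟩
  have u : ∀ {t s t' s'}, (f t, f' s) ∈ Y → (f t', f' s') ∈ Y → (t = t' ↔ s = s') := fun h1 h2 => by
    simpa [inv_mul_eq_one, i.1.eq_iff, i'.1.eq_iff] using h.inj _ (mul_mem (inv_mem h1) h2)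
  have : ∀ t, ∃ s, (f t, f' s) ∈ Y := fun t => by
    obtain ⟨y, hy, e⟩ : f t ∈ Y.map (MonoidHom.fst G G') := h.fst ▸ (i.2.le ⟨t, rfl⟩ : f t ∈ A)
    obtain ⟨t', s, rfl⟩ := m y hy
    exact ⟨s, e ▸ hy⟩
  choose φ hφ using this
  refine ⟨AddEquiv.ofBijective (AddMonoidHom.mk' φ fun s t => (u (hφ _) ?_).1 rfl)
    ⟨fun s t e => (u (hφ s) (hφ t)).2 e, fun s => ?_⟩, fun y => ⟨fun hy => ?_, fun h => by obtain ⟨t, rfl⟩ := h; exact hφ t⟩⟩
  · rw [← a, ← a']; exact mul_mem (hφ s) (hφ t)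
  · obtain ⟨y, hy, e⟩ : f' s ∈ Y.map (MonoidHom.snd G G') := h.snd ▸ (i'.2.le ⟨s, rfl⟩ : f' s ∈ A')
    obtain ⟨t, s', rfl⟩ := m y hy
    exact ⟨t, ((u (hφ t) hy).1 rfl).trans (i'.1 e)⟩
  · obtain ⟨t, s, rfl⟩ := m y hy
    exact ⟨t, by rw [(u hy (hφ t)).1 rfl]; rfl⟩

variable (S : PreStA (Fin 3) K G) (hi : ∀ a b, a ≠ b → Function.Injective (S.x a b))
include hi

theorem nrm {a v v' : K} (hv : v ≠ 0) (e : S.x 1 0 a * S.x 0 1 v * (S.x 1 0 a)⁻¹ = S.x 0 1 v') : a = 0 := by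
  have h := S.conj1 (i := 0) (j := 1) (l := 2) (by decide) (by decide) (by decide)
  have c : ∀ s t, Commute (S.x 1 0 s) (S.x 1 2 t) := S.c0 (by decide) (by decide) (by decide) (by decide)
  have h1 : S.x 0 2 (v' * 1) * S.x 1 2 1 = S.x 1 2 (a * (v * 1)) * S.x 0 2 (v * 1) * S.x 1 2 1 := by
    rw [← h, ← e, ← S.conj1 (i := 1) (j := 0) (l := 2) (by decide) (by decide) (by decide), show ∀ a b c : G, a * b * a⁻¹ * c * (a * b * a⁻¹)⁻¹ = a * (b * (a⁻¹ * c * a) * b⁻¹) * a⁻¹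
        from fun _ _ _ => by group, (c a 1).inv_left.eq, inv_mul_cancel_right, h, ← conj_mul, (c a 1).eq, mul_inv_cancel_right]
  rw [mul_left_inj, ← mul_inv_eq_iff_eq_mul, ← S.x_neg (by decide), S.add (by decide)] at h1
  have h2 := S.c1 (i := 0) (j := 1) (l := 2) (by decide) (by decide) (by decide) 1 (a * (v * 1))
  rw [← h1, commutatorElement_eq_one_iff_commute.2 (S.c0 (by decide) (by decide) (by decide) (by decide) _ _),
    ← S.x_zero (i := 0) (j := 2) (by decide)] at h2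
  simpa [hv] using hi _ _ (by decide) h2

theorem cj {a b t : K} (ht : t ≠ 0) (h : ∀ v, ∃ s, S.x 1 0 a * S.x 0 1 t * S.x 1 0 b * S.x 0 1 v *
    (S.x 1 0 a * S.x 0 1 t * S.x 1 0 b)⁻¹ = S.x 1 0 s) (v : K) :
    S.x 1 0 a * S.x 0 1 t * S.x 1 0 b * S.x 0 1 v * (S.x 1 0 a * S.x 0 1 t * S.x 1 0 b)⁻¹ =
      S.x 1 0 (-(t⁻¹ ^ 2 * v)) := by
  have r := fun u => S.rel_of_third (i := 1) (j := 0) (k := 2) (by decide) (by decide) (by decide) (inv_ne_zero ht) u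
  have e : S.x 1 0 a * S.x 0 1 t * S.x 1 0 b = S.x 1 0 (a + t⁻¹) * (S.w 1 0 t⁻¹)⁻¹ * S.x 1 0 (b + t⁻¹) := by
    rw [← S.w_neg (by decide), PreStA.w, ← mul_assoc, ← mul_assoc, S.add (by decide), mul_assoc _ _ (S.x 1 0 (b + _)),
      S.add (by decide)]
    simp
  have c : ∀ s s', S.x 1 0 s * S.x 1 0 s' * (S.x 1 0 s)⁻¹ = S.x 1 0 s' := fun s s' => by
    rw [← S.x_neg (by decide), S.add (by decide), S.add (by decide)]; simp
  obtain ⟨s, hs⟩ := h 1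
  rw [e] at hs ⊢
  have : b + t⁻¹ = 0 := nrm S hi one_ne_zero (by
    rw [← r s, ← c (-(a + t⁻¹)) s, ← hs, S.x_neg (by decide)]; group)
  have r' := r (-(t⁻¹ ^ 2 * v))
  rw [show -(t⁻¹⁻¹ ^ 2 * -(t⁻¹ ^ 2 * v)) = v by field_simp] at r'
  rw [this, S.x_zero (by decide), ← c (a + t⁻¹) (-(t⁻¹ ^ 2 * v)), ← r']
  simp only [mul_inv_rev, inv_inv, mul_one, mul_assoc, inv_mul_cancel_left]

omit hi in
theorem ring [Finite K] (φ : K ≃+ K') (h1 : φ 1 = 1) (h : ∀ t v, t ≠ 0 → φ (t⁻¹ ^ 2 * v) = (φ t)⁻¹ ^ 2 * φ v) :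
    ∃ τ : K ≃+* K', ∀ t, τ t = φ t := by
  have s : ∀ s v, φ (s * s * v) = φ (s * s) * φ v := fun s v => by
    by_cases s0 : s = 0
    · simp [s0]
    have := h s⁻¹ 1 (inv_ne_zero s0)
    rw [h1, mul_one, mul_one, inv_inv] at this
    rw [← pow_two, this, ← h _ _ (inv_ne_zero s0), inv_inv]
  refine ⟨{ φ with map_mul' := fun k v => ?_ }, fun _ => rfl⟩
  show φ (k * v) = φ k * φ v
  by_cases c : ringChar K = 2
  · obtain ⟨r, rfl⟩ := FiniteField.isSquare_of_char_two c k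
    exact s r v
  · have := Ring.two_ne_zero c
    rw [show k = (k + 1) / 2 * ((k + 1) / 2) - (k - 1) / 2 * ((k - 1) / 2) by field_simp; ring, sub_mul, map_sub,
      map_sub, s, s, sub_mul]

end Loc3

open Loc3

variable {Φ I : Type*} {R : Roots Φ I} [Finite Φ] {G G' : Type*} [Group G] [Group G'] {E : RGD R G} {E' : RGD R G'}

theorem loc_start (hF : Full R) (hE : Good E) (hE' : Good E') {i j : I} (h : cm R i j = 3)
    (hq : q E i = q E' i) : ∃ Z, Loc E E' {i, j} Z := by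
  obtain ⟨K, _, _, S, hS⟩ := hE.2 i j h
  obtain ⟨K', _, _, S', hS'⟩ := hE'.2 i j h
  have c := Nat.card_range_of_injective (hS 0 1 (by decide)).1
  have c' := Nat.card_range_of_injective (hS' 0 1 (by decide)).1
  rw [(hS 0 1 (by decide)).2] at c
  rw [(hS' 0 1 (by decide)).2] at c'
  obtain ⟨Z, hZ, -⟩ := loc_of_a2 hF h S _ hS (tw_ok S' (FiniteField.ringEquivOfCardEq
    (by rw [← Nat.card_eq_fintype_card, ← Nat.card_eq_fintype_card, ← c, ← c']; exact hq)) 1 hS')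
  exact ⟨Z, hZ⟩

theorem loc_three (hF : Full R) (hE : Good E) (hE' : Good E') {i j : I} (h : cm R i j = 3)
    {Y : Φ → Subgroup (G × G')} (h1 : Loc E E' {i} Y) :
    ∃ Z, Loc E E' {i, j} Z ∧ Agr R i Z Y := by
  obtain ⟨K, _, _, S, hS⟩ := hE.2 i j h
  obtain ⟨K', _, _, S', hS'⟩ := hE'.2 i j h
  have iα : InJ R {i} (R.α i) := inJ_α rfl
  obtain ⟨φ, hφ⟩ := gr (h1.gr _ iα) (S.add (by decide)) (S'.add (by decide)) (hS 0 1 (by decide)) (hS' 0 1 (by decide))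
  obtain ⟨ψ, hψ⟩ := gr (h1.gr _ iα.neg) (S.add (by decide)) (S'.add (by decide)) (hS 1 0 (by decide))
    (hS' 1 0 (by decide))
  have k : ∀ t v, t ≠ 0 → ψ (t⁻¹ ^ 2 * v) = (φ t)⁻¹ ^ 2 * φ v := fun t v ht => by
    obtain ⟨u, hu, u', hu', m⟩ := h1.act i rfl _ ((hφ _).2 ⟨t, rfl⟩) fun e =>
      ht ((hS 0 1 (by decide)).1 ((congrArg Prod.fst e).trans (S.x_zero (by decide)).symm))
    obtain ⟨a, rfl⟩ := (hψ _).1 hu
    obtain ⟨b, rfl⟩ := (hψ _).1 hu'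
    have m := fun v => (hψ _).1 (R.σ_α i ▸ (m _ iα _).1 ((hφ _).2 ⟨v, rfl⟩))
    obtain ⟨s, e⟩ := m v
    have e1 := (cj S (fun a b n => (hS a b n).1) ht (fun v => (m v).imp fun _ e => congrArg Prod.fst e) v).symm.trans
      (congrArg Prod.fst e)
    have e2 := (cj S' (fun a b n => (hS' a b n).1) (by simpa using ht) (fun v => by
      obtain ⟨v, rfl⟩ := φ.surjective v
      obtain ⟨s, e⟩ := m v
      exact ⟨_, congrArg Prod.snd e⟩) (φ v)).symm.trans (congrArg Prod.snd e)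
    rw [← neg_inj, ← map_neg, (hS 1 0 (by decide)).1 e1, (hS' 1 0 (by decide)).1 e2]
  have c0 : φ 1 ≠ 0 := by simp
  have k1 : ∀ v, ψ v = (φ 1)⁻¹ ^ 2 * φ v := fun v => by simpa using k 1 v one_ne_zero
  obtain ⟨τ, hτ⟩ := Loc3.ring (φ.trans (DistribMulAction.toAddEquiv K' (Units.mk0 _ c0)⁻¹))
    (by simp [Units.smul_def, c0]) fun t v ht => by
      have := k t v ht
      rw [k1] at this
      have t0 : φ t ≠ 0 := by simpa using ht
      simp only [AddEquiv.trans_apply, DistribMulAction.toAddEquiv_apply, Units.smul_def, Units.val_inv_eq_inv_val,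
        Units.val_mk0, smul_eq_mul]
      field_simp at this ⊢
      rw [← this]
  obtain ⟨Z, hZ, e⟩ := loc_of_a2 hF h S _ hS (tw_ok S' τ ![Units.mk0 _ c0, 1, 1] hS')
  refine ⟨Z, hZ, Subgroup.ext fun y => (e 0 1 (by decide) y).trans ?_,
    Subgroup.ext fun y => (e 1 0 (by decide) y).trans ?_⟩
  · rw [hφ]; simp [tw, hτ, Units.smul_def, c0]
  · rw [hψ]; simp [tw, hτ, Units.smul_def, k1, pow_two, mul_comm, mul_left_comm]

end Tits
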