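import Mathlib
import Cfsg.Agent.Lib.Tits.Defs

/-! Commutator data of a quadrangle inside a system of type `B₃`: definitions. -/

set_option autoImplicit false

open scoped commutatorElement

namespace Tits.NB

open H63.St

/-- The commutator data (an anisotropic pseudo-quadratic form on the group `S`). -/
structure Dat (K S : Type*) [Field K] [Group S] where
  /-- the involution -/
  σ : K ≃+* K
  /-- the sign -/
  ε : K
  /-- scalar multiplication -/
  act : K → S → S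
  /-- the central elements -/
  γ : K → S
  /-- the sesquilinear form -/
  f : S → S → K
  /-- the pseudo-quadratic form -/
  π : S → K
  σσ : ∀ a, σ (σ a) = a
  εσ : ε * σ ε = 1
  f_mul : ∀ u u' v, f (u * u') v = f u v + f u' v
  f_act : ∀ a u v, f (act a u) v = a * f u v
  f_symm : ∀ u v, f u v = -(ε * σ (f v u))
  f_self : ∀ u, f u u = ε * σ (π u) - π u
  f_γ : ∀ s v, f (γ s) v = 0
  π_mul : ∀ u v, π (u * v) = π u + π v - f v u
  π_act : ∀ a u, π (act a u) = a * σ a * π u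
  π_γ : ∀ s, π (γ s) = s + ε * σ s
  aniso : ∀ u, π u = 0 → u = 1
  ne : ∃ u : S, u ≠ 1

/-- `Γ` is the graph of an isomorphism of data, with multiplier `c`. -/
structure Iso {K S S' : Type*} [Field K] [Group S] [Group S'] (D : Dat K S) (D' : Dat K S') (c : K)
    (Γ : Subgroup (S × S')) : Prop where
  c_ne : c ≠ 0
  σ_eq : ∀ a, D'.σ a = D.σ a
  fst : ∀ u, ∃ u', (u, u') ∈ Γ
  snd : ∀ u', ∃ u, (u, u') ∈ Γ
  γ : ∀ s, (D.γ s, D'.γ (c * s)) ∈ Γ
  act : ∀ p ∈ Γ, ∀ t, (D.act t p.1, D'.act t p.2) ∈ Γ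
  π : ∀ p ∈ Γ, D'.π p.2 = c * D.π p.1
  f : ∀ p ∈ Γ, ∀ p' ∈ Γ, D'.f p.2 p'.2 = c * D.f p.1 p'.1

/-- A quadrangle together with a Steinberg system of type `A₂` glued along `U 1`. -/
structure Cfg (K G : Type*) [Field K] [Group G] where
  /-- the quadrangle -/
  W : Win G
  /-- the Steinberg system -/
  S : PreStA (Fin 3) K G
  inj : Function.Injective (S.x 1 2)
  rng : Set.range (S.x 1 2) = (W.U 1 : Set G)
  cen : ∀ u, u ∈ W.U 4 ∨ u ∈ W.U 0 → ∀ t, Commute (S.x 0 1 t) u ∧ Commute (S.x 1 0 t) u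
  hn : ∀ t, t ≠ 0 → ∀ n y, y ∈ W.U n ↔ S.w 1 2 t * y * (S.w 1 2 t)⁻¹ ∈ W.U (6 - n)
  hH : ∀ t, t ≠ 0 → ∀ y ∈ W.U 2,
    S.w 1 0 t * S.w 1 0 (-1) * y * (S.w 1 0 t * S.w 1 0 (-1))⁻¹ ∈ W.U 2

/-- The four positive groups `U 1, .., U 4` are parametrised by the data `D`. -/
structure Real {K G : Type*} [Field K] [Group G] (U : ZMod 8 → Subgroup G) (D : Dat K (U 4))
    (x z : K → G) (y : U 4 →* G) : Prop where
  x_add : ∀ s t, x (s + t) = x s * x t
  z_add : ∀ s t, z (s + t) = z s * z t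
  x_inj : Function.Injective x
  z_inj : Function.Injective z
  y_inj : Function.Injective y
  x_rng : Set.range x = (U 1 : Set G)
  y_rng : Set.range y = (U 2 : Set G)
  z_rng : Set.range z = (U 3 : Set G)
  c13 : ∀ t s, ⁅x t, z s⁆ = y (D.γ (s * D.σ t))
  c24 : ∀ u v : U 4, ⁅y u, (v : G)⁆ = z (D.f u v)
  c14 : ∀ t (u : U 4), ⁅x t, (u : G)⁆ = y (D.act t u) * z (t * D.π u)

end Tits.NB
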