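import Mathlib

/-! Finite field lemmas for `Tits.NB`. -/

set_option autoImplicit false
set_option linter.unusedSectionVars false

namespace Tits.NB

variable {K : Type*} [Field K] [Finite K]

theorem invol_eq {σ σ' : K ≃+* K} (h : ∀ a, σ (σ a) = a) (h' : ∀ a, σ' (σ' a) = a)
    (h1 : ∃ a, σ a ≠ a) (h1' : ∃ a, σ' a ≠ a) (a : K) : σ' a = σ a := by
  classical
  obtain ⟨p, hp⟩ := CharP.exists K
  have : Fact p.Prime := ⟨CharP.char_is_prime K p⟩
  let _ : Algebra (ZMod p) K := ZMod.algebra K p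
  let mk : (K ≃+* K) → (K ≃ₐ[ZMod p] K) := fun τ => AlgEquiv.ofRingEquiv (f := τ) fun x =>
    RingHom.congr_fun (Subsingleton.elim
      (τ.toRingHom.comp (algebraMap (ZMod p) K)) (algebraMap (ZMod p) K)) x
  have ne : ∀ τ : K ≃+* K, (∃ a, τ a ≠ a) → mk τ ≠ 1 := fun τ ⟨a, ha⟩ e =>
    ha (AlgEquiv.congr_fun e a)
  have sq2 : ∀ τ : K ≃+* K, (∀ a, τ (τ a) = a) → mk τ ^ 2 = 1 := fun τ h => by
    rw [sq]; exact AlgEquiv.ext h
  let _ := Fintype.ofFinite (K ≃ₐ[ZMod p] K)
  by_contra e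
  have d : mk σ' ≠ mk σ := fun e' => e (AlgEquiv.congr_fun e' a)
  have c := IsCyclic.card_pow_eq_one_le (α := K ≃ₐ[ZMod p] K) two_pos
  have s : ({1, mk σ', mk σ} : Finset (K ≃ₐ[ZMod p] K)) ⊆
      Finset.univ.filter fun a => a ^ 2 = 1 := by
    intro x hx
    simp only [Finset.mem_insert, Finset.mem_singleton] at hx
    rcases hx with rfl | rfl | rfl <;> simp [sq2 σ h, sq2 σ' h']
  have c3 := Finset.card_le_card s
  rw [Finset.card_eq_three.2 ⟨_, _, _, (ne σ' h1').symm, (ne σ h1).symm, d, rfl⟩] at c3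
  omega

theorem card_fix {σ : K ≃+* K} (h : ∀ a, σ (σ a) = a) (h1 : ∃ a, σ a ≠ a) :
    Nat.card K = Nat.card {x : K // σ x = x} ^ 2 := by
  obtain ⟨e, he⟩ := h1
  have he' : e - σ e ≠ 0 := sub_ne_zero.2 he.symm
  have he'' : σ e - e ≠ 0 := sub_ne_zero.2 he
  rw [sq, ← Nat.card_prod]
  refine (Nat.card_eq_of_bijective
    (fun p : {x : K // σ x = x} × {x : K // σ x = x} => p.1.1 + p.2.1 * e) ⟨?_, fun x => ?_⟩).symm
  · rintro ⟨⟨a, ha⟩, b, hb⟩ ⟨⟨a', ha'⟩, b', hb'⟩ (q : a + b * e = a' + b' * e)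
    have q' := congrArg σ q
    rw [map_add, map_add, map_mul, map_mul, ha, hb, ha', hb'] at q'
    have b0 : b = b' := mul_right_cancel₀ he' (by linear_combination q - q')
    subst b0
    have a0 : a = a' := by linear_combination q
    subst a0
    rfl
  · have hb : σ ((x - σ x) / (e - σ e)) = (x - σ x) / (e - σ e) := by
      rw [map_div₀, map_sub, map_sub, h, h]; field_simp; ring
    refine ⟨⟨⟨x - (x - σ x) / (e - σ e) * e, ?_⟩, _, hb⟩, by simp⟩
    rw [map_sub, map_mul, hb]; field_simp; ring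

open MvPolynomial in
theorem tern_iso (a b c d e f : K) : ∃ x y z : K, ¬ (x = 0 ∧ y = 0 ∧ z = 0) ∧
    a * x ^ 2 + b * y ^ 2 + c * z ^ 2 + d * x * y + e * x * z + f * y * z = 0 := by
  classical
  obtain ⟨p, hp⟩ := CharP.exists K
  have pp : p.Prime := CharP.char_is_prime K p
  let _ := Fintype.ofFinite K
  let F : MvPolynomial (Fin 3) K := C a * (X 0 * X 0) + C b * (X 1 * X 1) + C c * (X 2 * X 2) +
    C d * (X 0 * X 1) + C e * (X 0 * X 2) + C f * (X 1 * X 2)
  have t : ∀ (u : K) (i j : Fin 3), (C u * (X i * X j) : MvPolynomial (Fin 3) K).totalDegree ≤ 2 :=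
    fun u i j => (totalDegree_mul _ _).trans (by
      rw [totalDegree_C, zero_add]
      exact (totalDegree_mul _ _).trans (by rw [totalDegree_X, totalDegree_X]))
  have ad : ∀ {P Q : MvPolynomial (Fin 3) K}, P.totalDegree ≤ 2 → Q.totalDegree ≤ 2 →
      (P + Q).totalDegree ≤ 2 := fun h1 h2 => (totalDegree_add _ _).trans (max_le h1 h2)
  have dg : F.totalDegree < Fintype.card (Fin 3) :=
    (ad (ad (ad (ad (ad (t _ _ _) (t _ _ _)) (t _ _ _)) (t _ _ _)) (t _ _ _)) (t _ _ _)).trans_lt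
      (by simp)
  have cw := char_dvd_card_solutions p dg
  by_contra! no
  have : Fintype.card {x : Fin 3 → K // eval x F = 0} = 1 := by
    refine Fintype.card_eq_one_iff.2 ⟨⟨0, by simp [F]⟩, fun ⟨x, hx⟩ => Subtype.ext ?_⟩
    by_contra x0
    refine no (x 0) (x 1) (x 2) (fun h0 h1 h2 => x0 ?_) ?_
    · funext i; fin_cases i <;> assumption
    · simp only [F, map_add, map_mul, eval_C, eval_X] at hx
      linear_combination hx
  exact pp.ne_one (Nat.dvd_one.1 (this ▸ cw))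

theorem norm_surj {σ : K ≃+* K} (h : ∀ a, σ (σ a) = a) (h1 : ∃ a, σ a ≠ a) {c : K}
    (hc : σ c = c) : ∃ a, a * σ a = c := by
  obtain ⟨e, he⟩ := h1
  let F : Subfield K := RingHom.eqLocusField σ.toRingHom (RingHom.id K)
  have mF : ∀ x : F, σ x = x := fun x => x.2
  obtain ⟨x, y, z, ne, q⟩ := tern_iso (K := F) 1
    ⟨e * σ e, (by rw [map_mul, h, mul_comm] : σ _ = e * σ e)⟩
    (-⟨c, hc⟩) ⟨e + σ e, (by rw [map_add, h, add_comm] : σ _ = e + σ e)⟩ 0 0
  have q' := congrArg (fun t : F => (t : K)) q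
  push_cast at q'
  have n : (x + y * e : K) * σ (x + y * e) = c * z ^ 2 := by
    rw [map_add, map_mul, mF, mF]; linear_combination q'
  have z0 : (z : K) ≠ 0 := fun z0 => by
    rw [z0, zero_pow two_ne_zero, mul_zero, mul_eq_zero, map_eq_zero, or_self] at n
    have n' := congrArg σ n
    rw [map_add, map_mul, mF, mF, map_zero] at n'
    have y0 : (y : K) = 0 := (mul_eq_zero.1 (by linear_combination n' - n :
      (y : K) * (σ e - e) = 0)).resolve_right (sub_ne_zero.2 he)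
    refine ne ⟨Subtype.ext ?_, Subtype.ext y0, Subtype.ext z0⟩
    rw [y0, zero_mul, add_zero] at n
    exact n
  refine ⟨(x + y * e) / z, ?_⟩
  rw [map_div₀, mF, div_mul_div_comm, n]; field_simp

theorem quad_rep {b d b' d' : K} (h : ∀ x, x ^ 2 + b * x + d ≠ 0) (h' : ∀ x, x ^ 2 + b' * x + d' ≠ 0) :
    ∃ x y, y ≠ 0 ∧ 2 * x + b' * y = b ∧ x ^ 2 + b' * x * y + d' * y ^ 2 = d := by
  classical
  let _ := Fintype.ofFinite K
  by_cases h2 : (2 : K) = 0
  · have : CharP K 2 := CharTwo.of_one_ne_zero_of_two_eq_zero one_ne_zero h2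
    let P : K →+ K := ⟨⟨fun s => s ^ 2 + s, by simp⟩, fun s t => by
      linear_combination (s * t) * h2⟩
    have ck : Nat.card P.ker = 2 := by
      refine Nat.card_eq_two_iff.2 ⟨0, ⟨1, (by linear_combination h2 : (1 : K) ^ 2 + 1 = 0)⟩,
        fun e => zero_ne_one (congrArg Subtype.val e : (0 : K) = 1),
        Set.eq_univ_of_forall fun ⟨s, hs⟩ => ?_⟩
      have hs' : s ^ 2 + s = 0 := hs
      rcases mul_eq_zero.1 (by linear_combination hs' - s * h2 : s * (s - 1) = 0) with e | e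
      · exact .inl (Subtype.ext e)
      · exact .inr (Subtype.ext (sub_eq_zero.1 e))
    have ix : P.range.index = 2 := by
      have e1 := P.range.index_mul_card
      have e2 := P.ker.index_mul_card
      rw [AddSubgroup.index_ker, ck, mul_comm] at e2
      exact Nat.eq_of_mul_eq_mul_right Nat.card_pos (e1.trans e2.symm)
    have k : ∀ {b d : K}, (∀ x, x ^ 2 + b * x + d ≠ 0) → b ≠ 0 ∧ d / b ^ 2 ∉ P.range := by
      intro b d h
      have b0 : b ≠ 0 := fun b0 => by
        obtain ⟨r, hr⟩ := FiniteField.isSquare_of_char_two (ringChar.eq K 2) d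
        exact h r (by rw [b0, hr]; linear_combination (r * r) * h2)
      refine ⟨b0, fun ⟨s, hs⟩ => h (b * s) ?_⟩
      have hs' : (s ^ 2 + s) * b ^ 2 = d := (eq_div_iff (pow_ne_zero 2 b0)).1 hs
      linear_combination hs' + d * h2
    obtain ⟨b0, m⟩ := k h
    obtain ⟨b0', m'⟩ := k h'
    obtain ⟨s, hs⟩ := (AddSubgroup.add_mem_iff_of_index_two ix).2 (iff_of_false m m')
    have hs' : s ^ 2 + s = d / b ^ 2 + d' / b' ^ 2 := hs
    refine ⟨b * s, b / b', div_ne_zero b0 b0', ?_, ?_⟩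
    · field_simp; linear_combination s * h2
    · field_simp at hs' ⊢; linear_combination hs' + b ^ 2 * d' * h2
  · have k : ∀ {b d : K}, (∀ x, x ^ 2 + b * x + d ≠ 0) → ¬ IsSquare (b ^ 2 - 4 * d) := by
      rintro b d h ⟨r, hr⟩
      refine h ((r - b) / 2) ?_
      field_simp; linear_combination -hr
    have n0 : ∀ {u : K}, ¬ IsSquare u → u ≠ 0 := fun h e => h (e ▸ IsSquare.zero)
    have D := n0 (k h)
    have D' := n0 (k h')
    obtain ⟨r, hr⟩ : IsSquare ((b ^ 2 - 4 * d) * (b' ^ 2 - 4 * d')) := by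
      rw [← quadraticChar_one_iff_isSquare (mul_ne_zero D D'), map_mul,
        quadraticChar_neg_one_iff_not_isSquare.2 (k h),
        quadraticChar_neg_one_iff_not_isSquare.2 (k h')]
      norm_num
    obtain ⟨y, hy⟩ : ∃ y, y ^ 2 * (b' ^ 2 - 4 * d') = b ^ 2 - 4 * d :=
      ⟨r / (b' ^ 2 - 4 * d'), by field_simp; linear_combination -hr⟩
    refine ⟨(b - b' * y) / 2, y, fun e => D (by rw [← hy, e]; ring), by field_simp; ring, ?_⟩
    field_simp; linear_combination -hy

end Tits.NB
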