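import Mathlib
import Cfsg.Agent.Lib.Tits.NB0
import Cfsg.Agent.Lib.Tits.NB1

/-! Classification of the commutator data over a finite field. -/

set_option autoImplicit false
set_option linter.unusedSectionVars false

namespace Tits.NB

variable {K S S' : Type*} [Field K] [Finite K] [Group S] [Group S']

namespace N2

variable (D : Dat K S) (D' : Dat K S')

theorem f_one (v : S) : D.f 1 v = 0 := by
  have := D.f_mul 1 1 v
  rw [mul_one] at this
  linear_combination -this

theorem f_inv (u v : S) : D.f u⁻¹ v = -D.f u v := by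
  have := D.f_mul u⁻¹ u v
  rw [inv_mul_cancel, f_one] at this
  linear_combination -this

theorem f_mul' (u v v' : S) : D.f u (v * v') = D.f u v + D.f u v' := by
  rw [D.f_symm u (v * v'), D.f_mul, map_add, D.f_symm u v, D.f_symm u v']
  ring

theorem f_one' (u : S) : D.f u 1 = 0 := by
  rw [D.f_symm, f_one]
  simp

theorem f_inv' (u v : S) : D.f u v⁻¹ = -D.f u v := by
  rw [D.f_symm u v⁻¹, f_inv, D.f_symm u v, map_neg]
  ring

theorem f_act' (u : S) (b : K) (v : S) : D.f u (D.act b v) = D.σ b * D.f u v := by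
  rw [D.f_symm u (D.act b v), D.f_act, map_mul, D.f_symm u v]
  ring

theorem f_γ' (v : S) (s : K) : D.f v (D.γ s) = 0 := by
  rw [D.f_symm, D.f_γ]
  simp

theorem π_one : D.π 1 = 0 := by
  have := D.π_mul 1 1
  rw [mul_one, f_one] at this
  linear_combination -this

theorem π_inv (u : S) : D.π u⁻¹ = -D.π u - D.f u u := by
  have := D.π_mul u⁻¹ u
  rw [inv_mul_cancel, π_one, f_inv'] at this
  linear_combination -this

theorem ext {a b : S} (h1 : D.π a = D.π b) (h2 : D.f b a = D.f a a) : a = b :=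
  inv_mul_eq_one.1 (D.aniso _ (by rw [D.π_mul, π_inv, f_inv', h1, h2]; ring))

theorem act_one (a : K) : D.act a 1 = 1 := D.aniso _ (by rw [D.π_act, π_one, mul_zero])

theorem act_zero (u : S) : D.act 0 u = 1 := D.aniso _ (by rw [D.π_act, zero_mul, zero_mul])

theorem act_mul (t : K) (u v : S) : D.act t (u * v) = D.act t u * D.act t v :=
  ext D (by simp only [D.π_act, D.π_mul, D.f_act, f_act']; ring) (by simp only [D.f_mul, D.f_act]; ring)

theorem act_act (t a : K) (u : S) : D.act t (D.act a u) = D.act (t * a) u :=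
  ext D (by simp only [D.π_act, map_mul]; ring) (by simp only [D.f_act]; ring)

theorem ε_ne : D.ε ≠ 0 := left_ne_zero_of_mul_eq_one D.εσ

/-- `u`, `v` and the central elements span `S`. -/
def Sp (u v : S) : Prop := ∀ w, ∃ a b s, w = D.act a u * D.act b v * D.γ s

theorem gen {c : K} (c0 : c ≠ 0) (hσ : ∀ a, D'.σ a = D.σ a) (hε : D'.ε * D.σ c = D.ε * c) {u v : S}
    {u' v' : S'} (h : Sp D u v) (h' : Sp D' u' v') (p1 : D'.π u' = c * D.π u) (p2 : D'.π v' = c * D.π v)
    (p3 : D'.f v' u' = c * D.f v u) : ∃ c Γ, Iso D D' c Γ := by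
  have sw : ∀ {a b a' b'}, D'.f a' b' = c * D.f a b → D'.f b' a' = c * D.f b a := fun {a b a' b'} e => by
    rw [D'.f_symm b' a', D.f_symm b a, e, hσ, map_mul]
    linear_combination -(D.σ (D.f a b)) * hε
  have sf : ∀ {a a'}, D'.π a' = c * D.π a → D'.f a' a' = c * D.f a a := fun {a a'} e => by
    rw [D'.f_self, D.f_self, e, hσ, map_mul]
    linear_combination D.σ (D.π a) * hε
  let R : S × S' → Prop := fun p => ∃ x y, (∀ w, D.f p.1 w = x * D.f u w + y * D.f v w) ∧
    (∀ w, D'.f p.2 w = x * D'.f u' w + y * D'.f v' w) ∧ D'.π p.2 = c * D.π p.1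
  have key : ∀ p, R p → ∀ p', R p' → D'.f p.2 p'.2 = c * D.f p.1 p'.1 := by
    rintro p ⟨x, y, a1, a2, -⟩ p' ⟨x', y', b1, b2, -⟩
    have e1 : D'.f p'.2 u' = c * D.f p'.1 u := by rw [b1, b2, sf p1, p3]; ring
    have e2 : D'.f p'.2 v' = c * D.f p'.1 v := by rw [b1, b2, sf p2, sw p3]; ring
    rw [a1, a2, sw e1, sw e2]
    ring
  let Γ : Subgroup (S × S') :=
    { carrier := {p | R p}
      one_mem' := ⟨0, 0, fun w => by simp [f_one], fun w => by simp [f_one], by simp [π_one]⟩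
      mul_mem' := fun {p p'} hp hp' => by
        have k := key _ hp' _ hp
        obtain ⟨x, y, a1, a2, a3⟩ := hp
        obtain ⟨x', y', b1, b2, b3⟩ := hp'
        refine ⟨x + x', y + y', fun w => ?_, fun w => ?_, ?_⟩
        · rw [Prod.fst_mul, D.f_mul, a1, b1]; ring
        · rw [Prod.snd_mul, D'.f_mul, a2, b2]; ring
        · rw [Prod.fst_mul, Prod.snd_mul, D.π_mul, D'.π_mul, a3, b3, k]; ring
      inv_mem' := fun {p} hp => by
        have k := key _ hp _ hp
        obtain ⟨x, y, a1, a2, a3⟩ := hp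
        refine ⟨-x, -y, fun w => ?_, fun w => ?_, ?_⟩
        · rw [Prod.fst_inv, f_inv, a1]; ring
        · rw [Prod.snd_inv, f_inv, a2]; ring
        · rw [Prod.fst_inv, Prod.snd_inv, π_inv, π_inv, a3, k]; ring }
  have mγ : ∀ s, (D.γ s, D'.γ (c * s)) ∈ Γ := fun s =>
    ⟨0, 0, fun w => by simp [D.f_γ], fun w => by simp [D'.f_γ], by
      simp only [D.π_γ, D'.π_γ, hσ, map_mul]
      linear_combination D.σ s * hε⟩
  have ma : ∀ p ∈ Γ, ∀ t, (D.act t p.1, D'.act t p.2) ∈ Γ := by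
    rintro p ⟨x, y, a1, a2, a3⟩ t
    refine ⟨t * x, t * y, fun w => ?_, fun w => ?_, ?_⟩
    · rw [D.f_act, a1]; ring
    · rw [D'.f_act, a2]; ring
    · rw [D.π_act, D'.π_act, a3, hσ]; ring
  have mu : (u, u') ∈ Γ := ⟨1, 0, fun w => by simp, fun w => by simp, p1⟩
  have mv : (v, v') ∈ Γ := ⟨0, 1, fun w => by simp, fun w => by simp, p2⟩
  have m : ∀ a b s, (D.act a u * D.act b v * D.γ s, D'.act a u' * D'.act b v' * D'.γ (c * s)) ∈ Γ :=
    fun a b s => mul_mem (mul_mem (ma _ mu a) (ma _ mv b)) (mγ s)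
  refine ⟨c, Γ, c0, hσ, fun w => ?_, fun w => ?_, mγ, ma, fun p ⟨_, _, _, _, e⟩ => e, key⟩
  · obtain ⟨a, b, s, rfl⟩ := h w
    exact ⟨_, m a b s⟩
  · obtain ⟨a, b, s, rfl⟩ := h' w
    exact ⟨_, by simpa only [mul_div_cancel₀ s c0] using m a b (s / c)⟩

theorem exists_π : ∃ u, D.π u ≠ 0 := let ⟨u, h⟩ := D.ne; ⟨u, fun e => h (D.aniso u e)⟩

section O

variable {D} (h : ∀ s, D.γ s = 1) {u v : S}
include h

theorem O_ε : D.ε = -1 := by
  have := D.π_γ 1
  rw [h, π_one, map_one] at this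
  linear_combination -this

theorem O_σ (a : K) : D.σ a = a := by
  have := D.π_γ a
  rw [h, π_one, O_ε h] at this
  linear_combination this

theorem O_self (u : S) : D.f u u = -2 * D.π u := by
  rw [D.f_self, O_ε h, O_σ h]
  ring

theorem O_symm (u v : S) : D.f u v = D.f v u := by
  rw [D.f_symm, O_ε h, O_σ h]
  ring

theorem O_π (a b : K) (u v : S) :
    D.π (D.act a u * D.act b v) = a ^ 2 * D.π u + b ^ 2 * D.π v - a * b * D.f v u := by
  simp only [D.π_mul, D.π_act, D.f_act, f_act', O_σ h]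
  ring

theorem O_rel {w : S} {z : K} (hz : z ≠ 0) (e : w * D.act z u = 1) : u = D.act (-z⁻¹) w := by
  rw [eq_inv_of_mul_eq_one_left e]
  refine ext D ?_ ?_
  · simp only [π_inv, D.π_act, O_σ h, O_self h]
    field_simp
    ring
  · simp only [D.f_act, f_inv]
    field_simp

theorem O_an (hu : D.π u ≠ 0) (hv : ∀ a, v ≠ D.act a u) {a b : K}
    (e : a ^ 2 * D.π u + b ^ 2 * D.π v - a * b * D.f v u = 0) : a = 0 ∧ b = 0 := by
  obtain rfl : b = 0 := by
    by_contra k
    exact hv _ ((O_rel h k (D.aniso _ ((O_π h a b u v).trans e))).trans (act_act D _ _ _))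
  simpa [hu] using e

theorem O_inj (hu : D.π u ≠ 0) (hv : ∀ a, v ≠ D.act a u) :
    Function.Injective fun p : K × K => D.act p.1 u * D.act p.2 v := fun p p' e => by
  have e1 := congrArg D.π e
  have e2 := congrArg (D.f · u) e
  have e3 := congrArg (D.f · v) e
  simp only [O_π h] at e1
  simp only [D.f_mul, D.f_act, O_self h, O_symm h u v] at e2 e3
  obtain ⟨k1, k2⟩ := O_an h hu hv (a := p.1 - p'.1) (b := p.2 - p'.2)
    (by linear_combination e1 + p'.1 * e2 + p'.2 * e3)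
  exact Prod.ext (sub_eq_zero.1 k1) (sub_eq_zero.1 k2)

theorem O_surj (hu : D.π u ≠ 0) (hv : ∀ a, v ≠ D.act a u) :
    Function.Surjective fun p : K × K => D.act p.1 u * D.act p.2 v := fun w => by
  obtain ⟨x, y, z, n, e⟩ := tern_iso (D.π u) (D.π v) (D.π w) (-D.f v u) (-D.f w u) (-D.f w v)
  have hz : z ≠ 0 := by
    rintro rfl
    obtain ⟨k1, k2⟩ := O_an h hu hv (a := x) (b := y) (by linear_combination e)
    exact n ⟨k1, k2, rfl⟩
  have := O_rel h (u := w) (w := D.act x u * D.act y v) hz (D.aniso _ (by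
    rw [D.π_mul, O_π h]
    simp only [D.π_act, D.f_act, f_mul', f_act', O_σ h]
    linear_combination e))
  rw [act_mul, act_act, act_act] at this
  exact ⟨(_, _), this.symm⟩

theorem O_sp (hu : D.π u ≠ 0) (hv : ∀ a, v ≠ D.act a u) : Sp D u v := fun w =>
  let ⟨p, e⟩ := O_surj h hu hv w
  ⟨p.1, p.2, 0, by rw [h, mul_one]; exact e.symm⟩

theorem O_cases (hu : D.π u ≠ 0) : (Sp D u 1 ∧ Nat.card S = Nat.card K) ∨
    ((∃ v, ∀ a, v ≠ D.act a u) ∧ Nat.card S = Nat.card K ^ 2) := by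
  by_cases k : ∃ v, ∀ a, v ≠ D.act a u
  · refine Or.inr ⟨k, ?_⟩
    obtain ⟨v, hv⟩ := k
    rw [← Nat.card_eq_of_bijective _ ⟨O_inj h hu hv, O_surj h hu hv⟩, Nat.card_prod, sq]
  · push Not at k
    refine Or.inl ⟨fun w => (k w).imp fun a e => ⟨0, 0, by rw [h, act_one, mul_one, mul_one, e]⟩,
      (Nat.card_eq_of_bijective (D.act · u) ⟨fun a b e => ?_, fun w => (k w).imp fun _ => Eq.symm⟩).symm⟩
    have e1 := congrArg D.π e
    have e2 := congrArg (D.f · u) e
    simp only [D.π_act, D.f_act, O_self h, O_σ h] at e1 e2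
    have : (a - b) ^ 2 * D.π u = 0 := by linear_combination e1 + b * e2
    simpa [hu, sub_eq_zero] using this

end O

theorem eq_γ {u : S} {s : K} (h : D.f u u = 0) (e : D.π u = s + D.ε * D.σ s) : u = D.γ s :=
  ext D (by rw [e, D.π_γ]) (by rw [D.f_γ, h])

theorem sp_one (h : ∀ u, ∃ s, u = D.γ s) : Sp D 1 1 := fun w =>
  ⟨0, 0, (h w).imp fun s e => by rw [act_one, one_mul, one_mul, e]⟩

theorem S_case (h : ¬ ∀ s, D.γ s = 1) (hσ : ∀ a, D.σ a = a) :
    D.ε = 1 ∧ Sp D 1 1 ∧ Nat.card S = Nat.card K ∧ Odd (Nat.card K) := by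
  have e1 : D.ε ≠ -1 := fun e => h fun s => D.aniso _ (by rw [D.π_γ, e, hσ]; ring)
  have e2 : D.ε = 1 := (mul_self_eq_one_iff.1 (by simpa only [hσ] using D.εσ)).resolve_right e1
  have two : (2 : K) ≠ 0 := fun e => e1 (by rw [e2]; linear_combination e)
  have k : ∀ u, ∃ s, u = D.γ s := fun u => ⟨D.π u / 2, eq_γ D (by rw [D.f_self, e2, hσ]; ring)
    (by rw [e2, hσ]; field_simp; ring)⟩
  refine ⟨e2, sp_one D k, (Nat.card_eq_of_bijective D.γ ⟨fun a b e => ?_,
    fun w => (k w).imp fun _ => Eq.symm⟩).symm, ?_⟩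
  · have := congrArg D.π e
    rw [D.π_γ, D.π_γ, e2, hσ, hσ] at this
    exact mul_left_cancel₀ two (by linear_combination this)
  · have := Fintype.ofFinite K
    rw [Nat.card_eq_fintype_card, Nat.odd_iff]
    exact FiniteField.odd_card_of_char_ne_two fun e => two (by
      have := ringChar.spec K 2
      rw [e] at this
      exact_mod_cast this.2 dvd_rfl)

theorem exists_fix {σ : K ≃+* K} (h : ∀ a, σ (σ a) = a) (h1 : ∃ a, σ a ≠ a) {η : K} (e : η * σ η = 1) :
    ∃ d, d + η * σ d ≠ 0 ∧ η * σ (d + η * σ d) = d + η * σ d := by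
  obtain ⟨d, hd⟩ : ∃ d, d + η * σ d ≠ 0 := by
    by_contra k
    push Not at k
    obtain ⟨a, ha⟩ := h1
    have k1 := k 1
    rw [map_one] at k1
    exact ha (by linear_combination σ a * k1 - k a)
  refine ⟨d, hd, ?_⟩
  rw [map_add, map_mul, h]
  linear_combination d * e

section U

variable {D} (h : ∃ a, D.σ a ≠ a) {u : S}
include h

theorem U_T {t : K} (ht : D.ε * D.σ t = t) : ∃ s, t = s + D.ε * D.σ s := by
  obtain ⟨d, d0, hd⟩ := exists_fix D.σσ h (η := 1) (by simp)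
  simp only [one_mul] at d0 hd
  refine ⟨t * (d / (d + D.σ d)), ?_⟩
  rw [map_mul, map_div₀, hd, ← mul_assoc, ht]
  field_simp

theorem U_γ (e : D.f u u = 0) : ∃ s, u = D.γ s :=
  (U_T h (t := D.π u) (by rw [D.f_self] at e; linear_combination e)).imp fun _ => eq_γ D e

theorem U_card : Nat.card (Set.range D.γ) ^ 2 = Nat.card K := by
  obtain ⟨d, d0, hd⟩ := exists_fix D.σσ h D.εσ
  generalize d + D.ε * D.σ d = s at d0 hd
  have k : ∀ t, D.ε * D.σ t = t → D.σ (t / s) = t / s := fun t ht => by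
    rw [map_div₀, ← mul_div_mul_left _ _ (ε_ne D), ht, hd]
  rw [card_fix D.σσ h]
  congr 1
  refine Nat.card_eq_of_bijective (fun x => ⟨D.π x.1 / s, k _ ?_⟩) ⟨?_, fun x => ?_⟩
  · obtain ⟨_, a, rfl⟩ := x
    rw [D.π_γ, map_add, map_mul, D.σσ]
    linear_combination a * D.εσ
  · rintro ⟨_, a, rfl⟩ ⟨_, b, rfl⟩ e
    exact Subtype.ext (ext D ((div_left_inj' d0).1 (congrArg Subtype.val e)) (by rw [D.f_γ, D.f_γ]))
  · obtain ⟨a, e⟩ := U_T h (t := x.1 * s) (by rw [map_mul, x.2, mul_left_comm, hd])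
    exact ⟨⟨_, a, rfl⟩, Subtype.ext (by simp only [D.π_γ, ← e, mul_div_cancel_right₀ _ d0])⟩

theorem U_span (hu : D.f u u ≠ 0) (v : S) : ∃ a s, v = D.act a u * D.γ s := by
  obtain ⟨b, w, rfl, hw⟩ : ∃ b w, v = D.act b u * w ∧ D.f w u = 0 :=
    ⟨D.f v u / D.f u u, _, (mul_inv_cancel_left _ _).symm, by rw [D.f_mul, f_inv, D.f_act]; field_simp; ring⟩
  have hw' : D.f u w = 0 := by rw [D.f_symm, hw]; simp
  obtain ⟨a, ha⟩ := norm_surj D.σσ h (c := -(D.f w w / D.f u u)) (by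
    rw [map_neg, map_div₀, ← mul_div_mul_left _ _ (ε_ne D), ← neg_div_neg_eq, ← D.f_symm, ← D.f_symm])
  obtain ⟨s, e⟩ := U_γ h (u := w * D.act a u) (by
    simp only [D.f_mul, f_mul', D.f_act, f_act', hw, hw', mul_zero, add_zero, zero_add]
    rw [← mul_assoc, ha]
    field_simp
    ring)
  have := congrArg (D.f · u) e
  simp only [D.f_mul, D.f_act, hw, D.f_γ, zero_add, mul_eq_zero, hu, or_false] at this
  rw [this, act_zero, mul_one] at e
  exact ⟨_, s, by rw [← e]⟩

theorem U_sp (hu : D.f u u ≠ 0) : Sp D u 1 := fun w =>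
  let ⟨a, s, e⟩ := U_span h hu w
  ⟨a, 0, s, by rw [act_one, mul_one, e]⟩

theorem U_cases : (Sp D 1 1 ∧ Nat.card S ^ 2 = Nat.card K) ∨
    ((∃ u, D.f u u ≠ 0) ∧ Nat.card S ^ 2 = Nat.card K ^ 3) := by
  by_cases k : ∃ u, D.f u u ≠ 0
  · refine Or.inr ⟨k, ?_⟩
    obtain ⟨u, hu⟩ := k
    rw [← Nat.card_eq_of_bijective (fun p : K × Set.range D.γ => D.act p.1 u * p.2.1) ⟨?_, fun w => ?_⟩,
      Nat.card_prod, mul_pow, U_card h, ← pow_succ]
    · rintro ⟨a, _, s, rfl⟩ ⟨b, _, t, rfl⟩ e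
      have := congrArg (D.f · u) e
      simp only [D.f_mul, D.f_act, D.f_γ, add_zero] at this
      obtain rfl := mul_right_cancel₀ hu this
      exact Prod.ext rfl (Subtype.ext (mul_left_cancel e))
    · obtain ⟨a, s, e⟩ := U_span h hu w
      exact ⟨(a, ⟨_, s, rfl⟩), e.symm⟩
  · push Not at k
    refine Or.inl ⟨sp_one D fun u => U_γ h (k u), ?_⟩
    rw [← U_card h, Set.range_eq_univ.2 fun u => (U_γ h (k u)).imp fun _ => Eq.symm, Nat.card_univ]

end U

end N2

open N2

theorem Dat.par (D : Dat K S) : Par (∀ s, D.γ s = 1) (Nat.card K) (Nat.card S) := by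
  by_cases h : ∀ s, D.γ s = 1
  · obtain ⟨u, hu⟩ := exists_π D
    exact Or.inl ⟨h, (O_cases h hu).imp And.right And.right⟩
  · refine Or.inr ⟨h, ?_⟩
    by_cases k : ∀ a, D.σ a = a
    · exact Or.inl (S_case D h k).2.2
    · exact Or.inr ((U_cases (not_forall.1 k)).imp And.right And.right)

theorem Dat.exists_iso (D : Dat K S) (D' : Dat K S') (h : Nat.card S = Nat.card S')
    (hγ : (∀ s, D.γ s = 1) ↔ ∀ s, D'.γ s = 1) : ∃ c Γ, Iso D D' c Γ := by
  have q2 : 1 < Nat.card K := Finite.one_lt_card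
  have ne : ∀ {a b}, Nat.card K ^ a = Nat.card K ^ b → a = b := fun e => Nat.pow_right_injective q2 e
  by_cases g : ∀ s, D.γ s = 1
  · have g' := hγ.1 g
    obtain ⟨u, hu⟩ := exists_π D
    obtain ⟨u', hu'⟩ := exists_π D'
    have G := @gen _ _ _ _ _ _ _ D D' (D'.π u' / D.π u) (div_ne_zero hu' hu)
      (fun a => by rw [O_σ g, O_σ g']) (by rw [O_σ g, O_ε g, O_ε g'])
    have p1 : D'.π u' = D'.π u' / D.π u * D.π u := (div_mul_cancel₀ _ hu).symm
    rcases O_cases g hu with ⟨a1, a2⟩ | ⟨⟨v, hv⟩, a2⟩ <;>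
      rcases O_cases g' hu' with ⟨b1, b2⟩ | ⟨⟨v', hv'⟩, b2⟩
    · exact G a1 b1 p1 (by simp [π_one]) (by simp [f_one])
    · exact absurd (ne (a := 1) (b := 2) (by rw [pow_one, ← b2, ← h, a2])) (by decide)
    · exact absurd (ne (a := 1) (b := 2) (by rw [pow_one, ← a2, h, b2])) (by decide)
    · obtain ⟨x, y, y0, e1, e2⟩ := quad_rep (b := -D.f v u / D.π u) (d := D.π v / D.π u)
        (b' := -D'.f v' u' / D'.π u') (d' := D'.π v' / D'.π u')
        (fun x e => one_ne_zero (O_an g hu hv (a := x) (by field_simp at e; linear_combination e)).2)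
        (fun x e => one_ne_zero (O_an g' hu' hv' (a := x) (by field_simp at e; linear_combination e)).2)
      refine G (O_sp g hu hv) (O_sp g' hu' (v := D'.act x u' * D'.act y v') fun a e => y0 ?_) p1 ?_ ?_
      · exact congrArg Prod.snd (O_inj g' hu' hv' (a₁ := (x, y)) (a₂ := (a, 0))
          (by simpa only [act_zero, mul_one] using e))
      · rw [O_π g', div_mul_eq_mul_div, mul_div_assoc, ← e2]
        field_simp
        ring
      · rw [D'.f_mul, D'.f_act, D'.f_act, O_self g', div_mul_eq_mul_div, mul_div_assoc, ← neg_neg (D.f v u),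
          neg_div, ← e1]
        field_simp
        ring
  · have g' := mt hγ.2 g
    by_cases k : ∀ a, D.σ a = a <;> by_cases k' : ∀ a, D'.σ a = a
    · obtain ⟨a1, a2, -⟩ := S_case D g k
      obtain ⟨b1, b2, -⟩ := S_case D' g' k'
      exact gen D D' one_ne_zero (fun a => by rw [k, k']) (by rw [a1, b1, k]) a2 b2 (by simp [π_one])
        (by simp [π_one]) (by simp [f_one])
    · have e := (S_case D g k).2.2.1
      rcases U_cases (not_forall.1 k') with ⟨-, b⟩ | ⟨-, b⟩ <;> rw [← h, e] at b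
      · exact absurd (ne (b.trans (pow_one _).symm)) (by decide)
      · exact absurd (ne b) (by decide)
    · have e := (S_case D' g' k').2.2.1
      rcases U_cases (not_forall.1 k) with ⟨-, b⟩ | ⟨-, b⟩ <;> rw [h, e] at b
      · exact absurd (ne (b.trans (pow_one _).symm)) (by decide)
      · exact absurd (ne b) (by decide)
    · rw [not_forall] at k k'
      have hσ := invol_eq D.σσ D'.σσ k k'
      rcases U_cases k with ⟨a1, a2⟩ | ⟨⟨u, hu⟩, a2⟩ <;> rcases U_cases k' with ⟨b1, b2⟩ | ⟨⟨u', hu'⟩, b2⟩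
      · obtain ⟨d, d0, hd⟩ := exists_fix D.σσ k (η := D'.ε / D.ε) (by
          rw [map_div₀, div_mul_div_comm, D.εσ, ← hσ, D'.εσ, div_one])
        refine gen D D' d0 hσ ?_ a1 b1 (by simp [π_one]) (by simp [π_one]) (by simp [f_one])
        rw [← congrArg (D.ε * ·) hd, ← mul_assoc, mul_div_cancel₀ _ (ε_ne D)]
      · exact absurd (ne (a := 1) (b := 3) (by rw [pow_one, ← b2, ← h, a2])) (by decide)
      · exact absurd (ne (a := 1) (b := 3) (by rw [pow_one, ← a2, h, b2])) (by decide)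
      · obtain ⟨c, hc⟩ : ∃ c, D'.f u' u' = c * D.f u u := ⟨_, (div_mul_cancel₀ _ hu).symm⟩
        have hε : D'.ε * D.σ c = D.ε * c := by
          have e1 := D'.f_symm u' u'
          rw [hc, hσ, map_mul] at e1
          refine mul_right_cancel₀ ((map_ne_zero D.σ).2 hu) ?_
          linear_combination e1 - c * D.f_symm u u
        obtain ⟨s, hs⟩ := U_T k' (t := c * D.π u - D'.π u') (by
          have e1 := D'.f_self u'
          rw [map_sub, hσ (c * _), map_mul]
          linear_combination D.σ (D.π u) * hε + e1 - hc - c * D.f_self u)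
        refine gen D D' (c := c) (by rintro rfl; exact hu' (by rw [hc, zero_mul])) hσ hε (U_sp k hu)
          (U_sp k' (u := u' * D'.γ s) ?_) ?_ (by simp [π_one]) (by simp [f_one])
        · simpa only [D'.f_mul, f_mul', D'.f_γ, f_γ', add_zero] using hu'
        · rw [D'.π_mul, D'.π_γ, D'.f_γ, ← hs]
          ring

end Tits.NB
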