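import Mathlib
import Cfsg.Agent.Lib.Tits.NB0

/-! The commutator data of a configuration: the symmetric set-up. -/

set_option autoImplicit false

open scoped commutatorElement

namespace Tits.NB

open H63.St

variable {K G : Type*} [Field K] [Group G]

/-- An additive involution commuting with the conjugated multiplications is semilinear. -/
theorem exists_σ {θ : K → K} (hadd : ∀ a b, θ (a + b) = θ a + θ b) (hθ : ∀ a, θ (θ a) = a)
    (key : ∀ a b s, a ≠ 0 → b ≠ 0 → a * θ (b * s) = θ (b * θ (a * θ s))) :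
    ∃ (σ : K ≃+* K) (ε : K), (∀ a, σ (σ a) = a) ∧ ε * σ ε = 1 ∧ ∀ a, θ a = ε * σ a := by
  have h0 : θ 0 = 0 := by simpa using hadd 0 0
  have h1 : ∀ b r, θ (b * r) = θ (b * θ 1) * θ r := by
    intro b r
    by_cases hb : b = 0
    · simp [hb, h0]
    by_cases hr : θ r = 0
    · have : r = 0 := by rw [← hθ r, hr, h0]
      simp [this, h0]
    have := key (θ r) b (θ 1) hr hb
    rw [hθ, mul_one, hθ] at this
    rw [← this, mul_comm]
  have h2 : ∀ b, θ (θ (b * θ 1) * θ 1) = b := by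
    intro b
    have := h1 b 1
    rw [mul_one] at this
    rw [← this, hθ]
  let σ : K ≃+* K :=
    { toFun := fun b => θ (b * θ 1)
      invFun := fun b => θ (b * θ 1)
      left_inv := h2
      right_inv := h2
      map_mul' := fun a b => by rw [mul_assoc, h1]
      map_add' := fun a b => by rw [add_mul, hadd] }
  refine ⟨σ, θ 1, h2, ?_, fun a => ?_⟩
  · have := h1 (θ 1) 1
    rw [mul_one, hθ] at this
    rw [mul_comm]; exact this.symm
  · have := h1 a 1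
    rw [mul_one] at this
    rw [mul_comm]; exact this

/-- A configuration with a chosen element inducing the short reflection. -/
structure CM (K G : Type*) [Field K] [Group G] extends Cfg K G where
  /-- the element inducing the reflection -/
  m : G
  mc : ∀ t, Commute (S.x 0 1 t) m ∧ Commute (S.x 1 0 t) m
  hm : ∀ n y, y ∈ W.U n ↔ m * y * m⁻¹ ∈ W.U (4 - n)

namespace CM

variable (C : CM K G)

/-- centralises the first `SL₂` -/
def Cen (c : G) : Prop := ∀ t, Commute (C.S.x 0 1 t) c ∧ Commute (C.S.x 1 0 t) c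

/-- `e₂ ↦ e₁` -/
def n : G := C.S.w 1 2 1

/-- `e₁ ↦ e₀` -/
def n' : G := C.S.w 0 1 1

/-- `e₀ ↦ e₂` -/
def n'' : G := C.S.w 0 2 (-1)

/-- transport of an element attached to `e₂` -/
def tr (a : Fin 3) (c : G) : G := ![C.n' * (C.n * c * C.n⁻¹) * C.n'⁻¹, C.n * c * C.n⁻¹, c] a

lemma tr0 (c : G) : C.tr 0 c = C.n' * C.tr 1 c * C.n'⁻¹ := rfl
lemma tr1 (c : G) : C.tr 1 c = C.n * c * C.n⁻¹ := rfl
lemma tr2 (c : G) : C.tr 2 c = c := rfl

lemma n02 (s : K) : C.n * C.S.x 0 2 s * C.n⁻¹ = C.S.x 0 1 s := by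
  simpa [n] using (C.S.w_row (i := 1) (j := 2) (l := 0) (by decide) (by decide) (by decide)
    one_ne_zero s).2
lemma n20 (s : K) : C.n * C.S.x 2 0 s * C.n⁻¹ = C.S.x 1 0 s := by
  simpa [n] using (C.S.w_col (i := 1) (j := 2) (l := 0) (by decide) (by decide) (by decide)
    one_ne_zero s).1
lemma n01 (s : K) : C.n * C.S.x 0 1 s * C.n⁻¹ = C.S.x 0 2 (-s) := by
  simpa [n] using (C.S.w_row (i := 1) (j := 2) (l := 0) (by decide) (by decide) (by decide)
    one_ne_zero s).1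
lemma n10 (s : K) : C.n * C.S.x 1 0 s * C.n⁻¹ = C.S.x 2 0 (-s) := by
  simpa [n] using (C.S.w_col (i := 1) (j := 2) (l := 0) (by decide) (by decide) (by decide)
    one_ne_zero s).2
lemma n12 (s : K) : C.n * C.S.x 1 2 s * C.n⁻¹ = C.S.x 2 1 (-s) := by
  simpa [n] using C.S.rel_of_third (i := 1) (j := 2) (k := 0) (by decide) (by decide) (by decide)
    one_ne_zero s
lemma n'12 (s : K) : C.n' * C.S.x 1 2 s * C.n'⁻¹ = C.S.x 0 2 s := by
  simpa [n'] using (C.S.w_col (i := 0) (j := 1) (l := 2) (by decide) (by decide) (by decide)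
    one_ne_zero s).1
lemma n'21 (s : K) : C.n' * C.S.x 2 1 s * C.n'⁻¹ = C.S.x 2 0 s := by
  simpa [n'] using (C.S.w_row (i := 0) (j := 1) (l := 2) (by decide) (by decide) (by decide)
    one_ne_zero s).2
lemma n'02 (s : K) : C.n' * C.S.x 0 2 s * C.n'⁻¹ = C.S.x 1 2 (-s) := by
  simpa [n'] using (C.S.w_col (i := 0) (j := 1) (l := 2) (by decide) (by decide) (by decide)
    one_ne_zero s).2
lemma n'20 (s : K) : C.n' * C.S.x 2 0 s * C.n'⁻¹ = C.S.x 2 1 (-s) := by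
  simpa [n'] using (C.S.w_row (i := 0) (j := 1) (l := 2) (by decide) (by decide) (by decide)
    one_ne_zero s).1
lemma n''01 (s : K) : C.n'' * C.S.x 0 1 s * C.n''⁻¹ = C.S.x 2 1 s := by
  simpa [n''] using (C.S.w_col (i := 0) (j := 2) (l := 1) (by decide) (by decide) (by decide)
    (neg_ne_zero.2 one_ne_zero) s).2
lemma n''10 (s : K) : C.n'' * C.S.x 1 0 s * C.n''⁻¹ = C.S.x 1 2 s := by
  simpa [n''] using (C.S.w_row (i := 0) (j := 2) (l := 1) (by decide) (by decide) (by decide)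
    (neg_ne_zero.2 one_ne_zero) s).1

lemma n''_eq : C.n'' = C.n' * C.n⁻¹ * C.n'⁻¹ := by
  rw [n, ← C.S.w_neg (by decide), n'', PreStA.w, PreStA.w, ← C.n'12, ← C.n'21]; group

lemma comm_conj {a c g : G} (h : Commute a c) : Commute (g * a * g⁻¹) (g * c * g⁻¹) := by
  simpa using h.map (MulAut.conj g)

variable {C}

lemma c02 {c : G} (h : C.Cen c) (t : K) :
    Commute (C.S.x 0 2 t) (C.tr 1 c) ∧ Commute (C.S.x 2 0 t) (C.tr 1 c) := by
  have h1 := comm_conj (g := C.n) (h (-t)).1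
  have h2 := comm_conj (g := C.n) (h (-t)).2
  rw [n01, neg_neg] at h1
  rw [n10, neg_neg] at h2
  exact ⟨h1, h2⟩

lemma c12 {c : G} (h : C.Cen c) (t : K) :
    Commute (C.S.x 1 2 t) (C.tr 0 c) ∧ Commute (C.S.x 2 1 t) (C.tr 0 c) := by
  have h1 := comm_conj (g := C.n') (c02 h (-t)).1
  have h2 := comm_conj (g := C.n') (c02 h (-t)).2
  rw [n'02, neg_neg] at h1
  rw [n'20, neg_neg] at h2
  exact ⟨h1, h2⟩

lemma comm_tr {c : G} (h : C.Cen c) {a b k : Fin 3} (h1 : a ≠ b) (h2 : b ≠ k) (h3 : a ≠ k) (t : K) :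
    Commute (C.S.x a b t) (C.tr k c) := by
  fin_cases a <;> fin_cases b <;> fin_cases k <;> simp at h1 h2 h3
  exacts [(h t).1, (c02 h t).1, (h t).2, (c12 h t).1, (c02 h t).2, (c12 h t).2]

lemma comm_w {c : G} (h : C.Cen c) {a b k : Fin 3} (h1 : a ≠ b) (h2 : b ≠ k) (h3 : a ≠ k) (t : K) :
    Commute (C.S.w a b t) (C.tr k c) :=
  ((comm_tr h h1 h2 h3 _).mul_left (comm_tr h h1.symm h3 h2 _)).mul_left (comm_tr h h1 h2 h3 _)

variable (C) in
/-- `g` transports the pair `a b` to the pair `a' b'`. -/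
structure Sw (g : G) (a b a' b' : Fin 3) : Prop where
  xa : ∀ s, g * C.S.x a b s * g⁻¹ = C.S.x a' b' s
  xb : ∀ s, g * C.S.x b a s * g⁻¹ = C.S.x b' a' s
  ta : ∀ c, C.Cen c → g * C.tr a c * g⁻¹ = C.tr a' c
  tb : ∀ c, C.Cen c → g * C.tr b c * g⁻¹ = C.tr b' c

lemma Sw.symm {g : G} {a b a' b' : Fin 3} (h : C.Sw g a b a' b') : C.Sw g b a b' a' :=
  ⟨h.xb, h.xa, h.tb, h.ta⟩

lemma Sw.trans {g g' : G} {a b a' b' a'' b'' : Fin 3} (h : C.Sw g a b a' b')
    (h' : C.Sw g' a' b' a'' b'') : C.Sw (g' * g) a b a'' b'' :=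
  ⟨fun s => by rw [← h'.xa, ← h.xa]; group, fun s => by rw [← h'.xb, ← h.xb]; group,
    fun c hc => by rw [← h'.ta c hc, ← h.ta c hc]; group,
    fun c hc => by rw [← h'.tb c hc, ← h.tb c hc]; group⟩

variable (C)

lemma sw1 : C.Sw C.n' 1 2 0 2 := ⟨C.n'12, C.n'21, fun _ _ => rfl, fun _ hc =>
  (comm_w hc (a := 0) (b := 1) (k := 2) (by decide) (by decide) (by decide) 1).mul_inv_cancel⟩

lemma sw2 : C.Sw C.n 0 2 0 1 := ⟨C.n02, C.n20, fun _ hc =>
  (comm_w hc (a := 1) (b := 2) (k := 0) (by decide) (by decide) (by decide) 1).mul_inv_cancel,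
  fun _ _ => rfl⟩

lemma sw3 : C.Sw C.n'' 0 1 2 1 := ⟨C.n''01, C.n''10, fun c hc => by
    have := C.sw1.tb c hc
    rw [tr2] at this ⊢
    rw [n''_eq, tr0, tr1]
    conv_rhs => rw [← this]
    group,
  fun _ hc =>
  (comm_w hc (a := 0) (b := 2) (k := 1) (by decide) (by decide) (by decide) (-1)).mul_inv_cancel⟩

lemma exists_sw {a b : Fin 3} (h : a ≠ b) : ∃ g, C.Sw g 1 2 a b := by
  have h3 := (C.sw1.trans C.sw2).trans C.sw3
  fin_cases a <;> fin_cases b <;> simp at h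
  · exact ⟨_, C.sw1.trans C.sw2⟩
  · exact ⟨_, C.sw1⟩
  · exact ⟨_, (h3.trans C.sw1.symm).trans C.sw2.symm⟩
  · exact ⟨1, fun _ => by simp, fun _ => by simp, fun _ _ => by simp, fun _ _ => by simp⟩
  · exact ⟨_, h3.trans C.sw1.symm⟩
  · exact ⟨_, h3⟩

/-- The elements of the root group of `e_a + e_b`. -/
def z (a b : Fin 3) (s : K) : G := C.tr b C.m * C.S.x a b s * (C.tr b C.m)⁻¹

lemma Sw.za {C : CM K G} {g : G} {a b a' b' : Fin 3} (h : C.Sw g a b a' b') (s : K) :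
    g * C.z a b s * g⁻¹ = C.z a' b' s := by
  rw [z, z, ← h.xa, ← h.tb _ C.mc]; group

lemma z_add {a b : Fin 3} (h : a ≠ b) (s t : K) : C.z a b (s + t) = C.z a b s * C.z a b t := by
  rw [z, z, z, ← C.S.add h]; group

lemma z_zero {a b : Fin 3} (h : a ≠ b) : C.z a b 0 = 1 := by simp [z, C.S.x_zero h]

lemma z_neg {a b : Fin 3} (h : a ≠ b) (s : K) : C.z a b (-s) = (C.z a b s)⁻¹ := by
  rw [z, z, C.S.x_neg h]; group

lemma z_inj : Function.Injective (C.z 1 2) := fun s t h => C.inj (by simpa [z] using h)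

lemma xz {a b c : Fin 3} (h1 : a ≠ b) (h2 : b ≠ c) (h3 : a ≠ c) (t s : K) :
    C.S.x a b t * C.z b c s * (C.S.x a b t)⁻¹ = C.z a c (t * s) * C.z b c s := by
  have h := (comm_tr C.mc h1 h2 h3 t).symm.mul_inv_cancel
  have := congrArg (fun g => C.tr c C.m * g * (C.tr c C.m)⁻¹) (C.S.conj1 h1 h2 h3 t s)
  simp only [z]
  rw [← h]
  calc _ = C.tr c C.m * (C.S.x a b t * C.S.x b c s * (C.S.x a b t)⁻¹) * (C.tr c C.m)⁻¹ := by group
    _ = _ := by rw [this]; group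

lemma x_mem (t : K) : C.S.x 1 2 t ∈ C.W.U 1 := by
  have : C.S.x 1 2 t ∈ (C.W.U 1 : Set G) := C.rng ▸ ⟨t, rfl⟩
  exact this

lemma z_mem (s : K) : C.z 1 2 s ∈ C.W.U 3 := (C.hm 1 _).1 (C.x_mem s)

lemma z_surj {g : G} (h : g ∈ C.W.U 3) : ∃ s, C.z 1 2 s = g := by
  have h1 : C.m⁻¹ * g * C.m ∈ (C.W.U 1 : Set G) := (C.hm 1 _).2 (by
    simp only [mul_assoc, mul_inv_cancel_left, mul_inv_cancel, mul_one]; exact h)
  rw [← C.rng] at h1
  obtain ⟨s, hs⟩ := h1
  exact ⟨s, by rw [z, hs, tr2]; group⟩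

lemma z21_mem (s : K) : C.z 2 1 s ∈ C.W.U 3 := by
  have := (C.hn 1 one_ne_zero 3 _).1 (C.z_mem (-s))
  have e : C.z 2 1 s = C.n * C.z 1 2 (-s) * C.n⁻¹ := by
    rw [z, z, tr1, tr2, ← neg_neg s, ← C.n12, neg_neg]; group
  rw [e]; exact this

/-- The comparison of the two parametrisations. -/
noncomputable def θ (s : K) : K := (C.z_surj (C.z21_mem s)).choose

lemma z_swap {a b : Fin 3} (h : a ≠ b) (s : K) : C.z b a s = C.z a b (C.θ s) := by
  obtain ⟨g, hg⟩ := C.exists_sw h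
  rw [← hg.za, ← hg.symm.za, θ, (C.z_surj (C.z21_mem s)).choose_spec]

lemma θθ (s : K) : C.θ (C.θ s) = s := C.z_inj (by
  rw [← C.z_swap (by decide), ← C.z_swap (by decide)])

lemma θ_add (s t : K) : C.θ (s + t) = C.θ s + C.θ t := C.z_inj (by
  rw [C.z_add (by decide), ← C.z_swap (by decide), ← C.z_swap (by decide), ← C.z_swap (by decide),
    C.z_add (by decide)])

/-- `diag (a⁻¹, a, 1)` -/
def H (a : K) : G := C.S.w 1 0 a * C.S.w 1 0 (-1)

lemma H_comm {c : G} (h : C.Cen c) (a : K) : Commute (C.H a) c :=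
  (comm_w h (a := 1) (b := 0) (k := 2) (by decide) (by decide) (by decide) _).mul_left
    (comm_w h (a := 1) (b := 0) (k := 2) (by decide) (by decide) (by decide) _)

lemma conj_mul (g h a : G) : g * h * a * (g * h)⁻¹ = g * (h * a * h⁻¹) * g⁻¹ := by group

lemma H12 {a : K} (ha : a ≠ 0) (s : K) : C.H a * C.S.x 1 2 s * (C.H a)⁻¹ = C.S.x 1 2 (a * s) := by
  rw [H, conj_mul, (C.S.w_col (i := 1) (j := 0) (l := 2) (by decide) (by decide) (by decide)
    (neg_ne_zero.2 one_ne_zero) s).2, (C.S.w_col (i := 1) (j := 0) (l := 2) (by decide) (by decide)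
    (by decide) ha _).1]
  simp

lemma H20 {a : K} (ha : a ≠ 0) (s : K) : C.H a * C.S.x 2 0 s * (C.H a)⁻¹ = C.S.x 2 0 (a * s) := by
  rw [H, conj_mul, (C.S.w_row (i := 1) (j := 0) (l := 2) (by decide) (by decide) (by decide)
    (neg_ne_zero.2 one_ne_zero) s).2, (C.S.w_row (i := 1) (j := 0) (l := 2) (by decide) (by decide)
    (by decide) ha _).1]
  simp

lemma H02 {a : K} (ha : a ≠ 0) (s : K) :
    C.H a * C.S.x 0 2 s * (C.H a)⁻¹ = C.S.x 0 2 (a⁻¹ * s) := by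
  rw [H, conj_mul, (C.S.w_col (i := 1) (j := 0) (l := 2) (by decide) (by decide) (by decide)
    (neg_ne_zero.2 one_ne_zero) s).1, (C.S.w_col (i := 1) (j := 0) (l := 2) (by decide) (by decide)
    (by decide) ha _).2]
  simp

lemma Hw {a : K} (ha : a ≠ 0) (b : K) :
    C.H a * C.S.w 2 0 b * (C.H a)⁻¹ = C.S.w 2 0 (a * b) := by
  rw [PreStA.w, PreStA.w, ← C.H20 ha, show -(a * b)⁻¹ = a⁻¹ * -b⁻¹ by rw [mul_inv]; ring,
    ← C.H02 ha]
  group

lemma Hz {a : K} (ha : a ≠ 0) (s : K) : C.H a * C.z 1 2 s * (C.H a)⁻¹ = C.z 1 2 (a * s) := by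
  have h := (C.H_comm C.mc a).mul_inv_cancel
  rw [z, z, tr2, ← C.H12 ha]
  conv_rhs => rw [← h]
  group

lemma H'z {a b : K} (ha : a ≠ 0) (hb : b ≠ 0) (s : K) :
    C.S.w 2 0 (a * b) * C.S.w 2 0 (a * -1) * C.z 2 1 s * (C.S.w 2 0 (a * b) * C.S.w 2 0 (a * -1))⁻¹ =
      C.z 2 1 (b * s) := by
  have h := ((comm_w C.mc (a := 2) (b := 0) (k := 1) (by decide) (by decide) (by decide)
    (a * b)).mul_left (comm_w C.mc (a := 2) (b := 0) (k := 1) (by decide) (by decide) (by decide)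
    (a * -1))).mul_inv_cancel
  have h2 : C.S.w 2 0 (a * b) * C.S.w 2 0 (a * -1) * C.S.x 2 1 s *
      (C.S.w 2 0 (a * b) * C.S.w 2 0 (a * -1))⁻¹ = C.S.x 2 1 (b * s) := by
    rw [conj_mul, (C.S.w_col (i := 2) (j := 0) (l := 1) (by decide) (by decide) (by decide)
      (by simpa using ha) s).2, (C.S.w_col (i := 2) (j := 0) (l := 1) (by decide) (by decide)
      (by decide) (mul_ne_zero ha hb) _).1]
    congr 1; field_simp
  rw [z, z, ← h2]
  conv_rhs => rw [← h]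
  group

theorem exists_σ : ∃ (σ : K ≃+* K) (ε : K), (∀ a, σ (σ a) = a) ∧ ε * σ ε = 1 ∧
    ∀ a, C.θ a = ε * σ a := by
  refine NB.exists_σ C.θ_add C.θθ fun a b s ha hb => C.z_inj ?_
  have h1 := C.H'z one_ne_zero hb s
  have h2 := C.H'z ha hb (C.θ (a * C.θ s))
  rw [one_mul, one_mul] at h1
  rw [← C.Hz ha, ← C.z_swap (by decide), ← C.z_swap (by decide), ← h1, ← h2,
    ← C.z_swap (a := 2) (b := 1) (by decide), ← C.Hz ha, ← C.z_swap (by decide), ← C.Hw ha,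
    ← C.Hw ha]
  group

end CM

end Tits.NB
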