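import Mathlib
import Cfsg.Agent.Lib.Tits.NB3a

/-! The commutator data of a configuration. -/

set_option autoImplicit false

open scoped commutatorElement

namespace Tits.NB

open H63.St

variable {K G : Type*} [Field K] [Group G]

lemma conj_eq (a b : G) : a * b * a⁻¹ = ⁅a, b⁆ * b := by simp [commutatorElement_def]

namespace Dat

variable {S : Type*} [Group S]

/-- An element is determined by its class and its value. -/
lemma ext0 {f : S → S → K} {π : S → K} {θ : K → K} (f_mul : ∀ u u' v, f (u * u') v = f u v + f u' v)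
    (f_symm : ∀ u v, f u v = -θ (f v u)) (θ0 : θ 0 = 0)
    (π_mul : ∀ u v, π (u * v) = π u + π v - f v u)
    (aniso : ∀ u, π u = 0 → u = 1) {a b : S} (ha : ∀ v, f a v = 0) (hb : ∀ v, f b v = 0)
    (h : π a = π b) : a = b := by
  have f1 : f 1 1 = 0 := by simpa using f_mul 1 1 1
  have π1 : π 1 = 0 := by simpa [f1] using π_mul 1 1
  have h1 := π_mul a⁻¹ a
  have h2 := π_mul a⁻¹ b
  rw [inv_mul_cancel, π1, ha, h] at h1
  rw [hb, ← h1] at h2
  have := aniso _ h2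
  exact inv_mul_eq_one.1 this

end Dat

namespace CM

variable (C : CM K G)

/-- The isomorphism `U 4 → U 2`. -/
def y : C.W.U 4 →* G := (MulAut.conj C.n).toMonoidHom.comp (C.W.U 4).subtype

lemma y_eq (u : C.W.U 4) : C.y u = C.tr 1 u := rfl

lemma cen4 (u : C.W.U 4) : C.Cen u := C.cen u (Or.inl u.2)

lemma y_mem (u : C.W.U 4) : C.y u ∈ C.W.U 2 := (C.hn 1 one_ne_zero 4 _).1 u.2

lemma y_surj {g : G} (h : g ∈ C.W.U 2) : ∃ u, C.y u = g := by
  have h1 : C.n⁻¹ * g * C.n ∈ C.W.U 4 := (C.hn 1 one_ne_zero 4 _).2 (by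
    change C.n * (C.n⁻¹ * g * C.n) * C.n⁻¹ ∈ _
    simp only [mul_assoc, mul_inv_cancel_left, mul_inv_cancel, mul_one]; exact h)
  exact ⟨⟨_, h1⟩, by rw [y_eq, tr1]; simp [mul_assoc]⟩

lemma y_inj : Function.Injective C.y := fun u v h => Subtype.ext (by
  simpa [y_eq, tr1] using h)

lemma xy (t : K) (u : C.W.U 4) : Commute (C.S.x 1 2 t) (C.y u) :=
  C.W.c1 1 _ (C.x_mem t) _ (C.y_mem u)

lemma yz (u : C.W.U 4) (s : K) : Commute (C.y u) (C.z 1 2 s) :=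
  C.W.c1 2 _ (C.y_mem u) _ (C.z_mem s)

lemma zu (s : K) (u : C.W.U 4) : Commute (C.z 1 2 s) (u : G) :=
  C.W.c1 3 _ (C.z_mem s) _ u.2

lemma nf {a b u v : C.W.U 4} {p r : K} (h : C.y a * C.z 1 2 p * u = C.y b * C.z 1 2 r * v) :
    a = b ∧ p = r ∧ u = v := by
  have e : (1 : G) * C.y (b⁻¹ * a) * C.z 1 2 (p + -r) * ((u * v⁻¹ : C.W.U 4) : G) = 1 := by
    rw [C.z_add (by decide), mul_assoc _ _ (_ : G), mul_assoc (C.z 1 2 p), (C.zu _ _).eq,
      C.z_neg (by decide), map_mul, map_inv]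
    push_cast
    calc _ = (C.y b)⁻¹ * (C.y a * C.z 1 2 p * u) * (v : G)⁻¹ * (C.z 1 2 r)⁻¹ := by group
      _ = 1 := by rw [h]; group
  obtain ⟨-, h1, h2, h3⟩ := C.W.ind 1 1 (one_mem _) _ (C.y_mem _) _ (C.z_mem _) _ (u * v⁻¹).2 e
  refine ⟨?_, ?_, ?_⟩
  · exact (inv_mul_eq_one.1 (C.y_inj (h1.trans (map_one _).symm))).symm
  · have := C.z_inj (h2.trans (C.z_zero (by decide)).symm)
    linear_combination this
  · exact mul_inv_eq_one.1 (Subtype.ext h3)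

lemma ex_f (u v : C.W.U 4) : ∃ s, C.z 1 2 s = ⁅C.y u, (v : G)⁆ :=
  C.z_surj (C.W.c2 2 _ (C.y_mem u) _ v.2)

/-- The sesquilinear form. -/
noncomputable def f (u v : C.W.U 4) : K := (C.ex_f u v).choose

lemma f_spec (u v : C.W.U 4) : ⁅C.y u, (v : G)⁆ = C.z 1 2 (C.f u v) := (C.ex_f u v).choose_spec.symm

lemma f_mul (u u' v : C.W.U 4) : C.f (u * u') v = C.f u v + C.f u' v := C.z_inj (by
  rw [add_comm, C.z_add (by decide), ← f_spec, ← (C.yz u _).mul_inv_cancel, ← f_spec, ← f_spec,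
    map_mul]
  simp only [commutatorElement_def]; group)

lemma uy (u v : C.W.U 4) : (u : G) * C.y v = C.y v * C.z 1 2 (-C.f v u) * u := by
  rw [(C.yz _ _).eq, C.z_neg (by decide), ← f_spec]
  simp only [commutatorElement_def]; group

lemma f_symm (u v : C.W.U 4) : C.f u v = -C.θ (C.f v u) := by
  obtain ⟨g, hg⟩ := C.exists_sw (a := 2) (b := 1) (by decide)
  have h := congrArg (fun a => g * a * g⁻¹) (C.f_spec v u)
  simp only [conjugate_commutatorElement] at h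
  rw [hg.za, y_eq, hg.ta _ (C.cen4 v), C.z_swap (by decide), ← C.tr2 u, hg.tb _ (C.cen4 u), tr2,
    ← y_eq, ← commutatorElement_inv, f_spec, ← C.z_neg (by decide)] at h
  rw [← C.z_inj h, neg_neg]

lemma ex_π (u : C.W.U 4) : ∃ p : K × C.W.U 4,
    C.S.x 1 2 1 * u * (C.S.x 1 2 1)⁻¹ = C.y p.2 * C.z 1 2 p.1 * u := by
  obtain ⟨a, ha, b, hb, e⟩ := C.W.c3 1 _ (C.x_mem 1) _ u.2
  obtain ⟨a, rfl⟩ := C.y_surj ha
  obtain ⟨s, rfl⟩ := C.z_surj hb
  exact ⟨(s, a), by rw [conj_eq, e]⟩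

/-- The pseudo-quadratic form. -/
noncomputable def π (u : C.W.U 4) : K := (C.ex_π u).choose.1

/-- Comparison of the two ways to reach a general vector. -/
lemma key {t p p' : K} {u u' a a' : C.W.U 4}
    (hw : C.S.w 1 2 t * u * (C.S.w 1 2 t)⁻¹ = C.y u')
    (h1 : C.S.x 1 2 t * u * (C.S.x 1 2 t)⁻¹ = C.y a * C.z 1 2 p * u)
    (h2 : C.S.x 1 2 t⁻¹ * u' * (C.S.x 1 2 t⁻¹)⁻¹ = C.y a' * C.z 1 2 p' * u') :
    a = u' ∧ p = C.θ p' - C.f u' u := by
  obtain ⟨g, hg⟩ := C.exists_sw (a := 2) (b := 1) (by decide)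
  have h3 : C.S.x 2 1 t⁻¹ * C.y u' * (C.S.x 2 1 t⁻¹)⁻¹ = a' * C.z 1 2 (C.θ p') * C.y u' := by
    rw [← C.z_swap (by decide), ← hg.za, ← hg.xa, y_eq, ← hg.tb _ (C.cen4 u'),
      ← C.tr2 a', ← hg.ta _ (C.cen4 a'), tr2, ← y_eq]
    calc _ = g * (C.S.x 1 2 t⁻¹ * u' * (C.S.x 1 2 t⁻¹)⁻¹) * g⁻¹ := by group
      _ = _ := by rw [h2]; group
  have h4 : C.S.x 1 2 t * u * (C.S.x 1 2 t)⁻¹ = C.S.x 2 1 t⁻¹ * C.y u' * (C.S.x 2 1 t⁻¹)⁻¹ := by
    have := (C.xy t u').symm.inv_mul_cancel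
    rw [← (C.xy t u').inv_left.mul_inv_cancel, ← hw, PreStA.w, C.S.x_neg (by decide)]
    group
  rw [h1, h3, (C.zu _ _).symm.eq, mul_assoc (C.z _ _ _), uy, ← mul_assoc, ← mul_assoc,
    (C.yz _ _).symm.eq, mul_assoc (C.y u'), ← C.z_add (by decide)] at h4
  obtain ⟨e1, e2, e3⟩ := C.nf h4
  exact ⟨e1, by rw [e2, e3]; ring⟩

lemma key1 (u : C.W.U 4) : C.S.x 1 2 1 * u * (C.S.x 1 2 1)⁻¹ = C.y u * C.z 1 2 (C.π u) * u ∧
    C.f u u = C.θ (C.π u) - C.π u := by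
  have h := (C.ex_π u).choose_spec
  obtain ⟨e1, e2⟩ := C.key (t := 1) (u' := u) rfl h (by rw [inv_one]; exact h)
  rw [e1] at h
  refine ⟨h, ?_⟩
  change C.π u = C.θ (C.π u) - _ at e2
  linear_combination e2

lemma π_mul (u v : C.W.U 4) : C.π (u * v) = C.π u + C.π v - C.f v u := by
  have h := (C.key1 (u * v)).1
  have e : C.S.x 1 2 1 * ((u * v : C.W.U 4) : G) * (C.S.x 1 2 1)⁻¹ =
      C.y (u * v) * C.z 1 2 (C.π u + (-C.f v u + C.π v)) * ((u * v : C.W.U 4) : G) := by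
    calc _ = (C.S.x 1 2 1 * u * (C.S.x 1 2 1)⁻¹) * (C.S.x 1 2 1 * v * (C.S.x 1 2 1)⁻¹) := by
          push_cast; group
      _ = C.y u * C.z 1 2 (C.π u) * (u * C.y v) * C.z 1 2 (C.π v) * v := by
          rw [(C.key1 u).1, (C.key1 v).1]; group
      _ = C.y u * (C.z 1 2 (C.π u) * C.y v) * C.z 1 2 (-C.f v u) * (u * C.z 1 2 (C.π v)) * v := by
          rw [uy]; group
      _ = _ := by
          rw [(C.yz _ _).symm.eq, (C.zu _ _).symm.eq, C.z_add (by decide), C.z_add (by decide),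
            map_mul]
          push_cast; group
  rw [(C.nf (h.symm.trans e)).2.1]; ring

lemma ex_act (t : K) (u : C.W.U 4) : ∃ u', (t = 0 → u' = 1) ∧
    (t ≠ 0 → C.y u' = C.H t * C.y u * (C.H t)⁻¹) := by
  by_cases ht : t = 0
  · exact ⟨1, fun _ => rfl, fun h => absurd ht h⟩
  · obtain ⟨u', h⟩ := C.y_surj (C.hH t ht _ (C.y_mem u))
    exact ⟨u', fun h => absurd h ht, fun _ => h⟩

/-- Scalar multiplication. -/
noncomputable def act (t : K) (u : C.W.U 4) : C.W.U 4 := (C.ex_act t u).choose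

lemma act_zero (u : C.W.U 4) : C.act 0 u = 1 := (C.ex_act 0 u).choose_spec.1 rfl

lemma y_act {t : K} (ht : t ≠ 0) (u : C.W.U 4) :
    C.y (C.act t u) = C.H t * C.y u * (C.H t)⁻¹ := (C.ex_act t u).choose_spec.2 ht

lemma f_act (a : K) (u v : C.W.U 4) : C.f (C.act a u) v = a * C.f u v := by
  by_cases ha : a = 0
  · simpa [ha, act_zero] using C.f_mul 1 1 v
  refine C.z_inj ?_
  rw [← C.Hz ha, ← f_spec, ← f_spec, conjugate_commutatorElement,
    (C.H_comm (C.cen4 v) a).mul_inv_cancel, C.y_act ha]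

lemma xu (t : K) (u : C.W.U 4) : C.S.x 1 2 t * u * (C.S.x 1 2 t)⁻¹ =
    C.y (C.act t u) * C.z 1 2 (t * C.π u) * u := by
  by_cases ht : t = 0
  · simp [ht, act_zero, C.S.x_zero, C.z_zero]
  have h := (C.H_comm (C.cen4 u) t).mul_inv_cancel
  have h1 := C.H12 ht 1
  rw [mul_one] at h1
  rw [C.y_act ht, ← C.Hz ht, ← h1]
  calc _ = C.H t * (C.S.x 1 2 1 * ((C.H t)⁻¹ * u * (C.H t)⁻¹⁻¹) * (C.S.x 1 2 1)⁻¹) * (C.H t)⁻¹ := by
        group
    _ = _ := by
        rw [(C.H_comm (C.cen4 u) t).inv_left.mul_inv_cancel, (C.key1 u).1]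
        conv_rhs => rw [← h]
        group

lemma π_act' {t : K} (ht : t ≠ 0) (u : C.W.U 4) :
    t * C.θ (C.π u) = C.θ (t⁻¹ * C.π (C.act t u)) := by
  obtain ⟨u', hu'⟩ := C.y_surj ((C.hn t ht 4 _).1 u.2)
  obtain ⟨e1, e2⟩ := C.key hu'.symm (C.xu t u) (C.xu t⁻¹ u')
  subst e1
  rw [f_act, (C.key1 u).2] at e2
  linear_combination e2

lemma ex_γ (t s : K) : ∃ u, C.y u = ⁅C.S.x 1 2 t, C.z 1 2 s⁆ :=
  C.y_surj (C.W.c2 1 _ (C.x_mem t) _ (C.z_mem s))

/-- The commutator of the two orthogonal root groups. -/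
noncomputable def γ (t s : K) : C.W.U 4 := (C.ex_γ t s).choose

lemma γ_spec {a b : Fin 3} (h : a ≠ b) (t s : K) :
    ⁅C.S.x a b t, C.z a b s⁆ = C.tr a (C.γ t s) := by
  obtain ⟨g, hg⟩ := C.exists_sw h
  rw [← hg.xa, ← hg.za, ← hg.ta _ (C.cen4 _), ← y_eq, γ, (C.ex_γ t s).choose_spec,
    conjugate_commutatorElement]

lemma z10u (s : K) (u : C.W.U 4) : Commute (C.z 1 0 s) (u : G) := by
  have h1 : C.n⁻¹ * u * C.n ∈ C.W.U 2 := (C.hn 1 one_ne_zero 2 _).2 (by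
    change C.n * (C.n⁻¹ * u * C.n) * C.n⁻¹ ∈ _
    simp only [mul_assoc, mul_inv_cancel_left, mul_inv_cancel, mul_one]; exact u.2)
  have h2 : C.m⁻¹ * (C.n⁻¹ * u * C.n) * C.m ∈ C.W.U 2 := (C.hm 2 _).2 (by
    simp only [mul_assoc, mul_inv_cancel_left, mul_inv_cancel, mul_one]
    simp only [mul_assoc] at h1; exact h1)
  have h3 := (C.cen _ (Or.inl ((C.hn 1 one_ne_zero 2 _).1 h2)) (C.θ (C.θ (C.θ s)))).1
  have h4 := comm_conj (g := C.tr 1 C.m) h3
  rw [θθ] at h4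
  rw [C.z_swap (a := 0) (b := 1) (by decide), z]
  convert h4 using 1
  rw [tr1, n]; group

lemma z10z (s r : K) : Commute (C.z 1 0 s) (C.z 1 2 r) := by
  rw [C.z_swap (a := 0) (b := 1) (by decide), ← C.θθ r,
    ← C.z_swap (a := 1) (b := 2) (by decide), z, z]
  exact comm_conj (C.S.c0 (by decide) (by decide) (by decide) (by decide) _ _)

lemma x10z (t r : K) : Commute (C.S.x 1 0 t) (C.z 1 2 r) := by
  rw [z, tr2, ← (C.mc t).2.symm.mul_inv_cancel]
  exact comm_conj (C.S.c0 (by decide) (by decide) (by decide) (by decide) _ _)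

lemma f_γ (t s : K) (v : C.W.U 4) : C.f (C.γ t s) v = 0 := by
  refine C.z_inj ?_
  rw [← f_spec, C.z_zero (by decide), y_eq, ← C.γ_spec (a := 1) (b := 0) (by decide),
    commutatorElement_eq_one_iff_commute, commutatorElement_def]
  have h1 := (C.cen4 v t).2
  have h2 := C.z10u s v
  exact ((h1.mul_left h2).mul_left h1.inv_left).mul_left h2.inv_left

lemma π_γ (t s : K) : C.π (C.γ t s) = C.θ (t * C.θ s) + t * C.θ s := by
  have h0 := C.γ_spec (a := 2) (b := 0) (by decide) t s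
  rw [tr2] at h0
  have h1 := C.γ_spec (a := 1) (b := 0) (by decide) t s
  rw [← y_eq] at h1
  set g := C.γ t s
  have a1 := C.S.conj1 (i := 1) (j := 2) (l := 0) (by decide) (by decide) (by decide) 1 t
  have a2 := C.xz (a := 1) (b := 2) (c := 0) (by decide) (by decide) (by decide) 1 s
  rw [one_mul] at a1 a2
  have b1 := C.xz (a := 2) (b := 0) (c := 1) (by decide) (by decide) (by decide) t (C.θ s)
  rw [← C.z_swap (a := 0) (b := 1) (by decide), C.z_swap (a := 1) (b := 2) (by decide)] at b1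
  have b2 := C.xz (a := 1) (b := 0) (c := 2) (by decide) (by decide) (by decide) t (C.θ s)
  rw [← C.z_swap (a := 0) (b := 2) (by decide)] at b2
  have b3 := conj_eq (C.S.x 2 0 t) (C.z 2 0 s)
  have b4 := conj_eq (C.S.x 1 0 t) (C.z 1 0 s)
  rw [h0] at b3
  rw [h1] at b4
  have b5 := (C.x10z t (C.θ (t * C.θ s))).mul_inv_cancel
  have b6 := (C.cen4 g t).2.mul_inv_cancel
  have b7 := (C.z10u s g).mul_inv_cancel
  have b8 := (C.z10z s (t * C.θ s)).mul_inv_cancel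
  have e : C.S.x 1 2 1 * g * (C.S.x 1 2 1)⁻¹ =
      C.y g * C.z 1 2 (C.θ (t * C.θ s) + t * C.θ s) * g := by
    calc _ = C.S.x 1 0 t * ((C.S.x 2 0 t * C.z 1 0 s * (C.S.x 2 0 t)⁻¹) *
            (C.S.x 2 0 t * C.z 2 0 s * (C.S.x 2 0 t)⁻¹)) * (C.S.x 1 0 t)⁻¹ *
            (C.z 1 0 s * C.z 2 0 s)⁻¹ := by
          rw [← h0, conjugate_commutatorElement, a1, a2, commutatorElement_def]; group
      _ = (C.S.x 1 0 t * C.z 1 2 (C.θ (t * C.θ s)) * (C.S.x 1 0 t)⁻¹) *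
            (C.S.x 1 0 t * C.z 1 0 s * (C.S.x 1 0 t)⁻¹) * (C.S.x 1 0 t * g * (C.S.x 1 0 t)⁻¹) *
            (C.S.x 1 0 t * C.z 2 0 s * (C.S.x 1 0 t)⁻¹) * (C.z 1 0 s * C.z 2 0 s)⁻¹ := by
          rw [b1, b3]; group
      _ = (C.z 1 2 (C.θ (t * C.θ s)) * C.y g) * (C.z 1 0 s * g * (C.z 1 0 s)⁻¹) *
            (C.z 1 0 s * C.z 1 2 (t * C.θ s) * (C.z 1 0 s)⁻¹) := by
          rw [b5, b4, b6, b2]; group
      _ = _ := by
          rw [b7, b8, (C.yz _ _).symm.eq, mul_assoc _ (g : G), (C.zu _ _).symm.eq,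
            C.z_add (by decide)]
          group
  exact (C.nf ((C.key1 g).1.symm.trans e)).2.1

lemma aniso (u : C.W.U 4) (h : C.π u = 0) : u = 1 := by
  by_contra hu
  obtain ⟨a, ha, a', ha', hm⟩ := C.W.mu 4 u u.2 (fun e => hu (Subtype.ext e))
  have h1 := (hm 1 _).1 (C.x_mem (-1))
  have h2 := (C.key1 u).1
  rw [h, C.z_zero (by decide), mul_one] at h2
  have c1 := (C.W.c1 0 a ha _ (C.x_mem (-1))).mul_inv_cancel
  have c2 := (C.W.c1 0 a' ha' _ (C.x_mem (-1))).mul_inv_cancel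
  have c3 := C.W.c2 0 a ha _ (C.y_mem u)
  have e : a * u * a' * C.S.x 1 2 (-1) * (a * u * a')⁻¹ =
      C.S.x 1 2 (-1) * ⁅a, C.y u⁆ * C.y u := by
    calc _ = a * (u * (a' * C.S.x 1 2 (-1) * a'⁻¹) * (u : G)⁻¹) * a⁻¹ := by group
      _ = a * ((C.S.x 1 2 1)⁻¹ * (C.S.x 1 2 1 * u * (C.S.x 1 2 1)⁻¹) * (u : G)⁻¹) * a⁻¹ := by
          rw [c2, C.S.x_neg (by decide)]; group
      _ = (a * C.S.x 1 2 (-1) * a⁻¹) * (a * C.y u * a⁻¹) := by
          rw [h2, C.S.x_neg (by decide)]; group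
      _ = _ := by rw [c1, conj_eq, mul_assoc]
  rw [e] at h1
  have := C.W.ind 1 _ (mul_mem (C.x_mem (-1)) c3) _ (C.y_mem u) _ (inv_mem h1) 1 (one_mem _)
    (by group)
  exact hu (C.y_inj (this.2.1.trans (map_one _).symm))

theorem exists_real : ∃ D x z y, Real (K := K) C.W.U D x z y := by
  obtain ⟨σ, ε, h1, h2, h3⟩ := C.exists_σ
  have hε : ε ≠ 0 := left_ne_zero_of_mul_eq_one h2
  have θ0 : C.θ 0 = 0 := by simp [h3]
  have hγ : ∀ t s, C.π (C.γ t s) = s * σ t + ε * σ (s * σ t) := fun t s => by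
    simp only [π_γ, h3, map_mul, h1]
    linear_combination s * σ t * h2
  refine ⟨{ σ := σ, ε := ε, act := C.act, γ := C.γ 1, f := C.f, π := C.π, σσ := h1, εσ := h2
            f_mul := C.f_mul, f_act := C.f_act, f_symm := fun u v => by rw [f_symm, h3]
            f_self := fun u => by rw [(C.key1 u).2, h3]
            f_γ := C.f_γ 1, π_mul := C.π_mul, π_act := fun a u => ?_
            π_γ := fun s => by simpa using hγ 1 s
            aniso := C.aniso, ne := ?_ }, C.S.x 1 2, C.z 1 2, C.y,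
    fun s t => (C.S.add (by decide) s t).symm, C.z_add (by decide), C.inj, C.z_inj, C.y_inj, C.rng,
    ?_, ?_, fun t s => ?_, C.f_spec, fun t u => ?_⟩
  · by_cases ha : a = 0
    · have f1 : C.f 1 1 = 0 := by simpa using C.f_mul 1 1 1
      simpa [ha, act_zero, f1] using C.π_mul 1 1
    have := congrArg σ (C.π_act' ha u)
    have h4 : σ a ≠ 0 := by simpa using ha
    have h5 : σ ε ≠ 0 := by simpa using hε
    simp only [h3, map_mul, h1] at this
    field_simp at this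
    linear_combination -this
  · obtain ⟨u, hu, h⟩ := C.W.ne 4
    exact ⟨⟨u, hu⟩, fun e => h (congrArg Subtype.val e)⟩
  · exact Set.ext fun g => ⟨by rintro ⟨u, rfl⟩; exact C.y_mem u, fun h => C.y_surj h⟩
  · exact Set.ext fun g => ⟨by rintro ⟨u, rfl⟩; exact C.z_mem u, fun h => C.z_surj h⟩
  · rw [C.γ_spec (by decide), ← y_eq]
    congr 1
    exact Dat.ext0 C.f_mul C.f_symm θ0 C.π_mul C.aniso (C.f_γ _ _) (C.f_γ _ _) (by simp [hγ])
  · have := C.xu t u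
    rw [conj_eq] at this
    exact mul_right_cancel this

end CM

theorem Cfg.exists_real (C : Cfg K G) : ∃ D x z y, Real (K := K) C.W.U D x z y := by
  obtain ⟨u, hu, h⟩ := C.W.ne 4
  obtain ⟨a, ha, a', ha', hm⟩ := C.W.mu 4 u hu h
  have h1 := C.cen a (Or.inr ha)
  have h2 := C.cen a' (Or.inr ha')
  have h3 := C.cen u (Or.inl hu)
  exact CM.exists_real { C with
    m := a * u * a'
    mc := fun t => ⟨((h1 t).1.mul_right (h3 t).1).mul_right (h2 t).1,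
      ((h1 t).2.mul_right (h3 t).2).mul_right (h2 t).2⟩
    hm := hm }

end Tits.NB
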