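import Mathlib
import Cfsg.Agent.Lib.Tits.NB0
import Cfsg.Agent.Lib.Tits.Win
import Cfsg.Agent.Lib.Tits.Loc3
import Cfsg.Agent.Lib.Tits.Emb
import Cfsg.Agent.Lib.Tits.NiceC

/-! The configuration of a root group datum on a path `i - j = k`. -/

set_option autoImplicit false

open scoped commutatorElement

namespace Tits.NB

open H63.St

namespace NB4

variable {K G : Type*} [Field K] [Group G]

/-- cyclic renumbering -/
def rot (S : PreStA (Fin 3) K G) : PreStA (Fin 3) K G where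
  x a b := S.x (a + 1) (b + 1)
  add h := S.add (by simpa)
  c0 h1 h2 h3 h4 := S.c0 (by simpa) (by simpa) (by simpa) (by simpa)
  c1 h1 h2 h3 := S.c1 (by simpa) (by simpa) (by simpa)

theorem w_symm (S : PreStA (Fin 3) K G) {t : K} (ht : t ≠ 0) : S.w 0 1 t = S.w 1 0 (-t⁻¹) := by
  have r1 := S.rel_of_third (i := 0) (j := 1) (k := 2) (by decide) (by decide) (by decide) ht t
  have r2 := S.rel_of_third (i := 0) (j := 1) (k := 2) (by decide) (by decide) (by decide)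
    (neg_ne_zero.2 ht) t
  rw [show -(t⁻¹ ^ 2 * t) = -t⁻¹ by field_simp] at r1
  rw [show -((-t)⁻¹ ^ 2 * t) = -t⁻¹ by field_simp, S.w_neg (by decide), inv_inv] at r2
  have r3 : S.w 0 1 t * S.x 1 0 (-t⁻¹) * (S.w 0 1 t)⁻¹ = S.x 0 1 t := by rw [← r2]; group
  calc S.w 0 1 t = S.w 0 1 t * (S.x 0 1 t * S.x 1 0 (-t⁻¹) * S.x 0 1 t) * (S.w 0 1 t)⁻¹ :=
        (mul_inv_cancel_right _ _).symm
    _ = _ := by rw [← conj_mul, ← conj_mul, r1, r3, PreStA.w, inv_neg, inv_inv, neg_neg]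

theorem acts_w {Φ I : Type*} {R : Roots Φ I} {E : RGD R G} {i : I} (S : PreStA (Fin 3) K G)
    (hi : ∀ a b, a ≠ b → Function.Injective (S.x a b))
    (h1 : Set.range (S.x 0 1) = (E.X (R.α i) : Set G))
    (h2 : Set.range (S.x 1 0) = (E.X (R.neg (R.α i)) : Set G)) {s : K} (hs : s ≠ 0) :
    Acts E.X (S.w 1 0 s) (R.σ i) := by
  obtain ⟨t, ht, rfl⟩ : ∃ t, t ≠ 0 ∧ s = -t⁻¹ := ⟨-s⁻¹, by simpa, by simp⟩
  obtain ⟨_, hu, _, hu', h⟩ := E.rgd2 i (S.x 0 1 t) (h1.le ⟨t, rfl⟩) fun e =>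
    ht (hi 0 1 (by decide) (e.trans (S.x_zero (by decide)).symm))
  obtain ⟨a, rfl⟩ := h2.ge hu
  obtain ⟨b, rfl⟩ := h2.ge hu'
  have r := fun u => S.rel_of_third (i := 1) (j := 0) (k := 2) (by decide) (by decide) (by decide)
    (inv_ne_zero ht) u
  have r' := S.rel_of_third (i := 1) (j := 0) (k := 2) (by decide) (by decide) (by decide)
    (neg_ne_zero.2 (inv_ne_zero ht)) 1
  have e : S.x 1 0 a * S.x 0 1 t * S.x 1 0 b =
      S.x 1 0 (a + t⁻¹) * (S.w 1 0 t⁻¹)⁻¹ * S.x 1 0 (b + t⁻¹) := by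
    rw [← S.w_neg (by decide), PreStA.w, ← mul_assoc, ← mul_assoc, S.add (by decide),
      mul_assoc _ _ (S.x 1 0 (b + _)), S.add (by decide)]
    simp
  have c : ∀ s s', S.x 1 0 s * S.x 1 0 s' * (S.x 1 0 s)⁻¹ = S.x 1 0 s' := fun s s' => by
    rw [← S.x_neg (by decide), S.add (by decide), S.add (by decide)]; simp
  obtain ⟨s, hs⟩ := h2.ge (R.σ_α i ▸ h.conj_mem (h1.le ⟨1, rfl⟩))
  obtain ⟨s', hs'⟩ := h1.ge (R.σ_neg_α i ▸ h.conj_mem (h2.le ⟨1, rfl⟩))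
  rw [e] at hs hs' h
  have e1 : b + t⁻¹ = 0 := Loc3.nrm S hi one_ne_zero (by
    rw [← r s, ← c (-(a + t⁻¹)) s, hs, S.x_neg (by decide)]; group)
  rw [e1, S.x_zero (by decide), mul_one, ← S.w_neg (by decide)] at hs' h
  have e2 : a + t⁻¹ = 0 := Loc3.nrm S hi (v := -((-t⁻¹)⁻¹ ^ 2 * 1)) (v' := s') (by simpa) (by
    rw [← r', hs']; group)
  rwa [e2, S.x_zero (by decide), one_mul] at h

end NB4

open NB4

variable {Φ I : Type*} {R : Roots Φ I} [Finite Φ] {G : Type*} [Group G]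

theorem A2.congr {E : RGD R G} {i j : I} {K K' : Type} [Field K] [Field K'] (τ : K ≃+* K')
    (h : A2 E i j K') : A2 E i j K := by
  obtain ⟨S, hS⟩ := h
  exact ⟨Loc3.tw S τ 1, Loc3.tw_ok S τ 1 hS⟩

theorem exists_cfg {E : RGD R G} (hE : E.Faith) {i j k : I} (h : B3 R i j k) {K : Type} [Field K]
    (hK : A2 E i j K) : ∃ C : Cfg K G, ∀ n, C.W.U n = E.X (rho R j k n) := by
  obtain ⟨S, hS⟩ := hK
  obtain ⟨-, h4, h2⟩ := h
  have hc := cm_VB 1 le_rfl (fun _ => le_rfl)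
  obtain ⟨e⟩ := exists_emb (R := R) (vr_full (VC true 1 fun _ => le_rfl)) (g := ![j, k]) (by
    rw [hc]
    intro a b
    fin_cases a <;> fin_cases b
    exacts [(cm_self j).symm, h4.symm, ((cm_symm k j).trans h4).symm, (cm_self k).symm])
  obtain ⟨E', hX, hF⟩ := e.exists_rgd E
  obtain ⟨W, hW⟩ := exists_win (vr_full _) (hF hE) (j := 0) (k := 1) (by rw [hc]; rfl)
  have hU : ∀ n, W.U n = E.X (rho R j k n) := fun n => by rw [hW, hX, e.f_rho]; rfl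
  have ai := fun s => acts_w S (fun a b n => (hS a b n).1) (hS 0 1 (by decide)).2
    (hS 1 0 (by decide)).2 (s := s)
  have aj := fun s => acts_w (rot S) (fun a b n => (hS _ _ (by simpa)).1) (hS 1 2 (by decide)).2
    (hS 2 1 (by decide)).2 (s := s)
  refine ⟨⟨W, S, (hS 1 2 (by decide)).1, by rw [hU]; exact (hS 1 2 (by decide)).2, fun u hu t => ?_,
    fun t ht n y => ?_, fun t ht y hy => ?_⟩, hU⟩
  · obtain ⟨r, hr, hu⟩ : ∃ r, InJ R {k} r ∧ u ∈ E.X r := by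
      rw [hU, hU] at hu
      exact hu.elim (fun h => ⟨R.α k, inJ_α (Set.mem_singleton k), h⟩)
        fun h => ⟨R.neg (R.α k), (inJ_α (Set.mem_singleton k)).neg, h⟩
    exact ⟨LocP.comm_X h2 (inJ_α (Set.mem_singleton i)) hr ((hS 0 1 (by decide)).2.le ⟨t, rfl⟩) hu,
      LocP.comm_X h2 (inJ_α (Set.mem_singleton i)).neg hr ((hS 1 0 (by decide)).2.le ⟨t, rfl⟩) hu⟩
  · have := aj _ (neg_ne_zero.2 (inv_ne_zero ht))
    rw [← w_symm _ ht] at this
    rw [hU, hU, ← (rho_σ h4 n).1]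
    exact this _ y
  · have := (ai t ht).mul (ai (-1) (by simp))
    rw [R.σ_mul_self] at this
    rw [hU] at hy ⊢
    exact this.conj_mem hy

end Tits.NB
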