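import Mathlib
import Cfsg.Agent.Lib.Tits.Win
import Cfsg.Agent.Lib.Stein.SLPres
import Cfsg.Agent.Lib.Tits.NB2
import Cfsg.Agent.Lib.Tits.NB3
import Cfsg.Agent.Lib.Tits.NB4

set_option autoImplicit false

open scoped commutatorElement

namespace Tits

open H63.St Cfsg

namespace NB

variable {K G G' : Type*} [Field K] [Group G] [Group G']

lemma Real.flag {U : ZMod 8 → Subgroup G} {D : Dat K (U 4)} {x z : K → G} {y : U 4 →* G}
    (h : Real U D x z y) : (∀ a ∈ U 1, ∀ b ∈ U 3, Commute a b) ↔ ∀ s, D.γ s = 1 := by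
  constructor
  · intro hc s
    have h1 : x 1 ∈ (U 1 : Set G) := h.x_rng ▸ ⟨1, rfl⟩
    have h2 : z s ∈ (U 3 : Set G) := h.z_rng ▸ ⟨s, rfl⟩
    have := h.c13 1 s
    rw [commutatorElement_eq_one_iff_commute.2 (hc _ h1 _ h2), map_one, mul_one] at this
    exact h.y_inj (this.symm.trans (map_one _).symm)
  · intro hc a ha b hb
    have h1 : a ∈ Set.range x := h.x_rng ▸ ha
    have h2 : b ∈ Set.range z := h.z_rng ▸ hb
    obtain ⟨t, rfl⟩ := h1
    obtain ⟨s, rfl⟩ := h2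
    rw [← commutatorElement_eq_one_iff_commute, h.c13, hc, map_one]

/-- The graph of two additive parametrisations. -/
def par (x : K → G) (x' : K → G') (hx : ∀ s t, x (s + t) = x s * x t)
    (hx' : ∀ s t, x' (s + t) = x' s * x' t) (c : K) : Subgroup (G × G') where
  carrier := {p | ∃ t, p = (x t, x' (c * t))}
  one_mem' := ⟨0, by
    have h1 : x 0 = 1 := by simpa using hx 0 0
    have h2 : x' 0 = 1 := by simpa using hx' 0 0
    simp [h1, h2, Prod.ext_iff]⟩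
  mul_mem' := by
    rintro _ _ ⟨s, rfl⟩ ⟨t, rfl⟩
    exact ⟨s + t, by simp [hx, mul_add, hx']⟩
  inv_mem' := by
    rintro _ ⟨s, rfl⟩
    have h1 : x 0 = 1 := by simpa using hx 0 0
    have h2 : x' 0 = 1 := by simpa using hx' 0 0
    refine ⟨-s, Prod.ext (inv_eq_of_mul_eq_one_right ?_) (inv_eq_of_mul_eq_one_right ?_)⟩
    · simp [← hx, h1]
    · simp [← hx', h2]

lemma gr_par {x : K → G} {x' : K → G'} (hx : ∀ s t, x (s + t) = x s * x t)
    (hx' : ∀ s t, x' (s + t) = x' s * x' t) {c : K} (hc : c ≠ 0) (i : Function.Injective x)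
    (i' : Function.Injective x') {A : Subgroup G} {A' : Subgroup G'} (r : Set.range x = A)
    (r' : Set.range x' = A') : Gr (par x x' hx hx' c) A A' := by
  have h1 : x 0 = 1 := by simpa using hx 0 0
  have h2 : x' 0 = 1 := by simpa using hx' 0 0
  refine ⟨?_, ?_, ?_⟩
  · ext g
    change _ ↔ g ∈ (A : Set G)
    rw [← r]
    constructor
    · rintro ⟨_, ⟨t, rfl⟩, rfl⟩; exact ⟨t, rfl⟩
    · rintro ⟨t, rfl⟩; exact ⟨_, ⟨t, rfl⟩, rfl⟩
  · ext g
    change _ ↔ g ∈ (A' : Set G')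
    rw [← r']
    constructor
    · rintro ⟨_, ⟨t, rfl⟩, rfl⟩; exact ⟨_, rfl⟩
    · rintro ⟨t, rfl⟩; exact ⟨_, ⟨c⁻¹ * t, rfl⟩, by simp [hc]⟩
  · rintro _ ⟨t, rfl⟩
    change x t = 1 ↔ x' (c * t) = 1
    rw [← h1, ← h2, i.eq_iff, i'.eq_iff]; simp [hc]

lemma gr_map {S S' : Type*} [Group S] [Group S'] {D : Dat K S} {D' : Dat K S'} {c : K}
    {Γ : Subgroup (S × S')} (h : Iso D D' c Γ) {y : S →* G} {y' : S' →* G'}
    (i : Function.Injective y) (i' : Function.Injective y') {A : Subgroup G} {A' : Subgroup G'}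
    (r : Set.range y = A) (r' : Set.range y' = A') : Gr (Γ.map (y.prodMap y')) A A' := by
  refine ⟨?_, ?_, ?_⟩
  · ext g
    change _ ↔ g ∈ (A : Set G)
    rw [← r]
    constructor
    · rintro ⟨_, ⟨p, -, rfl⟩, rfl⟩; exact ⟨p.1, rfl⟩
    · rintro ⟨u, rfl⟩
      obtain ⟨u', hu⟩ := h.fst u
      exact ⟨_, ⟨_, hu, rfl⟩, rfl⟩
  · ext g
    change _ ↔ g ∈ (A' : Set G')
    rw [← r']
    constructor
    · rintro ⟨_, ⟨p, -, rfl⟩, rfl⟩; exact ⟨p.2, rfl⟩
    · rintro ⟨u', rfl⟩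
      obtain ⟨u, hu⟩ := h.snd u'
      exact ⟨_, ⟨_, hu, rfl⟩, rfl⟩
  · rintro _ ⟨p, hp, rfl⟩
    change y p.1 = 1 ↔ y' p.2 = 1
    have π1 : ∀ {S : Type _} [Group S] (D : Dat K S), D.π 1 = 0 := fun D => by
      have f1 : D.f 1 1 = 0 := by simpa using D.f_mul 1 1 1
      simpa [f1] using D.π_mul 1 1
    have π1' : D'.π 1 = 0 := by
      have f1 : D'.f 1 1 = 0 := by simpa using D'.f_mul 1 1 1
      simpa [f1] using D'.π_mul 1 1
    have e := h.π p hp
    rw [map_eq_one_iff _ i, map_eq_one_iff _ i']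
    constructor
    · intro h1
      rw [h1, π1, mul_zero] at e
      exact D'.aniso _ e
    · intro h1
      rw [h1, π1'] at e
      exact D.aniso _ ((mul_eq_zero.1 e.symm).resolve_left h.c_ne)

theorem posGr {U : ZMod 8 → Subgroup G} {D : Dat K (U 4)} {x z : K → G} {y : U 4 →* G}
    {U' : ZMod 8 → Subgroup G'} {D' : Dat K (U' 4)} {x' z' : K → G'} {y' : U' 4 →* G'}
    (h : Real U D x z y) (h' : Real U' D' x' z' y') {c : K} {Γ : Subgroup (U 4 × U' 4)}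
    (e : Iso D D' c Γ) : ∃ Y, PosGr U U' Y := by
  refine ⟨![⊥, par x x' h.x_add h'.x_add 1, Γ.map (y.prodMap y'), par z z' h.z_add h'.z_add c,
    Γ.map ((U 4).subtype.prodMap (U' 4).subtype), ⊥, ⊥, ⊥], ?_, ?_, ?_, ?_⟩
  · rintro _ (rfl | rfl | rfl | rfl)
    · exact gr_par h.x_add h'.x_add one_ne_zero h.x_inj h'.x_inj h.x_rng h'.x_rng
    · exact gr_map e h.y_inj h'.y_inj h.y_rng h'.y_rng
    · exact gr_par h.z_add h'.z_add e.c_ne h.z_inj h'.z_inj h.z_rng h'.z_rng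
    · exact gr_map e Subtype.val_injective Subtype.val_injective (by simp) (by simp)
  · rintro _ ⟨t, rfl⟩ _ ⟨s, rfl⟩
    refine ⟨_, e.γ (s * D.σ t), Prod.ext (h.c13 t s).symm ?_⟩
    have := h'.c13 (1 * t) (c * s)
    rw [e.σ_eq, mul_assoc] at this
    refine Eq.trans ?_ this.symm
    rw [one_mul]; rfl
  · rintro _ ⟨p, hp, rfl⟩ _ ⟨p', hp', rfl⟩
    exact ⟨D.f p.1 p'.1, Prod.ext (h.c24 _ _) (by rw [← e.f p hp p' hp']; exact h'.c24 _ _)⟩
  · rintro _ ⟨t, rfl⟩ _ ⟨p, hp, rfl⟩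
    refine ⟨_, ⟨_, e.act p hp t, rfl⟩, _, ⟨t * D.π p.1, rfl⟩, Prod.ext (h.c14 _ _) ?_⟩
    have := h'.c14 t p.2
    rw [e.π p hp, mul_left_comm] at this
    refine Eq.trans ?_ this
    rw [one_mul]; rfl

end NB

variable {Φ I : Type*} {R : Roots Φ I} [Finite Φ] {G G' : Type*} [Group G] [Group G'] [Finite G] [Finite G']

omit [Finite G] in
lemma NB.exists_real {E : RGD R G} (hE : E.Faith) {i j k : I} (h : B3 R i j k) {K : Type} [Field K]
    (hK : A2 E i j K) : ∃ D x z y, NB.Real (K := K) (fun n => E.X (rho R j k n)) D x z y := by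
  obtain ⟨C, hC⟩ := NB.exists_cfg hE h hK
  have := C.exists_real
  rwa [show C.W.U = fun n => E.X (rho R j k n) from funext hC] at this

theorem par_cases {E : RGD R G} (hE : Good E) {i j k : I} (h : B3 R i j k) :
    Par (Flag E j k) (q E j) (q E k) := by
  obtain ⟨K, _, _, hK⟩ := hE.2 i j h.1
  obtain ⟨D, x, z, y, hR⟩ := NB.exists_real hE.1 h hK
  have := D.par
  rw [← hR.flag, Nat.card_eq_fintype_card, ← hK.card.2] at this
  exact this

theorem exists_posGr {E : RGD R G} {E' : RGD R G'} (hE : Good E) (hE' : Good E') {i j k : I}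
    (h : B3 R i j k) (h1 : q E j = q E' j) (h2 : q E k = q E' k) (h3 : Flag E j k ↔ Flag E' j k) :
    ∃ Y, PosGr (fun n => E.X (rho R j k n)) (fun n => E'.X (rho R j k n)) Y := by
  obtain ⟨K, _, _, hK⟩ := hE.2 i j h.1
  obtain ⟨K', _, _, hK'⟩ := hE'.2 i j h.1
  have τ := FiniteField.ringEquivOfCardEq (K := K) (K' := K') (by rw [← hK.card.2, ← hK'.card.2, h1])
  obtain ⟨D, x, z, y, hR⟩ := NB.exists_real hE.1 h hK
  obtain ⟨D', x', z', y', hR'⟩ := NB.exists_real hE'.1 h (NB.A2.congr τ hK')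
  obtain ⟨c, Γ, e⟩ := D.exists_iso D' h2 (by rw [← hR.flag, ← hR'.flag]; exact h3)
  exact NB.posGr hR hR' e

end Tits
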