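import Mathlib
import Cfsg.Agent.Lib.Tits.Loc3
import Cfsg.Agent.Lib.Tits.Glue
import Cfsg.Agent.Lib.Tits.GRp
import Cfsg.Agent.Lib.Tits.NB

set_option autoImplicit false

open scoped commutatorElement

namespace Tits

open H63.St Cfsg

variable {Φ I : Type*} {R : Roots Φ I} [Finite Φ] {G G' : Type*} [Group G] [Group G'] {E : RGD R G} {E' : RGD R G'}

theorem equiv_of_loc (hE : E.Faith) (hE' : E'.Faith) (h1 : E.Gp = ⊤) (h2 : E'.Gp = ⊤)
    (hZ : Subgroup.center G = ⊥) {Z : Φ → Subgroup (G × G')} (h : Loc E E' Set.univ Z) :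
    Nonempty (G ≃* G' ⧸ Subgroup.center G') := by
  have hn : ∀ i, ∃ x ∈ Z (R.α i), x ≠ 1 ∧ ∃ u ∈ Z (R.neg (R.α i)), ∃ u' ∈ Z (R.neg (R.α i)),
      Acts Z (u * x * u') (R.σ i) := by
    intro i
    obtain ⟨x, hx, hx1⟩ := E.exists_ne_one i
    rw [← (h.gr _ (inJ_univ _)).fst] at hx
    obtain ⟨y, hy, rfl⟩ := hx
    have hy1 : y ≠ 1 := fun e => hx1 (by simp [e])
    obtain ⟨u, hu, u', hu', ha⟩ := h.act i trivial y hy hy1
    exact ⟨y, hy, hy1, u, hu, u', hu', fun r z => ha r (inJ_univ r) z⟩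
  choose x hx hx1 u hu u' hu' ha using hn
  let D : RGD R (G × G') :=
    { X := Z
      comm := fun r s hr hs hrs y hy z hz => h.comm r s (inJ_univ r) (inJ_univ s) hrs.symm
        (fun e => (R.pos_neg r).1 (e ▸ hs) hr) y hy z hz
      n := fun i => u i * x i * u' i
      n_acts := fun i => ha i
      n_mem := fun i => ⟨ha i, x i, hx i, hx1 i, u i, hu i, u' i, hu' i, rfl⟩
      rgd2 := fun i y hy hy1 => by
        obtain ⟨v, hv, v', hv', hb⟩ := h.act i trivial y hy hy1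
        exact ⟨v, hv, v', hv', fun r z => hb r (inJ_univ r) z⟩ }
  have f1 : ∀ r, (D.X r).map (MonoidHom.fst G G') = E.X r := fun r => (h.gr r (inJ_univ r)).fst
  have f2 : ∀ r, (D.X r).map (MonoidHom.snd G G') = E'.X r := fun r => (h.gr r (inJ_univ r)).snd
  have i1 : ∀ r, ∀ y ∈ D.X r, MonoidHom.fst G G' y = 1 → y = 1 := fun r y hy e =>
    Prod.ext e (((h.gr r (inJ_univ r)).inj y hy).1 e)
  have i2 : ∀ r, ∀ y ∈ D.X r, MonoidHom.snd G G' y = 1 → y = 1 := fun r y hy e =>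
    Prod.ext (((h.gr r (inJ_univ r)).inj y hy).2 e) e
  have s1 : ∀ g : G, ∃ y ∈ D.Gp, y.1 = g := fun g => by
    have : g ∈ D.Gp.map (MonoidHom.fst G G') := by
      rw [show D.Gp.map (MonoidHom.fst G G') = E.Gp from XS_map_eq f1 _, h1]; trivial
    exact this
  have s2 : ∀ g : G', ∃ y ∈ D.Gp, y.2 = g := fun g => by
    have : g ∈ D.Gp.map (MonoidHom.snd G G') := by
      rw [show D.Gp.map (MonoidHom.snd G G') = E'.Gp from XS_map_eq f2 _, h2]; trivial
    exact this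
  have cen : ∀ a : G, (∀ y ∈ D.Gp, y.1 * a = a * y.1) → a = 1 := fun a hc => by
    rw [← Subgroup.mem_bot, ← hZ, Subgroup.mem_center_iff]
    intro g
    obtain ⟨y, hy, rfl⟩ := s1 g
    exact hc y hy
  have k2 : ∀ y ∈ D.Gp, y.2 = 1 → y.1 = 1 := fun y hy e => cen _ fun z hz =>
    congrArg Prod.fst (D.comm_of_map_eq_one hE' f2 i2 hy e hz)
  let ψ : D.Gp →* G := (MonoidHom.fst G G').comp D.Gp.subtype
  let φ : D.Gp →* G' ⧸ Subgroup.center G' :=
    (QuotientGroup.mk' _).comp ((MonoidHom.snd G G').comp D.Gp.subtype)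
  have hψ : Function.Surjective ψ := fun g => by
    obtain ⟨y, hy, rfl⟩ := s1 g
    exact ⟨⟨y, hy⟩, rfl⟩
  have hφ : Function.Surjective φ := fun g => by
    obtain ⟨g, rfl⟩ := QuotientGroup.mk_surjective g
    obtain ⟨y, hy, rfl⟩ := s2 g
    exact ⟨⟨y, hy⟩, rfl⟩
  have hk : ψ.ker = φ.ker := by
    ext y
    rw [MonoidHom.mem_ker, MonoidHom.mem_ker]
    change y.1.1 = 1 ↔ ((y.1.2 : G') : G' ⧸ Subgroup.center G') = 1
    rw [QuotientGroup.eq_one_iff, Subgroup.mem_center_iff]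
    constructor
    · intro e g
      obtain ⟨z, hz, rfl⟩ := s2 g
      exact congrArg Prod.snd (D.comm_of_map_eq_one hE f1 i1 y.2 e hz)
    · intro e
      refine cen _ fun z hz => ?_
      have := k2 _ (D.Gp.mul_mem (D.Gp.mul_mem hz y.2) (D.Gp.inv_mem (D.Gp.mul_mem y.2 hz)))
        (by simp [e])
      exact mul_inv_eq_one.1 this
  exact ⟨((QuotientGroup.quotientKerEquivOfSurjective ψ hψ).symm.trans
    (QuotientGroup.quotientMulEquivOfEq hk)).trans
      (QuotientGroup.quotientKerEquivOfSurjective φ hφ)⟩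

theorem equiv_of_edge (hF : Full R) (hR : Rk2 R) (hE : Good E) (hE' : Good E') (h1 : E.Gp = ⊤)
    (h2 : E'.Gp = ⊤) (hZ : Subgroup.center G = ⊥) {a b : I} (hs : Shape (cm R) a b)
    {Z : Φ → Subgroup (G × G')} (h : Loc E E' {a, b} Z) :
    Nonempty (G ≃* G' ⧸ Subgroup.center G') := by
  classical
  obtain ⟨hab, ht, par, hp, hc⟩ := hs
  have ex : ∀ v, ¬ (v = a ∨ v = b) → ∀ Y : Φ → Subgroup (G × G'), Loc E E' {par v} Y →
      ∃ Z', Loc E E' {par v, v} Z' ∧ Agr R (par v) Z' Y := fun v hv Y hY =>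
    loc_three hF hE hE' (hp v (fun e => hv (Or.inl e)) (fun e => hv (Or.inr e))).2 hY
  choose st hst hst' using ex
  let F : ∀ v : I, {Y : Φ → Subgroup (G × G') // Loc E E' {v} Y} :=
    (InvImage.wf ht wellFounded_lt).fix fun v rec =>
      if hv : v = a ∨ v = b then ⟨Z, h.single (by simpa using hv)⟩
      else ⟨st v hv (rec (par v) (hp v (fun e => hv (Or.inl e)) (fun e => hv (Or.inr e))).1).1
        (rec (par v) (hp v (fun e => hv (Or.inl e)) (fun e => hv (Or.inr e))).1).2,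
        (hst v hv _ _).single (by simp)⟩
  have F1 : ∀ v, (v = a ∨ v = b) → (F v).1 = Z := fun v hv => by
    simp only [F]
    rw [WellFounded.fix_eq, dif_pos hv]
  have F2 : ∀ v (hv : ¬ (v = a ∨ v = b)), (F v).1 = st v hv (F (par v)).1 (F (par v)).2 :=
    fun v hv => by
      simp only [F]
      rw [WellFounded.fix_eq, dif_neg hv]
  have F3 : ∀ v, v ≠ a → v ≠ b → Loc E E' {par v, v} (F v).1 ∧
      Agr R (par v) (F v).1 (F (par v)).1 := fun v h1 h2 => by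
    have hv : ¬ (v = a ∨ v = b) := fun e => e.elim h1 h2
    rw [F2 v hv]
    exact ⟨hst v hv _ _, hst' v hv _ _⟩
  have same : ∀ u v, R.α u = R.α v → (F u).1 = (F v).1 := by
    intro u v e
    by_cases huv : u = v
    · rw [huv]
    have h1 : cm R u v = 1 := by
      rw [← cm_self (R := R) v]; simp only [cm, Roots.σ, e]
    have h1' : cm R v u = 1 := by rw [cm_symm, h1]
    rcases hc u v huv with h3 | ⟨rfl, rfl⟩ | ⟨rfl, rfl⟩ | ⟨x, y, rfl⟩ | ⟨x, y, rfl⟩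
    · omega
    · rw [F1 _ (Or.inl rfl), F1 _ (Or.inr rfl)]
    · rw [F1 _ (Or.inl rfl), F1 _ (Or.inr rfl)]
    · have := (hp v x y).2; omega
    · have := (hp u x y).2; omega
  let Y : Φ → Subgroup (G × G') := fun r =>
    if hr : ∃ v, r = R.α v ∨ r = R.neg (R.α v) then (F hr.choose).1 r else ⊥
  have hY : ∀ v, Agr R v (F v).1 Y := by
    intro v
    constructor
    · have hr : ∃ w, R.α v = R.α w ∨ R.α v = R.neg (R.α w) := ⟨v, Or.inl rfl⟩
      simp only [Y]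
      rw [dif_pos hr]
      rcases hr.choose_spec with e | e
      · rw [same _ _ e]
      · exact absurd (e ▸ R.pos_α v) (R.not_pos_neg_α _)
    · have hr : ∃ w, R.neg (R.α v) = R.α w ∨ R.neg (R.α v) = R.neg (R.α w) := ⟨v, Or.inr rfl⟩
      simp only [Y]
      rw [dif_pos hr]
      rcases hr.choose_spec with e | e
      · exact absurd (e ▸ R.pos_α _) (R.not_pos_neg_α v)
      · rw [same _ _ (R.neg_injective e)]
  have tr : ∀ {v} {A B C : Φ → Subgroup (G × G')}, Agr R v A B → Agr R v B C → Agr R v A C :=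
    fun h1 h2 => ⟨h1.1.trans h2.1, h1.2.trans h2.2⟩
  obtain ⟨Z', hZ'⟩ := glue hR hE.1 hE'.1 Y fun i j => by
    by_cases hij : i = j
    · subst hij
      exact ⟨_, by rw [Set.pair_eq_singleton]; exact (F i).2, hY i, hY i⟩
    rcases hc i j hij with h3 | ⟨rfl, rfl⟩ | ⟨rfl, rfl⟩ | ⟨x, y, rfl⟩ | ⟨x, y, rfl⟩
    · obtain ⟨W, w1, w2, w3⟩ := loc_two hE.1 hE'.1 h3 (F i).2 (F j).2
      exact ⟨W, w1, tr w2 (hY i), tr w3 (hY j)⟩
    · exact ⟨Z, h, F1 _ (Or.inl rfl) ▸ hY i, F1 _ (Or.inr rfl) ▸ hY j⟩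
    · exact ⟨Z, Set.pair_comm j i ▸ h, F1 _ (Or.inr rfl) ▸ hY i, F1 _ (Or.inl rfl) ▸ hY j⟩
    · exact ⟨_, (F3 j x y).1, tr (F3 j x y).2 (hY _), hY j⟩
    · exact ⟨_, Set.pair_comm (par i) i ▸ (F3 i x y).1, hY i, tr (F3 i x y).2 (hY _)⟩
  exact equiv_of_loc hE.1 hE'.1 h1 h2 hZ hZ'

theorem loc_four [Finite G] [Finite G'] (hF : Full R) (hE : Good E) (hE' : Good E') {i j k : I}
    (h : B3 R i j k) (h1 : q E j = q E' j) (h2 : q E k = q E' k) (h3 : Flag E j k ↔ Flag E' j k) :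
    ∃ Z, Loc E E' {j, k} Z := by
  obtain ⟨Y, hY⟩ := exists_posGr hE hE' h h1 h2 h3
  obtain ⟨W, hW⟩ := exists_win hF hE.1 h.2.1
  obtain ⟨W', hW'⟩ := exists_win hF hE'.1 h.2.1
  rw [← funext hW, ← funext hW'] at hY
  obtain ⟨V, hV⟩ := win_prod W W' hY
  exact loc_of_win hF h.2.1 V fun n => hW n ▸ hW' n ▸ hV n

end Tits
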