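import Mathlib
import Cfsg.Agent.Lib.Tits.NiceC
import Cfsg.Agent.Lib.Tits.Win
import Cfsg.Agent.Lib.Stein.EichRGD

set_option autoImplicit false
set_option linter.unusedSectionVars false

open scoped commutatorElement

namespace Tits

open H63.St Cfsg

variable {m : ℕ} {K V G : Type} [Field K] [Fintype K] [AddCommGroup V] [Module K V] [Group G]
  {E : Eich m K V G}

namespace ModG

theorem xl_inj {a b : J m} (h : In a b) : Function.Injective (E.xl a b) := fun t u e => by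
  by_contra o
  refine E.xl_ne_one h (sub_ne_zero.2 o) ?_
  rw [sub_eq_add_neg, ← E.xl_add, E.xl_neg, e, mul_inv_cancel]

theorem exists_pre {ι : Type} (E : Eich m K V G) (p : ι → J m) (hp : ∀ a b, a ≠ b → In (p a) (p b)) :
    ∃ S : PreStA ι K G, ∀ a b, a ≠ b → Function.Injective (S.x a b) ∧
      Set.range (S.x a b) = (E.L (p a) (p b).rev : Set G) := by
  have n : ∀ b, E.ε * E.κ (p b).rev ≠ 0 := fun b => mul_ne_zero E.ε_ne (E.κ_ne _)
  refine ⟨⟨fun a b t => E.xl (p a) (p b).rev ((E.ε * E.κ (p b).rev)⁻¹ * t), fun _ t u => ?_,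
    fun {i j k l} h1 h2 h3 h4 t u => ?_, fun {i j l} h1 h2 h3 t u => ?_⟩, fun a b h => ⟨fun t u e => ?_, ?_⟩⟩
  · rw [E.xl_add, mul_add]
  · by_cases e1 : i = k <;> by_cases e2 : j = l
    · subst e1 e2; exact E.cLL ..
    · subst e1; exact E.c60 (hp _ _ h1).rev (hp _ _ h2).rev (hp _ _ e2).rev.rev' _ _
    · subst e2
      rw [E.xl_swap (p i), E.xl_swap (p k)]
      exact E.c60 (hp _ _ h1).symm.rev' (hp _ _ h2).symm.rev' (hp _ _ e1) _ _
    · exact E.c90 (hp _ _ h1).rev (hp _ _ e1) (hp _ _ h3).rev (hp _ _ h4).rev' (hp _ _ e2).rev.rev'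
        (hp _ _ h2).rev _ _
  · have := E.c120 (hp _ _ h1).rev (hp _ _ h3).rev (hp _ _ h2).rev.rev' ((E.ε * E.κ (p j).rev)⁻¹ * t)
      ((E.ε * E.κ (p l).rev)⁻¹ * u)
    rw [Fin.rev_rev] at this
    rw [this, mul_inv_cancel_left₀ (n j), mul_left_comm]
  · exact mul_left_cancel₀ (inv_ne_zero (n b)) (xl_inj (hp a b h).rev e)
  · ext g
    exact ⟨by rintro ⟨t, rfl⟩; exact E.xl_mem .., by
      rintro ⟨t, rfl⟩; exact ⟨E.ε * E.κ (p b).rev * t, by simp only [inv_mul_cancel_left₀ (n b)]⟩⟩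

theorem a2_of {s : Bool} (H : E.Hyp s) {i j : Fin (m + 1)} {a b c : J m} (h1 : In a b) (h2 : In a c)
    (h3 : In b c) (e1 : s(VC.α1 s i, VC.α2 i) = s(a, b.rev)) (e2 : s(VC.α1 s j, VC.α2 j) = s(b, c.rev)) :
    A2 H.rgd i j K := by
  have hp : ∀ x y : Fin 3, x ≠ y → In (![a, b, c] x) (![a, b, c] y) := fun x y h => by
    fin_cases x <;> fin_cases y <;> first | exact absurd rfl h | assumption | (apply In.symm; assumption)
  obtain ⟨S, hS⟩ := exists_pre E ![a, b, c] hp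
  refine ⟨S, fun x y h => ⟨(hS x y h).1, ?_⟩⟩
  have f1 : (VC s m H.le).toRoots.α i = ⟨s(a, b.rev), h1.rev.ok⟩ := Subtype.ext e1
  have f2 : (VC s m H.le).toRoots.α j = ⟨s(b, c.rev), h3.rev.ok⟩ := Subtype.ext e2
  have f3 : (VC s m H.le).toRoots.σ i ((VC s m H.le).toRoots.α j) = ⟨s(a, c.rev), h2.rev.ok⟩ := by
    refine Subtype.ext ?_
    rw [VR.toRoots_σ, ← VR.toRoots_α, f1, f2, VC.refl_mk, Sym2.map_mk, VC.τp_apply, VC.τp_apply,
      VC.τ_in h2.rev h3.rev.rev']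
    conv_lhs => rw [← b.rev_rev, Fin.rev_rev b.rev, VC.τ_right_rev]
  have f4 : ∀ {u v : J m} (k : Ok s s(u, v.rev)),
      ((VC s m H.le).toRoots.neg ⟨s(u, v.rev), k⟩).1 = s(v, u.rev) := fun k => by
    rw [VR.toRoots_neg, VC.neg_mk, Fin.rev_rev, Sym2.eq_swap]
  rw [(hS x y h).2, H.rgd_X, ← E.Xz_L (hp x y h).rev]
  congr 2
  rw [rt, f3, f1, f2]
  fin_cases x <;> fin_cases y <;> first | exact absurd rfl h | rfl | exact (f4 _).symm

theorem adj {s : Bool} (hs : s = false → 1 ≤ m) (hm : s = false → 3 ≤ m) {i j : Fin (m + 1)}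
    (h : cm (VC s m hs).toRoots i j = 3) :
    (In (VC.α1 s i) (VC.α1 s j) ∧ In (VC.α1 s i) (VC.α2 j) ∧ In (VC.α1 s j) (VC.α2 j) ∧
      VC.α2 i = (VC.α1 s j).rev) ∨
    (In (VC.α2 i) (VC.α2 j) ∧ In (VC.α2 i) (VC.α1 s j) ∧ In (VC.α2 j) (VC.α1 s j) ∧
      VC.α1 s i = (VC.α2 j).rev) := by
  have hi := i.2
  have hj := j.2
  simp only [In.iff, Fin.ext_iff, Fin.val_rev, VC.α1_val, VC.α2_val]
  cases s
  · have := hm rfl
    rw [cm_VD m this, mD] at h
    simp only [Fin.ext_iff, true_and] at h ⊢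
    split_ifs at h ⊢ <;> omega
  · have m1 : 1 ≤ m := by
      by_contra o
      obtain rfl : i = j := Fin.ext (by omega)
      rw [cm, Roots.σ_mul_self, orderOf_one] at h
      omega
    rw [cm_VB m m1, mB] at h
    simp only [Fin.ext_iff, Bool.true_eq_false, false_and, if_false] at h ⊢
    split_ifs at h <;> omega

end ModG

open ModG

theorem eich_good {s : Bool} (H : E.Hyp s) (hm : s = false → 3 ≤ m) : Good H.rgd := by
  refine ⟨H.faith, fun i j h => ⟨K, inferInstance, inferInstance, ?_⟩⟩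
  rcases adj H.le hm h with ⟨h1, h2, h3, e⟩ | ⟨h1, h2, h3, e⟩
  · exact a2_of H h1 h2.rev h3.rev (by rw [e]) (by rw [Fin.rev_rev])
  · exact a2_of H h1 h2.rev h3.rev (by rw [e, Sym2.eq_swap]) (by rw [Fin.rev_rev, Sym2.eq_swap])

theorem eich_q {s : Bool} (H : E.Hyp s) (i : Fin (m + 1)) (hi : s = true → i ≠ Fin.last m) :
    q H.rgd i = Fintype.card K := by
  have h : In (VC.α1 s i) (VC.α2 i) := by
    refine VC.in_of_ok ((VC s m H.le).α i).2 ?_
    cases s
    · exact ((VC false m H.le).α i).2.2 rfl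
    · have := hi rfl
      have := i.2
      simp only [ne_eq, Fin.ext_iff, VC.α1_val, VC.α2_val, Fin.val_last, Bool.true_eq_false, false_and,
        if_false] at *
      omega
  change Nat.card (E.Xz s(VC.α1 s i, VC.α2 i)) = _
  rw [E.Xz_L h, ← Nat.card_eq_fintype_card]
  exact Nat.card_range_of_injective (xl_inj h)

theorem eich_q_last (H : E.Hyp true) :
    q H.rgd (Fin.last m) = Nat.card {x : V × K // E.P x.1 x.2} := by
  have e : VC.α1 true (Fin.last m) = VC.α2 (Fin.last m) := by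
    simp only [Fin.ext_iff, VC.α1_val, VC.α2_val, Fin.val_last, Bool.true_eq_false, false_and, if_false]
    omega
  change Nat.card (E.Xz s(VC.α1 true (Fin.last m), VC.α2 (Fin.last m))) = _
  rw [e, E.Xz_S]
  generalize VC.α2 (Fin.last m) = a
  refine (Nat.card_congr (Equiv.ofBijective (fun x => ⟨_, x.2.mem a⟩) ⟨?_, ?_⟩)).symm
  · rintro ⟨⟨v, c⟩, h⟩ ⟨⟨w, d⟩, h'⟩ k
    have k' : E.T (E.e a) v c * (E.T (E.e a) w d)⁻¹ = 1 := mul_inv_eq_one.2 (congrArg Subtype.val k)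
    rw [Eich.T_inv (h'.adm a), Eich.T_mul (h.adm a) (h'.neg.adm a)] at k'
    have p := h.add h'.neg
    have z := not_not.1 fun o => p.ne_one o a k'
    rw [z] at p
    obtain rfl : v = w := add_neg_eq_zero.1 p.eq_zero
    obtain rfl : c = d := by
      rw [map_neg, LinearMap.neg_apply, h'.B0.2.2] at z
      linear_combination z + d * E.ε_mul_ε
    rfl
  · rintro ⟨_, v, c, h, rfl⟩
    exact ⟨⟨(v, c), h⟩, rfl⟩

theorem eich_flag (H : E.Hyp true) (j : Fin (m + 1)) (hj : j.1 + 1 = m) :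
    Flag H.rgd j (Fin.last m) ↔ E.Cl := by
  have h : In (VC.α1 true j) (VC.α2 j) := by
    simp only [In.iff, VC.α1_val, VC.α2_val, Bool.true_eq_false, false_and, if_false]
    omega
  have e : ((VC true m H.le).toRoots.σ (Fin.last m) ((VC true m H.le).toRoots.α j)).1 =
      s(VC.α1 true j, (VC.α2 j).rev) := by
    change s(VC.τ (VC.α1 true (Fin.last m)) (VC.α2 (Fin.last m)) (VC.α1 true j),
      VC.τ (VC.α1 true (Fin.last m)) (VC.α2 (Fin.last m)) (VC.α2 j)) = _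
    congr 1 <;>
    · simp only [Fin.ext_iff, VC.τ_val, VC.α1_val, VC.α2_val, Fin.val_last, Fin.val_rev,
        Bool.true_eq_false, false_and, if_false]
      split_ifs <;> omega
  have e' : ((VC true m H.le).toRoots.α j).1 = s(VC.α1 true j, VC.α2 j) := rfl
  rw [Flag, H.rgd_X, H.rgd_X, e, e', E.Xz_L h, E.Xz_L h.rev]
  generalize VC.α1 true j = a, VC.α2 j = b at h
  refine ⟨fun k x => ?_, ?_⟩
  · have c := (k _ (E.xl_mem a b ((E.κ b)⁻¹ * x)) _ (E.xl_mem a b.rev 1)).commutator_eq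
    rw [E.c90b h] at c
    have z := not_not.1 fun o => (Eich.P.zero (E.Λ90b b ((E.κ b)⁻¹ * x) 1)).ne_one o a c
    have k1 := E.κ_ne b
    have k2 := E.κ_ne b.rev
    have k3 := E.ε_ne
    rw [map_one, map_mul, map_inv₀, E.σ_κ] at z
    field_simp at z
    linear_combination E.ε * z + x * E.ε_mul_ε
  · rintro k _ ⟨t, rfl⟩ _ ⟨u, rfl⟩
    exact k.c90b h t u

end Tits
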