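import Mathlib
import Cfsg.Agent.Lib.Tits.ModG
import Cfsg.Agent.Lib.Stein.SUM

set_option autoImplicit false

open scoped commutatorElement

namespace Tits

open H63.St Cfsg

namespace ModS

open H11.U

lemma card_SNA {m : ℕ} {K V G k : Type} [Field K] [AddCommGroup V] [Module K V] [Group G]
    {E : Eich m K V G} [Field k] (A : E.SNA k) :
    Nat.card {x : V × K // E.P x.1 x.2} = Nat.card k := by
  refine (Nat.card_eq_of_bijective (fun s : k => (⟨(0, A.ι s * A.θ), A.P s⟩ :
    {x : V × K // E.P x.1 x.2})) ⟨fun s t h => ?_, fun ⟨⟨v, c⟩, hv⟩ => ?_⟩).symm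
  · exact A.ι.injective (mul_right_cancel₀ A.θ_ne (congrArg (fun x => x.1.2) h))
  · obtain rfl := A.V0_eq v hv.1
    obtain ⟨s, rfl⟩ := (A.Λ_iff _).1 hv.2
    exact ⟨s, rfl⟩

lemma card_SNC {m q : ℕ} {K V G : Type} [Field K] [Fintype K] [IsSq K q] [AddCommGroup V]
    [Module K V] [Group G] {E : Eich m K V G} (A : E.SNC q) :
    Nat.card {x : V × K // E.P x.1 x.2} = q ^ 3 := by
  obtain ⟨θ, h1, h2⟩ := exists_trace_zero K q
  have ex : ∀ t : K, ∃ c, c + cj q c = t * cj q t := fun t =>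
    exists_trace_eq (cj_norm t)
  choose c hc using ex
  have hP : ∀ (t : K) (s : fixedField K q), E.P (t • A.v0) (c t + s * θ) := fun t s => A.P (by
    simp only [A.σ_eq, map_add, map_mul, h2, mem_fixedField.1 s.2]
    linear_combination -hc t)
  have inj : ∀ {s t : K}, s • A.v0 = t • A.v0 → s = t := fun {s t} h => by
    have := congrArg (fun v => E.B v ((1 : K) • A.v0)) h
    simpa only [A.B_smul, map_one, mul_one] using this
  rw [← Nat.card_eq_of_bijective (fun x : K × fixedField K q => (⟨(x.1 • A.v0, c x.1 + x.2 * θ),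
    hP _ _⟩ : {x : V × K // E.P x.1 x.2})) ⟨fun s t h => ?_, fun ⟨⟨v, d⟩, hv⟩ => ?_⟩]
  · rw [Nat.card_prod, card_fixedField, Nat.card_eq_fintype_card, IsSq.card_eq (q := q)]; ring
  · have e1 : s.1 = t.1 := inj (congrArg (fun x => x.1.1) h)
    have e2 : c s.1 + s.2 * θ = c t.1 + t.2 * θ := congrArg (fun x => x.1.2) h
    rw [e1, add_right_inj] at e2
    exact Prod.ext e1 (Subtype.ext (mul_right_cancel₀ h1 e2))
  · obtain ⟨t, rfl⟩ := A.V0_eq v hv.1
    have h3 := (A.Λ_iff _ _).1 hv.2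
    simp only [A.B_smul, A.σ_eq] at h3
    refine ⟨(t, ⟨(d - c t) / θ, ?_⟩), Subtype.ext (Prod.ext rfl ?_)⟩
    · rw [mem_fixedField, map_div₀, h2, map_sub, div_neg, ← neg_div]
      congr 1
      linear_combination hc t + h3
    · simp [div_mul_cancel₀ _ h1]

end ModS

theorem model_Sp (K : Type) [Field K] [Fintype K] (m : ℕ) :
    Model (mB (m + 3)) fun E => q E ⟨m + 1, by omega⟩ = Fintype.card K ∧
      q E (Fin.last _) = Fintype.card K ∧
      (Odd (Fintype.card K) → ¬ Flag E ⟨m + 1, by omega⟩ (Fin.last _)) := by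
  have H := (Sp.A (m + 2) K).hyp
  exact ⟨_, _, inferInstance, inferInstance, inferInstance, _, H.rgd, cm_VB (m + 2) (by omega) _,
    eich_good H (by simp), H.top (Sp.gen _ _) (by simp),
    Or.inr (Or.inl ⟨K, _, inferInstance, m + 2 + 1, by omega, by omega, ⟨MulEquiv.refl _⟩⟩),
    eich_q H _ (fun _ => by simp [Fin.ext_iff]),
    (eich_q_last H).trans ((ModS.card_SNA (Sp.A (m + 2) K)).trans Nat.card_eq_fintype_card),
    fun ho hf => by
      have h1 : (-1 : K) = 1 := ((eich_flag H _ rfl).1 hf).ε_eq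
      have h2 : (2 : K) = 0 := by linear_combination -h1
      have := (FiniteField.even_card_iff_char_two (F := K)).1 (by
        have : CharP K 2 := CharTwo.of_one_ne_zero_of_two_eq_zero one_ne_zero h2
        exact ringChar.eq K 2)
      rw [Nat.odd_iff] at ho
      omega⟩

theorem model_U0 (K : Type) [Field K] [Fintype K] {r : ℕ} (hK : Fintype.card K = r ^ 2) (m : ℕ) :
    Model (mB (m + 3)) fun E => q E ⟨m + 1, by omega⟩ = r ^ 2 ∧ q E (Fin.last _) = r := by
  have : H11.U.IsSq K r := ⟨hK⟩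
  let A := SU.A K r (SU.ιe (n := m + 2 + 1 + (m + 2 + 1)) (m := m + 2) rfl)
  have H := A.hyp
  exact ⟨_, _, inferInstance, inferInstance, inferInstance, _, H.rgd, cm_VB (m + 2) (by omega) _,
    eich_good H (by simp), H.top (SU.gen _ _ _ (by omega)) (by simp),
    Or.inr (Or.inr (Or.inl ⟨K, _, inferInstance, _, r, hK, by omega, by omega,
      ⟨MulEquiv.refl _⟩⟩)),
    (eich_q H _ (fun _ => by simp [Fin.ext_iff])).trans hK,
    (eich_q_last H).trans ((ModS.card_SNA A).trans H11.U.card_fixedField)⟩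

theorem model_U1 (K : Type) [Field K] [Fintype K] {r : ℕ} (hK : Fintype.card K = r ^ 2) (m : ℕ) :
    Model (mB (m + 3)) fun E => q E ⟨m + 1, by omega⟩ = r ^ 2 ∧ q E (Fin.last _) = r ^ 3 := by
  have : H11.U.IsSq K r := ⟨hK⟩
  let A := SU.C K r (SU.ιo (n := m + 2 + 1 + (m + 2 + 1) + 1) (m := m + 2) rfl)
  have H := A.hyp
  exact ⟨_, _, inferInstance, inferInstance, inferInstance, _, H.rgd, cm_VB (m + 2) (by omega) _,
    eich_good H (by simp), H.top (SU.gen _ _ _ (by omega)) (by simp),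
    Or.inr (Or.inr (Or.inl ⟨K, _, inferInstance, _, r, hK, by omega, by omega,
      ⟨MulEquiv.refl _⟩⟩)),
    (eich_q H _ (fun _ => by simp [Fin.ext_iff])).trans hK,
    (eich_q_last H).trans (ModS.card_SNC A)⟩

end Tits
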