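import Mathlib

/-! Positive definite Coxeter diagrams: the load calculus and paths. -/

set_option autoImplicit false
set_option linter.unusedSectionVars false

namespace Tits.Clas

variable {ι : Type*} [Fintype ι]

/-- The quadratic form of a diagram. -/
def Qf (c : ι → ι → ℝ) (x : ι → ℝ) : ℝ := -∑ i, ∑ j, x i * x j * c i j

/-- A connected positive definite diagram. -/
structure Dat (m : ι → ι → ℕ) (c : ι → ι → ℝ) : Prop where
  msymm : ∀ i j, m i j = m j i
  mdiag : ∀ i, m i i = 1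
  mem : ∀ i j, i ≠ j → m i j = 2 ∨ m i j = 3 ∨ m i j = 4 ∨ 6 ≤ m i j
  symm : ∀ i j, c i j = c j i
  diag : ∀ i, c i i = -1
  nn : ∀ i j, i ≠ j → 0 ≤ c i j
  c3 : ∀ i j, 3 ≤ m i j → 1 / 4 ≤ c i j ^ 2
  c4 : ∀ i j, 4 ≤ m i j → 1 / 2 ≤ c i j ^ 2
  c6 : ∀ i j, 6 ≤ m i j → 3 / 4 ≤ c i j ^ 2
  pos : ∀ x, x ≠ 0 → 0 < Qf c x
  conn : ∀ J : Set ι, J.Nonempty → J ≠ Set.univ → ∃ i ∈ J, ∃ j ∉ J, 3 ≤ m i j

/-- A nonnegative vector supported on `S`, with value one at `v` and of norm at most `δ`. -/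
def Ld (c : ι → ι → ℝ) (v : ι) (S : Set ι) (δ : ℝ) : Prop :=
  ∃ x : ι → ℝ, (∀ i, 0 ≤ x i) ∧ (∀ i, i ∉ S → x i = 0) ∧ x v = 1 ∧ Qf c x ≤ δ

/-- The load at the end of a simple chain with `k + 1` nodes. -/
noncomputable def al (k : ℕ) : ℝ := (k + 2) / (2 * (k + 1))

/-- A path with `n` nodes. -/
structure Pth (m : ι → ι → ℕ) (u : ℕ → ι) (n : ℕ) : Prop where
  inj : ∀ i < n, ∀ j < n, u i = u j → i = j
  adj : ∀ i, i + 1 < n → 3 ≤ m (u i) (u (i + 1))

/-- A segment of a path. -/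
def Seg (u : ℕ → ι) (i j : ℕ) : Set ι := {z | ∃ k, i ≤ k ∧ k < j ∧ u k = z}

theorem eqns_clas1 : True := by
  have := @Qf.eq_1.{0}
  have := @Ld.eq_1.{0}
  have := @al.eq_1
  have := @Seg.eq_1.{0}
  trivial

variable {m : ι → ι → ℕ} {c : ι → ι → ℝ}

theorem Ld.mono {v : ι} {S T : Set ι} {δ ε : ℝ} (h : Ld c v S δ) (hS : S ⊆ T) (hδ : δ ≤ ε) :
    Ld c v T ε := by
  obtain ⟨x, h0, h1, h2, h3⟩ := h
  exact ⟨x, h0, fun i hi => h1 i fun h => hi (hS h), h2, h3.trans hδ⟩

theorem Ld.mem {v : ι} {S : Set ι} {δ : ℝ} (h : Ld c v S δ) : v ∈ S := by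
  obtain ⟨x, -, h1, h2, -⟩ := h
  by_contra hv
  rw [h1 v hv] at h2
  exact zero_ne_one h2

theorem al_zero : al 0 = 1 := by simp [al]

theorem al_le_one (k : ℕ) : al k ≤ 1 := by
  unfold al
  rw [div_le_one (by positivity)]
  have : (0 : ℝ) ≤ k := by positivity
  linarith

theorem al_pos (k : ℕ) : 0 < al k := by unfold al; positivity

theorem al_le (k : ℕ) (hk : 1 ≤ k) : al k ≤ 3 / 4 := by
  unfold al
  rw [div_le_iff₀ (by positivity)]
  have : (1 : ℝ) ≤ k := by exact_mod_cast hk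
  linarith

theorem al_succ (k : ℕ) : 1 - 1 / 4 / al k = al (k + 1) := by
  unfold al
  push_cast
  field_simp
  ring

namespace Dat

variable (D : Dat m c)
include D

theorem ne {i j : ι} (h : 3 ≤ m i j) : i ≠ j := by
  rintro rfl
  rw [D.mdiag] at h
  omega

theorem adj_symm {i j : ι} {k : ℕ} (h : k ≤ m i j) : k ≤ m j i := by rwa [D.msymm]

theorem Qf_add (x y : ι → ℝ) :
    Qf c (x + y) = Qf c x + Qf c y - 2 * ∑ i, ∑ j, x i * y j * c i j := by
  have h : ∑ i, ∑ j, y i * x j * c i j = ∑ i, ∑ j, x i * y j * c i j := by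
    rw [Finset.sum_comm]
    refine Finset.sum_congr rfl fun i _ => Finset.sum_congr rfl fun j _ => ?_
    rw [D.symm]; ring
  have h' : ∑ i, ∑ j, (x + y) i * (x + y) j * c i j = ∑ i, ∑ j, x i * x j * c i j +
      ∑ i, ∑ j, y i * y j * c i j + ∑ i, ∑ j, x i * y j * c i j + ∑ i, ∑ j, y i * x j * c i j := by
    simp only [← Finset.sum_add_distrib, Pi.add_apply]
    refine Finset.sum_congr rfl fun i _ => Finset.sum_congr rfl fun j _ => ?_
    ring
  unfold Qf
  rw [h', h]; ring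

omit D in
theorem Qf_smul (t : ℝ) (x : ι → ℝ) : Qf c (t • x) = t ^ 2 * Qf c x := by
  unfold Qf
  simp only [Pi.smul_apply, smul_eq_mul, mul_neg, Finset.mul_sum]
  congr 1
  refine Finset.sum_congr rfl fun i _ => Finset.sum_congr rfl fun j _ => ?_
  ring

theorem term_nn {x y : ι → ℝ} (hx : ∀ i, 0 ≤ x i) (hy : ∀ i, 0 ≤ y i)
    (hd : ∀ i, x i = 0 ∨ y i = 0) (i j : ι) : 0 ≤ x i * y j * c i j := by
  by_cases h : i = j
  · subst h
    rcases hd i with h | h <;> simp [h]
  · exact mul_nonneg (mul_nonneg (hx i) (hy j)) (D.nn i j h)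

theorem cross {x y : ι → ℝ} (hx : ∀ i, 0 ≤ x i) (hy : ∀ i, 0 ≤ y i)
    (hd : ∀ i, x i = 0 ∨ y i = 0) (F : Finset ι) (b : ι) :
    ∑ a ∈ F, x a * y b * c a b ≤ ∑ i, ∑ j, x i * y j * c i j := by
  refine le_trans (Finset.sum_le_sum fun a _ => ?_) (Finset.sum_le_sum_of_subset_of_nonneg
    (Finset.subset_univ F) fun i _ _ => Finset.sum_nonneg fun j _ => D.term_nn hx hy hd i j)
  exact Finset.single_le_sum (f := fun j => x a * y j * c a j)
    (fun j _ => D.term_nn hx hy hd a j) (Finset.mem_univ b)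

theorem one (v : ι) : Ld c v {v} 1 := by
  classical
  refine ⟨Pi.single v 1, fun i => ?_, fun i hi => ?_, by simp, ?_⟩
  · rw [Pi.single_apply]; split_ifs <;> norm_num
  · exact Pi.single_eq_of_ne hi _
  · unfold Qf
    simp [Pi.single_apply, D.diag]

theorem ld_pos {v : ι} {S : Set ι} {δ : ℝ} (h : Ld c v S δ) : 0 < δ := by
  obtain ⟨x, -, -, h2, h3⟩ := h
  refine (D.pos x ?_).trans_le h3
  rintro rfl
  exact zero_ne_one h2

theorem join {v w : ι} {S T : Set ι} {δ ε ρ : ℝ} (h : Ld c v S δ) (h' : Ld c w T ε)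
    (hd : ∀ z ∈ S, z ∉ T) (hρ : ρ ≤ c v w ^ 2) : Ld c v (S ∪ T) (δ - ρ / ε) := by
  have hε := D.ld_pos h'
  have hvw : v ≠ w := fun e => hd v h.mem (e ▸ h'.mem)
  have hv : v ∉ T := hd v h.mem
  obtain ⟨x, h0, h1, h2, h3⟩ := h
  obtain ⟨y, k0, k1, k2, k3⟩ := h'
  have hc := D.nn v w hvw
  have ht : 0 ≤ c v w / ε := div_nonneg hc hε.le
  refine ⟨x + (c v w / ε) • y, fun i => ?_, fun i hi => ?_, ?_, ?_⟩
  · exact add_nonneg (h0 i) (mul_nonneg ht (k0 i))
  · simp [h1 i fun h => hi (Or.inl h), k1 i fun h => hi (Or.inr h)]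
  · simp [h2, k1 v hv]
  · rw [D.Qf_add, Qf_smul]
    have := D.cross (y := (c v w / ε) • y) h0 (fun i => mul_nonneg ht (k0 i)) (fun i => by
      by_cases hi : i ∈ S
      · right; simp [k1 i (hd i hi)]
      · left; exact h1 i hi) {v} w
    simp only [Finset.sum_singleton, h2, Pi.smul_apply, k2, smul_eq_mul, mul_one, one_mul] at this ⊢
    have e1 : (c v w / ε) ^ 2 * Qf c y ≤ (c v w / ε) ^ 2 * ε :=
      mul_le_mul_of_nonneg_left k3 (sq_nonneg _)
    have e2 : (c v w / ε) ^ 2 * ε = c v w ^ 2 / ε := by field_simp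
    have e3 : c v w / ε * c v w = c v w ^ 2 / ε := by field_simp
    have e4 : ρ / ε ≤ c v w ^ 2 / ε := div_le_div_of_nonneg_right hρ hε.le
    linarith

theorem leaf {v w : ι} {S : Set ι} {δ ρ : ℝ} (h : Ld c v S δ) (hw : w ∉ S) (hρ : ρ ≤ c v w ^ 2) :
    Ld c v (insert w S) (δ - ρ) := by
  have := D.join h (D.one w) (fun z hz e => hw (Set.mem_singleton_iff.1 e ▸ hz)) hρ
  rw [div_one] at this
  exact this.mono (by intro z; simp) le_rfl

theorem step {v w : ι} {S : Set ι} {δ ρ : ℝ} (h : Ld c w S δ) (hv : v ∉ S) (hρ : ρ ≤ c v w ^ 2) :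
    Ld c v (insert v S) (1 - ρ / δ) :=
  (D.join (D.one v) h (fun z hz => by rw [Set.mem_singleton_iff.1 hz]; exact hv) hρ).mono
    (by intro z; simp) le_rfl

variable {u : ℕ → ι} {n : ℕ}

theorem left (P : Pth m u n) : ∀ k < n, Ld c (u k) (Seg u 0 (k + 1)) (al k) := by
  intro k
  induction k with
  | zero => exact fun _ => (D.one _).mono (by rintro _ rfl; exact ⟨0, by omega, by omega, rfl⟩)
              al_zero.ge
  | succ k ih =>
    intro hk
    refine (D.step (ih (by omega)) ?_ (D.c3 _ _ (D.adj_symm (P.adj k hk)))).mono ?_ (al_succ k).le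
    · rintro ⟨l, -, hl, e⟩
      have := P.inj l (by omega) _ hk e
      omega
    · rintro z (rfl | ⟨l, -, hl, e⟩)
      · exact ⟨k + 1, by omega, by omega, rfl⟩
      · exact ⟨l, by omega, by omega, e⟩

theorem right (P : Pth m u n) : ∀ j k, k + j + 1 = n → Ld c (u k) (Seg u k n) (al j) := by
  intro j
  induction j with
  | zero => exact fun k _ => (D.one _).mono (by rintro _ rfl; exact ⟨k, by omega, by omega, rfl⟩)
              al_zero.ge
  | succ j ih =>
    intro k hk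
    refine (D.step (ih (k + 1) (by omega)) ?_ (D.c3 _ _ (P.adj k (by omega)))).mono ?_ (al_succ j).le
    · rintro ⟨l, h, hl, e⟩
      have := P.inj l (by omega) _ (by omega) e
      omega
    · rintro z (rfl | ⟨l, h, hl, e⟩)
      · exact ⟨k, by omega, by omega, rfl⟩
      · exact ⟨l, by omega, by omega, e⟩

theorem half (P : Pth m u n) {i : ℕ} {S : Set ι} (hS : ∀ k, i < k → k < n → u k ∉ S)
    (h : Ld c (u i) S (1 / 2)) : ∀ j, i ≤ j → j < n → Ld c (u j) (S ∪ Seg u 0 (j + 1)) (1 / 2) := by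
  have : ∀ j, i ≤ j → j < n → Ld c (u j) (S ∪ Seg u (i + 1) (j + 1)) (1 / 2) := by
    intro j hj
    induction j, hj using Nat.le_induction with
    | base => exact fun _ => h.mono Set.subset_union_left le_rfl
    | succ k hk ih =>
      intro hn
      refine (D.step (ih (by omega)) ?_ (D.c3 _ _ (D.adj_symm (P.adj k hn)))).mono ?_ (by norm_num)
      · rintro (h | ⟨l, -, hl, e⟩)
        · exact hS _ (by omega) hn h
        · have := P.inj l (by omega) _ hn e
          omega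
      · rintro z (rfl | h | ⟨l, h, hl, e⟩)
        · exact Or.inr ⟨k + 1, by omega, by omega, rfl⟩
        · exact Or.inl h
        · exact Or.inr ⟨l, by omega, by omega, e⟩
  intro j hj hn
  refine (this j hj hn).mono ?_ le_rfl
  rintro z (h | ⟨l, h, hl, e⟩)
  · exact Or.inl h
  · exact Or.inr ⟨l, by omega, hl, e⟩

theorem c_half {i j : ι} (h : 3 ≤ m i j) : 1 / 2 ≤ c i j := by
  have h1 := D.c3 i j h
  have h2 := D.nn i j (D.ne h)
  nlinarith

theorem ones (P : Pth m u n) (i : ℕ) : ∀ j, i ≤ j → j < n → ∃ x : ι → ℝ, (∀ i, 0 ≤ x i) ∧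
    (∀ z, z ∉ Seg u i (j + 1) → x z = 0) ∧ x (u i) = 1 ∧ x (u j) = 1 ∧ Qf c x ≤ 1 := by
  intro j hj
  induction j, hj using Nat.le_induction with
  | base =>
    intro _
    obtain ⟨x, h0, h1, h2, h3⟩ := D.one (u i)
    exact ⟨x, h0, fun z hz => h1 z (by rintro rfl; exact hz ⟨i, le_rfl, by omega, rfl⟩), h2, h2, h3⟩
  | succ k hk ih =>
    intro hn
    obtain ⟨x, h0, h1, h2, h2', h3⟩ := ih (by omega)
    obtain ⟨y, k0, k1, k2, k3⟩ := D.one (u (k + 1))
    have hx : x (u (k + 1)) = 0 := h1 _ (by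
      rintro ⟨l, -, hl, e⟩
      have := P.inj l (by omega) _ hn e
      omega)
    refine ⟨x + y, fun z => add_nonneg (h0 z) (k0 z), fun z hz => ?_, ?_, by simp [hx, k2], ?_⟩
    · have e1 : x z = 0 := h1 z fun ⟨l, h, hl, e⟩ => hz ⟨l, h, by omega, e⟩
      have e2 : y z = 0 := k1 z (by rintro rfl; exact hz ⟨k + 1, by omega, by omega, rfl⟩)
      simp [e1, e2]
    · have : y (u i) = 0 := k1 _ fun e => by
        have := P.inj i (by omega) _ hn e
        omega
      simp [this, h2]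
    · have := D.cross h0 k0 (fun z => by
        by_cases hz : z = u (k + 1)
        · left; rw [hz, hx]
        · right; exact k1 z hz) {u k} (u (k + 1))
      rw [D.Qf_add]
      simp only [Finset.sum_singleton, h2', k2] at this
      have := D.c_half (P.adj k hn)
      linarith

/-- No cycles. -/
theorem nocyc (P : Pth m u n) {i j : ℕ} (hij : i < j) (hj : j < n) {z : ι}
    (hz : z ∉ Seg u i (j + 1)) (h1 : 3 ≤ m (u i) z) (h2 : 3 ≤ m (u j) z) : False := by
  classical
  obtain ⟨x, h0, hs, hi, hj', h3⟩ := D.ones P i j hij.le hj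
  obtain ⟨y, k0, k1, k2, k3⟩ := D.one z
  have hne : u i ≠ u j := fun e => by
    have := P.inj i (by omega) _ hj e
    omega
  have := D.cross h0 k0 (fun w => by
    by_cases hw : w = z
    · left; rw [hw, hs z hz]
    · right; exact k1 w hw) {u i, u j} z
  rw [Finset.sum_pair hne, hi, hj', k2] at this
  have hp := D.pos (x + y) (fun e => by
    have := congrFun e z
    simp [hs z hz, k2] at this)
  rw [D.Qf_add] at hp
  have := D.c_half h1
  have := D.c_half h2
  linarith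

/-- Paths are induced. -/
theorem far (P : Pth m u n) {i j : ℕ} (hij : i + 1 < j) (hj : j < n) : m (u i) (u j) = 2 := by
  have hne : u i ≠ u j := fun e => by
    have := P.inj i (by omega) _ hj e
    omega
  by_contra h
  obtain ⟨j, rfl⟩ : ∃ j', j = j' + 1 := ⟨j - 1, by omega⟩
  refine D.nocyc P (i := i) (j := j) (by omega) (by omega) (z := u (j + 1)) ?_ ?_ (P.adj j hj)
  · rintro ⟨l, -, hl, e⟩
    have := P.inj l (by omega) _ hj e
    omega
  · have := D.mem _ _ hne
    omega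

theorem rev (P : Pth m u n) : Pth m (fun i => u (n - 1 - i)) n where
  inj i hi j hj e := by
    have := P.inj _ (by omega) _ (by omega) e
    omega
  adj i hi := by
    have := P.adj (n - 1 - (i + 1)) (by omega)
    rw [show n - 1 - (i + 1) + 1 = n - 1 - i by omega] at this
    exact D.adj_symm this

omit D in
theorem cons (P : Pth m u n) {z : ι} (hz : z ∉ Seg u 0 n) (h : 3 ≤ m z (u 0)) :
    Pth m (fun i => Nat.casesOn i z u) (n + 1) where
  inj i hi j hj e := by
    rcases i with _ | i <;> rcases j with _ | j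
    · rfl
    · exact (hz ⟨j, by omega, by omega, e.symm⟩).elim
    · exact (hz ⟨i, by omega, by omega, e⟩).elim
    · have := P.inj i (by omega) j (by omega) e
      omega
  adj i hi := by
    rcases i with _ | i
    · exact h
    · exact P.adj i (by omega)

omit D in
theorem tail (P : Pth m u (n + 1)) : Pth m (fun i => u (i + 1)) n where
  inj i hi j hj e := by
    have := P.inj _ (by omega) _ (by omega) e
    omega
  adj i hi := P.adj (i + 1) (by omega)

omit D in
theorem le_card (P : Pth m u n) : n ≤ Fintype.card ι := by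
  have := Fintype.card_le_of_injective (fun i : Fin n => u i) fun i j e =>
    Fin.ext (P.inj _ i.2 _ j.2 e)
  simpa using this

end Dat

end Tits.Clas
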