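import Mathlib
import Cfsg.Agent.Lib.Tits.Defs
import Cfsg.Agent.Lib.Tits.Clas1

/-! The classification of connected positive definite Coxeter diagrams with labels `3, 4, ≥ 6`. -/

set_option autoImplicit false
set_option linter.unusedSectionVars false

namespace Tits.Clas

variable {ι : Type*} [Fintype ι] {m : ι → ι → ℕ} {c : ι → ι → ℝ}

theorem seg_rev (u : ℕ → ι) (n : ℕ) : Seg (fun i => u (n - 1 - i)) 0 n = Seg u 0 n := by
  ext z
  constructor
  · rintro ⟨k, -, hk, e⟩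
    exact ⟨n - 1 - k, by omega, by omega, e⟩
  · rintro ⟨k, -, hk, e⟩
    exact ⟨n - 1 - k, by omega, by omega, by
      simp only [show n - 1 - (n - 1 - k) = k by omega]; exact e⟩

theorem mkEquiv (N : ℕ) (g : ℕ → ι) (hinj : ∀ i < N, ∀ j < N, g i = g j → i = j)
    (hsurj : ∀ z, ∃ i < N, g i = z) : ∃ e : Fin N ≃ ι, ∀ i, e i = g i :=
  ⟨Equiv.ofBijective (fun i : Fin N => g i) ⟨fun i j e => Fin.ext (hinj _ i.2 _ j.2 e), fun z => by
    obtain ⟨i, hi, e⟩ := hsurj z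
    exact ⟨⟨i, hi⟩, e⟩⟩, fun _ => rfl⟩

namespace Dat

variable (D : Dat m c) {u : ℕ → ι} {n : ℕ}
include D

theorem edge_lt (P : Pth m u n) {k j : ℕ} (h : k + j + 2 = n) {ρ : ℝ}
    (hρ : ρ ≤ c (u k) (u (k + 1)) ^ 2) : ρ < al k * al j := by
  have := D.ld_pos (D.join (D.left P k (by omega)) (D.right P j (k + 1) (by omega)) (by
    rintro z ⟨l, -, hl, rfl⟩ ⟨l', h', hl', e⟩
    have := P.inj l' hl' l (by omega) e
    omega) hρ)
  rwa [sub_pos, div_lt_iff₀ (al_pos j)] at this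

theorem no6 (P : Pth m u n) (hn : 3 ≤ n) {k : ℕ} (hk : k + 1 < n) : ¬ 6 ≤ m (u k) (u (k + 1)) := by
  intro h
  obtain ⟨j, hj⟩ : ∃ j, k + j + 2 = n := ⟨n - 2 - k, by omega⟩
  have := D.edge_lt P hj (D.c6 _ _ h)
  have h1 := al_le_one k
  have h2 := al_le_one j
  have h3 := al_pos k
  have h4 := al_pos j
  by_cases h0 : k = 0
  · have := al_le j (by omega)
    nlinarith
  · have := al_le k (by omega)
    nlinarith

theorem four (P : Pth m u n) {k j : ℕ} (h : k + j + 2 = n) (h4 : 4 ≤ m (u k) (u (k + 1))) :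
    k = 0 ∨ j = 0 ∨ (k = 1 ∧ j = 1) := by
  have := D.edge_lt P h (D.c4 _ _ h4)
  unfold al at this
  rw [div_mul_div_comm, div_lt_div_iff₀ (by positivity) (by positivity)] at this
  have h2 : (k : ℝ) * j < 2 := by linarith
  have h2' : k * j < 2 := by exact_mod_cast h2
  rcases k with _ | _ | k
  · omega
  · omega
  · rcases j with _ | j
    · omega
    · nlinarith

theorem two4 (P : Pth m u n) {i j : ℕ} (hij : i < j) (hj : j + 1 < n)
    (h : 4 ≤ m (u i) (u (i + 1))) (h' : 4 ≤ m (u j) (u (j + 1))) : False := by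
  have h1 := D.leaf (D.one (u (i + 1))) (w := u i) (fun e => by
    have := P.inj _ (by omega) _ (by omega) e
    omega) (D.c4 _ _ (D.adj_symm h))
  have h2 := D.half P (i := i + 1) (S := Seg u 0 (i + 2)) (by
    rintro k hk hn ⟨l, -, hl, e⟩
    have := P.inj _ (by omega) _ hn e
    omega) (h1.mono (by
    rintro z (rfl | rfl)
    · exact ⟨i, by omega, by omega, rfl⟩
    · exact ⟨i + 1, by omega, by omega, rfl⟩) (by norm_num)) j hij (by omega)
  have := D.ld_pos (D.leaf h2 (w := u (j + 1)) (by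
    rintro (⟨l, -, hl, e⟩ | ⟨l, -, hl, e⟩) <;>
    · have := P.inj _ (by omega) _ hj e
      omega) (D.c4 _ _ h'))
  norm_num at this

theorem pathM (P : Pth m u n) {i j : ℕ} (hi : i < n) (hj : j < n) : m (u i) (u j) =
    if i = j then 1 else if i + 1 = j then m (u i) (u (i + 1)) else
      if j + 1 = i then m (u j) (u (j + 1)) else 2 := by
  split_ifs with h1 h2 h3
  · rw [h1, D.mdiag]
  · rw [h2]
  · rw [h3, D.msymm]
  · rcases lt_or_gt_of_ne h1 with h | h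
    · exact D.far P (by omega) hj
    · rw [D.msymm]; exact D.far P (by omega) hi

theorem lab (P : Pth m u n) {k : ℕ} (hk : k + 1 < n) (h : ¬ 4 ≤ m (u k) (u (k + 1))) :
    m (u k) (u (k + 1)) = 3 := by
  have := P.adj k hk
  omega

theorem exA (P : Pth m u n) (hc : ∀ z, z ∈ Seg u 0 n)
    (h : ∀ k, k + 1 < n → ¬ 4 ≤ m (u k) (u (k + 1))) :
    ∃ e : Fin n ≃ ι, ∀ i j, m (e i) (e j) = mA n i j := by
  obtain ⟨e, he⟩ := mkEquiv n u P.inj fun z => by
    obtain ⟨k, -, hk, e⟩ := hc z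
    exact ⟨k, hk, e⟩
  refine ⟨e, fun i j => ?_⟩
  have hi := i.2
  have hj := j.2
  have h1 := fun hk => D.lab P hk (h i hk)
  have h2 := fun hk => D.lab P hk (h j hk)
  rw [he, he, D.pathM P hi hj, mA]
  simp only [Fin.ext_iff]
  split_ifs <;> omega

theorem exB {k : ℕ} (P : Pth m u (k + 3)) (hc : ∀ z, z ∈ Seg u 0 (k + 3))
    (h : 4 ≤ m (u (k + 1)) (u (k + 2))) :
    ∃ e : Fin (k + 3) ≃ ι, ∀ i j, m (e i) (e j) = mB (k + 3) i j := by
  obtain ⟨e, he⟩ := mkEquiv _ u P.inj fun z => by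
    obtain ⟨k, -, hk, e⟩ := hc z
    exact ⟨k, hk, e⟩
  have h3 : ∀ l, l < k + 1 → m (u l) (u (l + 1)) = 3 := fun l hl =>
    D.lab P (by omega) fun h' => D.two4 P hl (by omega) h' h
  have h4 : ∀ l, l = k + 1 → m (u l) (u (l + 1)) = 4 := by
    rintro _ rfl
    have h6 := D.no6 P (by omega) (k := k + 1) (by omega)
    have := D.mem _ _ (D.ne (P.adj (k + 1) (by omega)))
    rw [show k + 1 + 1 = k + 2 from rfl] at *
    omega
  refine ⟨e, fun i j => ?_⟩
  have hi := i.2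
  have hj := j.2
  have h1 := h3 i
  have h2 := h3 j
  have h1' := h4 i
  have h2' := h4 j
  rw [he, he, D.pathM P hi hj, mB]
  simp only [Fin.ext_iff]
  split_ifs <;> omega

theorem exF (P : Pth m u 4) (hc : ∀ z, z ∈ Seg u 0 4) (h : 4 ≤ m (u 1) (u 2)) :
    ∃ e : Fin 4 ≃ ι, ∀ i j, m (e i) (e j) = mF i j := by
  obtain ⟨e, he⟩ := mkEquiv _ u P.inj fun z => by
    obtain ⟨k, -, hk, e⟩ := hc z
    exact ⟨k, hk, e⟩
  have h0 : m (u 0) (u 1) = 3 :=
    D.lab P (k := 0) (by omega) fun h' => D.two4 P (j := 1) (by omega) (by omega) h' h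
  have h2 : m (u 2) (u 3) = 3 :=
    D.lab P (k := 2) (by omega) fun h' => D.two4 P (i := 1) (by omega) (by omega) h h'
  have h1 : m (u 1) (u 2) = 4 := by
    have h6 := D.no6 P (by omega) (k := 1) (by omega)
    have := D.mem _ _ (D.ne (P.adj 1 (by omega)))
    rw [show 1 + 1 = 2 from rfl] at *
    omega
  refine ⟨e, fun i j => ?_⟩
  rw [he, he, D.pathM P i.2 j.2]
  fin_cases i <;> fin_cases j <;> simp [mF, h0, h1, h2]

section branch

variable (P : Pth m u n) {v : ι} (hv : v ∉ Seg u 0 n) {p : ℕ} (hp : 3 ≤ m (u p) v)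
include P hv hp

theorem inner (hmax : ∀ u', ¬ Pth m u' (n + 1)) (hpn : p < n) : 0 < p ∧ p + 1 < n := by
  constructor
  · by_contra h
    obtain rfl : p = 0 := by omega
    exact hmax _ (cons P hv (D.adj_symm hp))
  · by_contra h
    refine hmax _ (cons (D.rev P) (z := v) (by rwa [seg_rev]) ?_)
    rw [show n - 1 - 0 = p by omega]
    exact D.adj_symm hp

theorem br_half (h0 : 0 < p) {k : ℕ} (hk : p ≤ k) (hn : k < n) :
    Ld c (u k) (insert v (Seg u 0 (k + 1))) (1 / 2) := by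
  obtain ⟨p, rfl⟩ : ∃ q, p = q + 1 := ⟨p - 1, by omega⟩
  have h1 := D.leaf (D.one (u (p + 1))) (w := u p) (fun e => by
    have := P.inj _ (by omega) _ (by omega) e
    omega) (D.c3 _ _ (D.adj_symm (P.adj p (by omega))))
  have h2 := D.leaf h1 (w := v) (by
    rintro (rfl | rfl)
    · exact hv ⟨p, by omega, by omega, rfl⟩
    · exact hv ⟨p + 1, by omega, by omega, rfl⟩) (D.c3 _ _ hp)
  refine (D.half P (i := p + 1) (S := insert v (Seg u 0 (p + 2))) ?_ (h2.mono ?_ (by norm_num))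
    k hk hn).mono ?_ le_rfl
  · rintro l hl hl' (rfl | ⟨l', -, hl'', e⟩)
    · exact hv ⟨l, by omega, hl', rfl⟩
    · have := P.inj _ (by omega) _ hl' e
      omega
  · rintro z (rfl | rfl | rfl)
    · exact Or.inl rfl
    · exact Or.inr ⟨p, by omega, by omega, rfl⟩
    · exact Or.inr ⟨p + 1, by omega, by omega, rfl⟩
  · rintro z ((rfl | ⟨l, -, hl, e⟩) | ⟨l, -, hl, e⟩)
    · exact Or.inl rfl
    · exact Or.inr ⟨l, by omega, by omega, e⟩
    · exact Or.inr ⟨l, by omega, by omega, e⟩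

theorem br_next (h0 : 0 < p) {k : ℕ} (hk : p ≤ k) (hn : k + 1 < n) {ρ : ℝ}
    (hρ : ρ ≤ c (u k) (u (k + 1)) ^ 2) :
    Ld c (u k) (insert v (Seg u 0 n)) (1 / 2 - ρ) := by
  refine (D.leaf (D.br_half P hv hp h0 hk (by omega)) (w := u (k + 1)) ?_ hρ).mono ?_ le_rfl
  · rintro (rfl | ⟨l, -, hl, e⟩)
    · exact hv ⟨k + 1, by omega, hn, rfl⟩
    · have := P.inj _ (by omega) _ hn e
      omega
  · rintro z (rfl | rfl | ⟨l, -, hl, e⟩)
    · exact Or.inr ⟨k + 1, by omega, hn, rfl⟩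
    · exact Or.inl rfl
    · exact Or.inr ⟨l, by omega, by omega, e⟩

theorem br_right (h0 : 0 < p) {k : ℕ} (hk : p ≤ k) (hn : k + 1 < n) :
    ¬ 4 ≤ m (u k) (u (k + 1)) := fun h => by
  have := D.ld_pos (D.br_next P hv hp h0 hk hn (D.c4 _ _ h))
  norm_num at this

theorem br_two (h0 : 0 < p) {q : ℕ} (hq : p ≤ q) (hn : q + 1 < n) {w : ι} (hw : w ∉ Seg u 0 n)
    (hwv : w ≠ v) (h : 3 ≤ m (u q) w) : False := by
  have := D.ld_pos (D.leaf (D.br_next P hv hp h0 hq hn (D.c3 _ _ (P.adj q hn))) (w := w) (by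
    rintro (h | h)
    · exact hwv h
    · exact hw h) (D.c3 _ _ h))
  norm_num at this

omit hv hp in
theorem arms {a b : ℕ} (h : a + b + 3 = n) :
    Ld c (u (a + 1)) (Seg u 0 n) (1 - 1 / 4 / al a - 1 / 4 / al b) := by
  have h1 := D.step (D.left P a (by omega)) (v := u (a + 1)) (by
    rintro ⟨l, -, hl, e⟩
    have := P.inj _ (by omega) _ (by omega) e
    omega) (D.c3 _ _ (D.adj_symm (P.adj a (by omega))))
  refine (D.join h1 (D.right P b (a + 2) (by omega)) ?_ (D.c3 _ _ (P.adj (a + 1) (by omega)))).mono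
    ?_ le_rfl
  · rintro z (rfl | ⟨l, -, hl, rfl⟩) ⟨l', h', hl', e⟩ <;>
    · have := P.inj _ hl' _ (by omega) e
      omega
  · rintro z ((rfl | ⟨l, -, hl, e⟩) | ⟨l, -, hl, e⟩)
    · exact ⟨a + 1, by omega, by omega, rfl⟩
    · exact ⟨l, by omega, by omega, e⟩
    · exact ⟨l, by omega, by omega, e⟩

theorem br_v (h0 : 0 < p) (hn : p + 1 < n) : m (u p) v = 3 := by
  by_contra h
  obtain ⟨a, rfl⟩ : ∃ q, p = q + 1 := ⟨p - 1, by omega⟩
  obtain ⟨b, hb⟩ : ∃ b, a + b + 3 = n := ⟨n - 3 - a, by omega⟩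
  have := D.ld_pos (D.leaf (D.arms P hb) hv (D.c4 _ _ (by omega)))
  have h1 : (1 : ℝ) / 4 ≤ 1 / 4 / al a := by
    rw [le_div_iff₀ (al_pos a)]; have := al_le_one a; linarith
  have h2 : (1 : ℝ) / 4 ≤ 1 / 4 / al b := by
    rw [le_div_iff₀ (al_pos b)]; have := al_le_one b; linarith
  linarith

theorem br_E6 (h0 : 1 < p) (hn : p + 2 < n) {w : ι} (hw : w ∉ Seg u 0 n) (h : 3 ≤ m v w) :
    False := by
  obtain ⟨a, rfl⟩ : ∃ q, p = q + 1 := ⟨p - 1, by omega⟩
  obtain ⟨b, hb⟩ : ∃ b, a + b + 3 = n := ⟨n - 3 - a, by omega⟩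
  have h' := D.leaf (D.one v) (w := w) (D.ne h).symm (D.c3 _ _ h)
  have := D.ld_pos (D.join (D.arms P hb) h' (by
    rintro z hz (rfl | rfl)
    · exact hw hz
    · exact hv hz) (D.c3 _ _ hp))
  have h1 : (1 : ℝ) / 3 ≤ 1 / 4 / al a := by
    rw [le_div_iff₀ (al_pos a)]; have := al_le a (by omega); linarith
  have h2 : (1 : ℝ) / 3 ≤ 1 / 4 / al b := by
    rw [le_div_iff₀ (al_pos b)]; have := al_le b (by omega); linarith
  norm_num at this h1 h2
  linarith

theorem br_ineq {a b : ℕ} (ha : p = a + 1) (h : a + b + 3 = n) : a * b < 4 := by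
  subst ha
  have := D.ld_pos (D.leaf (D.arms P h) hv (D.c3 _ _ hp))
  have e : 1 - 1 / 4 / al a - 1 / 4 / al b - 1 / 4 = (4 - a * b) / (4 * (a + 2) * (b + 2)) := by
    unfold al
    field_simp
    ring
  rw [e, div_pos_iff_of_pos_right (by positivity), sub_pos] at this
  exact_mod_cast this

theorem br_end (hmax : ∀ u', ¬ Pth m u' (n + 1)) (hpn : p < n) {w : ι} (hw : w ∉ Seg u 0 n)
    (h : 3 ≤ m v w) : 1 < p := by
  have h0 := D.inner P hv hp hmax hpn
  by_contra h1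
  obtain rfl : p = 1 := by omega
  obtain ⟨n, rfl⟩ : ∃ q, n = q + 1 := ⟨n - 1, by omega⟩
  have P1 := cons (tail P) (z := v) (fun ⟨l, _, hl, e⟩ => hv ⟨l + 1, by omega, by omega, e⟩)
    (D.adj_symm hp)
  refine hmax _ (cons P1 (z := w) ?_ (D.adj_symm h))
  rintro ⟨l, -, hl, e⟩
  rcases l with _ | l
  · exact D.ne h e
  · exact hw ⟨l + 1, by omega, by omega, e⟩

theorem br_all (hmax : ∀ u', ¬ Pth m u' (n + 1)) (hpn : p < n) :
    (∀ z, z ∈ Seg u 0 n ∨ z = v) ∧ (∀ k, k + 1 < n → m (u k) (u (k + 1)) = 3) ∧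
      ∀ k < n, m (u k) v = if k = p then 3 else 2 := by
  obtain ⟨h0, h1⟩ := D.inner P hv hp hmax hpn
  have hv' : v ∉ Seg (fun i => u (n - 1 - i)) 0 n := by rwa [seg_rev]
  have hp' : 3 ≤ m ((fun i => u (n - 1 - i)) (n - 1 - p)) v := by
    simpa only [show n - 1 - (n - 1 - p) = p by omega] using hp
  refine ⟨?_, fun k hk => D.lab P hk ?_, fun k hk => ?_⟩
  · by_contra hz
    obtain ⟨i, hi, w, hw, h⟩ := D.conn (insert v (Seg u 0 n)) ⟨v, Or.inl rfl⟩ (by
      intro e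
      refine hz fun z => ?_
      have : z ∈ insert v (Seg u 0 n) := e ▸ Set.mem_univ z
      exact this.symm)
    have hw1 : w ≠ v := fun e => hw (Or.inl e)
    have hw2 : w ∉ Seg u 0 n := fun e => hw (Or.inr e)
    rcases hi with rfl | ⟨q, -, hq, rfl⟩
    · have h2 := D.br_end P hv hp hmax hpn hw2 h
      have h3 := D.br_end (D.rev P) hv' hp' hmax (by omega) (w := w) (by rwa [seg_rev]) h
      exact D.br_E6 P hv hp h2 (by omega) hw2 h
    · obtain ⟨k0, k1⟩ := D.inner P hw2 h hmax hq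
      rcases le_total p q with hpq | hpq
      · exact D.br_two P hv hp h0 hpq k1 hw2 hw1 h
      · exact D.br_two P hw2 h k0 hpq h1 hv hw1.symm hp
  · by_cases hpk : p ≤ k
    · exact D.br_right P hv hp h0 hpk hk
    · have := D.br_right (D.rev P) hv' hp' (by omega) (k := n - 2 - k) (by omega) (by omega)
      simp only [show n - 1 - (n - 2 - k) = k + 1 by omega,
        show n - 1 - (n - 2 - k + 1) = k by omega] at this
      rwa [D.msymm]
  · split_ifs with hkp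
    · rw [hkp]; exact D.br_v P hv hp h0 h1
    · have hne : u k ≠ v := fun e => hv ⟨k, by omega, hk, e⟩
      have := D.mem _ _ hne
      by_contra h2
      rcases lt_or_gt_of_ne hkp with h | h
      · exact D.nocyc P h hpn (fun ⟨l, _, hl, e⟩ => hv ⟨l, by omega, by omega, e⟩) (by omega) hp
      · exact D.nocyc P h hk (fun ⟨l, _, hl, e⟩ => hv ⟨l, by omega, by omega, e⟩) hp (by omega)

theorem br_g (hmax : ∀ u', ¬ Pth m u' (n + 1)) (hpn : p < n) : ∃ g : ℕ → ι,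
    (∀ i < n + 1, ∀ j < n + 1, g i = g j → i = j) ∧ (∀ z, ∃ i < n + 1, g i = z) ∧
    ∀ i < n + 1, ∀ j < n + 1, m (g i) (g j) = if i = j then 1 else if i = n then
      (if j = p then 3 else 2) else if j = n then (if i = p then 3 else 2) else
      if i + 1 = j ∨ j + 1 = i then 3 else 2 := by
  obtain ⟨h1, h2, h3⟩ := D.br_all P hv hp hmax hpn
  refine ⟨fun i => if i < n then u i else v, fun i hi j hj e => ?_, fun z => ?_,
    fun i hi j hj => ?_⟩
  · simp only at e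
    split_ifs at e with k1 k2 k2
    · exact P.inj _ k1 _ k2 e
    · exact (hv ⟨i, by omega, k1, e⟩).elim
    · exact (hv ⟨j, by omega, k2, e.symm⟩).elim
    · omega
  · rcases h1 z with ⟨k, -, hk, e⟩ | rfl
    · exact ⟨k, by omega, by simp [hk, e]⟩
    · exact ⟨n, by omega, by simp⟩
  · by_cases k1 : i < n <;> by_cases k2 : j < n <;> simp only [k1, k2, if_true, if_false]
    · have := h2 i
      have := h2 j
      rw [D.pathM P k1 k2]
      split_ifs <;> omega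
    · rw [h3 i k1]
      split_ifs <;> omega
    · rw [D.msymm, h3 j k2]
      split_ifs <;> omega
    · rw [D.mdiag, if_pos (by omega)]

theorem exD (hmax : ∀ u', ¬ Pth m u' (n + 1)) (hpn : p + 2 = n) :
    ∃ e : Fin (n + 1) ≃ ι, ∀ i j, m (e i) (e j) = mD (n + 1) i j := by
  obtain ⟨g, h1, h2, h3⟩ := D.br_g P hv hp hmax (by omega)
  obtain ⟨e, he⟩ := mkEquiv _ g h1 h2
  refine ⟨e, fun i j => ?_⟩
  rw [he, he, h3 _ i.2 _ j.2, mD]
  simp only [Fin.ext_iff]
  split_ifs <;> omega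

theorem exE (hmax : ∀ u', ¬ Pth m u' (n + 1)) (hp2 : p = 2) (hn : 3 ≤ n) :
    ∃ e : Fin (n + 1) ≃ ι, ∀ i j, m (e i) (e j) = mE (n + 1) i j := by
  obtain ⟨g, h1, h2, h3⟩ := D.br_g P hv hp hmax (by omega)
  obtain ⟨π, hπ⟩ : ∃ π : ℕ → ℕ, ∀ i, (i = 0 ∧ π i = 0) ∨ (i = 1 ∧ π i = n) ∨ (2 ≤ i ∧ π i + 1 = i) :=
    ⟨fun i => if i = 0 then 0 else if i = 1 then n else i - 1, fun i => by
      simp only
      split_ifs <;> omega⟩
  obtain ⟨e, he⟩ := mkEquiv (n + 1) (fun i => g (π i))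
    (fun i hi j hj e => by
      have := hπ i
      have := hπ j
      have := h1 _ (by omega) _ (by omega) e
      omega)
    (fun z => by
      obtain ⟨i, hi, rfl⟩ := h2 z
      obtain ⟨k, hk⟩ : ∃ k, k < n + 1 ∧ π k = i := by
        by_cases h0 : i = 0
        · have := hπ 0
          exact ⟨0, by omega⟩
        by_cases h1 : i = n
        · have := hπ 1
          exact ⟨1, by omega⟩
        · have := hπ (i + 1)
          exact ⟨i + 1, by omega⟩
      exact ⟨k, hk.1, by rw [hk.2]⟩)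
  refine ⟨e, fun i j => ?_⟩
  have hi := i.2
  have hj := j.2
  have := hπ i
  have := hπ j
  rw [he, he, h3 _ (by omega) _ (by omega), mE]
  simp only [Fin.ext_iff]
  split_ifs <;> omega

end branch

theorem main (h3 : 3 ≤ Fintype.card ι) :
    (∃ (n : ℕ) (m' : Fin n → Fin n → ℕ) (e : Fin n ≃ ι), SL n m' ∧ ∀ i j, m (e i) (e j) = m' i j) ∨
    (∃ (k : ℕ) (e : Fin (k + 3) ≃ ι), ∀ i j, m (e i) (e j) = mB (k + 3) i j) ∨
    ∃ e : Fin 4 ≃ ι, ∀ i j, m (e i) (e j) = mF i j := by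
  classical
  obtain ⟨i0⟩ : Nonempty ι := Fintype.card_pos_iff.1 (by omega)
  have h1 : ∃ u, Pth m u 1 := ⟨fun _ => i0, fun i _ j _ _ => by omega, fun i _ => by omega⟩
  obtain ⟨n, hn1, ⟨u, P⟩, hmax⟩ : ∃ n, 1 ≤ n ∧ (∃ u, Pth m u n) ∧ ∀ u', ¬ Pth m u' (n + 1) :=
    ⟨Nat.findGreatest (fun n => ∃ u, Pth m u n) (Fintype.card ι),
      Nat.le_findGreatest (by omega) h1,
      Nat.findGreatest_spec (P := fun n => ∃ u, Pth m u n) (m := 1) (by omega) h1,
      fun u' P' => Nat.findGreatest_is_greatest (P := fun n => ∃ u, Pth m u n) (Nat.lt_succ_self _)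
        (le_card P') ⟨u', P'⟩⟩
  by_cases hc : ∀ z, z ∈ Seg u 0 n
  · have hn : 3 ≤ n := by
      obtain ⟨e, -⟩ := mkEquiv n u P.inj fun z => by
        obtain ⟨k, -, hk, e⟩ := hc z
        exact ⟨k, hk, e⟩
      have := Fintype.card_congr e
      simp only [Fintype.card_fin] at this
      omega
    by_cases h : ∀ k, k + 1 < n → ¬ 4 ≤ m (u k) (u (k + 1))
    · obtain ⟨e, he⟩ := D.exA P hc h
      exact Or.inl ⟨n, _, e, Or.inl ⟨hn, rfl⟩, he⟩
    · push Not at h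
      obtain ⟨k, hk, h4⟩ := h
      obtain ⟨j, hj⟩ : ∃ j, k + j + 2 = n := ⟨n - 2 - k, by omega⟩
      obtain ⟨l, rfl⟩ : ∃ l, n = l + 3 := ⟨n - 3, by omega⟩
      rcases D.four P hj h4 with rfl | rfl | ⟨rfl, rfl⟩
      · refine Or.inr (Or.inl ⟨l, D.exB (D.rev P) (by rwa [seg_rev]) ?_⟩)
        simp only [show l + 3 - 1 - (l + 1) = 1 by omega, show l + 3 - 1 - (l + 2) = 0 by omega]
        exact D.adj_symm h4
      · obtain rfl : k = l + 1 := by omega
        exact Or.inr (Or.inl ⟨l, D.exB P hc h4⟩)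
      · obtain rfl : l = 1 := by omega
        exact Or.inr (Or.inr (D.exF P hc h4))
  · obtain ⟨_, ⟨p, -, hpn, rfl⟩, v, hv, hp⟩ := D.conn (Seg u 0 n) ⟨u 0, 0, le_rfl, hn1, rfl⟩
      fun e => hc fun z => e ▸ Set.mem_univ z
    obtain ⟨h0, h1⟩ := D.inner P hv hp hmax hpn
    have hv' : v ∉ Seg (fun i => u (n - 1 - i)) 0 n := by rwa [seg_rev]
    have hp' : 3 ≤ m ((fun i => u (n - 1 - i)) (n - 1 - p)) v := by
      simpa only [show n - 1 - (n - 1 - p) = p by omega] using hp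
    obtain ⟨a, ha⟩ : ∃ a, p = a + 1 := ⟨p - 1, by omega⟩
    obtain ⟨b, hb⟩ : ∃ b, a + b + 3 = n := ⟨n - 3 - a, by omega⟩
    have hab := D.br_ineq P hv hp ha hb
    left
    by_cases b0 : b = 0
    · obtain ⟨e, he⟩ := D.exD P hv hp hmax (by omega)
      exact ⟨_, _, e, Or.inr (Or.inl ⟨by omega, rfl⟩), he⟩
    by_cases a0 : a = 0
    · obtain ⟨e, he⟩ := D.exD (D.rev P) hv' hp' hmax (by omega)
      exact ⟨_, _, e, Or.inr (Or.inl ⟨by omega, rfl⟩), he⟩
    by_cases a1 : a = 1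
    · subst a1
      obtain ⟨e, he⟩ := D.exE P hv hp hmax ha (by omega)
      exact ⟨_, _, e, Or.inr (Or.inr ⟨by omega, by omega, rfl⟩), he⟩
    · obtain rfl : b = 1 := by
        by_contra b1
        have : 2 * 2 ≤ a * b := Nat.mul_le_mul (by omega) (by omega)
        omega
      obtain ⟨e, he⟩ := D.exE (D.rev P) hv' hp' hmax (by omega) (by omega)
      exact ⟨_, _, e, Or.inr (Or.inr ⟨by omega, by omega, rfl⟩), he⟩

end Dat

end Tits.Clas
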