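import Mathlib
import Cfsg.Agent.Lib.Tits.Defs
import Cfsg.Agent.Lib.BN.Words
import Cfsg.Agent.Lib.Tits.Clas2

set_option autoImplicit false
set_option linter.unusedSimpArgs false

open scoped commutatorElement

namespace Tits.Clas

open Polynomial.Chebyshev

/-- The cosine of `π / k` for the labels that occur. -/
noncomputable def cv (k : ℕ) : ℝ :=
  if k = 1 then -1 else if k = 2 then 0 else if k = 3 then 1 / 2 else if k = 4 then √2 / 2
    else if k = 6 then √3 / 2 else √(2 + √2) / 2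

theorem eqns_clas : True := by
  have := @cv.eq_1
  trivial

theorem cv1 : cv 1 = -1 := by simp [cv]
theorem cv2 : cv 2 = 0 := by simp [cv]
theorem cv3 : cv 3 ^ 2 = 1 / 4 := by norm_num [cv]
theorem cv4 : cv 4 ^ 2 = 1 / 2 := by norm_num [cv, div_pow]
theorem cv6 : cv 6 ^ 2 = 3 / 4 := by norm_num [cv, div_pow]
theorem cv8 : cv 8 ^ 2 = (2 + √2) / 4 := by
  have : (0 : ℝ) ≤ 2 + √2 := by positivity
  norm_num [cv, div_pow, Real.sq_sqrt this]

theorem cv_nn {k : ℕ} (h : k ≠ 1) : 0 ≤ cv k := by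
  unfold cv
  rw [if_neg h]
  split_ifs <;> positivity

theorem S2 (t : ℝ) : (S ℝ 2).eval t = t ^ 2 - 1 := by simp [S_two]

theorem S3 (t : ℝ) : (S ℝ 3).eval t = t ^ 3 - 2 * t := by
  have := S_add_two ℝ 1
  norm_num at this
  rw [this]
  simp [S_two]
  ring

theorem refl_pow {M : Type*} [AddCommGroup M] [Module ℝ M] {x y : M} {f g : Module.Dual ℝ M}
    (hf : f x = 2) (hg : g y = 2) {k : ℕ} (hk : k ∈ ({2, 3, 4, 6, 8} : Set ℕ))
    (h1 : f y = -2 * cv k) (h2 : g x = -2 * cv k) :
    (Module.reflection hf * Module.reflection hg) ^ k = 1 := by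
  have ht : f y * g x - 2 = 4 * cv k ^ 2 - 2 := by rw [h1, h2]; ring
  ext z
  rw [Module.reflection_mul_reflection_pow_apply hf hg k z _ ht.symm]
  simp only [Set.mem_insert_iff, Set.mem_singleton_iff] at hk
  rcases hk with rfl | rfl | rfl | rfl | rfl
  · rw [h1, h2, cv2]
    norm_num
    module
  · rw [cv3]
    norm_num
  · rw [cv4]
    norm_num
  · rw [cv6]
    norm_num [S2]
  · have : (S ℝ 3).eval (4 * cv 8 ^ 2 - 2) = 0 := by
      rw [S3, cv8]
      have := Real.sq_sqrt (show (0 : ℝ) ≤ 2 by norm_num)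
      grind
    norm_num [this]

theorem posdef {W ι : Type*} [Group W] [Finite W] [Fintype ι] {s : ι → W} (hs : H13.InvGen s)
    (hE : H13.Exchange s) (hinj : Function.Injective s)
    (hm : ∀ i j, i ≠ j → orderOf (s i * s j) ∈ ({2, 3, 4, 6, 8} : Set ℕ)) :
    ∃ d : ι → ℝ, (∀ i, 0 < d i) ∧
      (∀ i j, d i * cv (orderOf (s i * s j)) = d j * cv (orderOf (s i * s j))) ∧
      ∀ x : ι → ℝ, x ≠ 0 → 0 < -∑ i, ∑ j, d i * (x i * x j * cv (orderOf (s i * s j))) := by
  classical
  have := Fintype.ofFinite W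
  obtain ⟨cs, hcs⟩ := hs.exists_coxeterSystem hE hinj
  have hsym : ∀ i j, orderOf (s j * s i) = orderOf (s i * s j) := fun i j => by
    rw [← orderOf_inv, mul_inv_rev, hs.inv_eq, hs.inv_eq]
  obtain ⟨f, hf⟩ : ∃ f : ι → Module.Dual ℝ (ι → ℝ), ∀ i x,
      f i x = -2 * ∑ j, cv (orderOf (s i * s j)) * x j :=
    ⟨fun i => (-2 : ℝ) • ∑ j, cv (orderOf (s i * s j)) • LinearMap.proj j, fun i x => by simp⟩
  have hfe : ∀ i j, f i (Pi.single j 1) = -2 * cv (orderOf (s i * s j)) := fun i j => by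
    simp [hf, Pi.single_apply]
  have h2 : ∀ i, f i (Pi.single i 1) = 2 := fun i => by simp [hfe, hs.sq, cv1]
  have hl : (H13.coxMatrix hs hinj).IsLiftable fun i => Module.reflection (h2 i) := by
    intro i j
    change _ ^ orderOf (s i * s j) = 1
    by_cases h : i = j
    · subst h
      rw [hs.sq, orderOf_one, pow_one]
      ext1 z
      exact Module.involutive_reflection (h2 i) z
    · exact refl_pow _ _ (hm i j h) (hfe i j) (by rw [hfe, hsym])
  obtain ⟨ρ, hρ⟩ : ∃ ρ : W →* ((ι → ℝ) ≃ₗ[ℝ] (ι → ℝ)), ∀ i, ρ (s i) = Module.reflection (h2 i) :=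
    ⟨cs.lift ⟨_, hl⟩, fun i => by rw [← hcs, cs.lift_apply_simple]⟩
  obtain ⟨B, hB⟩ : ∃ B : (ι → ℝ) →ₗ[ℝ] (ι → ℝ) →ₗ[ℝ] ℝ, ∀ x y, B x y = ∑ w, ρ w x ⬝ᵥ ρ w y :=
    ⟨∑ w, (dotProductBilin ℝ ℝ).compl₁₂ (ρ w).toLinearMap (ρ w).toLinearMap, fun x y => by
      simp [LinearMap.sum_apply]⟩
  have hpos : ∀ x, x ≠ 0 → 0 < B x x := fun x hx => by
    rw [hB]
    refine Finset.sum_pos (fun w _ => ?_) Finset.univ_nonempty
    refine lt_of_le_of_ne (Finset.sum_nonneg fun i _ => mul_self_nonneg _) fun e => hx ?_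
    simpa using dotProduct_self_eq_zero.1 e.symm
  have hinv : ∀ i x y, B (ρ (s i) x) (ρ (s i) y) = B x y := fun i x y => by
    rw [hB, hB]
    exact Fintype.sum_equiv (Equiv.mulRight (s i)) _ _ fun w => by simp
  have key : ∀ i y, 2 * B (Pi.single i 1) y = f i y * B (Pi.single i 1) (Pi.single i 1) :=
    fun i y => by
      have := hinv i (Pi.single i 1) y
      rw [hρ, Module.reflection_apply_self, Module.reflection_apply] at this
      simp only [map_neg, map_sub, map_smul, LinearMap.neg_apply, smul_eq_mul] at this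
      linarith
  refine ⟨fun i => B (Pi.single i 1) (Pi.single i 1), fun i => hpos _ (by simp), fun i j => ?_,
    fun x hx => ?_⟩
  · have h1 := key i (Pi.single j 1)
    have h2 := key j (Pi.single i 1)
    have h3 : B (Pi.single i 1) (Pi.single j 1) = B (Pi.single j 1) (Pi.single i 1) := by
      simp only [hB, dotProduct_comm]
    rw [hfe] at h1 h2
    rw [hsym] at h2
    linarith
  · refine (hpos x hx).trans_eq ?_
    have hx' : x = ∑ i, x i • Pi.single i (1 : ℝ) := by
      ext j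
      simp [Finset.sum_apply, Pi.single_apply]
    calc B x x = B (∑ i, x i • Pi.single i (1 : ℝ)) x := by rw [← hx']
      _ = ∑ i, x i * B (Pi.single i 1) x := by simp [LinearMap.sum_apply]
      _ = _ := by
        rw [← Finset.sum_neg_distrib]
        refine Finset.sum_congr rfl fun i _ => ?_
        have := key i x
        rw [hf] at this
        rw [← Finset.mul_sum]
        have e : ∑ j, x i * x j * cv (orderOf (s i * s j)) =
            x i * ∑ j, cv (orderOf (s i * s j)) * x j := by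
          rw [Finset.mul_sum]
          exact Finset.sum_congr rfl fun j _ => by ring
        rw [e]
        linear_combination (x i / 2) * this

end Tits.Clas

namespace Tits

open H63.St Cfsg

/-- The finite irreducible crystallographic Coxeter groups of rank at least three. -/
theorem classify {W ι : Type*} [Group W] [Finite W] [Finite ι] {s : ι → W} (hs : H13.InvGen s)
    (hE : H13.Exchange s) (hinj : Function.Injective s) (h3 : 3 ≤ Nat.card ι)
    (hc : ∀ J : Set ι, J.Nonempty → J ≠ Set.univ → ∃ i ∈ J, ∃ j ∉ J, s i * s j ≠ s j * s i)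
    (hm : ∀ i j, i ≠ j → orderOf (s i * s j) ∈ ({2, 3, 4, 6, 8} : Set ℕ)) :
    (∃ (n : ℕ) (m : Fin n → Fin n → ℕ) (e : Fin n ≃ ι), SL n m ∧
      ∀ i j, orderOf (s (e i) * s (e j)) = m i j) ∨
    (∃ (m : ℕ) (e : Fin (m + 3) ≃ ι), ∀ i j, orderOf (s (e i) * s (e j)) = mB (m + 3) i j) ∨
    ∃ e : Fin 4 ≃ ι, ∀ i j, orderOf (s (e i) * s (e j)) = mF i j := by
  have := Fintype.ofFinite ι
  rw [Nat.card_eq_fintype_card] at h3
  obtain ⟨d, hd, hd', hpos⟩ := Clas.posdef hs hE hinj hm
  have hsym : ∀ i j, orderOf (s i * s j) = orderOf (s j * s i) := fun i j => by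
    rw [← orderOf_inv, mul_inv_rev, hs.inv_eq, hs.inv_eq]
  have hdiag : ∀ i, orderOf (s i * s i) = 1 := fun i => by rw [hs.sq, orderOf_one]
  have hm' : ∀ i j, orderOf (s i * s j) = 1 ∨ orderOf (s i * s j) = 2 ∨ orderOf (s i * s j) = 3 ∨
      orderOf (s i * s j) = 4 ∨ orderOf (s i * s j) = 6 ∨ orderOf (s i * s j) = 8 := fun i j => by
    by_cases h : i = j
    · exact Or.inl (h ▸ hdiag i)
    · exact Or.inr (hm i j h)
  have r2 : (1 : ℝ) ≤ √2 := Real.one_le_sqrt.2 (by norm_num)
  have c3 : ∀ i j, 3 ≤ orderOf (s i * s j) → 1 / 4 ≤ Clas.cv (orderOf (s i * s j)) ^ 2 := by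
    intro i j h
    rcases hm' i j with e | e | e | e | e | e <;> rw [e] at h ⊢ <;>
      first | omega | (simp only [Clas.cv3, Clas.cv4, Clas.cv6, Clas.cv8]; linarith)
  have conn : ∀ J : Set ι, J.Nonempty → J ≠ Set.univ → ∃ i ∈ J, ∃ j ∉ J,
      3 ≤ orderOf (s i * s j) := by
    intro J h h'
    obtain ⟨i, hi, j, hj, hne⟩ := hc J h h'
    refine ⟨i, hi, j, hj, ?_⟩
    by_contra h3
    have h2 : (s i * s j) ^ 2 = 1 := by
      rcases hm' i j with e | e | e | e | e | e
      · rw [orderOf_eq_one_iff.1 e, one_pow]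
      · rw [← e, pow_orderOf_eq_one]
      all_goals omega
    apply hne
    rw [sq, mul_eq_one_iff_eq_inv, mul_inv_rev, hs.inv_eq, hs.inv_eq] at h2
    exact h2
  obtain ⟨i0⟩ : Nonempty ι := Fintype.card_pos_iff.1 (by omega)
  have hconst : ∀ i, d i = d i0 := by
    by_contra h
    obtain ⟨i, hi, j, hj, h3⟩ := conn {i | d i = d i0} ⟨i0, rfl⟩ fun e =>
      h fun i => (e ▸ Set.mem_univ i : i ∈ {i | d i = d i0})
    have h1 := c3 i j h3
    have h2 : Clas.cv (orderOf (s i * s j)) ≠ 0 := fun e => by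
      rw [e] at h1
      norm_num at h1
    exact hj ((mul_right_cancel₀ h2 (hd' i j)).symm.trans hi)
  refine Clas.Dat.main (m := fun i j => orderOf (s i * s j))
    (c := fun i j => Clas.cv (orderOf (s i * s j))) ⟨hsym, hdiag, fun i j h => ?_,
      fun i j => by rw [hsym], fun i => by rw [hdiag, Clas.cv1], fun i j h => Clas.cv_nn ?_, c3,
      fun i j h => ?_, fun i j h => ?_, fun x hx => ?_, conn⟩ h3
  · have := hm i j h
    simp only [Set.mem_insert_iff, Set.mem_singleton_iff] at this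
    omega
  · have := hm i j h
    simp only [Set.mem_insert_iff, Set.mem_singleton_iff] at this
    omega
  · rcases hm' i j with e | e | e | e | e | e <;> rw [e] at h ⊢ <;>
      first | omega | (simp only [Clas.cv3, Clas.cv4, Clas.cv6, Clas.cv8]; linarith)
  · rcases hm' i j with e | e | e | e | e | e <;> rw [e] at h ⊢ <;>
      first | omega | (simp only [Clas.cv3, Clas.cv4, Clas.cv6, Clas.cv8]; linarith)
  · have := hpos x hx
    simp only [hconst, ← Finset.mul_sum] at this
    rw [← mul_neg] at this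
    exact (mul_pos_iff_of_pos_left (hd i0)).1 this

end Tits
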