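import Cfsg.Agent.Lib.Tits.GQ1

/-! Groups of prime power order acting on a finite generalized quadrangle. -/

set_option autoImplicit false
set_option linter.unusedSectionVars false

namespace Tits.GQ

open Finset MulAction

/-- A group fixing an apartment and all points of one of its lines. -/
structure Cf {P L : Type*} (I : P → L → Prop) (s t : ℕ) (Γ : Type*) [Group Γ] [MulAction Γ P]
    [MulAction Γ L] (x x3 : P) (L0 L3 L2 : L) : Prop extends Q I s t where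
  act : ∀ (g : Γ) p l, I p l → I (g • p) (g • l)
  i0 : I x L0
  i3 : I x L3
  j3 : I x3 L3
  j2 : I x3 L2
  n1 : x ≠ x3
  n2 : L0 ≠ L3
  n3 : L3 ≠ L2
  f0 : ∀ (g : Γ) p, I p L0 → g • p = p
  f2 : ∀ g : Γ, g • L2 = L2
  s2 : 2 ≤ s
  t2 : 2 ≤ t

variable {P L : Type*} {I : P → L → Prop} {s t : ℕ} {Γ : Type*} [Group Γ] [MulAction Γ P]
  [MulAction Γ L] {x x3 : P} {L0 L3 L2 : L}

variable (I) in
/-- all points on fixed lines are fixed -/
def Full (T : Subgroup Γ) : Prop := ∀ l : L, T ≤ stabilizer Γ l → ∀ u : P, I u l → T ≤ stabilizer Γ u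

open Classical in
variable (I) in
/-- the number of fixed lines through a point -/
noncomputable def nb [Fintype L] (T : Subgroup Γ) (u : P) : ℕ := #{l | I u l ∧ T ≤ stabilizer Γ l}

theorem Full.sup {T T' : Subgroup Γ} (a : Full I T) (b : Full I T') : Full I (T ⊔ T') :=
  fun l k u i => sup_le (a l (le_sup_left.trans k) u i) (b l (le_sup_right.trans k) u i)

theorem full_bot : Full I (⊥ : Subgroup Γ) := fun _ _ _ _ => bot_le

namespace Cf

variable [Fintype P] [Fintype L] (h : Cf I s t Γ x x3 L0 L3 L2) {T T' : Subgroup Γ} {u v y : P} {l m M : L}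
include h

theorem col (g : Γ) (c : Col I u v) : Col I (g • u) (g • v) :=
  let ⟨l, a, b⟩ := c; ⟨g • l, h.act g _ _ a, h.act g _ _ b⟩

theorem fix_line (a : T ≤ stabilizer Γ u) (b : T ≤ stabilizer Γ v) (n : u ≠ v) (i : I u l) (j : I v l) :
    T ≤ stabilizer Γ l := fun g hg => by
  have i' := h.act g _ _ i
  have j' := h.act g _ _ j
  rw [show g • u = u from a hg] at i'
  rw [show g • v = v from b hg] at j'
  exact (h.dig i' i j' j).resolve_left n

theorem fix_proj (a : T ≤ stabilizer Γ u) (b : T ≤ stabilizer Γ l) (n : ¬ I u l) (c : Col I u v)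
    (j : I v l) : T ≤ stabilizer Γ v := fun g hg => by
  have c' := h.col g c
  have j' := h.act g _ _ j
  rw [show g • u = u from a hg] at c'
  rw [show g • l = l from b hg] at j'
  exact h.tri' n c' j' c j

theorem opp_full (b : T ≤ stabilizer Γ m) (o : ∀ p, I p l → ¬ I p m)
    (a : ∀ u, I u l → T ≤ stabilizer Γ u) : ∀ v, I v m → T ≤ stabilizer Γ v := fun v j =>
  let ⟨u, c, i⟩ := h.ex' v l; h.fix_proj (a u i) b (o u i) c.symm j

theorem other (i : I u l) (v : P) : ∃ z, I z l ∧ z ≠ u ∧ z ≠ v := by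
  classical
  have := h.s2
  obtain ⟨z, hz, n⟩ := exists_mem_ne (s := univ.filter fun p => I p l ∧ p ≠ u) (by
    rw [h.cp' i]; omega) v
  exact ⟨z, (mem_filter.1 hz).2.1, (mem_filter.1 hz).2.2, n⟩

theorem x2 : ¬ I x L2 := fun i => (h.dig h.i3 i h.j3 h.j2).elim h.n1 h.n3

theorem oppM (i : I x M) (n : M ≠ L3) (p : P) (a : I p M) : ¬ I p L2 := fun b => by
  obtain rfl := h.tri' h.x2 ⟨M, i, a⟩ b ⟨L3, h.i3, h.j3⟩ h.j2
  exact (h.dig i h.i3 a h.j3).elim h.n1 n

theorem p0 (i : I u L0) : T ≤ stabilizer Γ u := fun g _ => h.f0 g u i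

theorem l2 : T ≤ stabilizer Γ L2 := fun g _ => h.f2 g

theorem l0 : T ≤ stabilizer Γ L0 :=
  let ⟨_, i, n, _⟩ := h.other h.i0 x; h.fix_line (h.p0 i) (h.p0 h.i0) n i h.i0

theorem p2 (i : I u L2) : T ≤ stabilizer Γ u := h.opp_full h.l2 (h.oppM h.i0 h.n2) (fun _ => h.p0) u i

theorem l3 : T ≤ stabilizer Γ L3 := h.fix_line (h.p0 h.i0) (h.p2 h.j2) h.n1 h.i3 h.j3

theorem full_of (i : I x M) (n0 : M ≠ L0) (n3 : M ≠ L3) (a : T ≤ stabilizer Γ M) : Full I T := by
  have fM := h.opp_full a (fun p b c => h.oppM i n3 p c b) fun _ => h.p2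
  have step : ∀ l, T ≤ stabilizer Γ l → ∀ z, I z l → I z L0 → z ≠ x → ∀ u, I u l → T ≤ stabilizer Γ u := by
    intro l b z z1 z2 z3
    by_cases e : l = L0
    · exact fun u i => h.p0 (e ▸ i)
    · refine h.opp_full b (fun w w1 w2 => ?_) fM
      obtain rfl := h.tri' (fun j => (h.dig j z2 i h.i0).elim z3 n0) ⟨l, z1, w2⟩ w1 ⟨L0, z2, h.i0⟩ i
      exact (h.dig z1 z2 w2 h.i0).elim z3 e
  intro l b
  by_cases e : ∃ z, I z L0 ∧ I z l
  · obtain ⟨z, z2, z1⟩ := e
    by_cases z3 : z = x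
    · subst z3
      by_cases e3 : l = L3
      · subst e3
        obtain ⟨w, w1, w2, -⟩ := h.other h.i0 z
        obtain ⟨v, N, a1, a2, a3⟩ := h.ex w L2
        have o := h.oppM h.i0 h.n2
        refine h.opp_full b (fun y y1 y2 => ?_) (step N (h.fix_line (h.p0 w1) (h.p2 a3)
          (fun e => o w w1 (e ▸ a3)) a1 a2) w a1 w1 w2)
        obtain rfl := h.tri' (fun j => (h.dig w1 j h.i0 h.i3).elim w2 h.n2) ⟨N, a1, y1⟩ y2
          ⟨L0, w1, h.i0⟩ h.i3
        exact (h.dig a1 w1 y1 h.i0).elim w2 fun e => o v (e ▸ a2) a3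
      · exact h.opp_full b (fun p c d => h.oppM z1 e3 p d c) fun _ => h.p2
    · exact step l b z z1 z2 z3
  · exact h.opp_full b (fun p c d => e ⟨p, c, d⟩) fun _ => h.p0

theorem opp_card (f : Full I T) (a : T ≤ stabilizer Γ v) (n : ¬ Col I u v) : nb I T u ≤ nb I T v := by
  classical
  refine card_le_card_of_forall_subsingleton (fun l m => ∃ a, I a l ∧ I a m) (fun l hl => ?_)
    fun m hm l hl l' hl' => ?_
  · obtain ⟨l1, l2⟩ := (mem_filter.1 hl).2
    obtain ⟨z, m, a1, a2, a3⟩ := h.ex v l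
    exact ⟨m, mem_filter.2 ⟨mem_univ _, a1, h.fix_line a (f l l2 z a3) (fun e => n ⟨l, l1, e ▸ a3⟩) a1 a2⟩,
      z, a3, a2⟩
  · obtain ⟨k, z, z1, z2⟩ := hl
    obtain ⟨k', z', z1', z2'⟩ := hl'
    have o : ¬ I u m := fun i => n ⟨m, i, (mem_filter.1 hm).2.1⟩
    obtain rfl := h.tri o (mem_filter.1 k).2.1 z1 z2 (mem_filter.1 k').2.1 z1' z2'
    exact (h.dig (mem_filter.1 k).2.1 (mem_filter.1 k').2.1 z1 z1').resolve_left fun e => o (e ▸ z2)

theorem const (f : Full I T) (a : T ≤ stabilizer Γ M) (o : ∀ p, I p M → ¬ I p L2) (i : I u M) (j : I v M) :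
    nb I T u ≤ nb I T v := by
  obtain ⟨z, z1, z2, z3⟩ := h.other i v
  obtain ⟨w, c, b⟩ := h.ex' z L2
  have n : ¬ I w M := fun e => o w e b
  exact (h.opp_card f (h.p2 b) fun e => z2 (h.tri' n c.symm z1 e.symm i)).trans
    (h.opp_card f (f M a v j) fun e => z3 (h.tri' n c.symm z1 e j))

theorem noline (f : Full I T) (i : I x M) (n : ¬ T ≤ stabilizer Γ M) (j : I y M) (k : y ≠ x)
    (a : T ≤ stabilizer Γ l) : ¬ I y l := fun b => n (h.fix_line (f l a y b) (h.p0 h.i0) k j i)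

theorem ovoid (f : Full I T) (i : I x M) (n : ¬ T ≤ stabilizer Γ M) (j : I y M) (k : y ≠ x) :
    ∃ O : Finset P, s * (nb I T x - 1) ≤ #O ∧ ∀ u ∈ O, T ≤ stabilizer Γ u ∧ Col I y u ∧ ¬ Col I x u := by
  classical
  have nl := fun {l} => h.noline (l := l) f i n j k
  set Λ := univ.filter fun N => T ≤ stabilizer Γ N ∧ N ≠ L0 ∧ ∃ z, I z N ∧ I z L0 ∧ z ≠ x
  have c1 := card_mul_le_card_mul (s := univ.filter fun z => I z L0 ∧ z ≠ x) (t := Λ) (fun z N => I z N)
    (m := nb I T x - 1) (n := 1)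
    (fun z hz => by
      obtain ⟨z1, z2⟩ := (mem_filter.1 hz).2
      refine (Nat.sub_le_sub_right (h.const f h.l0 (h.oppM h.i0 h.n2) h.i0 z1) 1).trans
        ((pred_card_le_card_erase (a := L0)).trans (card_le_card fun N hN => ?_))
      obtain ⟨a, b⟩ := (mem_filter.1 (mem_of_mem_erase hN)).2
      exact mem_filter.2 ⟨mem_filter.2 ⟨mem_univ _, b, ne_of_mem_erase hN, z, a, z1, z2⟩, a⟩)
    (fun N hN => card_le_one.2 fun z hz z' hz' => by
      simp only [bipartiteBelow, mem_filter, mem_univ, true_and] at hz hz'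
      exact (h.dig hz.2 hz.1.1 hz'.2 hz'.1.1).resolve_right (mem_filter.1 hN).2.2.1)
  rw [h.cp' h.i0, mul_one] at c1
  refine ⟨univ.filter fun u => T ≤ stabilizer Γ u ∧ Col I y u ∧ u ≠ x, c1.trans
    (card_le_card_of_forall_subsingleton (fun N u => I u N) (fun N hN => ?_) fun u hu N hN N' hN' => ?_),
    fun u hu => ?_⟩
  · obtain ⟨a, b, z, z1, z2, z3⟩ := (mem_filter.1 hN).2
    obtain ⟨u, c, d⟩ := h.ex' y N
    exact ⟨u, mem_filter.2 ⟨mem_univ _, f N a u d, c, fun e => (h.dig z1 z2 (e ▸ d) h.i0).elim z3 b⟩, d⟩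
  · obtain ⟨-, c, e⟩ := (mem_filter.1 hu).2
    obtain ⟨-, -, z, z1, z2, -⟩ := (mem_filter.1 hN.1).2
    obtain ⟨-, -, z', z1', z2', -⟩ := (mem_filter.1 hN'.1).2
    have o : ¬ I u L0 := fun b => e (h.tri' (nl h.l0) c b ⟨M, j, i⟩ h.i0)
    obtain rfl := h.tri o hN.2 z1 z2 hN'.2 z1' z2'
    exact (h.dig hN.2 hN'.2 z1 z1').resolve_left fun e => o (e ▸ z2)
  · obtain ⟨a, c, e⟩ := (mem_filter.1 hu).2
    exact ⟨a, c, fun ⟨l, b, d⟩ => e (h.tri' (nl (h.fix_line a (h.p0 h.i0) e d b)) c d ⟨M, j, i⟩ b)⟩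

theorem bnd (f : Full I T) (f' : Full I T') (le : T ≤ T') (i : I x M) (a : T ≤ stabilizer Γ M)
    (n : ¬ T' ≤ stabilizer Γ M) : s * (nb I T' x - 1) + 1 ≤ nb I T x := by
  classical
  obtain ⟨y, j, k, -⟩ := h.other i x
  obtain ⟨O, c, hO⟩ := h.ovoid f' i n j k
  have m : ∀ u ∈ insert x O, T' ≤ stabilizer Γ u ∧ Col I y u := fun u hu => by
    rcases mem_insert.1 hu with rfl | hu
    exacts [⟨h.p0 h.i0, M, j, i⟩, ⟨(hO u hu).1, (hO u hu).2.1⟩]
  have c2 : #(insert x O) ≤ nb I T y :=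
    card_le_card_of_forall_subsingleton (fun u l => I u l) (fun u hu => by
      obtain ⟨b, l, l1, l2⟩ := m u hu
      exact ⟨l, mem_filter.2 ⟨mem_univ _, l1, h.fix_line (f M a y j) (le.trans b)
        (fun e => n (h.fix_line (e ▸ b) (h.p0 h.i0) k j i)) l1 l2⟩, l2⟩)
      fun l hl u hu u' hu' => by_contra fun e => h.noline f' i n j k
        (h.fix_line (m u hu.1).1 (m u' hu'.1).1 e hu.2 hu'.2) (mem_filter.1 hl).2.1
  rw [card_insert_of_notMem fun e => (hO x e).2.2 (h.col_self x)] at c2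
  have := h.const f a (h.oppM i fun e => n (e ▸ h.l3)) j i
  omega

theorem gam (f : Full I T) (i : I x M) (n : ¬ T ≤ stabilizer Γ M) (j : I y M) (k : y ≠ x) :
    (nb I T x - 1) * (orbit T y).ncard * (s - 1) ≤ s * t := by
  classical
  obtain ⟨O, c, hO⟩ := h.ovoid f i n j k
  obtain ⟨V, hV⟩ := (Set.toFinite (orbit T y)).exists_finset_coe
  have mV : ∀ v ∈ V, ∃ g ∈ T, g • y = v := fun v hv => by
    obtain ⟨g, e⟩ : v ∈ orbit T y := hV ▸ hv
    exact ⟨g, g.2, e⟩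
  have m0 : 0 < #V := card_pos.2 ⟨y, by rw [← mem_coe, hV]; exact mem_orbit_self y⟩
  have cx : ∀ v ∈ V, Col I x v ∧ v ≠ x := fun v hv => by
    obtain ⟨g, -, rfl⟩ := mV v hv
    have e := h.f0 g x h.i0
    exact ⟨e ▸ h.col g ⟨M, i, j⟩, fun e' => k (smul_left_cancel g (e'.trans e.symm))⟩
  have cu : ∀ u ∈ O, ∀ v ∈ V, Col I v u := fun u hu v hv => by
    obtain ⟨g, hg, rfl⟩ := mV v hv
    exact (show g • u = u from (hO u hu).1 hg) ▸ h.col g (hO u hu).2.1
  rw [← hV, Set.ncard_coe_finset]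
  have s2 := h.s2
  rcases O.eq_empty_or_nonempty with rfl | ⟨u, hu⟩
  · rw [card_empty, Nat.le_zero, mul_eq_zero] at c
    rw [c.resolve_left (by omega)]
    simp
  have k := h.var (B := O) cx (fun v hv w hw ne ⟨l, a, b⟩ => by
    by_cases e : I x l
    · exact ne (h.tri' (fun i => (hO u hu).2.2 ⟨l, e, i⟩) (cu u hu v hv).symm a (cu u hu w hw).symm b)
    · exact ne (h.tri' e (cx v hv).1 a (cx w hw).1 b)) (fun z hz => (hO z hz).2.2) s #V
  rw [sum_congr rfl fun z hz => by rw [filter_true_of_mem (cu z hz)], sum_const, nsmul_eq_mul] at k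
  generalize nb I T x - 1 = a at c ⊢
  generalize #V = m at m0 k ⊢
  obtain ⟨b, rfl⟩ : ∃ b, s = b + 1 := ⟨s - 1, by omega⟩
  have c' : ((b : ℤ) + 1) * a ≤ #O := by exact_mod_cast c
  have k2 := mul_le_mul_of_nonneg_right c' (sq_nonneg ((m : ℤ) * b))
  have pos : (0 : ℤ) < (b + 1) * m * b := by
    have : (0 : ℤ) < b := by exact_mod_cast (by omega : 0 < b)
    positivity
  rw [Nat.add_sub_cancel]
  zify
  refine le_of_mul_le_mul_left ?_ pos
  push_cast at k
  nlinarith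

theorem nb_bot : nb I (⊥ : Subgroup Γ) x = t + 1 := by
  classical
  rw [← h.cl x, nb]
  congr 1
  ext l
  simp

theorem cong {p : ℕ} [Fact p.Prime] (hp : IsPGroup p Γ) (T : Subgroup Γ) : t + 1 ≡ nb I T x [MOD p] := by
  classical
  let Ω : SubMulAction Γ L := ⟨{l | I x l}, fun g l i => h.f0 g x h.i0 ▸ h.act g x l i⟩
  have k := (hp.to_subgroup T).card_modEq_card_fixedPoints Ω
  have e1 : Nat.card Ω = t + 1 := (Nat.card_coe_set_eq _).trans (h.lns x)
  have e : fixedPoints T Ω ≃ {l | I x l ∧ T ≤ stabilizer Γ l} :=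
    ⟨fun l => ⟨l.1.1, l.1.2, fun g hg => congrArg Subtype.val (l.2 ⟨g, hg⟩)⟩,
      fun l => ⟨⟨l.1, l.2.1⟩, fun g => Subtype.ext (l.2.2 g.2)⟩, fun _ => rfl, fun _ => rfl⟩
  rw [e1, Nat.card_congr e, Nat.card_coe_set_eq] at k
  convert k
  rw [nb, ← Set.ncard_coe_finset]
  congr 1
  ext l
  simp

theorem ne03 (n : stabilizer Γ M ≠ ⊤) (g : Γ) : g • M ≠ L0 ∧ g • M ≠ L3 := by
  refine ⟨fun e => n ?_, fun e => n ?_⟩
  · rw [eq_inv_smul_iff.2 e, show g⁻¹ • L0 = L0 from h.l0 (T := ⊤) trivial]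
    exact top_le_iff.1 h.l0
  · rw [eq_inv_smul_iff.2 e, show g⁻¹ • L3 = L3 from h.l3 (T := ⊤) trivial]
    exact top_le_iff.1 h.l3

theorem orb (i : I x M) (n : stabilizer Γ M ≠ ⊤) (a : ∀ g : Γ, T ≤ stabilizer Γ (g • M)) :
    (stabilizer Γ M).index + 2 ≤ nb I T x := by
  classical
  obtain ⟨V, hV⟩ := (Set.toFinite (orbit Γ M)).exists_finset_coe
  have mV : ∀ v ∈ V, ∃ g : Γ, g • M = v := fun v hv => (hV ▸ hv : v ∈ orbit Γ M)
  rw [index_stabilizer, ← hV, Set.ncard_coe_finset, ← card_pair h.n2, ← card_union_of_disjoint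
    (disjoint_left.2 fun v hv k => by
      obtain ⟨g, rfl⟩ := mV v hv
      exact (mem_insert.1 k).elim (h.ne03 n g).1 fun k => (h.ne03 n g).2 (mem_singleton.1 k))]
  refine card_le_card (union_subset (fun v hv => ?_) (insert_subset ?_ (singleton_subset_iff.2 ?_)))
  · obtain ⟨g, rfl⟩ := mV v hv
    exact mem_filter.2 ⟨mem_univ _, h.f0 g x h.i0 ▸ h.act g x M i, a g⟩
  · exact mem_filter.2 ⟨mem_univ _, h.i0, h.l0⟩
  · exact mem_filter.2 ⟨mem_univ _, h.i3, h.l3⟩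

theorem nb2 (T : Subgroup Γ) : 2 ≤ nb I T x := by
  classical
  rw [← card_pair h.n2]
  exact card_le_card (insert_subset (mem_filter.2 ⟨mem_univ _, h.i0, h.l0⟩)
    (singleton_subset_iff.2 (mem_filter.2 ⟨mem_univ _, h.i3, h.l3⟩)))

theorem main [Finite Γ] {p : ℕ} [Fact p.Prime] (hp : IsPGroup p Γ) (hs : p ∣ s) {K : Subgroup Γ}
    (hK : ∀ g, g ∈ K ↔ ∀ l, I x l → g • l = l) : K.index < s ^ 2 := by
  have s2 := h.s2
  have ht : t ≤ s * s := by
    obtain ⟨v, a, b, -⟩ := h.other h.j2 x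
    rw [← pow_two]
    exact h.higman h.s2 h.t2 fun c => b (h.tri' h.x2 c a ⟨L3, h.i3, h.j3⟩ h.j2)
  have KM : ∀ M, I x M → K ≤ stabilizer Γ M := fun M i g hg => (hK g).1 hg M i
  have nK : ∀ T : Subgroup Γ, ¬ T ≤ K → ∃ M, I x M ∧ ¬ T ≤ stabilizer Γ M := fun T n => by
    by_contra k
    push Not at k
    exact n fun g hg => (hK g).2 fun l i => k l i hg
  have b0 : ∀ T : Subgroup Γ, Full I T → ¬ T ≤ K → s * (nb I T x - 1) ≤ t := fun T f n => by
    obtain ⟨M, i, k⟩ := nK T n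
    have := h.bnd full_bot f bot_le i bot_le k
    rw [h.nb_bot] at this
    omega
  rw [pow_two]
  by_cases c : ∃ M, I x M ∧ stabilizer Γ M ≠ ⊤ ∧ ¬ stabilizer Γ M ≤ K
  swap
  · by_cases e : ⊤ ≤ K
    · rw [top_le_iff.1 e, Subgroup.index_top]; nlinarith
    · obtain ⟨M, i, k⟩ := nK ⊤ e
      have n : stabilizer Γ M ≠ ⊤ := fun e => k e.ge
      have := h.orb (T := ⊥) i n fun _ => bot_le
      rw [h.nb_bot, le_antisymm (by_contra fun k => c ⟨M, i, n, k⟩) (KM M i)] at this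
      omega
  obtain ⟨M, i, n, k⟩ := c
  have fg : ∀ (g : Γ) T, T ≤ stabilizer Γ (g • M) → Full I T := fun g T a =>
    h.full_of (h.f0 g x h.i0 ▸ h.act g x M i) (h.ne03 n g).1 (h.ne03 n g).2 a
  have f1 : ∀ T, T ≤ stabilizer Γ M → Full I T := fun T a => fg 1 T (by rwa [one_smul])
  have f := f1 _ le_rfl
  have b1 := b0 _ f k
  have a1 : nb I (stabilizer Γ M) x - 1 ≤ s := Nat.le_of_mul_le_mul_left (b1.trans ht) (by omega)
  have β : ∀ g : Γ, stabilizer Γ (g • M) ≤ stabilizer Γ M := fun g => by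
    by_contra e
    have b2 := h.bnd f (f.sup (fg g _ le_rfl)) le_sup_left i le_rfl fun k => e (le_sup_right.trans k)
    have c2 := h.cong hp (stabilizer Γ M ⊔ stabilizer Γ (g • M))
    have n2 := h.nb2 (stabilizer Γ M ⊔ stabilizer Γ (g • M))
    generalize nb I (stabilizer Γ M ⊔ stabilizer Γ (g • M)) x = a at b2 c2 n2
    obtain ⟨a, rfl⟩ : ∃ b, a = b + 2 := ⟨a - 2, by omega⟩
    rw [show a + 2 - 1 = a + 1 by omega, mul_add, mul_one] at b2
    obtain rfl : a = 0 := (mul_eq_zero.1 (by omega : s * a = 0)).resolve_left (by omega)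
    rw [show nb I (stabilizer Γ M) x - 1 = s by omega] at b1
    rw [le_antisymm ht b1] at c2
    have c3 : p ∣ 1 := (Nat.ModEq.dvd_iff (Nat.ModEq.add_right_cancel' 1 c2) dvd_rfl).1 (hs.mul_right s)
    exact (Fact.out : p.Prime).not_dvd_one c3
  have r1 := h.orb (T := stabilizer Γ M) i n fun g a ha => by
    have : (g⁻¹ * a * g) • M = M := β g⁻¹ (show _ • _ = _ by
      rw [mul_smul, mul_smul, smul_inv_smul, show a • M = M from ha])
    rwa [mul_smul, mul_smul, inv_smul_eq_iff] at this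
  have r2 : 2 ≤ (stabilizer Γ M).index := by
    have := (Subgroup.index_eq_one (H := stabilizer Γ M)).not.2 n
    have := (stabilizer Γ M).index_ne_zero_of_finite
    omega
  obtain ⟨M', i', k'⟩ := nK _ k
  have α : stabilizer Γ M ⊓ stabilizer Γ M' ≤ K := by
    by_contra e
    have b2 := b0 _ (f1 _ inf_le_left) e
    have b3 := h.bnd (f1 _ inf_le_left) f inf_le_left i' inf_le_right k'
    have b4 : s * 3 ≤ s * (nb I (stabilizer Γ M) x - 1) := Nat.mul_le_mul_left _ (by omega)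
    have b5 : nb I (stabilizer Γ M ⊓ stabilizer Γ M') x - 1 ≤ s :=
      Nat.le_of_mul_le_mul_left (b2.trans ht) (by omega)
    omega
  obtain ⟨y, j, ny, -⟩ := h.other i' x
  have g1 := h.gam f i' k' j ny
  have g2 : K.relIndex (stabilizer Γ M) ≤ (orbit (stabilizer Γ M) y).ncard := by
    rw [← index_stabilizer]
    exact Subgroup.index_antitone fun g hg => α ⟨g.2, h.fix_line (T := stabilizer Γ y) le_rfl (h.p0 h.i0)
      ny j i' hg⟩
  rw [← Subgroup.relIndex_mul_index (KM M i)]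
  generalize K.relIndex (stabilizer Γ M) = m at g2 ⊢
  generalize (orbit (stabilizer Γ M) y).ncard = m' at g1 g2
  generalize (stabilizer Γ M).index = r at r1 r2 ⊢
  obtain ⟨c, rfl⟩ : ∃ c, s = c + 1 := ⟨s - 1, by omega⟩
  rw [Nat.add_sub_cancel] at g1
  have g3 : (r + 1) * m * c ≤ (c + 1) * ((c + 1) * (c + 1)) :=
    ((Nat.mul_le_mul_right c (Nat.mul_le_mul (by omega) g2)).trans g1).trans (Nat.mul_le_mul_left _ ht)
  by_contra lt
  rw [not_lt] at lt
  have g4 : m * r ≤ m * c := Nat.mul_le_mul_left _ (by omega)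
  have g5 := Nat.mul_le_mul_right c lt
  have g6 : m * c = c * (c + 2) + 1 := by nlinarith
  have := Nat.dvd_one.1 ((Nat.dvd_add_right (dvd_mul_right c (c + 2))).1 (g6 ▸ dvd_mul_left c m))
  omega

end Cf

end Tits.GQ
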