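import Mathlib
import Cfsg.Agent.Lib.Tits.Root
import Cfsg.Agent.Lib.Tits.Rk
import Cfsg.Agent.Lib.Tits.GQ2

set_option autoImplicit false
set_option linter.unusedSectionVars false

open scoped commutatorElement

namespace Tits

open H63.St Cfsg

namespace GQ

open scoped Pointwise

theorem sub_word {Γ : Type*} [Group Γ] {a b : Γ} (ha : a * a = 1) (hb : b * b = 1)
    (h : b * a * b * a = a * b * a * b) {w : Γ} (hw : w ∈ Subgroup.closure {b, a}) :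
    ∃ e1 e2 e3 e4, (e1 = 1 ∨ e1 = a) ∧ (e2 = 1 ∨ e2 = b) ∧ (e3 = 1 ∨ e3 = a) ∧ (e4 = 1 ∨ e4 = b) ∧
      w = e1 * e2 * e3 * e4 := by
  have fl : ∀ {c e : Γ}, c * c = 1 → (e = 1 ∨ e = c) → (e * c = 1 ∨ e * c = c) := by
    rintro c e hc (rfl | rfl)
    exacts [Or.inr (one_mul c), Or.inl hc]
  have key : ∀ x y, y ∈ ({b, a} : Set Γ) → (∃ e1 e2 e3 e4, (e1 = 1 ∨ e1 = a) ∧ (e2 = 1 ∨ e2 = b) ∧
      (e3 = 1 ∨ e3 = a) ∧ (e4 = 1 ∨ e4 = b) ∧ x = e1 * e2 * e3 * e4) → ∃ e1 e2 e3 e4,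
      (e1 = 1 ∨ e1 = a) ∧ (e2 = 1 ∨ e2 = b) ∧ (e3 = 1 ∨ e3 = a) ∧ (e4 = 1 ∨ e4 = b) ∧
      x * y = e1 * e2 * e3 * e4 := by
    rintro x y (rfl | rfl) ⟨e1, e2, e3, e4, h1, h2, h3, h4, rfl⟩
    · exact ⟨e1, e2, e3, _, h1, h2, h3, fl hb h4, mul_assoc _ _ _⟩
    · rcases h4 with rfl | rfl
      · exact ⟨e1, e2, _, 1, h1, h2, fl ha h3, Or.inl rfl, by group⟩
      · rcases h3 with rfl | rfl
        · exact ⟨e1, _, y, 1, h1, fl hb h2, Or.inr rfl, Or.inl rfl, by group⟩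
        · rcases h2 with rfl | rfl
          · exact ⟨_, e4, e3, 1, fl ha h1, Or.inr rfl, Or.inr rfl, Or.inl rfl, by group⟩
          · refine ⟨_, e2, e3, e2, fl ha h1, Or.inr rfl, Or.inr rfl, Or.inr rfl, ?_⟩
            calc _ = e1 * (e2 * e3 * e2 * e3) := by group
              _ = _ := by rw [h]; group
  induction hw using Subgroup.closure_induction_right with
  | one => exact ⟨1, 1, 1, 1, Or.inl rfl, Or.inl rfl, Or.inl rfl, Or.inl rfl, by simp⟩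
  | mul_right x _ y hy ih => exact key x y hy ih
  | mul_inv_cancel x _ y hy ih =>
    have : y⁻¹ = y := by
      rcases hy with rfl | rfl
      exacts [inv_eq_of_mul_eq_one_right hb, inv_eq_of_mul_eq_one_right ha]
    rw [this]
    exact key x y hy ih

variable {Φ I : Type*} {R : Roots Φ I} {G X : Type*} [Group G] [MulAction G X] [Finite Φ] (D : Bd R G X)

/-- the `i`-panels in the residue of type `J` -/
def Pan (J : Set I) (i : I) : Set (Set X) := {A | ∃ z, D.δ (D.a 1) z ∈ WJ R J ∧ A = D.Pn z i}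

/-- the panel of a chamber -/
def mk {J : Set I} (c : X) (hc : D.δ (D.a 1) c ∈ WJ R J) (i : I) : Pan D J i := ⟨D.Pn c i, c, hc, rfl⟩

theorem smul_Pn (g : G) (z : X) (i : I) : g • D.Pn z i = D.Pn (g • z) i := by
  ext y
  rw [Set.mem_smul_set_iff_inv_smul_mem]
  refine or_congr inv_smul_eq_iff ?_
  rw [← D.smul g, smul_inv_smul]

/-- the action on panels -/
abbrev act {S : Subgroup G} (h : ∀ g ∈ S, g • D.a 1 = D.a 1) (J : Set I) (i : I) :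
    MulAction S (Pan D J i) where
  smul g A := ⟨(g : G) • A.1, by
    obtain ⟨z, hz, e⟩ := A.2
    exact ⟨(g : G) • z, by rwa [← h g g.2, D.smul], by rw [e, smul_Pn]⟩⟩
  one_smul A := Subtype.ext (one_smul G A.1)
  mul_smul g g' A := Subtype.ext (mul_smul (g : G) (g' : G) A.1)

variable {D} {J : Set I} {i i' j k : I} {c d : X}

theorem σ_ne (i : I) : R.σ i ≠ 1 := fun e => R.not_pos_neg_α i (by
  rw [← R.σ_α, e]; exact R.pos_α i)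

theorem σ_mem (hi : i ∈ J) : R.σ i ∈ WJ R J := Subgroup.subset_closure ⟨i, hi, rfl⟩

theorem eq_Pn {A : Pan D J i} (h : c ∈ A.1) : A.1 = D.Pn c i := by
  obtain ⟨z, -, e⟩ := A.2
  rw [e] at h ⊢
  exact (D.Pn_eq h).symm

theorem res (hi : i ∈ J) {A : Pan D J i} (h : c ∈ A.1) : D.δ (D.a 1) c ∈ WJ R J := by
  obtain ⟨_, z, hz, rfl⟩ := A
  rcases h with rfl | h
  exacts [hz, D.δ_mem_WJ hz (h ▸ σ_mem hi)]

theorem adj {A : Pan D J i} (h : c ∈ A.1) (h' : d ∈ A.1) (n : c ≠ d) : D.δ c d = R.σ i :=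
  (eq_Pn h ▸ h' : d ∈ D.Pn c i).resolve_left n.symm

theorem ext' {A B : Pan D J i} (h : c ∈ A.1) (h' : c ∈ B.1) : A = B :=
  Subtype.ext ((eq_Pn h).trans (eq_Pn h').symm)

theorem adj' {A : Pan D J i} {B B' : Pan D J i'} (h : c ∈ A.1) (h' : d ∈ A.1) (b : c ∈ B.1) (b' : d ∈ B'.1)
    (n : B ≠ B') : D.δ c d = R.σ i := adj h h' fun e => n (ext' b (e ▸ b'))

theorem ne_of {A B : Pan D J i} (h : c ∈ A.1) (h' : d ∈ B.1) (e : D.δ c d = R.σ i') (n : R.σ i' ≠ R.σ i) :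
    A ≠ B := by
  rintro rfl
  exact n (e.symm.trans (adj h h' fun e' => σ_ne i' (e.symm.trans ((D.eq_one c d).2 e'))))

theorem card [Finite X] (hi : i ∈ J) (n : R.σ i ≠ R.σ i') (l : Pan D J i) :
    {p : Pan D J i' | ∃ c, c ∈ p.1 ∧ c ∈ l.1}.ncard = D.nb i + 1 := by
  have e : l.1.ncard = D.nb i + 1 := by
    obtain ⟨_, z, -, rfl⟩ := l
    rw [← D.ncard_Nb z i]
    exact Set.ncard_insert_of_notMem (s := D.Nb z i) fun e => σ_ne i (Eq.symm e ▸ (D.eq_one z z).2 rfl)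
  rw [← e]
  symm
  refine Set.ncard_congr (fun c hc => mk D c (res hi hc) i') (fun c hc => ⟨c, Or.inl rfl, hc⟩)
    (fun c d hc hd e => ?_) fun p ⟨c, h1, h2⟩ => ⟨c, h2, ext' (Or.inl rfl) h1⟩
  by_contra k
  exact ne_of (Or.inl rfl) (Or.inl rfl) (adj hc hd k) n e

theorem mul {x y z : X} {w : Equiv.Perm Φ} (h : D.δ x y = w) (e : D.δ y z = R.σ i) (p : R.Pos (w (R.α i))) :
    D.δ x z = w * R.σ i := by
  subst h
  exact (D.step x y z i e).resolve_right fun k => k.2 p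

theorem peel {w e : Equiv.Perm Φ} (h : D.δ c d = w * e) (he : e = 1 ∨ e = R.σ i) :
    ∃ z, D.δ c z = w ∧ z ∈ D.Pn d i := by
  rcases he with rfl | rfl
  · exact ⟨d, by rw [h, mul_one], Or.inl rfl⟩
  · obtain ⟨z, h1, h2⟩ := D.ex c d i
    exact ⟨z, by rw [h2, h, mul_assoc, R.σ_mul_self, mul_one], Or.inr h1⟩

theorem σ_jk (h : cm R j k = 4) : R.σ j ≠ R.σ k := fun e => by
  have := (rho_σ h 1).1
  rw [e, (rho_σ h 1).2] at this
  exact absurd (rho_inj h this) (by decide)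

theorem isQ [Finite X] (h : cm R j k = 4) :
    Q (fun (p : Pan D {j, k} k) (l : Pan D {j, k} j) => ∃ c, c ∈ p.1 ∧ c ∈ l.1) (D.nb j) (D.nb k) := by
  have hj : j ∈ ({j, k} : Set I) := Or.inl rfl
  have hk : k ∈ ({j, k} : Set I) := Or.inr rfl
  have p2 : R.Pos (R.σ j (R.α k)) := (rho_pos h 2).2 (by simp)
  have p3 : R.Pos (R.σ k (R.α j)) := (rho_pos h 3).2 (by simp)
  have p4 : R.Pos ((R.σ j * R.σ k) (R.α j)) := (rho_σ h 3).1 ▸ (rho_pos h (6 - 3)).2 (by decide)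
  have p5 : R.Pos ((R.σ k * R.σ j) (R.α k)) := (rho_σ h 2).2 ▸ (rho_pos h (4 - 2)).2 (by decide)
  have dig : ∀ {p v : Pan D {j, k} k} {l m : Pan D {j, k} j}, (∃ c, c ∈ p.1 ∧ c ∈ l.1) →
      (∃ c, c ∈ p.1 ∧ c ∈ m.1) → (∃ c, c ∈ v.1 ∧ c ∈ l.1) → (∃ c, c ∈ v.1 ∧ c ∈ m.1) → p = v ∨ l = m := by
    rintro p v l m ⟨c1, a1, b1⟩ ⟨c2, a2, b2⟩ ⟨c3, a3, b3⟩ ⟨c4, a4, b4⟩
    by_contra n
    obtain ⟨n1, n2⟩ := not_or.1 n
    have e := congrArg (· (rho R j k 1)) ((mul (adj' a1 a2 b1 b2 n2) (adj' b2 b4 a2 a4 n1) p3).symm.trans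
      (mul (adj' b1 b3 a1 a3 n1) (adj' a3 a4 b3 b4 n2) p2))
    simp only [Equiv.Perm.mul_apply, rho_σ h] at e
    exact absurd (rho_inj h e) (by decide)
  refine ⟨card hj (σ_jk h), fun p => ?_, fun p l => ?_, dig, ?_⟩
  · rw [← card hk (σ_jk h).symm p]
    simp only [and_comm]
  · obtain ⟨_, c, hc, rfl⟩ := p
    obtain ⟨_, d, hd, rfl⟩ := l
    have hw : D.δ c d ∈ WJ R {j, k} := D.δ_mem_WJ (D.symm _ c ▸ inv_mem hc) hd
    rw [WJ, Set.image_pair] at hw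
    obtain ⟨e1, e2, e3, e4, h1, h2, h3, h4, e⟩ := sub_word (R.σ_mul_self k) (R.σ_mul_self j) (by
      have := pow_orderOf_eq_one (R.σ j * R.σ k)
      rw [show orderOf (R.σ j * R.σ k) = 4 from h] at this
      rw [← mul_inv_eq_one]
      simp only [mul_inv_rev, R.σ_inv]
      rw [← this]
      simp only [pow_succ, pow_zero, one_mul, mul_assoc]) hw
    obtain ⟨d1, e, m1⟩ := peel e h4
    obtain ⟨d2, e, m2⟩ := peel e h3
    obtain ⟨d3, e, m3⟩ := peel e h2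
    have r1 := res hj (A := mk D d hd j) m1
    have r2 := res hk (A := mk D d1 r1 k) m2
    refine ⟨mk D d1 r1 k, mk D d2 r2 j, ⟨d3, ?_, m3⟩, ⟨d2, m2, Or.inl rfl⟩, d1, Or.inl rfl, m1⟩
    rcases h1 with rfl | rfl
    exacts [Or.inl ((D.eq_one _ _).1 e).symm, Or.inr e]
  · rintro p l v m v' m' n ⟨c1, a1, b1⟩ ⟨c2, a2, b2⟩ ⟨c3, a3, b3⟩ ⟨c6, a6, b6⟩ ⟨c5, a5, b5⟩ ⟨c4, a4, b4⟩
    by_contra nv
    have n1 : p ≠ v := fun e => n ⟨c3, e ▸ a3, b3⟩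
    have n2 : p ≠ v' := fun e => n ⟨c4, e ▸ a4, b4⟩
    have n3 : m ≠ l := fun e => n ⟨c1, a1, e ▸ b1⟩
    have n4 : m' ≠ l := fun e => n ⟨c6, a6, e ▸ b6⟩
    have n5 : m ≠ m' := fun e => (dig ⟨c2, a2, b2⟩ ⟨c3, a3, b3⟩ ⟨c5, a5, e ▸ b5⟩ ⟨c4, a4, b4⟩).elim nv n3
    have e := congrArg (· (rho R j k 1)) ((mul (mul (adj' b1 b2 a1 a2 n1) (adj' a2 a3 b2 b3 n3) p2)
      (adj' b3 b4 a3 a4 nv) p4).symm.trans (mul (mul (adj' a1 a6 b1 b6 n5) (adj' b6 b5 a6 a5 n2) p3)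
      (adj' a5 a4 b5 b4 n4) p5))
    simp only [Equiv.Perm.mul_apply, rho_σ h] at e
    exact absurd (rho_inj h e) (by decide)

theorem two_le [Finite X] (i : I) : 2 ≤ D.nb i := by
  obtain ⟨y, z, h1, h2, n⟩ := D.thick (D.a 1) i
  exact (Set.one_lt_ncard (s := D.Nb (D.a 1) i)).2 ⟨y, h1, z, h2, n⟩

end GQ

namespace Bd

variable {Φ I : Type*} {R : Roots Φ I} {G X : Type*} [Group G] [MulAction G X] [Finite Φ] (D : Bd R G X) [Finite G]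

theorem gq_index {j k : I} (h : cm R j k = 4) {p f : ℕ} [Fact p.Prime] (hp : D.nb j = p ^ f)
    {S : Subgroup G} (hS : IsPGroup p S)
    (h1 : ∀ g ∈ S, D.Tr g (D.a 1) j ∧ ∀ w ∈ WJ R {j, k}, g • D.a w = D.a w) :
    (D.Q (D.a 1) k).relIndex S < (p ^ f) ^ 2 := by
  have : Finite X := Finite.of_surjective (fun g : G => g • D.a 1) fun x => by
    obtain ⟨g, e, -⟩ := D.tr (D.a 1) (D.a 1) x x (by rw [(D.eq_one _ _).2 rfl, (D.eq_one _ _).2 rfl])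
    exact ⟨g, e⟩
  have hj : j ∈ ({j, k} : Set I) := Or.inl rfl
  have hk : k ∈ ({j, k} : Set I) := Or.inr rfl
  have h0 : ∀ g ∈ S, g • D.a 1 = D.a 1 := fun g hg => (h1 g hg).1.1
  let _ := GQ.act D h0 {j, k} j
  let _ := GQ.act D h0 {j, k} k
  let _ := Fintype.ofFinite (GQ.Pan D {j, k} j)
  let _ := Fintype.ofFinite (GQ.Pan D {j, k} k)
  have r : ∀ w ∈ WJ R {j, k}, D.δ (D.a 1) (D.a w) ∈ WJ R {j, k} := fun w hw => by
    rwa [D.apt 1 (one_mem _) w (WJ_le _ hw), inv_one, one_mul]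
  have w0 : (1 : Equiv.Perm Φ) ∈ WJ R {j, k} := one_mem _
  have w1 := mul_mem w0 (GQ.σ_mem hk)
  have w2 := mul_mem w1 (GQ.σ_mem hj)
  have w3 := mul_mem w2 (GQ.σ_mem hk)
  have a1 := D.a_mem_Nb (WJ_le _ w0) k
  have a2 := D.a_mem_Nb (WJ_le _ w1) j
  have a3 := D.a_mem_Nb (WJ_le _ w2) k
  have fx : ∀ {i} {A : GQ.Pan D {j, k} i} {c : X} {g : G}, c ∈ A.1 → g • c = c →
      HSMul.hSMul (γ := Set X) (self := @instHSMul G (Set X) Set.smulSet) g A.1 = A.1 := fun hc e => by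
    rw [GQ.eq_Pn hc, GQ.smul_Pn, e]
  have tr : ∀ {g : G} {i} {c : X}, D.Tr g (D.a 1) i → c ∈ D.Pn (D.a 1) i → g • c = c := by
    rintro g i c e (rfl | hc)
    exacts [e.1, e.2 c hc]
  have s2 := GQ.two_le (D := D) j
  have C : GQ.Cf _ _ _ S (GQ.mk D _ (r _ w0) k) (GQ.mk D _ (r _ w2) k) (GQ.mk D _ (r _ w0) j)
      (GQ.mk D _ (r _ w1) j) (GQ.mk D _ (r _ w3) j) :=
    { GQ.isQ h with
      act := fun g _ _ ⟨c, a, b⟩ => ⟨(g : G) • c, Set.smul_mem_smul_set a, Set.smul_mem_smul_set b⟩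
      i0 := ⟨_, Or.inl rfl, Or.inl rfl⟩
      i3 := ⟨_, Or.inr a1, Or.inl rfl⟩
      j3 := ⟨_, Or.inl rfl, Or.inr a2⟩
      j2 := ⟨_, Or.inr a3, Or.inl rfl⟩
      n1 := GQ.ne_of (Or.inr a1) (Or.inl rfl) a2 (GQ.σ_jk h)
      n2 := GQ.ne_of (Or.inl rfl) (Or.inl rfl) a1 (GQ.σ_jk h).symm
      n3 := GQ.ne_of (Or.inr a2) (Or.inl rfl) a3 (GQ.σ_jk h).symm
      f0 := fun g _ ⟨_, a, b⟩ => Subtype.ext (fx a (tr (h1 g g.2).1 b))
      f2 := fun g => Subtype.ext (fx (Or.inl rfl) ((h1 g g.2).2 _ w3))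
      s2 := s2
      t2 := GQ.two_le k }
  rw [← hp]
  refine C.main hS (hp ▸ dvd_pow_self p fun e => by rw [hp, e, pow_zero] at s2; omega) fun g =>
    ⟨fun e l ⟨c, a, b⟩ => Subtype.ext (fx b (tr e a)), fun e => ⟨h0 g g.2, fun y hy => ?_⟩⟩
  have ry := GQ.res hk (A := GQ.mk D _ (r _ w0) k) (Or.inr hy)
  have e1 := congrArg Subtype.val (e (GQ.mk D y ry j) ⟨y, Or.inr hy, Or.inl rfl⟩)
  have m1 : (g : G) • y ∈ (GQ.mk D y ry j).1 := e1 ▸ Set.smul_mem_smul_set (Or.inl rfl)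
  have m2 : (g : G) • y ∈ (GQ.mk D _ (r _ w0) k).1 := Or.inr (by
    rw [← h0 g g.2, D.smul]; exact hy)
  by_contra n
  exact GQ.σ_jk h ((GQ.adj m1 (Or.inl rfl) n).symm.trans (GQ.adj m2 (Or.inr hy) n))

end Bd

end Tits
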