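import Mathlib
import Cfsg.Agent.Lib.Tits.Root

set_option autoImplicit false

open scoped commutatorElement

namespace Tits

open H63.St Cfsg

namespace M1

variable {G X : Type*} [Group G] [MulAction G X] {K : Type} [Field K] {φ : K → X}

/-- `g` acts on the coordinates as `f`. -/
def Ac (φ : K → X) (g : G) (f : K → K) : Prop := ∀ x, g • φ x = φ (f x)

theorem Ac.mul {g h : G} {f f' : K → K} (a : Ac φ g f) (b : Ac φ h f') : Ac φ (g * h) fun x => f (f' x) :=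
  fun x => by rw [mul_smul, b, a]

theorem Ac.inv {g : G} {f f' : K → K} (a : Ac φ g f) (e : ∀ x, f (f' x) = x) : Ac φ g⁻¹ f' :=
  fun x => by rw [inv_smul_eq_iff, a, e]

theorem Ac.congr {g : G} {f f' : K → K} (a : Ac φ g f) (e : ∀ x, f x = f' x) : Ac φ g f' :=
  fun x => by rw [a, e]

theorem Ac.aff_inv {g : G} {c b : K} {τ : K ≃+* K} (a : Ac φ g fun x => c * τ x + b) (hc : c ≠ 0) :
    Ac φ g⁻¹ fun x => τ.symm ((x - b) / c) :=
  a.inv fun x => by
    simp only [RingEquiv.apply_symm_apply]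
    field_simp
    ring

theorem Ac.lin_inv {g : G} {c : K} (a : Ac φ g fun x => c * x) (hc : c ≠ 0) : Ac φ g⁻¹ fun x => c⁻¹ * x :=
  a.inv fun x => by field_simp

theorem Ac.add_inv {g : G} {b : K} (a : Ac φ g fun x => x + b) : Ac φ g⁻¹ fun x => x - b :=
  a.inv fun x => by ring

theorem Ac.add_pow {g : G} {b : K} (a : Ac φ g fun x => x + b) (n : ℕ) : Ac φ (g ^ n) fun x => x + n * b := by
  induction n with
  | zero => intro x; simp
  | succ n ih => rw [pow_succ]; exact (ih.mul a).congr fun x => by push_cast; ring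

theorem Ac.mul_pow {g : G} {c : K} (a : Ac φ g fun x => c * x) (n : ℕ) : Ac φ (g ^ n) fun x => c ^ n * x := by
  induction n with
  | zero => intro x; simp
  | succ n ih => rw [pow_succ]; exact (ih.mul a).congr fun x => by ring

/-- conjugating a translation by an affine semilinear map. -/
theorem Ac.conj {g t : G} {c b s : K} {τ : K ≃+* K} (a : Ac φ g fun x => c * τ x + b) (hc : c ≠ 0)
    (ht : Ac φ t fun x => x + s) : Ac φ (g * t * g⁻¹) fun x => x + c * τ s :=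
  ((a.mul ht).mul (a.aff_inv hc)).congr fun x => by
    simp only [map_add, RingEquiv.apply_symm_apply]
    field_simp
    ring

theorem Ac.conj' {h t : G} {c s : K} (a : Ac φ h fun x => c * x) (hc : c ≠ 0)
    (ht : Ac φ t fun x => x + s) : Ac φ (h * t * h⁻¹) fun x => x + c * s :=
  ((a.mul ht).mul (a.lin_inv hc)).congr fun x => by
    field_simp

theorem aut_pow [Finite K] (τ : K ≃+* K) : ∃ a : ℕ, ∀ x, x ≠ 0 → τ x = x ^ a := by
  obtain ⟨ζ, hζ⟩ := IsCyclic.exists_monoid_generator (α := Kˣ)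
  have e : ∀ x : K, x ≠ 0 → ∃ n : ℕ, (ζ : K) ^ n = x := fun x hx => by
    obtain ⟨n, hn⟩ := hζ (Units.mk0 x hx)
    exact ⟨n, by simpa using congrArg Units.val hn⟩
  obtain ⟨a, ha⟩ := e (τ ζ) (by simp)
  refine ⟨a, fun x hx => ?_⟩
  obtain ⟨n, rfl⟩ := e x hx
  rw [map_pow, ← ha, ← pow_mul, ← pow_mul, mul_comm]

theorem aut_comm [Finite K] (τ τ' : K ≃+* K) (x : K) : τ (τ' x) = τ' (τ x) := by
  obtain ⟨a, ha⟩ := aut_pow τ
  obtain ⟨b, hb⟩ := aut_pow τ'
  by_cases hx : x = 0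
  · simp [hx]
  rw [hb x hx, map_pow, ha x hx, map_pow, hb x hx, ← pow_mul, ← pow_mul, mul_comm]

/-- the commutator of two semilinear maps is linear. -/
theorem Ac.comm [Finite K] {g h : G} {c c' : K} {τ τ' : K ≃+* K} (a : Ac φ g fun x => c * τ x + 0)
    (hc : c ≠ 0) (b : Ac φ h fun x => c' * τ' x + 0) (hc' : c' ≠ 0) :
    ∃ l : K, Ac φ (g * h * g⁻¹ * h⁻¹) fun x => l * x := by
  refine ⟨c * τ c' / (c' * τ' c), (((a.mul b).mul (a.aff_inv hc)).mul (b.aff_inv hc')).congr fun x => ?_⟩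
  have h1 : τ' c ≠ 0 := by simpa using hc
  obtain ⟨y, rfl⟩ : ∃ y, x = c' * τ' (c * τ y) :=
    ⟨τ.symm (τ'.symm (x / c') / c), by simp only [RingEquiv.apply_symm_apply]; field_simp; simp; field_simp⟩
  simp only [sub_zero, add_zero]
  rw [mul_div_cancel_left₀ _ hc', RingEquiv.symm_apply_apply, mul_div_cancel_left₀ _ hc,
    RingEquiv.symm_apply_apply, map_mul, map_mul, aut_comm τ τ']
  field_simp

theorem two [Fintype K] (h : Fintype.card K = 2) (x : K) : x = 0 ∨ x = 1 := by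
  by_contra! hx
  have : 2 < Fintype.card K := Fintype.two_lt_card_iff.2 ⟨x, 0, 1, hx.1, hx.2, zero_ne_one⟩
  omega

theorem three [Fintype K] (h : 2 < Fintype.card K) : ∃ d : K, d ≠ 0 ∧ d ≠ 1 := by
  classical
  by_contra! hd
  have : (Finset.univ : Finset K) ⊆ {0, 1} := fun x _ => by
    by_cases hx : x = 0
    · simp [hx]
    · simp [hd x hx]
  have := (Finset.card_le_card this).trans Finset.card_le_two
  rw [Finset.card_univ] at this
  omega

theorem aff_two [Fintype K] (h : Fintype.card K = 2) {c : K} (hc : c ≠ 0) (τ : K ≃+* K) (x : K) :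
    c * τ x = x := by
  rw [(two h c).resolve_left hc]
  rcases two h x with rfl | rfl <;> simp

theorem charP [Fintype K] {p : ℕ} [Fact p.Prime] (h : p ∣ Fintype.card K) : CharP K p := by
  obtain ⟨q, hq, n, hp, e⟩ := FiniteField.card' K
  rw [e] at h
  rwa [(Nat.prime_dvd_prime_iff_eq Fact.out hp).1 (Nat.Prime.dvd_of_dvd_pow Fact.out h)]

end M1

namespace Bd

open M1

variable {Φ I : Type*} {R : Roots Φ I} {G X : Type*} [Group G] [MulAction G X] [Finite Φ] (D : Bd R G X) [Finite G]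

omit [Finite Φ] [Finite G] in
theorem M1_nb {i : I} {K : Type} [Fintype K] {φ : K → X} (h1 : Function.Injective φ)
    (h2 : Set.range φ = D.Nb (D.a 1) i) : D.nb i = Fintype.card K := by
  rw [nb, ← h2, ← Set.image_univ, Set.ncard_image_of_injective _ h1, Set.ncard_univ, Nat.card_eq_fintype_card]

omit [Finite Φ] [Finite G] in
theorem M1_fix {i : I} {g : G} (hg : g ∈ D.GR (R.α i)) : g • D.a 1 = D.a 1 :=
  hg 1 (one_mem _) (by simpa using R.pos_α i)

omit [Finite G] in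
/-- transport of an interior panel to the base chamber. -/
theorem M1_int {r : Φ} {w : Equiv.Perm Φ} (hw : w ∈ R.W) {j : I} (hp : R.Pos (w⁻¹ r))
    (hn : w (R.α j) ≠ r) {K : Type} [Field K] (hP : D.Pan j K) :
    ∃ (φ : K → X) (m : G), Function.Injective φ ∧ Set.range φ = D.Nb (D.a 1) j ∧
      (∀ g ∈ D.GR r, ∃ (c : K) (τ : K ≃+* K), c ≠ 0 ∧ Ac φ (m⁻¹ * g * m) fun x => c * τ x + 0) ∧
      ∀ g ∈ D.GR r, Ac φ (m⁻¹ * g * m) (fun x => x) → D.Tr g (D.a w) j := by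
  obtain ⟨φ, h1, h2, h3, h4, -⟩ := hP
  obtain ⟨m, hm⟩ := D.exists_rep hw
  have fx : ∀ g ∈ D.GR r, ∀ v ∈ R.W, R.Pos ((w * v)⁻¹ r) → (m⁻¹ * g * m) • D.a v = D.a v :=
    fun g hg v hv h => by rw [mul_smul, mul_smul, hm v hv, hg _ (mul_mem hw hv) h, inv_smul_eq_iff, hm v hv]
  have f1 : ∀ g ∈ D.GR r, (m⁻¹ * g * m) • D.a 1 = D.a 1 := fun g hg => fx g hg 1 (one_mem _) (by simpa using hp)
  refine ⟨φ, m, h1, h2, fun g hg => ?_, fun g hg a => ?_⟩
  · obtain ⟨c, b, τ, hc, e⟩ := h4 _ (f1 g hg)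
    have := fx g hg (R.σ j) (R.σ_mem_W j) (by
      rw [mul_inv_rev, R.σ_inv]
      exact R.σ_pos hp fun e => hn (by rw [← e]; simp))
    rw [← h3, e] at this
    obtain rfl : b = 0 := by simpa using h1 this
    exact ⟨c, τ, hc, e⟩
  · have : D.Tr (m⁻¹ * g * m) (D.a 1) j := ⟨f1 g hg, fun y hy => by
      obtain ⟨x, rfl⟩ := h2.symm ▸ hy
      exact a x⟩
    rw [← D.tr_conj m, hm 1 (one_mem _), mul_one] at this
    simpa [mul_assoc] using this

theorem mouf_of_norm (hI : Irr R) {p : ℕ} [Fact p.Prime] (A : I → Prop)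
    (hA : ∀ i, A i → ∃ (K : Type) (_ : Field K) (_ : Fintype K), D.Pan i K ∧ p ∣ Fintype.card K)
    {i : I} (hi : A i) (hq : 2 < D.nb i ∨ ∀ j, A j → D.nb j = 2) {N : Subgroup G}
    (h1 : N ≤ D.GR (R.α i)) (h2 : ∀ g ∈ D.GR (R.α i), ∀ x ∈ N, g * x * g⁻¹ ∈ N)
    (h3 : ¬ N ≤ D.Q (D.a 1) i)
    (h4 : ∀ g ∈ N, (∀ w ∈ R.W, ∀ j, A j → R.Pos (w⁻¹ (R.α i)) → w (R.α j) ≠ R.α i →
      D.Tr g (D.a w) j) → g ∈ D.U (R.α i)) : D.Mouf (R.α i) ∧ D.Nrm i := by
  obtain ⟨K, _, _, ⟨φ, inj, rng, φ0, aff, lin⟩, hp⟩ := hA i hi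
  have nbK := D.M1_nb inj rng
  have mem : ∀ x, φ x ∈ D.Nb (D.a 1) i := fun x => rng ▸ Set.mem_range_self x
  have tr : ∀ g : G, g • D.a 1 = D.a 1 → Ac φ g (fun x => x) → D.Tr g (D.a 1) i := fun g hg a =>
    ⟨hg, fun y hy => by
      obtain ⟨x, rfl⟩ := rng.symm ▸ hy
      exact a x⟩
  have all : ∀ M : Subgroup G, (∀ h ∈ D.H, ∀ x ∈ M, h * x * h⁻¹ ∈ M) →
      (∃ t ∈ M, ∃ b : K, b ≠ 0 ∧ Ac φ t fun x => x + b) → ∀ s : K, ∃ t ∈ M, Ac φ t fun x => x + s := by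
    rintro M hM ⟨t, ht, b, hb, a⟩ s
    by_cases hs : s = 0
    · exact ⟨1, one_mem _, fun x => by simp [hs]⟩
    obtain ⟨h, hh, e⟩ := lin (s / b) (div_ne_zero hs hb)
    exact ⟨_, hM h hh t ht, (Ac.conj' e (div_ne_zero hs hb) a).congr fun x => by field_simp⟩
  obtain ⟨n, hn, hnQ⟩ := SetLike.not_le_iff_exists.1 h3
  obtain ⟨c, b, τ, hc, an⟩ := aff n (D.M1_fix (h1 hn))
  have key : ∃ t ∈ D.U (R.α i), ∃ b : K, b ≠ 0 ∧ Ac φ t fun x => x + b := by
    rcases hq with hq | hq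
    · obtain ⟨d, d0, d1⟩ := three (nbK ▸ hq)
      obtain ⟨h, hh, ah⟩ := lin d d0
      have hh' := D.H_le_GR (R.α i) hh
      have tG := all (D.GR (R.α i)) (fun h hh x hx =>
        mul_mem (mul_mem (D.H_le_GR _ hh) hx) (inv_mem (D.H_le_GR _ hh))) (by
        obtain ⟨g, hg, e⟩ := D.GR_trans (one_mem _) i (mem 0) (mem 1)
        replace hg : g ∈ D.GR (R.α i) := hg
        obtain ⟨c, b, τ, hc, ag⟩ := aff g (D.M1_fix hg)
        obtain rfl : b = 1 := by simpa using inj ((ag 0).symm.trans e)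
        have t0 : τ d ≠ 0 := by simpa using d0
        obtain ⟨k, hk, ak⟩ := lin (τ d) t0
        refine ⟨k⁻¹ * (g * h * g⁻¹), mul_mem (inv_mem (D.H_le_GR _ hk)) (mul_mem (mul_mem hg hh') (inv_mem hg)),
          (1 - τ d) / τ d, div_ne_zero (sub_ne_zero.2 fun e => d1 (by simpa using e.symm)) t0,
          ((Ac.lin_inv ak t0).mul ((Ac.mul ag ah).mul (Ac.aff_inv ag hc))).congr fun x => ?_⟩
        simp only [map_mul, RingEquiv.apply_symm_apply]
        field_simp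
        ring)
      obtain ⟨t, ht, s, hs, at'⟩ : ∃ t ∈ N, ∃ s : K, s ≠ 0 ∧ Ac φ t fun x => x + s := by
        by_cases e : ∀ s, c * τ s = s
        · refine ⟨n, hn, b, fun hb => hnQ (tr n (D.M1_fix (h1 hn)) fun x => ?_), fun x => ?_⟩
          · rw [an, e, hb, add_zero]
          · rw [an, e]
        · push Not at e
          obtain ⟨s, e⟩ := e
          obtain ⟨t, ht, a⟩ := tG s
          refine ⟨n * t * n⁻¹ * t⁻¹, ?_, c * τ s - s, sub_ne_zero.2 e,
            ((Ac.conj an hc a).mul a.add_inv).congr fun x => by ring⟩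
          have := mul_mem hn (h2 t ht _ (inv_mem hn))
          simpa [mul_assoc] using this
      have eN : t * h * t⁻¹ * h⁻¹ ∈ N := by
        have := mul_mem ht (h2 h hh' _ (inv_mem ht))
        simpa [mul_assoc] using this
      have ae : Ac φ (t * h * t⁻¹ * h⁻¹) fun x => x + (1 - d) * s :=
        (((at'.mul ah).mul at'.add_inv).mul (Ac.lin_inv ah d0)).congr fun x => by
          field_simp
          ring
      obtain ⟨k, m, hm, eo⟩ := Nat.exists_eq_pow_mul_and_not_dvd (orderOf_pos (t * h * t⁻¹ * h⁻¹)).ne' p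
        (Fact.out : p.Prime).ne_one
      haveI := charP hp
      refine ⟨(t * h * t⁻¹ * h⁻¹) ^ m, h4 _ (pow_mem eN m) fun w hw j hj hw1 hw2 => ?_, m * ((1 - d) * s),
        mul_ne_zero (fun e => hm ((CharP.cast_eq_zero_iff K p m).1 e))
          (mul_ne_zero (sub_ne_zero.2 d1.symm) hs), ae.add_pow m⟩
      obtain ⟨L, _, _, hP, hpL⟩ := hA j hj
      haveI := charP hpL
      obtain ⟨ψ, g, injψ, -, a1, a2⟩ := D.M1_int hw hw1 hw2 hP
      obtain ⟨c₁, τ₁, hc₁, b₁⟩ := a1 t (h1 ht)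
      obtain ⟨c₂, τ₂, hc₂, b₂⟩ := a1 h hh'
      obtain ⟨l, al⟩ := b₁.comm hc₁ b₂ hc₂
      have e1 : ∀ u : ℕ, (g⁻¹ * t * g * (g⁻¹ * h * g) * (g⁻¹ * t * g)⁻¹ * (g⁻¹ * h * g)⁻¹) ^ u =
          g⁻¹ * (t * h * t⁻¹ * h⁻¹) ^ u * g := fun u => by
        rw [show g⁻¹ * (t * h * t⁻¹ * h⁻¹) ^ u * g = g⁻¹ * (t * h * t⁻¹ * h⁻¹) ^ u * g⁻¹⁻¹ by rw [inv_inv],
          ← conj_pow]
        congr 1
        group
      have e2 := al.mul_pow (p ^ k * m) 1
      rw [e1, ← eo, pow_orderOf_eq_one, mul_one, inv_mul_cancel, one_smul, eo] at e2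
      have e3 : l ^ m = 1 := by
        have : (l ^ m - 1) ^ p ^ k = 0 := by
          rw [sub_pow_char_pow, one_pow, ← pow_mul, mul_comm m, sub_eq_zero]
          simpa using (injψ e2).symm
        exact sub_eq_zero.1 (pow_eq_zero_iff (pow_pos (Fact.out : p.Prime).pos k).ne' |>.1 this)
      refine a2 _ (h1 (pow_mem eN m)) ?_
      rw [← e1]
      exact (al.mul_pow m).congr fun x => by rw [e3, one_mul]
    · have K2 := nbK.symm.trans (hq i hi)
      refine ⟨n, h4 n hn fun w hw j hj hw1 hw2 => ?_, b, fun hb => hnQ (tr n (D.M1_fix (h1 hn)) fun x => ?_),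
        fun x => ?_⟩
      · obtain ⟨L, _, _, hP, -⟩ := hA j hj
        obtain ⟨ψ, g, injψ, rψ, a1, a2⟩ := D.M1_int hw hw1 hw2 hP
        obtain ⟨c₁, τ₁, hc₁, b₁⟩ := a1 n (h1 hn)
        exact a2 n (h1 hn) (b₁.congr fun x => by
          rw [add_zero, aff_two ((D.M1_nb injψ rψ).symm.trans (hq j hj)) hc₁])
      · rw [an, aff_two K2 hc, hb, add_zero]
      · rw [an, aff_two K2 hc]
  have tU := all _ (fun h hh x hx => D.conj_mem_U (D.H_le_GR _ hh) hx) key
  refine ⟨D.mouf_of_one (one_mem _) fun y hy => ?_, fun g hg v hv => ?_⟩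
  · obtain ⟨s, rfl⟩ := rng.symm ▸ hy
    obtain ⟨u, hu, a⟩ := tU s
    exact ⟨u, hu, by rw [one_mul, ← φ0, a]; simp⟩
  · obtain ⟨c, b, τ, hc, ag⟩ := aff g hg
    obtain ⟨c', s, τ', -, av⟩ := aff v (D.M1_fix (D.U_le_GR _ hv))
    obtain ⟨u, hu, a⟩ := tU s
    have : u⁻¹ * v = 1 := D.U_semireg hI (one_mem _) (i := i) (mul_mem (inv_mem hu) hv) (mem 0)
      (by rw [mul_smul, av, a.add_inv]; simp)
    obtain rfl : u = v := inv_mul_eq_one.1 this
    obtain ⟨v', hv', a'⟩ := tU (c * τ s)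
    refine ⟨v', hv', tr _ ?_ ((a'.add_inv.mul (Ac.conj ag hc a)).congr fun x => by ring)⟩
    rw [mul_smul, inv_smul_eq_iff, D.M1_fix (D.U_le_GR _ hv'), mul_smul, mul_smul, inv_smul_eq_iff.2 hg.symm,
      D.M1_fix (D.U_le_GR _ hv), hg]

end Bd

end Tits
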