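import Mathlib
import Cfsg.Agent.Lib.Tits.M1
import Cfsg.Agent.Lib.Tits.Plane
import Cfsg.Agent.Lib.Tits.GQ
import Cfsg.Agent.Lib.Tits.NiceC

/-! The Moufang condition for the roots on the simple bonds of a building of type `B`. -/

set_option autoImplicit false

open scoped commutatorElement

namespace Tits

open H63.St Cfsg

namespace M2

section gen

variable {Φ I : Type*} {R : Roots Φ I} {G X : Type*} [Group G] [MulAction G X] [Finite Φ]

theorem refl_mem_W (r : Φ) : R.refl r ∈ R.W := by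
  obtain ⟨w, hw, i, rfl⟩ := R.exists_W_α r
  have : R.refl (w (R.α i)) = w * R.σ i * w⁻¹ := by
    ext s
    have := Roots.W_refl hw (R.α i) (w⁻¹ s)
    simp only [Equiv.Perm.mul_apply, Roots.σ]
    rw [← this]; simp
  rw [this]
  exact mul_mem (mul_mem hw (R.σ_mem_W i)) (inv_mem hw)

omit [Finite Φ] in
theorem σ_mem_WJ {J : Set I} {i : I} (h : i ∈ J) : R.σ i ∈ WJ R J :=
  Subgroup.subset_closure ⟨i, h, rfl⟩

omit [Finite Φ] in
theorem inJ_ind {J : Set I} (P : Φ → Prop) (h1 : ∀ i ∈ J, P (R.α i))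
    (h2 : ∀ i ∈ J, ∀ r, P r → P (R.σ i r)) {r : Φ} (h : InJ R J r) : P r := by
  obtain ⟨w, hw, i, hi, rfl⟩ := h
  have key : (∀ r, P r → P (w r)) ∧ ∀ r, P r → P (w⁻¹ r) := by
    induction hw using Subgroup.closure_induction with
    | mem x hx => obtain ⟨k, hk, rfl⟩ := hx; rw [R.σ_inv]; exact ⟨h2 k hk, h2 k hk⟩
    | one => exact ⟨fun _ h => h, fun _ h => h⟩
    | mul x y _ _ a b =>
      rw [mul_inv_rev]
      exact ⟨fun r h => a.1 _ (b.1 r h), fun r h => b.2 _ (a.2 r h)⟩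
    | inv x _ a => rw [inv_inv]; exact ⟨a.2, a.1⟩
  exact key.1 _ (h1 i hi)

variable (D : Bd R G X)

theorem nb_three {i j : I} (h : cm R i j = 3) : D.nb i = D.nb j :=
  D.nb_eq (mul_mem (R.σ_mem_W i) (R.σ_mem_W j)) (σσ_of_three h).1

theorem mouf_three {i j : I} (h : cm R i j = 3) (hM : D.Mouf (R.α i)) : D.Mouf (R.α j) := by
  have := Bd.Mouf.smul D hM (mul_mem (R.σ_mem_W i) (R.σ_mem_W j))
  rwa [Equiv.Perm.mul_apply, (σσ_of_three h).1] at this

theorem mouf_three_eq {i j : I} (h : cm R i j = 3) : D.Mouf (R.α i) = D.Mouf (R.α j) :=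
  propext ⟨mouf_three D h, mouf_three D ((cm_symm j i).trans h)⟩

theorem GR_not_le (i : I) : ¬ D.GR (R.α i) ≤ D.Q (D.a 1) i := fun h => by
  obtain ⟨y, z, hy, hz, hne⟩ := D.thick (D.a 1) i
  obtain ⟨g, hg, e⟩ := D.GR_trans R.W.one_mem i hy hz
  exact hne (((h hg).2 y hy).symm.trans e)

omit [Finite Φ] in
theorem U_not_le {i : I} (hM : D.Mouf (R.α i)) : ¬ D.U (R.α i) ≤ D.Q (D.a 1) i := fun h => by
  obtain ⟨y, z, hy, hz, hne⟩ := D.thick (D.a 1) i
  obtain ⟨g, hg, e⟩ := hM 1 R.W.one_mem i rfl y hy z hz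
  exact hne (((h hg).2 y hy).symm.trans e)

omit [Finite Φ] in
theorem tr_of_ker {J : Set I} {g : G} {x : X} (h : g ∈ D.Ker x J) {i : I} (hi : i ∈ J) :
    D.Tr g x i :=
  ⟨h x (by rw [(D.eq_one x x).2 rfl]; exact one_mem _), fun y hy => h y (by
    rw [show D.δ x y = R.σ i from hy]; exact σ_mem_WJ hi)⟩

theorem ker_of_δ {J : Set I} {g : G} {x y : X} (h : g ∈ D.Ker x J) (hy : D.δ x y ∈ WJ R J) :
    g ∈ D.Ker y J := fun z hz => h z (D.δ_mem_WJ hy hz)

omit [Finite Φ] in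
theorem ker_conj {J : Set I} {g : G} {x : X} (h : g ∈ D.Ker x J) (l : G) :
    l * g * l⁻¹ ∈ D.Ker (l • x) J := fun z hz => by
  have := h (l⁻¹ • z) (by rw [← D.smul l, smul_inv_smul]; exact hz)
  rw [mul_smul, mul_smul, this, smul_inv_smul]

omit [Finite Φ] in
theorem exists_N (r k : Φ) : ∃ N : Subgroup G, ∀ x, x ∈ N ↔ x ∈ D.GR r ∧ D.Wall x r k := by
  refine ⟨D.GR r ⊓ ⨅ (w : Equiv.Perm Φ) (_ : w ∈ R.W) (i : I) (_ : R.Pos (w⁻¹ r))
    (_ : w (R.α i) = k ∨ w (R.α i) = R.neg k), D.Q (D.a w) i, fun x => ?_⟩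
  simp only [Subgroup.mem_inf, Subgroup.mem_iInf]
  rfl

theorem wall_conj {r k : Φ} {g x : G} (hg : g ∈ D.GR r) (hx : D.Wall x r k) :
    D.Wall (g * x * g⁻¹) r k := fun w hw i hp hk => by
  have := (D.tr_conj g x (D.a w) i).2 (hx w hw i hp hk)
  rwa [hg w hw hp] at this

variable [Finite G]

theorem exists_pow {i j : I} (h : cm R i j = 3) :
    ∃ p f : ℕ, p.Prime ∧ 0 < f ∧ D.nb i = p ^ f := by
  obtain ⟨K, _, _, -, e⟩ := D.exists_pan h
  obtain ⟨p, hp⟩ := CharP.exists K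
  obtain ⟨n, h1, h2⟩ := FiniteField.card K p
  exact ⟨p, n, h1, n.2, e ▸ h2⟩

theorem two_le {i j : I} (h : cm R i j = 3) : 2 ≤ D.nb i := by
  obtain ⟨K, _, _, -, e⟩ := D.exists_pan h
  rw [← e]; exact Fintype.one_lt_card

/-- The key step: an element of `GR (α j)`, trivial on the wall `σ i σ j α k`, that moves the
boundary panel. -/
theorem exists_elt {i j k : I} (hij : cm R i j = 3) (hjk : cm R j k = 4)
    (n1 : ¬ InJ R {j, k} (R.α i)) (n2 : ¬ InJ R {j, k} (R.σ i (R.α j))) :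
    ∃ g ∈ D.GR (R.α j), D.Wall g (R.α j) (R.σ i (R.σ j (R.α k))) ∧ g ∉ D.Q (D.a 1) j := by
  obtain ⟨p, f, hp, -, hq⟩ := exists_pow D ((cm_symm j i).trans hij)
  haveI := Fact.mk hp
  obtain ⟨S, hS, h1, h2, h3⟩ := D.exists_el hij hq
  have hr : R.Pos (R.σ i (R.α j)) := R.σ_pos (R.pos_α j) fun e => n1 (e ▸ inJ_α (by simp))
  have fx : ∀ g ∈ S, ∀ w ∈ WJ R {j, k}, g • D.a w = D.a w := fun g hg w hw =>
    (h1 g hg).2 w (WJ_le _ hw) ((pos_iff_of_not_inJ n1 (inv_mem hw)).2 (R.pos_α i))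
      ((pos_iff_of_not_inJ n2 (inv_mem hw)).2 hr)
  have h4 := D.gq_index hjk hq hS fun g hg => ⟨(h1 g hg).1, fx g hg⟩
  obtain ⟨g, hg, hQ, hK⟩ : ∃ g ∈ S, g ∈ D.Q (D.a 1) k ∧ g ∉ D.Ker (D.a 1) {i, j} := by
    by_contra hc
    push Not at hc
    have := Subgroup.relIndex_le_of_le_left (H := D.Q (D.a 1) k ⊓ S) (K := D.Ker (D.a 1) {i, j})
      (L := S) (fun g hg => hc g hg.2 hg.1) Subgroup.index_ne_zero_of_finite
    rw [Subgroup.inf_relIndex_right] at this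
    omega
  have k1 : g ∈ D.Ker (D.a 1) {j, k} := D.rigid R.W.one_mem
    (fun w hw => by rw [one_mul]; exact fx g hg w hw) (by
      rintro l (rfl | rfl)
      · exact (h1 g hg).1
      · exact hQ)
  obtain ⟨l, l1, l2, l3, l4⟩ := h3 g hg
  have k2 : l * g * l⁻¹ ∈ D.Ker (D.a 1) {j, k} := by
    refine ker_of_δ D (ker_conj D k1 l) ?_
    rcases l1 with e | e
    · rw [e, (D.eq_one _ _).2 rfl]; exact one_mem _
    · rw [D.symm, e]; exact inv_mem (σ_mem_WJ (by simp))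
  generalize l * g * l⁻¹ = g' at l2 l3 l4 k2
  have w1 : D.Wall g' (R.σ i (R.α j)) (R.σ j (R.α k)) := by
    refine D.wall_of_tr l2 (R.σ_mem_W j) (tr_of_ker D (J := {j, k}) (ker_of_δ D k2 ?_) (by simp))
    rw [D.apt 1 R.W.one_mem _ (R.σ_mem_W j), inv_one, one_mul]
    exact σ_mem_WJ (by simp)
  have w2 : ¬ D.Tr g' (D.a (R.σ i)) j := fun h => by
    have hH := D.mem_H_of_GR (R.σ_mem_W i) l2 (h.2 _ (D.a_mem_Nb (R.σ_mem_W i) j))
    refine hK (l4 (D.rigid R.W.one_mem (fun w hw => hH _ (mul_mem R.W.one_mem (WJ_le _ hw))) ?_))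
    rintro l (rfl | rfl)
    · exact l3
    · exact tr_of_ker D k2 (by simp)
  obtain ⟨c, hc⟩ := D.exists_rep (R.σ_mem_W i)
  refine ⟨c * g' * c⁻¹, ?_, ?_, fun h => w2 ?_⟩
  · have := (D.conj_GR (R.σ_mem_W i) hc _ _).1 l2
    rwa [R.σ_σ] at this
  · have := (D.conj_Wall (R.σ_mem_W i) hc _ _ _).1 w1
    rwa [R.σ_σ] at this
  · rw [← D.tr_conj c, hc _ (R.σ_mem_W i), R.σ_mul_self]
    exact h

end gen

section B

variable {n : ℕ} {hs : true = false → 1 ≤ n}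

theorem exists_perm {w : Equiv.Perm (PR true n)} (hw : w ∈ (VC true n hs).toRoots.W) :
    ∃ π : Equiv.Perm (J n), ∀ r, (w r).1 = r.1.map π := by
  obtain ⟨L, rfl⟩ := Roots.exists_wp hw
  clear hw
  induction L with
  | nil => exact ⟨1, fun r => by simp⟩
  | cons a L ih =>
    obtain ⟨π, h⟩ := ih
    refine ⟨VC.τp (VC.α1 true a) (VC.α2 a) * π, fun r => ?_⟩
    rw [Roots.wp_cons, Equiv.Perm.mul_apply, Equiv.Perm.coe_mul, ← Sym2.map_map, ← h]
    rfl

theorem diag_iff {w : Equiv.Perm (PR true n)} (hw : w ∈ (VC true n hs).toRoots.W) (r : PR true n) :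
    (w r).1.IsDiag ↔ r.1.IsDiag := by
  obtain ⟨π, h⟩ := exists_perm hw
  rw [h, Sym2.isDiag_map π.injective]

theorem diag_α (i : Fin (n + 1)) :
    ((VC true n hs).toRoots.α i).1.IsDiag ↔ i = Fin.last n := by
  change (s(VC.α1 true i, VC.α2 i) : Sym2 (J n)).IsDiag ↔ _
  rw [Sym2.mk_isDiag_iff, Fin.ext_iff, Fin.ext_iff, VC.α1_val, VC.α2_val, Fin.val_last]
  simp only [Bool.true_eq_false, false_and, if_false]
  omega

theorem σ_val (i : Fin (n + 1)) (r : PR true n) :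
    ((VC true n hs).toRoots.σ i r).1 = r.1.map (VC.τ (VC.α1 true i) (VC.α2 i)) := rfl

theorem neg_val (r : PR true n) : ((VC true n hs).toRoots.neg r).1 = r.1.map Fin.rev := rfl

theorem diag_neg (r : PR true n) : ((VC true n hs).toRoots.neg r).1.IsDiag ↔ r.1.IsDiag :=
  Sym2.isDiag_map Fin.rev_injective

variable (hs) in
theorem exists_one (x x' : J n) : ∃ w ∈ (VC true n hs).toRoots.W, ∃ π : Equiv.Perm (J n),
    (∀ z, π z.rev = (π z).rev) ∧ (∀ r, (w r).1 = r.1.map π) ∧ π x = x' ∧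
      ∀ z, In x z → In x' z → π z = z := by
  by_cases e : x = x'
  · exact ⟨1, one_mem _, 1, fun _ => rfl, fun r => by simp, e, fun _ _ _ => rfl⟩
  · have h : Ok true s(x, x'.rev) := ⟨fun h => e (Fin.rev_injective h).symm, by simp⟩
    exact ⟨_, refl_mem_W ⟨_, h⟩, VC.τp x x'.rev, VC.τ_rev _ _, fun r => rfl, by simp,
      fun z h1 h2 => VC.τ_in h1 h2.rev'⟩

variable (hs) in
theorem exists_two {x y x' y' : J n} (h : In x y) (h' : In x' y') :
    ∃ w ∈ (VC true n hs).toRoots.W, ∃ π : Equiv.Perm (J n),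
      (∀ z, π z.rev = (π z).rev) ∧ (∀ r, (w r).1 = r.1.map π) ∧ π x = x' ∧ π y = y' := by
  obtain ⟨w, hw, π, a1, a2, a3, -⟩ := exists_one hs x x'
  obtain ⟨w', hw', π', b1, b2, b3, b4⟩ := exists_one hs (π y) y'
  have i1 : In x' (π y) :=
    ⟨a3 ▸ π.injective.ne h.1, by rw [← a3, ← a1]; exact π.injective.ne h.2⟩
  refine ⟨w' * w, mul_mem hw' hw, π' * π, fun z => ?_, fun r => ?_, ?_, b3⟩
  · rw [Equiv.Perm.mul_apply, a1, b1]; rfl
  · rw [Equiv.Perm.mul_apply, b2, a2, Sym2.map_map]; rfl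
  · rw [Equiv.Perm.mul_apply, a3, b4 _ i1.symm h'.symm]

end B

section B3

variable {m : ℕ} {hs : true = false → 1 ≤ m + 2}

theorem supp {r : PR true (m + 2)}
    (h : InJ (VC true (m + 2) hs).toRoots {⟨m + 1, by omega⟩, Fin.last _} r) :
    ∀ x ∈ r.1, m + 1 ≤ (x : ℕ) ∧ (x : ℕ) ≤ m + 4 := by
  refine inJ_ind (fun r : PR true (m + 2) => ∀ x ∈ r.1, m + 1 ≤ (x : ℕ) ∧ (x : ℕ) ≤ m + 4) ?_ ?_ h
  · intro i hi x hx
    change x ∈ (s(VC.α1 true i, VC.α2 i) : Sym2 (J (m + 2))) at hx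
    rcases hi with rfl | rfl <;> rcases Sym2.mem_iff.1 hx with rfl | rfl <;>
      simp [VC.α1_val, VC.α2_val] <;> omega
  · intro i hi r hr x hx
    change x ∈ r.1.map (VC.τ (VC.α1 true i) (VC.α2 i)) at hx
    obtain ⟨y, hy, rfl⟩ := Sym2.mem_map.1 hx
    have := hr y hy
    rw [VC.τ_val, VC.α1_val, VC.α2_val]
    rcases hi with rfl | rfl <;>
      simp only [Bool.true_eq_false, false_and, if_false, Fin.val_last] <;> split_ifs <;> omega

theorem irr : Irr (VC true (m + 2) hs).toRoots := fun i => by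
  rw [cm_VB _ (by omega)]
  by_cases h : i.1 = 0
  · refine ⟨⟨1, by omega⟩, ?_⟩
    simp only [mB, Fin.ext_iff]
    split_ifs <;> omega
  · refine ⟨⟨i.1 - 1, by omega⟩, ?_⟩
    simp only [mB, Fin.ext_iff]
    split_ifs <;> omega

theorem nbr {i : Fin (m + 3)} (hi : i ≠ Fin.last _) :
    ∃ j, cm (VC true (m + 2) hs).toRoots i j = 3 := by
  rw [cm_VB _ (by omega)]
  rw [ne_eq, Fin.ext_iff, Fin.val_last] at hi
  by_cases h : i.1 = 0
  · refine ⟨⟨1, by omega⟩, ?_⟩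
    simp only [mB, Fin.ext_iff]
    split_ifs <;> omega
  · refine ⟨⟨i.1 - 1, by omega⟩, ?_⟩
    simp only [mB, Fin.ext_iff]
    split_ifs <;> omega

theorem b3 : B3 (VC true (m + 2) hs).toRoots ⟨m, by omega⟩ ⟨m + 1, by omega⟩ (Fin.last _) := by
  unfold B3
  rw [cm_VB _ (by omega)]
  simp [mB, Fin.ext_iff]
  omega

theorem α_mid : ((VC true (m + 2) hs).toRoots.α ⟨m + 1, by omega⟩).1 =
    s((⟨m + 1, by omega⟩ : J (m + 2)), (⟨m + 2, by omega⟩ : J (m + 2)).rev) := by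
  change (s(VC.α1 true _, VC.α2 _) : Sym2 (J (m + 2))) = _
  refine Sym2.eq_iff.2 (Or.inl ⟨rfl, Fin.ext ?_⟩)
  simp only [VC.α2_val, Fin.val_rev]
  omega

theorem α_last : ((VC true (m + 2) hs).toRoots.α (Fin.last _)).1 =
    s((⟨m + 2, by omega⟩ : J (m + 2)), (⟨m + 2, by omega⟩ : J (m + 2))) := by
  change (s(VC.α1 true _, VC.α2 _) : Sym2 (J (m + 2))) = _
  refine Sym2.eq_iff.2 (Or.inl ⟨rfl, Fin.ext ?_⟩)
  simp only [VC.α2_val, Fin.val_last]
  omega

theorem σ_last : ((VC true (m + 2) hs).toRoots.σ ⟨m + 1, by omega⟩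
    ((VC true (m + 2) hs).toRoots.α (Fin.last _))).1 =
    s((⟨m + 1, by omega⟩ : J (m + 2)), (⟨m + 1, by omega⟩ : J (m + 2))) := by
  rw [σ_val, α_last, Sym2.map_mk, Sym2.eq_iff]
  simp only [Fin.ext_iff, VC.τ_val, VC.α1_val, VC.α2_val, Bool.true_eq_false, false_and, if_false]
  split_ifs <;> omega

theorem σσ_last : ((VC true (m + 2) hs).toRoots.σ ⟨m, by omega⟩
    ((VC true (m + 2) hs).toRoots.σ ⟨m + 1, by omega⟩
    ((VC true (m + 2) hs).toRoots.α (Fin.last _)))).1 =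
    s((⟨m, by omega⟩ : J (m + 2)), (⟨m, by omega⟩ : J (m + 2))) := by
  rw [σ_val, σ_last, Sym2.map_mk, Sym2.eq_iff]
  simp only [Fin.ext_iff, VC.τ_val, VC.α1_val, VC.α2_val, Bool.true_eq_false, false_and, if_false]
  split_ifs <;> omega

theorem not_inJ1 : ¬ InJ (VC true (m + 2) hs).toRoots {⟨m + 1, by omega⟩, Fin.last _}
    ((VC true (m + 2) hs).toRoots.α ⟨m, by omega⟩) := fun h => by
  have := supp h (VC.α1 true ⟨m, by omega⟩) (Sym2.mem_mk_left _ _)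
  simp [VC.α1_val] at this

theorem not_inJ2 : ¬ InJ (VC true (m + 2) hs).toRoots {⟨m + 1, by omega⟩, Fin.last _}
    ((VC true (m + 2) hs).toRoots.σ ⟨m, by omega⟩
      ((VC true (m + 2) hs).toRoots.α ⟨m + 1, by omega⟩)) := fun h => by
  have := supp h (VC.τ (VC.α1 true ⟨m, by omega⟩) (VC.α2 ⟨m, by omega⟩)
    (VC.α1 true ⟨m + 1, by omega⟩)) (Sym2.mem_mk_left _ _)
  simp only [VC.τ_val, VC.α1_val, VC.α2_val, Bool.true_eq_false, false_and, if_false] at this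
  split_ifs at this <;> omega

variable {G X : Type*} [Group G] [MulAction G X] (D : Bd (VC true (m + 2) hs).toRoots G X)

/-- Trivial on the walls of the simple bonds and on one further wall means trivial on all walls. -/
theorem mem_U {g : G} (hg : g ∈ D.GR ((VC true (m + 2) hs).toRoots.α ⟨m + 1, by omega⟩))
    (h1 : D.Wall g ((VC true (m + 2) hs).toRoots.α ⟨m + 1, by omega⟩)
      ((VC true (m + 2) hs).toRoots.σ ⟨m, by omega⟩
        ((VC true (m + 2) hs).toRoots.σ ⟨m + 1, by omega⟩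
          ((VC true (m + 2) hs).toRoots.α (Fin.last _)))))
    (h2 : ∀ w ∈ (VC true (m + 2) hs).toRoots.W, ∀ l, l ≠ Fin.last _ →
      (VC true (m + 2) hs).toRoots.Pos (w⁻¹ ((VC true (m + 2) hs).toRoots.α ⟨m + 1, by omega⟩)) →
      w ((VC true (m + 2) hs).toRoots.α l) ≠ (VC true (m + 2) hs).toRoots.α ⟨m + 1, by omega⟩ →
      D.Tr g (D.a w) l) :
    g ∈ D.U ((VC true (m + 2) hs).toRoots.α ⟨m + 1, by omega⟩) := by
  refine ⟨hg, fun w hw l hp hn => ?_⟩
  by_cases hl : l ≠ Fin.last _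
  · exact h2 w hw l hl hp hn
  obtain rfl := not_not.1 hl
  obtain ⟨c, hc⟩ : ∃ c, (w ((VC true (m + 2) hs).toRoots.α (Fin.last _))).1 = s(c, c) := by
    have := (diag_iff hw _).2 ((diag_α (hs := hs) _).2 rfl)
    generalize (w ((VC true (m + 2) hs).toRoots.α (Fin.last _))).1 = z at this
    induction z using Sym2.ind with
    | _ a b => exact ⟨a, by rw [← Sym2.mk_isDiag_iff.1 this]⟩
  rcases VC.in_cases (⟨m, by omega⟩ : J (m + 2)) c with rfl | rfl | hin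
  · exact h1 w hw _ hp (Or.inl (Subtype.ext (hc.trans σσ_last.symm)))
  · refine h1 w hw _ hp (Or.inr (Subtype.ext (hc.trans ?_)))
    rw [neg_val, σσ_last, Sym2.map_mk]
  have i23 : In (⟨m + 2, by omega⟩ : J (m + 2)) ⟨m + 1, by omega⟩ := by rw [In.iff]; simp; omega
  obtain ⟨v, hv, π, p1, p2, p3, p4⟩ := exists_two hs i23 hin
  have m1 : ∀ x : J (m + 2), m + 1 ≤ (x : ℕ) ∧ (x : ℕ) ≤ m + 4 →
      π x = c ∨ π x = c.rev ∨ π x = ⟨m, by omega⟩ ∨ π x = (⟨m, by omega⟩ : J (m + 2)).rev := by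
    intro x hx
    rw [← p3, ← p4, ← p1, ← p1]
    simp only [π.injective.eq_iff, Fin.ext_iff, Fin.val_rev]
    omega
  have key := D.wall_close hg hv (i := ⟨m + 1, by omega⟩) (j := Fin.last _) (fun h => ?_) ?_ ?_
    ((inJ_α (i := Fin.last _) (by simp)).smul (σ_mem_WJ (i := ⟨m + 1, by omega⟩) (by simp)))
  · refine key w hw _ hp (Or.inl (Subtype.ext ?_))
    rw [hc, p2, σ_last, Sym2.map_mk, p4]
  · have e := p2 (v⁻¹ ((VC true (m + 2) hs).toRoots.α ⟨m + 1, by omega⟩))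
    rw [← Equiv.Perm.mul_apply, mul_inv_cancel, Equiv.Perm.one_apply, α_mid] at e
    obtain ⟨x, hx, e1⟩ := Sym2.mem_map.1 (e ▸ Sym2.mem_mk_left _ _)
    obtain ⟨y, hy, e2⟩ := Sym2.mem_map.1 (e ▸ Sym2.mem_mk_right _ _)
    have a1 := m1 x (supp h x hx)
    have a2 := m1 y (supp h y hy)
    rw [e1] at a1; rw [e2] at a2
    simp only [Fin.ext_iff, Fin.val_rev] at a1 a2
    omega
  · have e : (v ((VC true (m + 2) hs).toRoots.α ⟨m + 1, by omega⟩)).1 =
        s(c, (⟨m, by omega⟩ : J (m + 2)).rev) := by rw [p2, α_mid, Sym2.map_mk, p1, p3, p4]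
    intro u hu l hp' hk
    refine h2 u hu l (fun el => ?_) hp' (fun el => ?_)
    · have d1 := (diag_iff hu _).2 ((diag_α (hs := hs) _).2 el)
      have d2 : (v ((VC true (m + 2) hs).toRoots.α ⟨m + 1, by omega⟩)).1.IsDiag := by
        rcases hk with hk | hk <;> rw [hk] at d1
        · exact d1
        · exact (diag_neg _).1 d1
      rw [e, Sym2.mk_isDiag_iff] at d2
      exact hin.2 d2
    · rw [el] at hk
      rcases hk with hk | hk
      · rw [← hk, α_mid, Sym2.eq_iff] at e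
        simp only [Fin.ext_iff, Fin.val_rev] at e
        omega
      · have e' := congrArg Subtype.val hk
        rw [neg_val, e, α_mid, Sym2.map_mk, Sym2.eq_iff] at e'
        simp only [Fin.ext_iff, Fin.val_rev] at e'
        omega
  · have : v ((VC true (m + 2) hs).toRoots.α (Fin.last _)) = _ :=
      Subtype.ext ((by rw [p2, α_last, Sym2.map_mk, p3] : _ = _).trans (σσ_last (hs := hs)).symm)
    rw [this]; exact h1

end B3

end M2

open M2

theorem mouf_long {m : ℕ} {hs : true = false → 1 ≤ m + 2} {G X : Type*} [Group G] [MulAction G X]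
    [Finite G] (D : Bd (VC true (m + 2) hs).toRoots G X) {i : Fin (m + 3)} (hi : i ≠ Fin.last _) :
    D.Mouf ((VC true (m + 2) hs).toRoots.α i) ∧ D.Nrm i := by
  have hj : (⟨m + 1, by omega⟩ : Fin (m + 3)) ≠ Fin.last _ := by simp [Fin.ext_iff]
  have hb := b3 (m := m) (hs := hs)
  have hc := cm_VB (m + 2) (by omega) hs
  have nbc : ∀ l l' : Fin (m + 3), l ≠ Fin.last _ → l' ≠ Fin.last _ → D.nb l = D.nb l' :=
    const_B (m + 2) D.nb fun a b h => nb_three D (hc ▸ h)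
  obtain ⟨p, f, hp, hf, hq⟩ := exists_pow D ((cm_symm _ _).trans hb.1)
  haveI := Fact.mk hp
  have hA : ∀ l : Fin (m + 3), l ≠ Fin.last _ →
      ∃ (K : Type) (_ : Field K) (_ : Fintype K), D.Pan l K ∧ p ∣ Fintype.card K := fun l hl => by
    obtain ⟨l', h⟩ := nbr (hs := hs) hl
    obtain ⟨K, _, _, h1, h2⟩ := D.exists_pan h
    exact ⟨K, _, _, h1, by rw [h2, nbc l _ hl hj, hq]; exact dvd_pow_self p hf.ne'⟩
  have hq2 : ∀ l : Fin (m + 3), l ≠ Fin.last _ →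
      2 < D.nb l ∨ ∀ l' : Fin (m + 3), l' ≠ Fin.last _ → D.nb l' = 2 := fun l hl => by
    obtain ⟨l', h⟩ := nbr (hs := hs) hl
    rcases (two_le D h).eq_or_lt with e | e
    · exact Or.inr fun l' hl' => (nbc l' l hl' hl).trans e.symm
    · exact Or.inl e
  obtain ⟨g, g1, g2, g3⟩ := exists_elt D hb.1 hb.2.1 not_inJ1 not_inJ2
  obtain ⟨N, hN⟩ := exists_N D ((VC true (m + 2) hs).toRoots.α ⟨m + 1, by omega⟩)
    ((VC true (m + 2) hs).toRoots.σ ⟨m, by omega⟩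
      ((VC true (m + 2) hs).toRoots.σ ⟨m + 1, by omega⟩
        ((VC true (m + 2) hs).toRoots.α (Fin.last _))))
  have hM := (D.mouf_of_norm irr (fun l => l ≠ Fin.last _) hA hj (hq2 _ hj) (N := N)
    (fun x hx => ((hN x).1 hx).1)
    (fun g hg x hx => (hN _).2 ⟨mul_mem (mul_mem hg ((hN x).1 hx).1) (inv_mem hg),
      wall_conj D hg ((hN x).1 hx).2⟩)
    (fun h => g3 (h ((hN g).2 ⟨g1, g2⟩)))
    (fun x hx h => mem_U D ((hN x).1 hx).1 ((hN x).1 hx).2 h)).1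
  have hM' : D.Mouf ((VC true (m + 2) hs).toRoots.α i) := by
    rw [const_B (m + 2) (fun l => D.Mouf ((VC true (m + 2) hs).toRoots.α l))
      (fun a b h => mouf_three_eq D (hc ▸ h)) i _ hi hj]
    exact hM
  exact D.mouf_of_norm irr (fun l => l ≠ Fin.last _) hA hi (hq2 _ hi) (D.U_le_GR _)
    (fun g hg x hx => D.conj_mem_U hg hx) (U_not_le D hM') fun g hg _ => hg

end Tits
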