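import Mathlib
import Cfsg.Agent.Lib.Tits.Root
import Cfsg.Agent.Lib.Tits.Rk

set_option autoImplicit false
set_option linter.unusedSectionVars false

open scoped commutatorElement

namespace Tits

open H63.St Cfsg

namespace M3

variable {Φ I : Type*} {R : Roots Φ I}

/-- Minimal coset representatives. -/
lemma exists_min (J : Set I) {w : Equiv.Perm Φ} (hw : w ∈ R.W) [Finite Φ] :
    ∃ u ∈ R.W, ∃ v ∈ WJ R J, w = u * v ∧ ∀ r, InJ R J r → R.Pos r → R.Pos (u r) := by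
  classical
  have hex : ∃ n, ∃ L : List I, L.length = n ∧ (R.wp L)⁻¹ * w ∈ WJ R J := by
    obtain ⟨L, rfl⟩ := Roots.exists_wp hw
    exact ⟨_, L, rfl, by simp⟩
  obtain ⟨L, hL, hm⟩ := Nat.find_spec hex
  refine ⟨R.wp L, R.wp_mem_W L, _, hm, by group, fun r hr hp => ?_⟩
  by_contra hn
  obtain ⟨L1, i, L2, e, e2⟩ := Roots.flip hp hn
  obtain ⟨x, hx, l, hl, rfl⟩ := hr
  have hxW : x ∈ R.W := WJ_le J hx
  have h3 : (R.wp L2 * x) (R.α l) = R.α i := e2
  have h4 := Roots.W_conj_σ (R.W.mul_mem (R.wp_mem_W L2) hxW) h3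
  have hσ : R.σ l ∈ WJ R J := Subgroup.subset_closure ⟨l, hl, rfl⟩
  have h5 : (R.wp (L1 ++ L2))⁻¹ * w = (x * R.σ l * x⁻¹) * ((R.wp L)⁻¹ * w) := by
    have h6 : R.wp L = R.wp (L1 ++ L2) * (x * R.σ l * x⁻¹) := by
      rw [e, Roots.wp_append, Roots.wp_append, Roots.wp_cons, ← h4]; group
    have h7 : x * R.σ l * x⁻¹ * (x * R.σ l * x⁻¹) = 1 := by
      have := R.σ_mul_self l
      calc _ = x * (R.σ l * R.σ l) * x⁻¹ := by group
        _ = 1 := by rw [this]; group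
    rw [h6, mul_inv_rev, inv_eq_of_mul_eq_one_right h7, ← mul_assoc, ← mul_assoc, h7, one_mul]
  have h8 : (R.wp (L1 ++ L2))⁻¹ * w ∈ WJ R J := by
    rw [h5]
    exact (WJ R J).mul_mem ((WJ R J).mul_mem ((WJ R J).mul_mem hx hσ) ((WJ R J).inv_mem hx)) hm
  have h9 := Nat.find_min' hex ⟨L1 ++ L2, rfl, h8⟩
  rw [← hL, e] at h9
  simp at h9

/-- The action of the rank two group on the octagon. -/
lemma act_rho [Finite Φ] {j k : I} (h : cm R j k = 4) {v : Equiv.Perm Φ} (hv : v ∈ WJ R {j, k}) :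
    ∃ c : ZMod 8, (∀ n, v (rho R j k n) = rho R j k (c + n)) ∨
      ∀ n, v (rho R j k n) = rho R j k (c - n) := by
  induction hv using Subgroup.closure_induction_left with
  | one => exact ⟨0, Or.inl fun n => by simp⟩
  | mul_left x hx y _ ih =>
    obtain ⟨c, hc⟩ := ih
    obtain ⟨l, hl, rfl⟩ := hx
    rcases hl with rfl | rfl
    · rcases hc with hc | hc
      · exact ⟨6 - c, Or.inr fun n => by
          rw [Equiv.Perm.mul_apply, hc, (rho_σ h _).1]; congr 1; ring⟩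
      · exact ⟨6 - c, Or.inl fun n => by
          rw [Equiv.Perm.mul_apply, hc, (rho_σ h _).1]; congr 1; ring⟩
    · rcases hc with hc | hc
      · exact ⟨4 - c, Or.inr fun n => by
          rw [Equiv.Perm.mul_apply, hc, (rho_σ h _).2]; congr 1; ring⟩
      · exact ⟨4 - c, Or.inl fun n => by
          rw [Equiv.Perm.mul_apply, hc, (rho_σ h _).2]; congr 1; ring⟩
  | inv_mul_cancel x hx y _ ih =>
    obtain ⟨c, hc⟩ := ih
    obtain ⟨l, hl, rfl⟩ := hx
    rw [R.σ_inv]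
    rcases hl with rfl | rfl
    · rcases hc with hc | hc
      · exact ⟨6 - c, Or.inr fun n => by
          rw [Equiv.Perm.mul_apply, hc, (rho_σ h _).1]; congr 1; ring⟩
      · exact ⟨6 - c, Or.inl fun n => by
          rw [Equiv.Perm.mul_apply, hc, (rho_σ h _).1]; congr 1; ring⟩
    · rcases hc with hc | hc
      · exact ⟨4 - c, Or.inr fun n => by
          rw [Equiv.Perm.mul_apply, hc, (rho_σ h _).2]; congr 1; ring⟩
      · exact ⟨4 - c, Or.inl fun n => by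
          rw [Equiv.Perm.mul_apply, hc, (rho_σ h _).2]; congr 1; ring⟩

lemma pos_three [Finite Φ] {j k : I} (h : cm R j k = 4) {w : Equiv.Perm Φ} (hw : w ∈ R.W)
    (h1 : R.Pos (w (rho R j k 1))) (h4 : R.Pos (w (rho R j k 4))) : R.Pos (w (rho R j k 3)) := by
  obtain ⟨u, hu, v, hv, rfl, hp⟩ := exists_min {j, k} hw
  obtain ⟨c, hc⟩ := act_rho h hv
  have key : ∀ n, R.Pos (u (rho R j k n)) ↔ n ∈ ({1, 2, 3, 4} : Set (ZMod 8)) := by
    intro n
    rw [← rho_pos h]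
    refine ⟨fun hn => ?_, hp _ ((rho_inJ h).2 ⟨n, rfl⟩)⟩
    by_contra hh
    have := hp _ ((rho_inJ h).2 ⟨n, rfl⟩).neg ((R.pos_neg _).2 hh)
    rw [Roots.W_neg hu, R.pos_neg] at this
    exact this hn
  rcases hc with hc | hc
  · rw [Equiv.Perm.mul_apply, hc, key] at h1 h4 ⊢
    revert h1 h4
    simp only [Set.mem_insert_iff, Set.mem_singleton_iff]
    clear hc; revert c; decide
  · rw [Equiv.Perm.mul_apply, hc, key] at h1 h4 ⊢
    revert h1 h4
    simp only [Set.mem_insert_iff, Set.mem_singleton_iff]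
    clear hc; revert c; decide

/-- A wall crossed on the way to `w` is crossed on a minimal gallery. -/
lemma exists_cross [Finite Φ] (n : ℕ) : ∀ w ∈ R.W, (R.Inv w).ncard = n → ∀ k, k ∈ R.Inv w →
    ∃ y ∈ R.W, ∃ i, y k = R.α i ∧ R.Inv y ⊆ R.Inv w := by
  induction n using Nat.strong_induction_on with
  | _ n ih =>
    intro w hw hn k hk
    have h1 : ∃ i, ¬ R.Pos (w⁻¹ (R.α i)) := by
      by_contra hh
      push Not at hh
      have := eq_one_of_pos (R.W.inv_mem hw) hh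
      rw [inv_eq_one] at this
      subst this
      exact hk.2 hk.1
    obtain ⟨i, hi⟩ := h1
    have hw' : R.σ i * w ∈ R.W := R.W.mul_mem (R.σ_mem_W i) hw
    have hsub : R.Inv (R.σ i * w) ⊆ R.Inv w := by
      rintro r ⟨hr, hr'⟩
      refine ⟨hr, fun hp => hr' ?_⟩
      refine R.σ_pos hp fun e => hi ?_
      rw [← e]; simpa using hr
    by_cases hk' : k ∈ R.Inv (R.σ i * w)
    · have hlt : (R.Inv (R.σ i * w)).ncard < n := by
        rw [← hn]
        refine Set.ncard_lt_ncard ⟨hsub, fun hh => ?_⟩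
        have h2 : R.neg (w⁻¹ (R.α i)) ∈ R.Inv w :=
          ⟨(R.pos_neg _).2 hi, by rw [Roots.W_neg hw]; simpa using R.not_pos_neg_α i⟩
        refine (hh h2).2 ?_
        rw [Equiv.Perm.mul_apply, Roots.W_neg hw]
        simpa [R.σ_neg_α] using R.pos_α i
      obtain ⟨y, hy, l, e, hs⟩ := ih _ hlt _ hw' rfl k hk'
      exact ⟨y, hy, l, e, hs.trans hsub⟩
    · refine ⟨_, hw', i, ?_, hsub⟩
      by_contra hne
      have h3 : R.Pos ((R.σ i * w) k) := by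
        by_contra h4
        exact hk' ⟨hk.1, h4⟩
      have := R.σ_pos h3 hne
      rw [Equiv.Perm.mul_apply, R.σ_σ] at this
      exact hk.2 this

lemma α_ne_of_cm [Finite Φ] {i j : I} (h : cm R i j ≠ 1) : R.α i ≠ R.α j := fun e => h <| by
  have : R.σ j = R.σ i := by simp only [Roots.σ, e]
  simp only [cm, this, R.σ_mul_self, orderOf_one]

lemma not_inJ_i [Finite Φ] {i j k : I} (h : B3 R i j k) : ¬ InJ R {j, k} (R.α i) := by
  obtain ⟨h3, h4, h2⟩ := h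
  intro hh
  obtain ⟨n, hn⟩ := (rho_inJ h4).1 hh
  have hp : n ∈ ({1, 2, 3, 4} : Set (ZMod 8)) := (rho_pos h4 n).1 (hn ▸ R.pos_α i)
  have hij : R.α i ≠ R.α j := α_ne_of_cm (by omega)
  have hjk : R.α j ≠ R.α k := α_ne_of_cm (by omega)
  have hik := σ_α_of_two h2
  have hki := σ_α_of_two ((cm_symm k i).trans h2)
  rcases hp with rfl | rfl | rfl | rfl
  · exact hij hn.symm
  · have e : R.σ j (R.α k) = R.α i := hn
    have e2 := (σσ_of_three h3).1
    rw [← e, R.σ_σ, hik.1] at e2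
    exact hjk e2.symm
  · have e : R.σ k (R.α j) = R.α i := hn
    have e2 := hki.1
    rw [← e, R.σ_σ, e] at e2
    exact hij e2.symm
  · exact hik.2 hn.symm

lemma not_inJ_k [Finite Φ] {i j k : I} (h : B3 R i j k) : ¬ InJ R {i, j} (R.α k) := by
  obtain ⟨h3, h4, h2⟩ := h
  intro hh
  obtain ⟨a, b, hab, hn⟩ := (rt_inJ h3).1 hh
  have hp : a < b := (rt_pos h3 hab).1 (hn ▸ R.pos_α k)
  have hjk : R.α j ≠ R.α k := α_ne_of_cm (by omega)
  have hik := σ_α_of_two h2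
  have hc : (a = 0 ∧ b = 1) ∨ (a = 0 ∧ b = 2) ∨ (a = 1 ∧ b = 2) := by
    clear hn; revert a b; decide
  rcases hc with ⟨rfl, rfl⟩ | ⟨rfl, rfl⟩ | ⟨rfl, rfl⟩
  · exact hik.2 hn
  · have e : R.σ i (R.α j) = R.α k := hn
    have e2 := hik.1
    rw [← e, R.σ_σ, e] at e2
    exact hjk e2
  · exact hjk hn

end M3

namespace Bd

variable {Φ I : Type*} {R : Roots Φ I} {G X : Type*} [Group G] [MulAction G X] [Finite Φ] (D : Bd R G X)

lemma m3_tr_mul {g h : G} {x : X} {i : I} (h1 : D.Tr g x i) (h2 : D.Tr h x i) : D.Tr (g * h) x i :=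
  (D.Q x i).mul_mem h1 h2

lemma m3_tr_inv {g : G} {x : X} {i : I} (h1 : D.Tr g x i) : D.Tr g⁻¹ x i :=
  (D.Q x i).inv_mem h1

lemma m3_tr_conj {g h : G} {x : X} {i : I} (hg : g • x = x) (h1 : D.Tr h x i) :
    D.Tr (g * h * g⁻¹) x i := by
  have := (D.tr_conj g h x i).2 h1
  rwa [hg] at this

lemma m3_wall_neg {g : G} {r k : Φ} (h : D.Wall g r k) : D.Wall g r (R.neg k) := by
  intro w hw i hp hk
  refine h w hw i hp ?_
  rw [R.neg_neg] at hk
  exact hk.symm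

/-- An element trivial on all panels in the sector agrees with an element of `U r₂`. -/
lemma m3_corr {i j k : I} (h : B3 R i j k) (hM : D.Mouf (R.α j)) {x : G}
    (hx : ∀ w ∈ R.W, R.Pos (w⁻¹ (R.α j)) → R.Pos (w⁻¹ (R.α k)) → ∀ l, D.Tr x (D.a w) l) :
    ∃ u ∈ D.U (R.σ j (R.α k)), u • D.a (R.σ j * R.σ k) = x • D.a (R.σ j * R.σ k) := by
  have h4 := h.2.1
  have hj : ∀ n, R.σ j (rho R j k n) = rho R j k (6 - n) := fun n => (rho_σ h4 n).1
  have hk : ∀ n, R.σ k (rho R j k n) = rho R j k (4 - n) := fun n => (rho_σ h4 n).2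
  have e1 : R.α j = rho R j k 1 := rfl
  have e4 : R.α k = rho R j k 4 := rfl
  have e3 : R.σ k (R.α j) = rho R j k 3 := rfl
  have e2 : R.σ j (R.α k) = rho R j k 2 := rfl
  have sj := R.σ_mem_W j
  have sk := R.σ_mem_W k
  have hx1 : ∀ l, D.Tr x (D.a 1) l := hx 1 R.W.one_mem (R.pos_α j) (R.pos_α k)
  have x3 : x • D.a (R.σ k) = D.a (R.σ k) := (hx1 k).2 _ (by simpa using D.a_mem_Nb R.W.one_mem k)
  have x5 : x • D.a (R.σ j) = D.a (R.σ j) := (hx1 j).2 _ (by simpa using D.a_mem_Nb R.W.one_mem j)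
  have hM3 : D.Mouf (R.σ k (R.α j)) := Mouf.smul D hM sk
  have n2 := D.a_mem_Nb sk j
  have n2' : x • D.a (R.σ k * R.σ j) ∈ D.Nb (D.a (R.σ k)) j := by
    show D.δ _ _ = _
    rw [← x3, D.smul]; exact n2
  obtain ⟨u, hu, hu2⟩ := hM3 _ sk j rfl _ n2' _ n2
  have inj := rho_inj h4
  -- `u` is trivial on the panels of the sector off the wall `r₃`
  have hut : ∀ w ∈ R.W, R.Pos (w⁻¹ (R.α j)) → R.Pos (w⁻¹ (R.α k)) → ∀ l,
      w (R.α l) ≠ rho R j k 3 → D.Tr u (D.a w) l := fun w hw p1 p4 l hl =>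
    hu.2 w hw l (M3.pos_three h4 (R.W.inv_mem hw) p1 p4) hl
  have u5 : D.Tr u (D.a (R.σ j)) k := by
    refine hu.2 _ sj k ?_ ?_
    · rw [R.σ_inv, e3, hj, rho_pos h4]; simp only [Set.mem_insert_iff, Set.mem_singleton_iff]; decide
    · rw [e2, e3]; exact fun e => absurd (inj e) (by decide)
  have hGR : u * x ∈ D.GR (rho R j k 2) := by
    intro v hv hp
    refine D.fix_hull (F := {w | w ∈ R.W ∧ (u * x) • D.a w = D.a w}) (fun w hw => hw.1)
      ⟨R.σ j, sj, by rw [mul_smul, x5, u5.1]⟩ (fun w hw => hw.2) hv fun r hr => ?_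
    have hI : r ∈ Icc R (R.α j) (R.α k) := by
      intro w hw p1 p4
      have := hr w⁻¹ ⟨R.W.inv_mem hw, by
        rw [mul_smul, (hx w⁻¹ (R.W.inv_mem hw) (by simpa using p1) (by simpa using p4) j).1]
        exact hu.1 _ (R.W.inv_mem hw) (by rw [inv_inv]; exact M3.pos_three h4 hw p1 p4)⟩
      simpa using this
    have hJ : InJ R {j, k} r := icc_inJ (inJ_α (by simp)) (inJ_α (by simp))
      (fun e => R.not_pos_neg_α j (e ▸ R.pos_α k)) hI
    obtain ⟨n, rfl⟩ := (rho_inJ h4).1 hJ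
    have p5 := hr (R.σ j) ⟨sj, by rw [mul_smul, x5, u5.1]⟩
    have p2 := hr (R.σ k * R.σ j) ⟨R.W.mul_mem sk sj, by rw [mul_smul, hu2]⟩
    rw [R.σ_inv, hj, rho_pos h4] at p5
    rw [mul_inv_rev, R.σ_inv, R.σ_inv, Equiv.Perm.mul_apply, hk, hj, rho_pos h4] at p2
    have : n = 2 := by
      revert p5 p2
      simp only [Set.mem_insert_iff, Set.mem_singleton_iff]
      clear hr hJ hI; revert n; decide
    rwa [this]
  have hout : ∀ r, ¬ InJ R {j, k} r → D.Wall (u * x) (rho R j k 2) r := by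
    have hpos : ∀ r, R.Pos r → ¬ InJ R {j, k} r → D.Wall (u * x) (rho R j k 2) r := by
      intro r hr hn
      have hI : r ∉ Icc R (R.α j) (R.α k) := fun hI => hn (icc_inJ (inJ_α (by simp))
        (inJ_α (by simp)) (fun e => R.not_pos_neg_α j (e ▸ R.pos_α k)) hI)
      simp only [Icc, Set.mem_ofPred_eq, not_forall] at hI
      obtain ⟨w, hw, p1, p4, pr⟩ := hI
      obtain ⟨y, hy, l, e, hs⟩ := M3.exists_cross _ w hw rfl r ⟨hr, pr⟩
      have q1 : R.Pos (y⁻¹⁻¹ (R.α j)) := by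
        by_contra hh
        exact (hs ⟨R.pos_α j, by simpa using hh⟩).2 p1
      have q4 : R.Pos (y⁻¹⁻¹ (R.α k)) := by
        by_contra hh
        exact (hs ⟨R.pos_α k, by simpa using hh⟩).2 p4
      have er : y⁻¹ (R.α l) = r := by rw [← e]; simp
      have := D.wall_of_tr hGR (R.W.inv_mem hy) (D.m3_tr_mul
        (hut _ (R.W.inv_mem hy) q1 q4 l (by
          rw [er]; rintro rfl; exact hn ((rho_inJ h4).2 ⟨3, rfl⟩)))
        (hx _ (R.W.inv_mem hy) q1 q4 l))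
      rwa [er] at this
    intro r hn
    by_cases hr : R.Pos r
    · exact hpos r hr hn
    · have := D.m3_wall_neg (hpos _ ((R.pos_neg r).2 hr) fun hh => hn (by simpa [R.neg_neg] using hh.neg))
      rwa [R.neg_neg] at this
  have w1 : D.Wall (u * x) (rho R j k 2) (rho R j k 1) :=
    D.wall_of_tr hGR R.W.one_mem (D.m3_tr_mul (hut 1 R.W.one_mem (R.pos_α j) (R.pos_α k) j
      (fun e => absurd (inj (e1.symm.trans e)) (by decide))) (hx1 j))
  have w4 : D.Wall (u * x) (rho R j k 2) (rho R j k 4) :=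
    D.wall_of_tr hGR R.W.one_mem (D.m3_tr_mul (hut 1 R.W.one_mem (R.pos_α j) (R.pos_α k) k
      (fun e => absurd (inj (e4.symm.trans e)) (by decide))) (hx1 k))
  have w3 : D.Wall (u * x) (rho R j k 2) (rho R j k 3) := by
    have si := R.σ_mem_W i
    have skJ : R.σ k ∈ WJ R {j, k} := Subgroup.subset_closure ⟨k, by simp, rfl⟩
    have sjJ : R.σ j ∈ WJ R {j, k} := Subgroup.subset_closure ⟨j, by simp, rfl⟩
    have siJ : R.σ i ∈ WJ R {i, j} := Subgroup.subset_closure ⟨i, by simp, rfl⟩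
    have sjJ' : R.σ j ∈ WJ R {i, j} := Subgroup.subset_closure ⟨j, by simp, rfl⟩
    have := D.wall_close hGR (R.W.mul_mem sk si) (i := i) (j := j) (k := R.σ i (R.α j)) (by
      intro hh
      rw [mul_inv_rev, R.σ_inv, R.σ_inv, Equiv.Perm.mul_apply, hk] at hh
      have h5 := (hh.smul siJ).smul sjJ'
      rw [R.σ_σ, hj] at h5
      exact M3.not_inJ_k h h5) (hout _ (by
      intro hh
      have h5 := (hh.smul skJ).neg
      rw [Equiv.Perm.mul_apply, R.σ_σ, R.σ_α, R.neg_neg] at h5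
      exact M3.not_inJ_i h h5)) (hout _ (by
      intro hh
      have h5 := (hh.smul skJ).smul sjJ
      rw [Equiv.Perm.mul_apply, R.σ_σ, (σσ_of_three h.1).2, R.σ_σ] at h5
      exact M3.not_inJ_i h h5)) ((inJ_α (by simp)).smul siJ)
    rwa [Equiv.Perm.mul_apply, R.σ_σ] at this
  refine ⟨u * x, D.mem_U_iff.2 ⟨hGR, fun r hr hr' => ?_⟩, ?_⟩
  · by_cases hn : InJ R {j, k} r
    · obtain ⟨n, rfl⟩ := (rho_inJ h4).1 hn
      have n1 : n ≠ 2 := fun e => hr (by rw [e]; rfl)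
      have n2 : n ≠ 6 := fun e => hr' (by rw [e, e2, rho_neg]; rfl)
      have : n = 1 ∨ n = 3 ∨ n = 4 ∨ n = 1 + 4 ∨ n = 3 + 4 ∨ n = 4 + 4 := by
        clear hr hr' hn; revert n; decide
      rcases this with rfl | rfl | rfl | rfl | rfl | rfl
      · exact w1
      · exact w3
      · exact w4
      · rw [← rho_neg]; exact D.m3_wall_neg w1
      · rw [← rho_neg]; exact D.m3_wall_neg w3
      · rw [← rho_neg]; exact D.m3_wall_neg w4
    · exact hout r hn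
  · rw [mul_smul]
    refine u5.2 _ ?_
    show D.δ _ _ = _
    rw [← x5, D.smul]; exact D.a_mem_Nb sj k

lemma m3_nb {x y z : X} {i : I} (hy : y ∈ D.Nb x i) (hz : z ∈ D.Nb x i) (h : y ≠ z) :
    D.δ y z = R.σ i := by
  have h1 : D.δ y x = R.σ i := by rw [D.symm, hy, R.σ_inv]
  rcases D.step y x z i hz with e | e
  · rw [h1, R.σ_mul_self, D.eq_one] at e
    exact absurd e h
  · rw [e.1, h1]

lemma m3_step {x y z : X} {i : I} (h : D.δ y z = R.σ i) (hp : R.Pos (D.δ x y (R.α i))) :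
    D.δ x z = D.δ x y * R.σ i :=
  (D.step x y z i h).resolve_right fun e => e.2 hp

theorem mouf_short (hI : Irr R) {i j k : I} (h : B3 R i j k) (hM : D.Mouf (R.α j)) (hN : D.Nrm j) :
    D.Mouf (R.α k) := by
  have h4 := h.2.1
  have hj : ∀ n, R.σ j (rho R j k n) = rho R j k (6 - n) := fun n => (rho_σ h4 n).1
  have hk : ∀ n, R.σ k (rho R j k n) = rho R j k (4 - n) := fun n => (rho_σ h4 n).2
  have e1 : R.α j = rho R j k 1 := rfl
  have e4 : R.α k = rho R j k 4 := rfl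
  have sj := R.σ_mem_W j
  have sk := R.σ_mem_W k
  have s6 := R.W.mul_mem sj sk
  have s7 := R.W.mul_mem s6 sj
  have s8 := R.W.mul_mem s7 sk
  have s1 := R.W.mul_mem (R.W.mul_mem sk sj) sk
  have br : R.σ j * R.σ k * R.σ j * R.σ k = R.σ k * R.σ j * R.σ k * R.σ j := by
    have h0 : (R.σ j * R.σ k) ^ 4 = 1 := by
      have := pow_orderOf_eq_one (R.σ j * R.σ k)
      rwa [show orderOf (R.σ j * R.σ k) = 4 from h4] at this
    have h1 : (R.σ j * R.σ k * R.σ j * R.σ k) * (R.σ j * R.σ k * R.σ j * R.σ k) = 1 := by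
      rw [← h0]; simp only [pow_succ, pow_zero, one_mul, mul_assoc]
    rw [← inv_eq_of_mul_eq_one_right h1]
    simp only [mul_inv_rev, R.σ_inv, mul_assoc]
  have n5 : D.a (R.σ j) ∈ D.Nb (D.a 1) j := by simpa using D.a_mem_Nb R.W.one_mem j
  obtain ⟨v, hv, hb5⟩ : ∃ v ∈ D.U (R.α j), v⁻¹ • D.a (R.σ j) ≠ D.a (R.σ j) := by
    obtain ⟨y, z, hy, hz, hyz⟩ := D.thick (D.a 1) j
    obtain ⟨b, hb, hb'⟩ : ∃ b ∈ D.Nb (D.a 1) j, b ≠ D.a (R.σ j) := by
      by_cases e : y = D.a (R.σ j)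
      · exact ⟨z, hz, fun e' => hyz (e.trans e'.symm)⟩
      · exact ⟨y, hy, e⟩
    obtain ⟨u, hu, e⟩ := hM 1 R.W.one_mem j rfl b hb _ n5
    exact ⟨u, hu, by rw [← e, inv_smul_smul, e]; exact hb'⟩
  have v4 : v • D.a 1 = D.a 1 := hv.1 1 R.W.one_mem (R.pos_α j)
  have hb : v⁻¹ • D.a (R.σ j) ∈ D.Nb (D.a 1) j := by
    show D.δ _ _ = _
    rw [← D.smul v, smul_inv_smul, v4]; exact n5
  suffices H : D.Mouf (R.σ j (R.α k)) by
    have := Mouf.smul D H sj
    rwa [R.σ_σ] at this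
  refine D.mouf_of_one sj fun y hy => ?_
  have p2 : R.Pos (R.σ j (R.α k)) := by
    rw [e4, hj, rho_pos h4]; simp only [Set.mem_insert_iff, Set.mem_singleton_iff]; decide
  have p3 : R.Pos ((R.σ j * R.σ k) (R.α j)) := by
    rw [e1, Equiv.Perm.mul_apply, hk, hj, rho_pos h4]
    simp only [Set.mem_insert_iff, Set.mem_singleton_iff]; decide
  have d1 := D.m3_nb hb n5 hb5
  have d2 := D.m3_step (x := v⁻¹ • D.a (R.σ j)) (D.a_mem_Nb sj k) (by rw [d1]; exact p2)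
  rw [d1] at d2
  have d3 := D.m3_step (x := v⁻¹ • D.a (R.σ j)) (D.a_mem_Nb s6 j) (by rw [d2]; exact p3)
  rw [d2] at d3
  have e7 : (R.σ j * R.σ k * R.σ j) (R.α k) = R.α k := by
    rw [e4, Equiv.Perm.mul_apply, Equiv.Perm.mul_apply, hj, hk, hj]; rfl
  have P := D.par (x := v⁻¹ • D.a (R.σ j)) (y := D.a (R.σ j * R.σ k * R.σ j)) (i := k) (j := k)
    (by rw [d3, e7])
  have ht : D.δ (v⁻¹ • D.a (R.σ j)) (v⁻¹ • y) = R.σ k := by rw [D.smul]; exact hy
  obtain ⟨y', ⟨q1, q2⟩, -⟩ := P.1 (v⁻¹ • y) (Or.inr ht)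
  have q3 : y' ∈ D.Nb (D.a (R.σ j * R.σ k * R.σ j)) k := by
    refine q1.resolve_left fun e => ?_
    subst e
    have := (P.2.1 _ q1).unique ⟨Or.inr ht, q2⟩ ⟨Or.inl rfl, rfl⟩
    rw [this, (D.eq_one _ _).2 rfl] at ht
    have e := R.σ_α k
    rw [← ht] at e
    exact R.not_pos_neg_α k (e ▸ R.pos_α k)
  obtain ⟨g, hg, hg8⟩ := D.GR_trans s7 k (D.a_mem_Nb s7 k) q3
  rw [e7] at hg
  have g4 : g • D.a 1 = D.a 1 := hg 1 R.W.one_mem (R.pos_α k)
  have g5 : g • D.a (R.σ j) = D.a (R.σ j) := hg _ sj (by rw [R.σ_inv]; exact p2)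
  have g6 : g • D.a (R.σ j * R.σ k) = D.a (R.σ j * R.σ k) := hg _ s6 (by
    rw [mul_inv_rev, R.σ_inv, R.σ_inv, Equiv.Perm.mul_apply, e4, hj, hk, rho_pos h4]
    simp only [Set.mem_insert_iff, Set.mem_singleton_iff]; decide)
  obtain ⟨v1, hv1, tr⟩ := hN g⁻¹ (inv_smul_eq_iff.2 g4.symm) v hv
  have xj : D.Tr (v * (g * v1⁻¹ * g⁻¹)) (D.a 1) j := by
    have := D.m3_tr_conj (g := v * g) (by rw [mul_smul, g4, v4]) tr
    rwa [show v * g * (v1⁻¹ * (g⁻¹ * v * g⁻¹⁻¹)) * (v * g)⁻¹ = v * (g * v1⁻¹ * g⁻¹) by group] at this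
  have hx : ∀ w ∈ R.W, R.Pos (w⁻¹ (R.α j)) → R.Pos (w⁻¹ (R.α k)) → ∀ l,
      D.Tr (v * (g * v1⁻¹ * g⁻¹)) (D.a w) l := by
    intro w hw p1 p4 l
    by_cases e : w (R.α l) = R.α j
    · refine (D.tr_iff hw R.W.one_mem (Or.inl e) ?_ xj.1).2 xj
      rw [mul_smul, mul_smul, mul_smul, inv_smul_eq_iff.2 (hg w hw p4).symm,
        inv_smul_eq_iff.2 (hv1.1 w hw p1).symm, hg w hw p4, hv.1 w hw p1]
    · exact D.m3_tr_mul (hv.2 w hw l p1 e)
        (D.m3_tr_conj (hg w hw p4) (D.m3_tr_inv (hv1.2 w hw l p1 e)))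
  obtain ⟨u, hu, e⟩ := D.m3_corr h hM hx
  refine ⟨u, hu, ?_⟩
  rw [e, mul_smul, mul_smul, mul_smul, inv_smul_eq_iff.2 g6.symm, ← eq_inv_smul_iff]
  have b5 : g • v1⁻¹ • D.a (R.σ j) = v⁻¹ • D.a (R.σ j) := by
    have := xj.2 _ n5
    rwa [mul_smul, mul_smul, mul_smul, inv_smul_eq_iff.2 g5.symm, ← eq_inv_smul_iff] at this
  refine (P.2.1 _ q1).unique ⟨Or.inr ?_, ?_⟩ ⟨Or.inr ht, q2⟩
  · rw [← b5, D.smul, D.smul]; exact D.a_mem_Nb sj k
  · have er : (R.σ k * R.σ j * R.σ k) (R.α j) = R.α j := by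
      rw [e1, Equiv.Perm.mul_apply, Equiv.Perm.mul_apply, hk, hj, hk]; rfl
    have n8 := D.a_mem_Nb s1 j
    rw [← br] at n8
    have v11 : v1 • D.a (R.σ k * R.σ j * R.σ k) = D.a (R.σ k * R.σ j * R.σ k) :=
      hv1.1 _ s1 (by
        rw [← er, ← Equiv.Perm.mul_apply, inv_mul_cancel]; exact R.pos_α j)
    have n8' : v1 • D.a (R.σ j * R.σ k * R.σ j * R.σ k) ∈ D.Nb (D.a (R.σ k * R.σ j * R.σ k)) j := by
      show D.δ _ _ = _
      rw [← v11, D.smul]; exact n8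
    have ne8 : D.a (R.σ j * R.σ k * R.σ j * R.σ k) ≠ v1 • D.a (R.σ j * R.σ k * R.σ j * R.σ k) := by
      intro e8
      have := D.U_semireg hI s1 (u := v1) (by rw [er]; exact hv1) n8 e8.symm
      rw [this, inv_one, one_smul, g5] at b5
      exact hb5 b5.symm
    have d68 : D.δ (D.a (R.σ j * R.σ k)) (D.a (R.σ j * R.σ k * R.σ j * R.σ k)) = R.σ j * R.σ k := by
      rw [D.apt _ s6 _ s8]; group
    have := D.m3_step (x := D.a (R.σ j * R.σ k)) (D.m3_nb n8 n8' ne8) (by rw [d68]; exact p3)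
    rw [← hg8, D.smul, ← D.smul v1, smul_inv_smul, this, d68, d3]

end Bd

end Tits
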