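import Mathlib
import Cfsg.Agent.Lib.Tits.Root
import Cfsg.Agent.Lib.Tits.Emb

set_option autoImplicit false

open scoped commutatorElement

namespace Tits

open H63.St Cfsg

universe u v

namespace Res

variable {Φ I Φ' I' : Type*} {R : Roots Φ I} {R' : Roots Φ' I'} {g : I' → I}

lemma σ_mem (i : I') : R.σ (g i) ∈ WJ R (Set.range g) :=
  Subgroup.subset_closure ⟨g i, ⟨i, rfl⟩, rfl⟩

lemma ext_WJ [Finite Φ] (e : Emb R R' g) {v v' : Equiv.Perm Φ} (hv : v ∈ WJ R (Set.range g))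
    (hv' : v' ∈ WJ R (Set.range g)) (h : ∀ r, v (e.f r) = v' (e.f r)) : v = v' := by
  have hu : v'⁻¹ * v ∈ WJ R (Set.range g) := mul_mem (inv_mem hv') hv
  have h1 : v'⁻¹ * v = 1 := by
    refine eq_one_of_pos (WJ_le _ hu) fun i => ?_
    by_cases hi : InJ R (Set.range g) (R.α i)
    · obtain ⟨r, hr⟩ := e.rng _ hi
      have h2 : (v'⁻¹ * v) (R.α i) = R.α i := by
        rw [← hr, Equiv.Perm.mul_apply, h]; simp
      rw [h2]; exact R.pos_α i
    · exact (pos_iff_of_not_inJ hi hu).2 (R.pos_α i)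
  exact (inv_mul_eq_one.1 h1).symm

lemma exists_back (e : Emb R R' g) {v : Equiv.Perm Φ} (hv : v ∈ WJ R (Set.range g)) :
    ∃ w ∈ R'.W, ∀ r, e.f (w r) = v (e.f r) := by
  induction hv using Subgroup.closure_induction with
  | mem x hx =>
    obtain ⟨_, ⟨i, rfl⟩, rfl⟩ := hx
    exact ⟨R'.σ i, R'.σ_mem_W i, e.σ i⟩
  | one => exact ⟨1, one_mem _, fun _ => rfl⟩
  | mul x y _ _ h1 h2 =>
    obtain ⟨w, hw, h1⟩ := h1
    obtain ⟨w', hw', h2⟩ := h2
    exact ⟨w * w', mul_mem hw hw', fun r => by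
      rw [Equiv.Perm.mul_apply, Equiv.Perm.mul_apply, h1, h2]⟩
  | inv x _ h =>
    obtain ⟨w, hw, h⟩ := h
    refine ⟨w⁻¹, inv_mem hw, fun r => ?_⟩
    have h1 := h (w⁻¹ r)
    rw [show w (w⁻¹ r) = r by simp] at h1
    rw [h1]; simp

lemma exists_fwd (e : Emb R R' g) {w : Equiv.Perm Φ'} (hw : w ∈ R'.W) :
    ∃ v ∈ WJ R (Set.range g), ∀ r, e.f (w r) = v (e.f r) := by
  induction hw using Subgroup.closure_induction with
  | mem x hx =>
    obtain ⟨i, rfl⟩ := hx
    exact ⟨R.σ (g i), σ_mem i, e.σ i⟩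
  | one => exact ⟨1, one_mem _, fun _ => rfl⟩
  | mul x y _ _ h1 h2 =>
    obtain ⟨w, hw, h1⟩ := h1
    obtain ⟨w', hw', h2⟩ := h2
    exact ⟨w * w', mul_mem hw hw', fun r => by
      rw [Equiv.Perm.mul_apply, Equiv.Perm.mul_apply, h1, h2]⟩
  | inv x _ h =>
    obtain ⟨w, hw, h⟩ := h
    refine ⟨w⁻¹, inv_mem hw, fun r => ?_⟩
    have h1 := h (x⁻¹ r)
    rw [show x (x⁻¹ r) = r by simp] at h1
    rw [h1]; simp

lemma exists_psi (e : Emb R R' g) : ∃ ψ : Equiv.Perm Φ → Equiv.Perm Φ', (∀ v, ψ v ∈ R'.W) ∧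
    ∀ v ∈ WJ R (Set.range g), ∀ r, e.f (ψ v r) = v (e.f r) := by
  classical
  refine ⟨fun v => if h : v ∈ WJ R (Set.range g) then (exists_back e h).choose else 1,
    fun v => ?_, fun v hv r => ?_⟩
  · by_cases h : v ∈ WJ R (Set.range g)
    · simp only [h, dif_pos]; exact (exists_back e h).choose_spec.1
    · simp only [h, dif_neg, not_false_eq_true]; exact one_mem _
  · simp only [hv, dif_pos]; exact (exists_back e hv).choose_spec.2 r

lemma exists_phi (e : Emb R R' g) : ∃ φ : Equiv.Perm Φ' → Equiv.Perm Φ,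
    (∀ w, φ w ∈ WJ R (Set.range g)) ∧ ∀ w ∈ R'.W, ∀ r, e.f (w r) = φ w (e.f r) := by
  classical
  refine ⟨fun w => if h : w ∈ R'.W then (exists_fwd e h).choose else 1,
    fun w => ?_, fun w hw r => ?_⟩
  · by_cases h : w ∈ R'.W
    · simp only [h, dif_pos]; exact (exists_fwd e h).choose_spec.1
    · simp only [h, dif_neg, not_false_eq_true]; exact one_mem _
  · simp only [hw, dif_pos]; exact (exists_fwd e hw).choose_spec.2 r

variable {G : Type u} {X : Type v} [Group G] [MulAction G X] [Finite Φ]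

omit [Finite Φ] in
lemma symm_mem (D : Bd R G X) {J : Set I} {x y : X} (h : D.δ x y ∈ WJ R J) : D.δ y x ∈ WJ R J := by
  rw [D.symm]; exact inv_mem h

/-- The stabiliser of the residue. -/
def St (D : Bd R G X) (J : Set I) : Subgroup G where
  carrier := {x | D.δ (D.a 1) (x • D.a 1) ∈ WJ R J}
  one_mem' := by
    show D.δ (D.a 1) ((1 : G) • D.a 1) ∈ WJ R J
    rw [one_smul, (D.eq_one _ _).2 rfl]; exact one_mem _
  mul_mem' := fun {x y} hx hy => by
    show D.δ (D.a 1) ((x * y) • D.a 1) ∈ WJ R J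
    refine D.δ_mem_WJ hx ?_
    rw [mul_smul, D.smul]; exact hy
  inv_mem' := fun {x} hx => by
    show D.δ (D.a 1) (x⁻¹ • D.a 1) ∈ WJ R J
    rw [← D.smul x, smul_inv_smul]; exact symm_mem D hx

/-- The residue. -/
def Rs (D : Bd R G X) (J : Set I) : Type v := {z : X // D.δ (D.a 1) z ∈ WJ R J}

lemma δ_mem (D : Bd R G X) {J : Set I} (x y : Rs D J) : D.δ x.1 y.1 ∈ WJ R J :=
  D.δ_mem_WJ (symm_mem D x.2) y.2

instance act (D : Bd R G X) (J : Set I) : MulAction (St D J) (Rs D J) where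
  smul s z := ⟨s.1 • z.1, D.δ_mem_WJ s.2 (by rw [D.smul]; exact z.2)⟩
  one_smul z := Subtype.ext (one_smul G z.1)
  mul_smul s t z := Subtype.ext (mul_smul s.1 t.1 z.1)

lemma smul_val (D : Bd R G X) {J : Set I} (s : St D J) (z : Rs D J) : (s • z).1 = s.1 • z.1 := rfl

/-- The group induced on the residue. -/
abbrev Qt (D : Bd R G X) (J : Set I) : Type u :=
  St D J ⧸ (MulAction.toPermHom (St D J) (Rs D J)).ker

/-- Its action. -/
@[reducible] noncomputable def qact (D : Bd R G X) (J : Set I) : MulAction (Qt D J) (Rs D J) :=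
  MulAction.compHom (Rs D J) (QuotientGroup.kerLift (MulAction.toPermHom (St D J) (Rs D J)))

lemma qact_mk (D : Bd R G X) {J : Set I} (s : St D J) (z : Rs D J) :
    (letI := qact D J; (QuotientGroup.mk s : Qt D J) • z) = s • z := rfl

end Res

open Res in
/-- The residue of the base chamber as a building. -/
theorem Bd.exists_res {Φ I Φ' I' : Type*} {R : Roots Φ I} {R' : Roots Φ' I'} [Finite Φ] [Finite Φ']
    {G : Type u} {X : Type v} [Group G] [MulAction G X] [Finite G] (D : Bd R G X) {g : I' → I}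
    (e : Emb R R' g) : ∃ (G' : Type u) (X' : Type v) (_ : Group G') (_ : MulAction G' X')
      (_ : Finite G') (D' : Bd R' G' X'), ∀ i, D'.nb i = D.nb (g i) := by
  obtain ⟨ψ, hψW, hψ⟩ := exists_psi e
  obtain ⟨φ, hφW, hφ⟩ := exists_phi e
  have hext : ∀ {w w' : Equiv.Perm Φ'}, (∀ r, e.f (w r) = e.f (w' r)) → w = w' := fun h =>
    Equiv.ext fun r => e.inj (h r)
  have hinj : ∀ {v v'}, v ∈ WJ R (Set.range g) → v' ∈ WJ R (Set.range g) → ψ v = ψ v' → v = v' :=
    fun {v v'} hv hv' h => ext_WJ e hv hv' fun r => by rw [← hψ v hv, ← hψ v' hv', h]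
  have hmul : ∀ {v v'}, v ∈ WJ R (Set.range g) → v' ∈ WJ R (Set.range g) →
      ψ (v * v') = ψ v * ψ v' := fun {v v'} hv hv' => hext fun r => by
    rw [hψ _ (mul_mem hv hv'), Equiv.Perm.mul_apply, Equiv.Perm.mul_apply, hψ v hv, hψ v' hv']
  have hone : ψ 1 = 1 := hext fun r => by rw [hψ _ (one_mem _)]; rfl
  have hinv : ∀ {v}, v ∈ WJ R (Set.range g) → ψ v⁻¹ = (ψ v)⁻¹ := fun {v} hv =>
    eq_inv_of_mul_eq_one_left (by rw [← hmul (inv_mem hv) hv, inv_mul_cancel, hone])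
  have hσ : ∀ i, ψ (R.σ (g i)) = R'.σ i := fun i => hext fun r => by
    rw [hψ _ (σ_mem i), e.σ]
  have hψφ : ∀ w ∈ R'.W, ψ (φ w) = w := fun w hw => hext fun r => by
    rw [hψ _ (hφW w), hφ w hw]
  have hφ1 : φ 1 = 1 := hinj (hφW 1) (one_mem _) (by rw [hψφ 1 (one_mem _), hone])
  have hσ' : ∀ {v} {i}, v ∈ WJ R (Set.range g) → ψ v = R'.σ i → v = R.σ (g i) :=
    fun {v i} hv h => hinj hv (σ_mem i) (by rw [h, hσ])
  have ha : ∀ w, D.δ (D.a 1) (D.a (φ w)) ∈ WJ R (Set.range g) := fun w => by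
    rw [D.apt 1 (one_mem _) _ (WJ_le _ (hφW w)), inv_one, one_mul]; exact hφW w
  letI := qact D (Set.range g)
  let D' : Bd R' (Qt D (Set.range g)) (Rs D (Set.range g)) :=
    { δ := fun x y => ψ (D.δ x.1 y.1)
      a := fun w => ⟨D.a (φ w), ha w⟩
      mem := fun _ _ => hψW _
      smul := fun s x y => by
        obtain ⟨s, rfl⟩ := QuotientGroup.mk_surjective s
        rw [qact_mk, qact_mk, smul_val, smul_val, D.smul]
      eq_one := fun x y => by
        constructor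
        · intro h
          exact Subtype.ext ((D.eq_one _ _).1 (hinj (δ_mem D x y) (one_mem _) (by rw [h, hone])))
        · rintro rfl
          rw [(D.eq_one _ _).2 rfl, hone]
      symm := fun x y => by rw [D.symm, hinv (δ_mem D x y)]
      step := fun x y z i h => by
        rcases D.step x.1 y.1 z.1 (g i) (hσ' (δ_mem D y z) h) with h1 | ⟨h1, h2⟩
        · left
          rw [h1, hmul (δ_mem D x y) (σ_mem i), hσ]
        · right
          refine ⟨by rw [h1], fun h3 => h2 ?_⟩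
          rw [← e.α, ← hψ _ (δ_mem D x y), e.pos]; exact h3
      ex := fun x y i => by
        obtain ⟨z, h1, h2⟩ := D.ex x.1 y.1 (g i)
        refine ⟨⟨z, D.δ_mem_WJ y.2 (by rw [h1]; exact σ_mem i)⟩, ?_, ?_⟩
        · show ψ (D.δ y.1 z) = _
          rw [h1, hσ]
        · show ψ (D.δ x.1 z) = _
          rw [h2, hmul (δ_mem D x y) (σ_mem i), hσ]
      thick := fun x i => by
        obtain ⟨y, z, h1, h2, h3⟩ := D.thick x.1 (g i)
        refine ⟨⟨y, D.δ_mem_WJ x.2 (by rw [h1]; exact σ_mem i)⟩,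
          ⟨z, D.δ_mem_WJ x.2 (by rw [h2]; exact σ_mem i)⟩, ?_, ?_, fun h => h3 (congrArg Subtype.val h)⟩
        · show ψ (D.δ x.1 y) = _
          rw [h1, hσ]
        · show ψ (D.δ x.1 z) = _
          rw [h2, hσ]
      apt := fun v hv w hw => by
        show ψ (D.δ (D.a (φ v)) (D.a (φ w))) = _
        rw [D.apt _ (WJ_le _ (hφW v)) _ (WJ_le _ (hφW w)), hmul (inv_mem (hφW v)) (hφW w),
          hinv (hφW v), hψφ v hv, hψφ w hw]
      tr := fun x y x' y' h => by
        obtain ⟨s, h1, h2⟩ := D.tr x.1 y.1 x'.1 y'.1 (hinj (δ_mem D x y) (δ_mem D x' y') h)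
        have hs : s ∈ St D (Set.range g) := by
          show D.δ (D.a 1) (s • D.a 1) ∈ WJ R (Set.range g)
          refine D.δ_mem_WJ x'.2 ?_
          rw [← h1, D.smul]; exact symm_mem D x.2
        exact ⟨QuotientGroup.mk ⟨s, hs⟩, Subtype.ext h1, Subtype.ext h2⟩
      faith := fun s h => by
        obtain ⟨s, rfl⟩ := QuotientGroup.mk_surjective s
        rw [QuotientGroup.eq_one_iff, MonoidHom.mem_ker]
        exact Equiv.ext fun x => h x }
  refine ⟨Qt D (Set.range g), Rs D (Set.range g), inferInstance, qact D (Set.range g),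
    inferInstance, D', fun i => ?_⟩
  have key : Subtype.val '' D'.Nb (D'.a 1) i = D.Nb (D.a 1) (g i) := by
    ext z
    constructor
    · rintro ⟨y, hy, rfl⟩
      have h1 : ψ (D.δ (D.a (φ 1)) y.1) = R'.σ i := hy
      rw [hφ1] at h1
      exact hσ' y.2 h1
    · intro hz
      have h1 : D.δ (D.a 1) z = R.σ (g i) := hz
      refine ⟨⟨z, by rw [h1]; exact σ_mem i⟩, ?_, rfl⟩
      show ψ (D.δ (D.a (φ 1)) z) = R'.σ i
      rw [hφ1, h1, hσ]
  unfold Bd.nb
  rw [← key]
  exact (Set.ncard_image_of_injective _ Subtype.val_injective).symm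

end Tits
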