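import Mathlib
import Cfsg.Agent.Lib.Tits.Root

set_option autoImplicit false

open scoped commutatorElement

namespace Tits

open H63.St Cfsg

namespace Bd

variable {Φ I : Type*} {R : Roots Φ I} {G X : Type*} [Group G] [MulAction G X] [Finite Φ] (D : Bd R G X)

/-- Extension lemma. -/
theorem exists_U_mul_H (hM : ∀ r, D.Mouf r) {g : G} {S : Set Φ} {u : Equiv.Perm Φ} (hu : u ∈ R.W)
    (h : g • D.a u = D.a u)
    (hS : ∀ r, (∀ v ∈ R.W, g • D.a v = D.a v → R.Pos (v⁻¹ r)) → r ∈ S) :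
    ∃ x ∈ XS D.U S, x * g ∈ D.H := by
  induction hn : {v | v ∈ R.W ∧ g • D.a v ≠ D.a v}.ncard using Nat.strong_induction_on generalizing g with
  | _ n ih =>
    by_cases hg : g ∈ D.H
    · exact ⟨1, one_mem _, by rwa [one_mul]⟩
    obtain ⟨w, hw, i, f1, f2, f3⟩ := D.exists_wall hu h hg
    have m1 := D.a_mem_Nb hw i
    obtain ⟨x, hx, e⟩ := hM _ w hw i rfl (g • D.a (w * R.σ i)) (by
      show D.δ _ _ = _
      rw [← f1, D.smul]
      exact m1) _ m1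
    have fx : ∀ v ∈ R.W, g • D.a v = D.a v → (x * g) • D.a v = D.a v := fun v hv e => by
      rw [mul_smul, e, hx.1 v hv (f3 v hv e)]
    obtain ⟨x', hx', e'⟩ := ih _ (hn ▸ Set.ncard_lt_ncard (s := {v | v ∈ R.W ∧ (x * g) • D.a v ≠ D.a v})
      ⟨fun v hv => ⟨hv.1, fun e => hv.2 (fx v hv.1 e)⟩, fun hs =>
        (hs ⟨mul_mem hw (R.σ_mem_W i), f2⟩).2 (by rw [mul_smul, e])⟩) (fx u hu h)
      (fun r hr => hS r fun v hv e => hr v hv (fx v hv e)) rfl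
    exact ⟨x' * x, mul_mem hx' (le_iSup₂_of_le (f := fun k (_ : k ∈ S) => D.U k) _ (hS _ f3) le_rfl hx),
      by rwa [mul_assoc]⟩

theorem Ext_next {r s : Φ} (h1 : s ≠ r) (h2 : s ≠ R.neg r) :
    ∃ w ∈ R.W, ∃ i, w (R.α i) = r ∧ R.Pos (w⁻¹ s) := by
  obtain ⟨w, hw, i, e⟩ := R.exists_W_α r
  by_cases hp : R.Pos (w⁻¹ s)
  · exact ⟨w, hw, i, e, hp⟩
  obtain ⟨w0, hw0, h0⟩ := R.exists_w0
  obtain ⟨j, hj⟩ := exists_opp hw0 h0 i
  refine ⟨w * R.σ i * w0, mul_mem (mul_mem hw (R.σ_mem_W i)) hw0, j, by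
    simp only [Equiv.Perm.mul_apply, hj, R.σ_neg_α, e], ?_⟩
  by_contra hc
  rw [← h0, mul_inv_rev, mul_inv_rev, R.σ_inv] at hc
  simp only [Equiv.Perm.mul_apply, Equiv.Perm.coe_inv, Equiv.apply_symm_apply] at hc
  refine hp ?_
  have := R.σ_pos (i := i) hc fun e' => h2 (by
    rw [← e, ← Roots.W_neg hw, ← R.σ_α, ← e', R.σ_σ]
    simp)
  rwa [R.σ_σ] at this

theorem comm_U (hF : Full R) (hM : ∀ r, D.Mouf r) {r s : Φ} (h1 : s ≠ r) (h2 : s ≠ R.neg r)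
    {x y : G} (hx : x ∈ D.U r) (hy : y ∈ D.U s) : ⁅x, y⁆ ∈ ⨆ k ∈ R.Itv r s, D.U k := by
  have tr : ∀ w ∈ R.W, R.Pos (w⁻¹ r) → R.Pos (w⁻¹ s) → ∀ i, ⁅x, y⁆ ∈ D.Q (D.a w) i := fun w hw p1 p2 i => by
    by_cases e : w (R.α i) = r
    · have hy' : y ∈ D.Q (D.a w) i := hy.2 w hw i p2 fun e' => h1 (e'.symm.trans e)
      have := (D.tr_conj x y (D.a w) i).2 hy'
      rw [hx.1 w hw p1] at this
      exact mul_mem (show x * y * x⁻¹ ∈ D.Q (D.a w) i from this) (inv_mem hy')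
    · have hx' : x ∈ D.Q (D.a w) i := hx.2 w hw i p1 e
      have := (D.tr_conj y x⁻¹ (D.a w) i).2 (inv_mem hx')
      rw [hy.1 w hw p2] at this
      have := mul_mem hx' (show y * x⁻¹ * y⁻¹ ∈ D.Q (D.a w) i from this)
      simpa [commutatorElement_def, mul_assoc] using this
  have fx : ∀ w ∈ R.W, R.Pos (w⁻¹ r) → R.Pos (w⁻¹ s) → ⁅x, y⁆ • D.a w = D.a w := fun w hw p1 p2 => by
    rw [commutatorElement_def, mul_smul, mul_smul, mul_smul, inv_smul_eq_iff.2 (hy.1 w hw p2).symm,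
      inv_smul_eq_iff.2 (hx.1 w hw p1).symm, hy.1 w hw p2, hx.1 w hw p1]
  have out : ∀ w ∈ R.W, ∀ i, R.Pos (w⁻¹ r) → R.Pos (w⁻¹ s) →
      ¬ ∀ v ∈ R.W, ⁅x, y⁆ • D.a v = D.a v → R.Pos (v⁻¹ (w (R.α i))) := fun w hw i p1 p2 hk => by
    have := hk _ (mul_mem hw (R.σ_mem_W i)) ((tr w hw p1 p2 i).2 _ (D.a_mem_Nb hw i))
    rw [mul_inv_rev, R.σ_inv] at this
    simp only [Equiv.Perm.mul_apply, Equiv.Perm.coe_inv, Equiv.symm_apply_apply, R.σ_α] at this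
    exact R.not_pos_neg_α i this
  obtain ⟨c, hc, c1, c2⟩ := R.exists_W_pos_pos h2
  have hc' := inv_mem hc
  obtain ⟨u, hu, hH⟩ := D.exists_U_mul_H hM (S := R.Itv r s) hc' (fx _ hc' c1 c2) fun k hk => by
    refine hF r s k h1 h2 (fun w hw p1 p2 => hk _ (inv_mem hw) (fx _ (inv_mem hw) p1 p2)) ?_ ?_
    · rintro rfl
      obtain ⟨w, hw, i, rfl, p⟩ := Ext_next h1 h2
      exact out w hw i (by simpa using R.pos_α i) p hk
    · rintro rfl
      obtain ⟨w, hw, i, rfl, p⟩ := Ext_next h1.symm fun e => h2 (by rw [e, R.neg_neg])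
      exact out w hw i p (by simpa using R.pos_α i) hk
  have := D.rigid_top hH hc' fun i => by
    refine mul_mem (show u ∈ D.Q (D.a c⁻¹) i from ?_) (tr _ hc' c1 c2 i)
    refine (iSup₂_le fun k hk z hz => ?_ : XS D.U (R.Itv r s) ≤ _) hu
    obtain ⟨k1, k2, k3⟩ := itv_sub_icc h1 h2 hk
    refine hz.2 _ hc' i (k1 c hc c1 c2) fun e => ?_
    have e' : c k = R.α i := by rw [← e]; simp
    have := k1 (R.σ i * c) (mul_mem (R.σ_mem_W i) hc)
      (R.σ_pos c1 fun e'' => k2 (c.injective (e'.trans e''.symm)))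
      (R.σ_pos c2 fun e'' => k3 (c.injective (e'.trans e''.symm)))
    rw [Equiv.Perm.mul_apply, e', R.σ_α] at this
    exact R.not_pos_neg_α i this
  rw [eq_inv_of_mul_eq_one_right this]
  exact inv_mem hu

end Bd

end Tits
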