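import Mathlib
import Cfsg.Agent.Lib.Tits.Ext

set_option autoImplicit false
set_option linter.unusedSectionVars false

open scoped commutatorElement

namespace Tits

open H63.St Cfsg

namespace Rgd

open Bd

variable {Φ I : Type*} {R : Roots Φ I} {G X : Type*} [Group G] [MulAction G X] [Finite Φ] (D : Bd R G X)

theorem nb_smul {g : G} {x y : X} {i : I} (h : g • x = x) (hy : y ∈ D.Nb x i) : g • y ∈ D.Nb x i := by
  have := D.smul g x y
  rw [h] at this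
  exact this.trans hy

theorem pn_smul {g : G} {x y : X} {i : I} (h : g • x = x) (hy : y ∈ D.Pn x i) : g • y ∈ D.Pn x i :=
  hy.imp (fun e => by rw [e, h]) (nb_smul D h)

theorem fix {r : Φ} {u : G} (hu : u ∈ D.U r) {w : Equiv.Perm Φ} (hw : w ∈ R.W) {s : Φ} (e : w s = r)
    (hs : R.Pos s) : u • D.a w = D.a w := hu.1 w hw (by simpa [← e] using hs)

theorem a1 (i : I) : D.a (R.σ i) ∈ D.Nb (D.a 1) i := by simpa using D.a_mem_Nb (one_mem _) i

theorem sr (hI : Irr R) {i : I} {u : G} (hu : u ∈ D.U (R.α i)) (h : u • D.a (R.σ i) = D.a (R.σ i)) : u = 1 :=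
  D.U_semireg hI (one_mem _) hu (a1 D i) h

theorem mu (hI : Irr R) (hM : ∀ r, D.Mouf r) (i : I) {x : G} (hx : x ∈ D.U (R.α i)) (x1 : x ≠ 1) :
    ∃ u ∈ D.U (R.neg (R.α i)), ∃ u' ∈ D.U (R.neg (R.α i)), D.Rep (u * x * u') (R.σ i) := by
  have s := R.σ_mem_W i
  have k : ∀ x ∈ D.U (R.α i), x ≠ 1 → x • D.a (R.σ i) ∈ D.Nb (D.a (R.σ i)) i := fun x hx x1 => by
    have : x • D.a (R.σ i) ∈ D.Pn (D.a 1) i := Or.inr (nb_smul D (fix D hx (one_mem _) rfl (R.pos_α i)) (a1 D i))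
    rw [← D.Pn_eq (Or.inr (a1 D i))] at this
    exact this.resolve_left fun e => x1 (sr D hI hx e)
  have c : D.a 1 ∈ D.Nb (D.a (R.σ i)) i := by simpa [R.σ_mul_self] using D.a_mem_Nb s i
  obtain ⟨u, hu, e⟩ := hM _ _ s i (R.σ_α i) _ (k x hx x1) _ c
  obtain ⟨u', hu', e'⟩ := hM _ _ s i (R.σ_α i) _ c _ (k _ (inv_mem hx) (by simpa using x1))
  obtain ⟨w, hw, h0⟩ := R.exists_w0
  obtain ⟨j, hj⟩ := exists_opp hw h0 i
  have sw := mul_mem s hw
  have hj' : (R.σ i * w) (R.α j) = R.α i := by rw [Equiv.Perm.mul_apply, hj, R.σ_neg_α]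
  have d : D.a w ∈ D.Pn (D.a (R.σ i * w)) j := Or.inr (by
    have := D.a_mem_Nb sw j
    rwa [mul_inv_eq_iff_eq_mul.1 (Roots.W_conj_σ sw hj'), ← mul_assoc, R.σ_mul_self, one_mul] at this)
  have p : ∀ u ∈ D.U (R.neg (R.α i)), ∀ y ∈ D.Pn (D.a (R.σ i * w)) j, u • y ∈ D.Pn (D.a (R.σ i * w)) j :=
    fun u hu y => by rw [← D.Pn_eq d]; exact pn_smul D (fix D hu hw hj (R.pos_α j))
  have δ1 : D.δ (D.a 1) (D.a (R.σ i * w)) = R.σ i * w := by simpa using D.apt _ (one_mem _) _ sw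
  have m1 : (u * x * u') • D.a (R.σ i) = D.a 1 := by
    rw [mul_smul, mul_smul, fix D hu' s (R.σ_α i) (R.pos_α i), e]
  refine ⟨u, hu, u', hu', D.rep_of_opp s (one_mem _) hw h0 ?_ ?_⟩
  · rw [mul_smul, mul_smul, e', smul_inv_smul, fix D hu s (R.σ_α i) (R.pos_α i), mul_one]
  rw [one_mul]
  refine ((D.par (δ1.symm ▸ hj')).1 _ (Or.inl rfl)).unique ⟨?_, ?_⟩ ⟨Or.inl rfl, rfl⟩
  · rw [mul_smul, mul_smul]
    exact p _ hu _ (pn_smul D (fix D hx sw hj' (R.pos_α j)) (p _ hu' _ d))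
  · rw [δ1, ← m1, D.smul, D.apt _ s _ hw, R.σ_inv]

theorem ne (hM : ∀ r, D.Mouf r) (i : I) : ∃ x ∈ D.U (R.α i), x ≠ 1 := by
  obtain ⟨y, z, hy, hz, n⟩ := D.thick (D.a 1) i
  obtain ⟨u, hu, e⟩ := hM _ _ (one_mem _) i rfl y hy z hz
  exact ⟨u, hu, fun u1 => n (by simpa [u1] using e)⟩

theorem card (hI : Irr R) (hM : ∀ r, D.Mouf r) (i : I) : Nat.card (D.U (R.α i)) = D.nb i :=
  Nat.card_congr (Equiv.ofBijective (fun u => (⟨u.1 • D.a (R.σ i),
    nb_smul D (fix D u.2 (one_mem _) rfl (R.pos_α i)) (a1 D i)⟩ : D.Nb (D.a 1) i))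
    ⟨fun u v e => Subtype.ext (eq_of_inv_mul_eq_one (sr D hI (mul_mem (inv_mem u.2) v.2) (by
      rw [mul_smul, inv_smul_eq_iff]; exact (congrArg Subtype.val e).symm))), fun y =>
      let ⟨u, hu, e⟩ := hM _ _ (one_mem _) i rfl _ (a1 D i) _ y.2
      ⟨⟨u, hu⟩, Subtype.ext e⟩⟩)

theorem trans (hI : Irr R) (hM : ∀ r, D.Mouf r) (y : X) : ∃ p ∈ XS D.U Set.univ, p • D.a 1 = y := by
  refine Roots.W_induction (P := fun w => ∀ y, D.δ (D.a 1) y = w → ∃ p ∈ XS D.U Set.univ, p • D.a 1 = y)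
    (fun w hw h y e => ⟨1, one_mem _, ?_⟩) (fun w _ i _ ih y e => ?_) (D.mem _ y) y rfl
  · rw [one_smul, ← D.eq_one, e, eq_one_of_pos hw h]
  obtain ⟨z, h1, h2⟩ := D.ex (D.a 1) y i
  obtain ⟨p, hp, rfl⟩ := ih z (e ▸ h2)
  obtain ⟨v, hv, e'⟩ := hM _ _ (one_mem _) i rfl _ (a1 D i) (p⁻¹ • y) (by
    show _ = _
    rw [← D.smul p, smul_inv_smul, D.symm, h1, R.σ_inv])
  obtain ⟨x, hx, x1⟩ := ne D hM i
  obtain ⟨u, hu, u', hu', m⟩ := mu D hI hM i hx x1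
  have t := fun {r x} => mem_XS (X := D.U) (x := x) (Set.mem_univ r)
  refine ⟨p * v * (u * x * u'), mul_mem (mul_mem hp (t hv)) (mul_mem (mul_mem (t hu) (t hx)) (t hu')), ?_⟩
  rw [mul_smul, m 1 (one_mem _), mul_one, mul_smul, e', smul_inv_smul]

end Rgd

namespace Bd

variable {Φ I : Type*} {R : Roots Φ I} {G X : Type*} [Group G] [MulAction G X] [Finite Φ] (D : Bd R G X)

open Rgd in
theorem exists_rgd (hF : Full R) (hI : Irr R) (hM : ∀ r, D.Mouf r) :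
    ∃ E : RGD R G, E.X = D.U ∧ E.Faith ∧ E.Gp.Normal ∧ ∀ i, q E i = D.nb i := by
  choose x hx x1 using Rgd.ne D hM
  choose u hu u' hu' m using fun i => mu D hI hM i (hx i) (x1 i)
  let E : RGD R G :=
    { X := D.U
      comm := fun r s hr hs n _ hx _ hy =>
        D.comm_U hF hM n.symm (fun e => (R.pos_neg r).1 (e ▸ hs) hr) hx hy
      n := fun i => u i * x i * u' i
      n_acts := fun i => D.acts_U (R.σ_mem_W i) (m i)
      n_mem := fun i => ⟨D.acts_U (R.σ_mem_W i) (m i), _, hx i, x1 i, _, hu i, _, hu' i, rfl⟩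
      rgd2 := fun i x hx x1 =>
        let ⟨u, hu, u', hu', m⟩ := mu D hI hM i hx x1
        ⟨u, hu, u', hu', D.acts_U (R.σ_mem_W i) m⟩ }
  refine ⟨E, rfl, fun g h1 h2 => ?_, ⟨fun a ha g => ?_⟩, Rgd.card D hI hM⟩
  · obtain ⟨w, hw, h0⟩ := R.exists_w0
    have f1 : g ∈ MulAction.stabilizer G (D.a 1) :=
      XS_le.2 (fun r hr v hv => fix D hv (one_mem _) rfl hr) h1
    have f2 : g ∈ MulAction.stabilizer G (D.a w) := XS_le.2 (fun r (hr : ¬ R.Pos r) v hv =>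
      fix D hv hw (s := w⁻¹ r) (by simp) (not_not.1 fun n => hr (by simpa using (h0 _).2 n))) h2
    have gH : g ∈ D.H := fun v hv => by
      simpa using D.rep_of_opp (one_mem _) (one_mem _) hw h0 (by simpa using f1) (by simpa using f2) v hv
    refine D.rigid_top gH (one_mem _) fun i => ?_
    obtain ⟨y, hy, a, ha, rfl⟩ := E.exists_mul_U i h1
    have : a ∈ D.Q (D.a 1) i := XS_le.2 (fun r hr v (hv : v ∈ D.U r) => hv.2 1 (one_mem _) i hr.1 (Ne.symm hr.2)) ha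
    rw [sr D hI hy (by simpa [mul_smul, this.2 _ (a1 D i)] using gH _ (R.σ_mem_W i)), one_mul]
    exact this
  · obtain ⟨p, hp, e⟩ := Rgd.trans D hI hM (g • D.a 1)
    obtain ⟨y, hy, h⟩ := D.exists_U_mul_H hM (g := p⁻¹ * g) (S := Set.univ) (one_mem _)
      (by rw [mul_smul, ← e, inv_smul_smul]) fun _ _ => trivial
    have := (D.acts_U (one_mem _) fun w hw => by simpa using h w hw).conj_mem_XS (fun _ _ => Set.mem_univ _) ha
    have := mul_mem (mul_mem (mul_mem hp (inv_mem hy)) this) (inv_mem (mul_mem hp (inv_mem hy)))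
    rwa [show ∀ a b d e : G, a * b⁻¹ * (b * (a⁻¹ * d) * e * (b * (a⁻¹ * d))⁻¹) * (a * b⁻¹)⁻¹ = d * e * d⁻¹ from
      fun _ _ _ _ => by group] at this

end Bd

end Tits
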