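import Mathlib
import Cfsg.Agent.Lib.Tits.Rgd
import Cfsg.Agent.Lib.Tits.M2
import Cfsg.Agent.Lib.Tits.M3
import Cfsg.Agent.Lib.Tits.Res
import Cfsg.Agent.Lib.Tits.NB

/-! The buildings of the listed types are Moufang and carry a good root group datum. -/

set_option autoImplicit false

open scoped commutatorElement

namespace Tits

open H63.St Cfsg

variable {G X : Type*} [Group G] [MulAction G X] [Finite G]

namespace MoufP

open M2

variable {Φ I : Type*} [Finite Φ] {R : Roots Φ I} (D : Bd R G X)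

theorem good_of_mouf (hF : Full R) (hI : Irr R) (hM : ∀ i, D.Mouf (R.α i)) :
    ∃ E : RGD R G, Good E ∧ E.Gp.Normal ∧ ∀ i, q E i = D.nb i := by
  have hM' : ∀ r, D.Mouf r := fun r => by
    obtain ⟨w, hw, i, rfl⟩ := R.exists_W_α r
    exact Bd.Mouf.smul D (hM i) hw
  obtain ⟨E, h1, h2, h3, h4⟩ := D.exists_rgd hF hI hM'
  exact ⟨E, ⟨h2, fun i j h => D.exists_a2 hF h E h1 hM'⟩, h3, h4⟩

theorem mouf_all (hI : Irr R) (hn : ∀ i, ∃ j, cm R i j = 3) {p : ℕ} (hp : p.Prime)
    (hd : ∀ i, p ∣ D.nb i) {i : I} (hq : 2 < D.nb i ∨ ∀ j, D.nb j = 2) :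
    D.Mouf (R.α i) ∧ D.Nrm i := by
  haveI := Fact.mk hp
  refine D.mouf_of_norm (p := p) hI (fun _ => True) (fun l _ => ?_) trivial
    (hq.imp_right fun h j _ => h j) le_rfl
    (fun g hg x hx => mul_mem (mul_mem hg hx) (inv_mem hg)) (GR_not_le D i)
    fun g hg h => ⟨hg, fun w hw j => h w hw j trivial⟩
  obtain ⟨l', h⟩ := hn l
  obtain ⟨K, _, _, h1, h2⟩ := D.exists_pan h
  exact ⟨K, _, _, h1, h2 ▸ hd l⟩

theorem dvd_of_par {fl : Prop} {q t p : ℕ} (hp : p.Prime) (h : Par fl q t) (hq : p ∣ q) : p ∣ t := by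
  rcases h with ⟨-, rfl | rfl⟩ | ⟨-, ⟨rfl, -⟩ | h | h⟩
  · exact hq
  · exact hq.trans (dvd_pow_self _ two_ne_zero)
  · exact hq
  · exact hp.dvd_of_dvd_pow (h ▸ hq)
  · exact hp.dvd_of_dvd_pow (h ▸ hq.trans (dvd_pow_self _ three_ne_zero))

end MoufP

open M2 MoufP

theorem good_SL {n : ℕ} {Φ : Type*} [Finite Φ] {R : Roots Φ (Fin n)} (hF : Full R)
    (h : SL n (cm R)) (D : Bd R G X) :
    ∃ E : RGD R G, Good E ∧ E.Gp.Normal := by
  have hn := nbr_SL h
  have hI : Irr R := fun i => (hn i).imp fun j e => e.ge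
  have hc := const_SL h D.nb fun i j e => nb_three D e
  obtain ⟨E, h1, h2, -⟩ := good_of_mouf D hF hI fun i => by
    obtain ⟨j, e⟩ := hn i
    obtain ⟨p, f, hp, hf, hq⟩ := exists_pow D e
    refine (mouf_all D hI hn hp (fun l => ?_) ?_).1
    · rw [hc l i, hq]; exact dvd_pow_self p hf.ne'
    · rcases (two_le D e).eq_or_lt with e' | e'
      · exact Or.inr fun l => (hc l i).trans e'.symm
      · exact Or.inl e'
  exact ⟨E, h1, h2⟩

theorem good_B {m : ℕ} {hs : true = false → 1 ≤ m + 2} (D : Bd (VC true (m + 2) hs).toRoots G X) :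
    ∃ E : RGD (VC true (m + 2) hs).toRoots G, Good E ∧ E.Gp.Normal ∧ ∀ i, q E i = D.nb i := by
  refine good_of_mouf D (vr_full _) irr fun i => ?_
  by_cases hi : i ≠ Fin.last _
  · exact (mouf_long D hi).1
  · obtain rfl := not_not.1 hi
    have := mouf_long D (i := ⟨m + 1, by omega⟩) (by simp [Fin.ext_iff])
    exact D.mouf_short irr b3 this.1 this.2

theorem good_F {Φ : Type*} [Finite Φ] {R : Roots Φ (Fin 4)} (hF : Full R) (h : cm R = mF)
    (D : Bd R G X) : ∃ E : RGD R G, Good E ∧ E.Gp.Normal := by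
  have hn : ∀ i, ∃ j, cm R i j = 3 := by rw [h]; decide
  have hI : Irr R := fun i => (hn i).imp fun j e => e.ge
  have c01 : cm R 0 1 = 3 := by rw [h]; rfl
  have c10 : cm R 1 0 = 3 := by rw [h]; rfl
  have c23 : cm R 2 3 = 3 := by rw [h]; rfl
  have c32 : cm R 3 2 = 3 := by rw [h]; rfl
  have b1 : B3 R 0 1 2 := by unfold B3; rw [h]; decide
  have b2 : B3 R 3 2 1 := by unfold B3; rw [h]; decide
  obtain ⟨p, f, hp, hf, hq⟩ := exists_pow D c10
  have d1 : p ∣ D.nb 1 := hq ▸ dvd_pow_self p hf.ne'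
  have d2 : p ∣ D.nb 2 := by
    have hs : true = false → 1 ≤ 0 + 2 := by simp
    obtain ⟨e⟩ := exists_emb (R := R) (vr_full (VC true (0 + 2) hs)) (g := Fin.castSucc (n := 3))
      (by rw [cm_VB _ (by omega), h]; decide)
    obtain ⟨G', X', _, _, _, D', hD⟩ := D.exists_res e
    obtain ⟨E, h1, -, h2⟩ := good_B D'
    have := par_cases h1 b3
    rw [h2, h2, hD, hD] at this
    exact dvd_of_par hp this d1
  have n01 := nb_three D c01
  have n23 := nb_three D c23
  have hd : ∀ i, p ∣ D.nb i := by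
    intro i
    fin_cases i
    · exact n01 ▸ d1
    · exact d1
    · exact d2
    · exact n23 ▸ d2
  have key : D.Mouf (R.α 1) ∧ D.Mouf (R.α 2) := by
    rcases (two_le D c10).eq_or_lt with e1 | e1
    · rcases (two_le D c23).eq_or_lt with e2 | e2
      · have : ∀ j, D.nb j = 2 := by
          intro i
          fin_cases i
          · exact n01.trans e1.symm
          · exact e1.symm
          · exact e2.symm
          · exact n23.symm.trans e2.symm
        exact ⟨(mouf_all D hI hn hp hd (Or.inr this)).1, (mouf_all D hI hn hp hd (Or.inr this)).1⟩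
      · have := mouf_all D hI hn hp hd (Or.inl e2)
        exact ⟨D.mouf_short hI b2 this.1 this.2, this.1⟩
    · have := mouf_all D hI hn hp hd (Or.inl e1)
      exact ⟨this.1, D.mouf_short hI b1 this.1 this.2⟩
  obtain ⟨E, h1, h2, -⟩ := good_of_mouf D hF hI fun i => by
    fin_cases i
    · exact mouf_three D c10 key.1
    · exact key.1
    · exact key.2
    · exact mouf_three D c23 key.2
  exact ⟨E, h1, h2⟩

end Tits
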