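import Mathlib
import Cfsg.Agent.Lib.Tits.NiceC

/-! Root systems of types `E₆`, `E₇`, `E₈`, `F₄` as short vectors of their root lattices. -/

set_option autoImplicit false

open scoped commutatorElement

namespace Tits

open H63.St Cfsg

namespace NiceE

section cm

variable {Φ I M : Type*} [AddCommGroup M] (V : VR Φ I M) {i j : I}

theorem σ_apply (i : I) (r : Φ) : V.toRoots.σ i r = V.rf (V.α i) r := rfl

theorem cm_two (h : V.cf (V.α i) (V.α j) = 0) : cm V.toRoots i j = 2 := by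
  have h' := V.cf_eq_zero_comm.1 h
  refine orderOf_eq_prime (Equiv.ext fun r => V.inj ?_) fun e => ?_
  · simp only [pow_succ, pow_zero, one_mul, Equiv.Perm.mul_apply, σ_apply, V.v_rf, V.cf_rf,
      V.cf_self, h, h', Equiv.Perm.one_apply]
    module
  · have := congrArg (fun w : Equiv.Perm Φ => V.cf (V.α j) (w (V.α j))) e
    simp [σ_apply, V.cf_rf, V.cf_self, h, h'] at this

theorem cm_three (h : V.cf (V.α i) (V.α j) = -1) (h' : V.cf (V.α j) (V.α i) = -1) :
    cm V.toRoots i j = 3 := by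
  haveI : Fact (Nat.Prime 3) := ⟨by norm_num⟩
  refine orderOf_eq_prime (Equiv.ext fun r => V.inj ?_) fun e => ?_
  · simp only [pow_succ, pow_zero, one_mul, Equiv.Perm.mul_apply, σ_apply, V.v_rf, V.cf_rf,
      V.cf_self, h, h', Equiv.Perm.one_apply]
    module
  · have := congrArg (fun w : Equiv.Perm Φ => V.cf (V.α j) (w (V.α j))) e
    simp [σ_apply, V.cf_rf, V.cf_self, h, h'] at this

theorem cm_four (h : V.cf (V.α i) (V.α j) = -1) (h' : V.cf (V.α j) (V.α i) = -2) :
    cm V.toRoots i j = 4 := by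
  refine orderOf_eq_prime_pow (p := 2) (n := 1) (fun e => ?_) (Equiv.ext fun r => V.inj ?_)
  · have := congrArg (fun w : Equiv.Perm Φ => V.cf (V.α j) (w (V.α j))) e
    simp [pow_succ, σ_apply, V.cf_rf, V.cf_self, h, h'] at this
  · simp only [show 2 ^ (1 + 1) = 4 from rfl, pow_succ, pow_zero, one_mul, Equiv.Perm.mul_apply,
      σ_apply, V.v_rf, V.cf_rf, V.cf_self, h, h', Equiv.Perm.one_apply]
    module

end cm

variable {n : ℕ}

/-- The roots of a lattice. -/
def Rt (A : Matrix (Fin n) (Fin n) ℤ) (f : Prop) (x : Fin n → ℤ) : Prop :=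
  A.toBilin' x x = 2 ∨ (f ∧ A.toBilin' x x = 4 ∧ ∀ y, 2 ∣ A.toBilin' x y)

/-- A Gram matrix of a base. -/
structure Gm (A : Matrix (Fin n) (Fin n) ℤ) (f : Prop) : Prop where
  symm : ∀ i j, A i j = A j i
  off : ∀ i j, i ≠ j → A i j ≤ 0
  pos : ∀ x, x ≠ 0 → 2 ≤ A.toBilin' x x
  four : f → ∀ x, (∀ y, 2 ∣ A.toBilin' x y) →
    4 ∣ A.toBilin' (fun i => max (x i) 0) fun i => max (x i) 0
  dg : ∀ i, A i i = 2 ∨ (f ∧ A i i = 4 ∧ ∀ j, 2 ∣ A i j)

variable {A : Matrix (Fin n) (Fin n) ℤ} {f : Prop}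

theorem B_single (A : Matrix (Fin n) (Fin n) ℤ) (i : Fin n) (y : Fin n → ℤ) :
    A.toBilin' (Pi.single i 1) y = ∑ j, A i j * y j := by
  simp [Matrix.toBilin'_apply', Matrix.mulVec, dotProduct, Pi.single_apply]

theorem B_eq_sum (A : Matrix (Fin n) (Fin n) ℤ) (x y : Fin n → ℤ) :
    A.toBilin' x y = ∑ i, x i * A.toBilin' (Pi.single i 1) y := by
  simp only [B_single]
  simp only [Matrix.toBilin'_apply, Finset.mul_sum, mul_assoc]

theorem Rt.norm {x : Fin n → ℤ} (h : Rt A f x) : A.toBilin' x x = 2 ∨ A.toBilin' x x = 4 :=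
  h.imp id fun h => h.2.1

theorem Rt.ne {x : Fin n → ℤ} (h : Rt A f x) : x ≠ 0 := by
  rintro rfl
  simpa using h.norm

theorem Rt.cf_eq {x : Fin n → ℤ} (h : Rt A f x) (y : Fin n → ℤ) :
    A.toBilin' x x * (2 * A.toBilin' x y / A.toBilin' x x) = 2 * A.toBilin' x y := by
  rcases h with h | ⟨-, h, h'⟩
  · rw [h]; omega
  · have := h' y
    rw [h]; omega

namespace Gm

variable (H : Gm A f)
include H

theorem comm (x y : Fin n → ℤ) : A.toBilin' x y = A.toBilin' y x := by
  rw [Matrix.toBilin'_apply, Matrix.toBilin'_apply, Finset.sum_comm]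
  exact Finset.sum_congr rfl fun i _ => Finset.sum_congr rfl fun j _ => by rw [H.symm j i]; ring

theorem nonneg (x : Fin n → ℤ) : 0 ≤ A.toBilin' x x := by
  by_cases h : x = 0
  · simp [h]
  · exact le_trans (by norm_num) (H.pos x h)

theorem expand (x y : Fin n → ℤ) (a b : ℤ) : A.toBilin' (a • x - b • y) (a • x - b • y) =
    a * a * A.toBilin' x x - 2 * a * b * A.toBilin' x y + b * b * A.toBilin' y y := by
  simp only [map_sub, map_smul, LinearMap.sub_apply, LinearMap.smul_apply, smul_eq_mul, H.comm y x]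
  ring

theorem rt_single (i : Fin n) : Rt A f (Pi.single i 1) := by
  have e : A.toBilin' (Pi.single i 1) (Pi.single i 1) = A i i := by
    simp [B_single, Pi.single_apply]
  refine (H.dg i).imp (fun h => e.trans h) fun h => ⟨h.1, e.trans h.2.1, fun y => ?_⟩
  rw [B_single]
  exact Finset.dvd_sum fun j _ => (h.2.2 j).mul_right _

theorem rt_rf {x y : Fin n → ℤ} (hx : Rt A f x) (hy : Rt A f y) :
    Rt A f (y - (2 * A.toBilin' x y / A.toBilin' x x) • x) := by
  have h1 := hx.cf_eq y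
  set c := 2 * A.toBilin' x y / A.toBilin' x x with hc
  have e : A.toBilin' (y - c • x) (y - c • x) = A.toBilin' y y := by
    have := H.expand y x 1 c
    rw [one_smul, H.comm y x] at this
    linear_combination this + c * h1
  refine hy.imp (fun h => e.trans h) fun h => ⟨h.1, e.trans h.2.1, fun z => ?_⟩
  rw [map_sub, map_smul, LinearMap.sub_apply, LinearMap.smul_apply, smul_eq_mul]
  refine (h.2.2 z).sub ?_
  rcases hx with hx | hx
  · have := h.2.2 x
    rw [H.comm] at this
    rw [hx] at h1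
    exact Dvd.dvd.mul_right (by omega) _
  · exact (hx.2.2 z).mul_left _

theorem sign {x : Fin n → ℤ} (hx : Rt A f x) : (∀ i, 0 ≤ x i) ∨ ∀ i, x i ≤ 0 := by
  by_contra h
  push Not at h
  obtain ⟨⟨i, hi⟩, j, hj⟩ := h
  have h1 := H.pos (fun i => max (x i) 0) fun e => by have := congrFun e j; simp at this; omega
  have h2 := H.pos (fun i => max (-x i) 0) fun e => by have := congrFun e i; simp at this; omega
  have h3 : A.toBilin' (fun i => max (x i) 0) (fun i => max (-x i) 0) ≤ 0 := by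
    rw [Matrix.toBilin'_apply]
    refine Finset.sum_nonpos fun a _ => Finset.sum_nonpos fun b _ => ?_
    by_cases e : a = b
    · subst e
      rcases le_total (x a) 0 with h | h
      · simp [h]
      · simp [h]
    · exact mul_nonpos_of_nonpos_of_nonneg
        (mul_nonpos_of_nonneg_of_nonpos (le_max_right _ _) (H.off a b e)) (le_max_right _ _)
  have h4 := H.expand (fun i => max (x i) 0) (fun i => max (-x i) 0) 1 1
  rw [show (1 : ℤ) • (fun i => max (x i) 0) - (1 : ℤ) • (fun i => max (-x i) 0) = x from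
    funext fun k => by simp] at h4
  rcases hx with hx | ⟨a, b, c⟩
  · omega
  · have := H.four a x c
    omega

theorem cs {x y : Fin n → ℤ} (hx : Rt A f x) (hy : Rt A f y) (h1 : y ≠ x) (h2 : y ≠ -x) :
    A.toBilin' x y * A.toBilin' x y < A.toBilin' x x * A.toBilin' y y := by
  have e := H.expand y x (A.toBilin' x x) (A.toBilin' x y)
  rw [H.comm y x] at e
  by_cases h : A.toBilin' x x • y - A.toBilin' x y • x = 0
  · exfalso
    rw [h, map_zero] at e
    rw [sub_eq_zero] at h
    generalize A.toBilin' x y = c at e h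
    have k : c = A.toBilin' x x ∨ c = -A.toBilin' x x := by
      rcases hx.norm with a | a <;> rcases hy.norm with b | b <;> rw [a, b] at e <;> rw [a] <;>
        (have : c ≤ 4 := by nlinarith) <;> (have : -4 ≤ c := by nlinarith) <;>
        interval_cases c <;> omega
    have h0 : A.toBilin' x x ≠ 0 := by rcases hx.norm with a | a <;> omega
    rcases k with rfl | rfl
    · exact h1 (smul_right_injective _ h0 h)
    · exact h2 (smul_right_injective _ h0 (h.trans (by simp)))
  · have := H.pos _ h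
    rcases hx.norm with a | a <;> rw [a] at e this ⊢ <;> nlinarith

/-- The root system. -/
def vr : VR {x // Rt A f x} (Fin n) (Fin n → ℤ) where
  v := Subtype.val
  B := A.toBilin'
  ht := ∑ i, LinearMap.proj i
  neg r := ⟨-r.1, by simpa [Rt] using r.2⟩
  α i := ⟨_, H.rt_single i⟩
  rf r s := ⟨_, H.rt_rf r.2 s.2⟩
  cf r s := 2 * A.toBilin' r.1 s.1 / A.toBilin' r.1 r.1
  inj := Subtype.val_injective
  symm := H.comm
  B_pos r := by rcases r.2.norm with a | a <;> omega
  cf_eq r s := r.2.cf_eq _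
  v_neg _ := rfl
  v_rf _ _ := rfl
  ht_ne r h := by
    simp only [LinearMap.coe_sum, LinearMap.coe_proj, Finset.sum_apply, Function.eval] at h
    refine r.2.ne (funext fun i => ?_)
    rcases H.sign r.2 with a | a
    · exact (Finset.sum_eq_zero_iff_of_nonneg fun i _ => a i).1 h i (Finset.mem_univ _)
    · exact (Finset.sum_eq_zero_iff_of_nonpos fun i _ => a i).1 h i (Finset.mem_univ _)
  pos_α i := by simp [Pi.single_apply]
  rf_pos i r h hne := by
    simp only [LinearMap.coe_sum, LinearMap.coe_proj, Finset.sum_apply, Function.eval] at h ⊢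
    have h0 := (H.sign r.2).resolve_right fun a => (Finset.sum_nonpos fun i _ => a i).not_gt h
    obtain ⟨j, hj, h1⟩ : ∃ j, j ≠ i ∧ 0 < r.1 j := by
      by_contra h1
      push Not at h1
      have e : r.1 = r.1 i • Pi.single i 1 := funext fun j => by
        by_cases e : j = i
        · simp [e]
        · simpa [e] using le_antisymm (h1 j e) (h0 j)
      have h2 := r.2.norm
      rw [e] at h2
      simp only [map_smul, LinearMap.smul_apply, smul_eq_mul] at h2
      have h3 : r.1 i = 1 := by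
        have := h0 i
        generalize r.1 i = c at h2 this
        rcases (H.rt_single i).norm with a | a <;> rw [a] at h2 <;>
          (have : c ≤ 1 := by rcases h2 with h2 | h2 <;> nlinarith) <;> interval_cases c <;> omega
      exact hne (Subtype.ext (by rw [e, h3, one_smul]))
    have h2 := (H.sign (H.rt_rf (H.rt_single i) r.2)).resolve_right fun a => by
      have := a j
      simp [hj] at this
      omega
    exact Finset.sum_pos' (fun k _ => h2 k) ⟨j, Finset.mem_univ _, by simpa [hj] using h1⟩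
  desc r h := by
    simp only [LinearMap.coe_sum, LinearMap.coe_proj, Finset.sum_apply, Function.eval] at h
    have h0 := (H.sign r.2).resolve_right fun a => (Finset.sum_nonpos fun i _ => a i).not_gt h
    by_contra h1
    push Not at h1
    have h2 : A.toBilin' r.1 r.1 ≤ 0 := by
      rw [B_eq_sum]
      refine Finset.sum_nonpos fun i _ => mul_nonpos_of_nonneg_of_nonpos (h0 i) ?_
      have h3 := (H.rt_single i).cf_eq r.1
      have h4 : 2 * A.toBilin' (Pi.single i 1) r.1 /
        A.toBilin' (Pi.single i 1) (Pi.single i 1) ≤ 0 := h1 i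
      rcases (H.rt_single i).norm with a | a <;> rw [a] at h3 h4 <;> omega
    rcases r.2.norm with a | a <;> omega
  cs r s h1 h2 := by
    have h3 := H.cs r.2 s.2 (fun e => h1 (Subtype.ext e)) fun e => h2 (Subtype.ext e)
    have h4 := r.2.cf_eq s.1
    have h5 := s.2.cf_eq r.1
    rw [H.comm s.1 r.1] at h5 ⊢
    generalize 2 * A.toBilin' r.1 s.1 / A.toBilin' r.1 r.1 = u at h4 ⊢
    generalize 2 * A.toBilin' r.1 s.1 / A.toBilin' s.1 s.1 = v at h5 ⊢
    have h6 : A.toBilin' r.1 r.1 * A.toBilin' s.1 s.1 * (u * v) =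
        4 * (A.toBilin' r.1 s.1 * A.toBilin' r.1 s.1) := by
      linear_combination A.toBilin' s.1 s.1 * v * h4 + 2 * A.toBilin' r.1 s.1 * h5
    rcases r.2.norm with a | a <;> rcases s.2.norm with b | b <;> rw [a, b] at h3 h6 <;> linarith

theorem finite : Finite {x // Rt A f x} := by
  have hb : ∀ (r : {x // Rt A f x}) i, A.toBilin' (Pi.single i 1) r.1 ∈ Set.Icc (-4 : ℤ) 4 := by
    intro r i
    have h1 := H.nonneg ((1 : ℤ) • Pi.single i 1 - (1 : ℤ) • r.1)
    have h2 := H.nonneg ((1 : ℤ) • Pi.single i 1 - (-1 : ℤ) • r.1)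
    rw [H.expand] at h1 h2
    have := r.2.norm
    have := (H.rt_single i).norm
    constructor <;> omega
  refine Finite.of_injective (fun r i => (⟨_, hb r i⟩ : Set.Icc (-4 : ℤ) 4)) fun r s e => ?_
  by_contra hne
  have h1 := H.pos (r.1 - s.1) (sub_ne_zero.2 fun e => hne (Subtype.ext e))
  rw [B_eq_sum, Finset.sum_eq_zero fun i _ => by
    rw [map_sub, show A.toBilin' (Pi.single i 1) r.1 = _ from congrArg Subtype.val (congrFun e i),
      sub_self, mul_zero]] at h1
  omega

theorem cf_α (i j : Fin n) : H.vr.cf (H.vr.α i) (H.vr.α j) = 2 * A i j / A i i := by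
  simp [vr, B_single, Pi.single_apply]

theorem nice {m : Fin n → Fin n → ℕ} (h : ∀ i j, (i = j ∧ m i j = 1) ∨
    (2 * A i j / A i i = 0 ∧ m i j = 2) ∨
    (2 * A i j / A i i = -1 ∧ 2 * A j i / A j j = -1 ∧ m i j = 3) ∨
    (2 * A i j / A i i = -1 ∧ 2 * A j i / A j j = -2 ∧ m i j = 4) ∨
    (2 * A i j / A i i = -2 ∧ 2 * A j i / A j j = -1 ∧ m i j = 4)) :
    ∃ (Φ : Type) (_ : Finite Φ) (R : Roots Φ (Fin n)), Full R ∧ Rk2 R ∧ cm R = m := by
  haveI := H.finite
  refine ⟨_, H.finite, _, vr_full H.vr,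
    vr_rk2 H.vr fun x hx => lt_of_lt_of_le two_pos (H.pos x hx), funext₂ fun i j => ?_⟩
  simp only [← H.cf_α] at h
  rcases h i j with ⟨rfl, c⟩ | ⟨a, c⟩ | ⟨a, b, c⟩ | ⟨a, b, c⟩ | ⟨a, b, c⟩ <;> rw [c]
  exacts [cm_self _, cm_two _ a, cm_three _ a b, cm_four _ a b, (cm_symm _ _).trans (cm_four _ b a)]

end Gm

/-- The Cartan matrix of type `E_n`. -/
def AE (n : ℕ) : Matrix (Fin n) (Fin n) ℤ :=
  Matrix.of fun i j => if i = j then 2 else if mE n i j = 3 then -1 else 0

theorem pos8 (a b c d e f g h : ℤ) (h0 : ¬ (a = 0 ∧ b = 0 ∧ c = 0 ∧ d = 0 ∧ e = 0 ∧ f = 0 ∧ g = 0 ∧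
    h = 0)) : 0 < a * a + b * b + c * c + d * d + e * e + f * f + g * g + h * h -
      (a * c + b * d + c * d + d * e + e * f + f * g + g * h) := by
  by_contra h1
  have k : ∀ {x : ℤ}, x ^ 2 ≤ 0 → x = 0 := fun h => pow_eq_zero_iff two_ne_zero |>.1
    (le_antisymm h (sq_nonneg _))
  have s1 := sq_nonneg (a + 2 * b - 2 * c)
  have s2 := sq_nonneg (-a + 2 * b + 2 * c - 2 * d)
  have s3 := sq_nonneg (-a + 2 * d - 2 * e)
  have s4 := sq_nonneg (-a + 2 * e - 2 * f)
  have s5 := sq_nonneg (-a + 2 * f - 2 * g)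
  have s6 := sq_nonneg (-a + 2 * g - 2 * h)
  have s7 := sq_nonneg (-a + 2 * h)
  have s8 := sq_nonneg a
  have t : (a + 2 * b - 2 * c) ^ 2 + (-a + 2 * b + 2 * c - 2 * d) ^ 2 + (-a + 2 * d - 2 * e) ^ 2 +
      (-a + 2 * e - 2 * f) ^ 2 + (-a + 2 * f - 2 * g) ^ 2 + (-a + 2 * g - 2 * h) ^ 2 +
      (-a + 2 * h) ^ 2 + a ^ 2 ≤ 0 := by linarith [show (a + 2 * b - 2 * c) ^ 2 +
        (-a + 2 * b + 2 * c - 2 * d) ^ 2 + (-a + 2 * d - 2 * e) ^ 2 + (-a + 2 * e - 2 * f) ^ 2 +
        (-a + 2 * f - 2 * g) ^ 2 + (-a + 2 * g - 2 * h) ^ 2 + (-a + 2 * h) ^ 2 + a ^ 2 =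
        8 * (a * a + b * b + c * c + d * d + e * e + f * f + g * g + h * h -
          (a * c + b * d + c * d + d * e + e * f + f * g + g * h)) by ring]
  have := k (x := a + 2 * b - 2 * c) (by linarith)
  have := k (x := -a + 2 * b + 2 * c - 2 * d) (by linarith)
  have := k (x := -a + 2 * d - 2 * e) (by linarith)
  have := k (x := -a + 2 * e - 2 * f) (by linarith)
  have := k (x := -a + 2 * f - 2 * g) (by linarith)
  have := k (x := -a + 2 * g - 2 * h) (by linarith)
  have := k (x := -a + 2 * h) (by linarith)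
  have := k (x := a) (by linarith)
  omega

theorem gmE {n : ℕ} (h6 : 6 ≤ n) (h8 : n ≤ 8) : Gm (AE n) False := by
  refine ⟨?_, fun i j h => ?_, fun x hx => ?_, False.elim, fun i => Or.inl (by simp [AE])⟩
  · intro i j
    interval_cases n <;> fin_cases i <;> fin_cases j <;> rfl
  · simp only [AE, Matrix.of_apply, if_neg h]
    split_ifs <;> norm_num
  · rw [Matrix.toBilin'_apply]
    interval_cases n
    · have := pos8 (x 0) (x 1) (x 2) (x 3) (x 4) (x 5) 0 0 fun h =>
        hx (funext fun i => by fin_cases i <;> simp [h])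
      simp [Fin.sum_univ_succ, AE, mE]
      linarith
    · have := pos8 (x 0) (x 1) (x 2) (x 3) (x 4) (x 5) (x 6) 0 fun h =>
        hx (funext fun i => by fin_cases i <;> simp [h])
      simp [Fin.sum_univ_succ, AE, mE]
      linarith
    · have := pos8 (x 0) (x 1) (x 2) (x 3) (x 4) (x 5) (x 6) (x 7) fun h =>
        hx (funext fun i => by fin_cases i <;> simp [h])
      simp [Fin.sum_univ_succ, AE, mE]
      linarith

/-- The Gram matrix of type `F₄`. -/
def AF : Matrix (Fin 4) (Fin 4) ℤ := !![4, -2, 0, 0; -2, 4, -2, 0; 0, -2, 2, -1; 0, 0, -1, 2]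

theorem AF_apply (x : Fin 4 → ℤ) : AF.toBilin' x x = 2 * (2 * (x 0 * x 0 - x 0 * x 1 + x 1 * x 1 -
    x 1 * x 2) + (x 2 * x 2 - x 2 * x 3 + x 3 * x 3)) := by
  simp [Matrix.toBilin'_apply, Fin.sum_univ_succ, AF]
  ring

theorem gmF : Gm AF True := by
  refine ⟨fun i j => by fin_cases i <;> fin_cases j <;> rfl,
    fun i j => by fin_cases i <;> fin_cases j <;> decide, fun x hx => ?_, fun _ x hx => ?_,
    fun i => by fin_cases i <;> simp [AF, Fin.forall_fin_succ]⟩
  · by_contra h1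
    have e := AF_apply x
    have k : ∀ {x : ℤ}, x ^ 2 ≤ 0 → x = 0 := fun h => pow_eq_zero_iff two_ne_zero |>.1
      (le_antisymm h (sq_nonneg _))
    have s1 := sq_nonneg (2 * x 0 - x 3)
    have s2 := sq_nonneg (2 * x 1 - 2 * x 0 - x 3)
    have s3 := sq_nonneg (2 * x 2 - 2 * x 1 - x 3)
    have s4 := sq_nonneg (x 3)
    have t : (2 * x 0 - x 3) ^ 2 + (2 * x 1 - 2 * x 0 - x 3) ^ 2 + (2 * x 2 - 2 * x 1 - x 3) ^ 2 +
        x 3 ^ 2 = 2 * AF.toBilin' x x := by rw [e]; ring
    have h2 : AF.toBilin' x x ≤ 0 := by omega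
    have := k (x := 2 * x 0 - x 3) (by linarith)
    have := k (x := 2 * x 1 - 2 * x 0 - x 3) (by linarith)
    have := k (x := 2 * x 2 - 2 * x 1 - x 3) (by linarith)
    have := k (x := x 3) (by linarith)
    exact hx (funext fun i => by fin_cases i <;> simp <;> omega)
  · have h2 := hx (Pi.single 2 1)
    have h3 := hx (Pi.single 3 1)
    simp [Matrix.toBilin'_apply, Fin.sum_univ_succ, AF] at h2 h3
    rw [AF_apply]
    obtain ⟨u, hu⟩ : 2 ∣ max (x 2) 0 := by omega
    obtain ⟨v, hv⟩ : 2 ∣ max (x 3) 0 := by omega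
    simp only [hu, hv]
    exact ⟨max (x 0) 0 * max (x 0) 0 - max (x 0) 0 * max (x 1) 0 + max (x 1) 0 * max (x 1) 0 -
      max (x 1) 0 * (2 * u) + 2 * (u * u - u * v + v * v), by ring⟩

end NiceE

theorem exists_nice_SL {n : ℕ} {m : Fin n → Fin n → ℕ} (h : SL n m) :
    ∃ (Φ : Type) (_ : Finite Φ) (R : Roots Φ (Fin n)), Full R ∧ Rk2 R ∧ cm R = m := by
  rcases h with ⟨-, rfl⟩ | ⟨h, rfl⟩ | ⟨h6, h8, rfl⟩
  · exact ⟨_, inferInstance, _, vr_full _, rk2_VA n, cm_VA n⟩
  · obtain ⟨m, rfl⟩ : ∃ m, n = m + 1 := ⟨n - 1, by omega⟩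
    exact ⟨_, inferInstance, _, vr_full _, rk2_VC false m fun _ => by omega, cm_VD m (by omega) _⟩
  · refine (NiceE.gmE h6 h8).nice fun i j => ?_
    interval_cases n <;> fin_cases i <;> fin_cases j <;> decide

theorem exists_nice_F :
    ∃ (Φ : Type) (_ : Finite Φ) (R : Roots Φ (Fin 4)), Full R ∧ Rk2 R ∧ cm R = mF := by
  refine NiceE.gmF.nice fun i j => ?_
  fin_cases i <;> fin_cases j <;> decide

end Tits
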