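import Mathlib
import Cfsg.Agent.Lib.Tits.Cox
import Cfsg.Agent.Lib.Tits.WJ
import Cfsg.Agent.Lib.BN.Parabolic
import Cfsg.Agent.Lib.SPL.BN2
import Cfsg.Agent.S1142

set_option autoImplicit false

open scoped commutatorElement

namespace Tits

open H63.St Cfsg

namespace OfBN

open H13 H13.BN

theorem pow_eq_one {G : Type*} [Group G] (P : BNPair G) (s t : P.S) (n : ℕ) :
    (gen P s * gen P t) ^ n = 1 ↔ ((s : G) * t) ^ n ∈ P.B := by
  rw [← mk_genN, ← mk_genN, ← QuotientGroup.mk_mul, ← QuotientGroup.mk_pow, mk_eq_one_iff]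
  rfl

variable {W ι κ : Type*} [Group W] {s : ι → W}

theorem wp_comp (e : κ → ι) (l : List κ) : wp (fun i => s (e i)) l = wp s (l.map e) := by
  simp only [wp, List.map_map]; rfl

theorem len_comp (e : κ ≃ ι) (w : W) : len (fun i => s (e i)) w = len s w := by
  unfold len
  congr 1
  ext n
  constructor
  · rintro ⟨l, h1, h2⟩
    exact ⟨l.map e, by rw [← wp_comp, h1], by rw [List.length_map, h2]⟩
  · rintro ⟨l, h1, h2⟩
    exact ⟨l.map e.symm, by rw [wp_comp, List.map_map, e.self_comp_symm, List.map_id, h1],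
      by rw [List.length_map, h2]⟩

theorem invGen_comp (h : InvGen s) (e : κ ≃ ι) : InvGen fun i => s (e i) :=
  ⟨fun _ => h.sq _, by rw [← h.gen]; exact congrArg _ (e.surjective.range_comp s)⟩

theorem exchange_comp (h : Exchange s) (e : κ ≃ ι) : Exchange fun i => s (e i) := by
  intro i l h1 h2
  rw [IsRed, len_comp, wp_comp] at h1
  rw [len_comp, wp_comp] at h2
  obtain ⟨l₁, a, l₂, e1, e2⟩ := h (e i) (l.map e) (by rw [IsRed, h1, List.length_map])
    (by rwa [List.length_map])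
  obtain ⟨m₁, m, rfl, rfl, e3⟩ := List.map_eq_append_iff.1 e1
  obtain ⟨b, m₂, rfl, rfl, rfl⟩ := List.map_eq_cons_iff.1 e3
  exact ⟨m₁, b, m₂, rfl, by rw [wp_comp e, wp_comp e, List.map_append (l₂ := m₂)]; exact e2⟩

theorem exists_d {G : Type*} [Group G] (P : BNPair G) : ∃ d : G ⧸ P.B → G ⧸ P.B → Weyl P,
    ∀ (x y : G) w, d x y = w ↔ x⁻¹ * y ∈ cell P w := by
  choose wt h using exists_mem_cell (P := P)
  refine ⟨fun x y => wt (x.out⁻¹ * y.out), fun x y w => ?_⟩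
  obtain ⟨b, e⟩ := QuotientGroup.mk_out_eq_mul P.B x
  obtain ⟨b', e'⟩ := QuotientGroup.mk_out_eq_mul P.B y
  have k : x⁻¹ * y ∈ cell P (wt ((x : G ⧸ P.B).out⁻¹ * (y : G ⧸ P.B).out)) := by
    have := cell_mul_mem (mul_mem_cell b.2 (h ((x : G ⧸ P.B).out⁻¹ * (y : G ⧸ P.B).out))) (inv_mem b'.2)
    convert this using 1
    rw [e, e']; group
  exact ⟨fun q => q ▸ k, fun q => eq_of_mem_cell k q⟩

end OfBN

theorem order_mem {G : Type*} [Group G] [Finite G] (P : BNPair G) (s t : P.S) (h : s ≠ t) :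
    orderOf (H13.BN.gen P s * H13.BN.gen P t) ∈ ({2, 3, 4, 6, 8} : Set ℕ) := by
  have hJ : ({(s : G), (t : G)} : Set G) ⊆ P.S := Set.pair_subset s.2 t.2
  have hs : (s : G) ∈ P.parabolic {(s : G), (t : G)} := H13.BN.subset_parabolic _ (Set.mem_insert _ _)
  have ht : (t : G) ∈ P.parabolic {(s : G), (t : G)} :=
    H13.BN.subset_parabolic _ (Set.mem_insert_of_mem _ (Set.mem_singleton _))
  let Q := H11.SPL.BN2.sub P _ hJ
  have hS : Q.S = {⟨s, hs⟩, ⟨t, ht⟩} := by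
    ext x
    simp [Q, H11.SPL.BN2.sub, Subtype.ext_iff]
  have h2 : Q.rank = 2 := by
    rw [BNPair.rank, hS, Nat.card_coe_set_eq, Set.ncard_pair]
    exact fun e => h (Subtype.ext (Subtype.mk.inj e))
  let a : Q.S := ⟨⟨s, hs⟩, Set.mem_insert (s : G) _⟩
  let b : Q.S := ⟨⟨t, ht⟩, Set.mem_insert_of_mem (s : G) (Set.mem_singleton (t : G))⟩
  have h0 : ∀ c : Q.S, c = a ∨ c = b := fun c =>
    (hS.le c.2).imp (fun e => Subtype.ext e) fun e => Subtype.ext e
  have h8 : Nat.card (H13.BN.Weyl Q) ∈ ({4, 6, 8, 12, 16} : Set ℕ) := Cfsg.Agent.S1142.result Q h2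
  rw [H81.FH.card_eq (H13.BN.invGen Q) h0 H13.BN.gen_ne_one] at h8
  have e : orderOf (H13.BN.gen Q a * H13.BN.gen Q b) = orderOf (H13.BN.gen P s * H13.BN.gen P t) :=
    orderOf_eq_orderOf_iff.2 fun n => by rw [OfBN.pow_eq_one, OfBN.pow_eq_one]; rfl
  rw [e] at h8
  simp only [Set.mem_insert_iff, Set.mem_singleton_iff] at h8 ⊢
  omega

open H13 H13.BN in
theorem exists_bd {G : Type*} [Group G] (P : BNPair G) (hc : P.B.normalCore = ⊥)
    {Φ I : Type*} [Finite Φ] {R : Roots Φ I} (e : I ≃ P.S)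
    (hm : ∀ i j, orderOf (H13.BN.gen P (e i) * H13.BN.gen P (e j)) = cm R i j) :
    Nonempty (Bd R G (G ⧸ P.B)) := by
  obtain ⟨θ, hi, hr, hs, hl⟩ := cox_iso (OfBN.invGen_comp (invGen P) e)
    (OfBN.exchange_comp (exchange (P := P)) e) hm
  simp only [OfBN.len_comp] at hl
  obtain ⟨d, hd⟩ := OfBN.exists_d P
  have hd0 : ∀ x y : G, x⁻¹ * y ∈ cell P (d x y) := fun x y => (hd x y _).1 rfl
  have ds : ∀ (x y : G) i, θ (d x y) = R.σ i ↔ x⁻¹ * y ∈ cell P (gen P (e i)) := fun x y i => by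
    rw [← hs, hi.eq_iff, hd]
  have sm : ∀ g x : G, g • (x : G ⧸ P.B) = (g * x : G) := fun _ _ => rfl
  refine ⟨⟨fun x y => θ (d x y), fun v => (((Function.invFun θ v).out : P.N) : G), fun x y => ?_,
    fun g x y => ?_, fun x y => ?_, fun x y => ?_, fun x y z i h => ?_, fun x y i => ?_, fun x i => ?_,
    fun v hv w hw => ?_, fun x y x' y' h => ?_, fun g h => ?_⟩⟩
  · exact hr ▸ ⟨_, rfl⟩
  · obtain ⟨x, rfl⟩ := QuotientGroup.mk_surjective x
    obtain ⟨y, rfl⟩ := QuotientGroup.mk_surjective y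
    rw [sm, sm, (hd _ _ _).2 (by simpa [mul_assoc] using hd0 x y)]
  · obtain ⟨x, rfl⟩ := QuotientGroup.mk_surjective x
    obtain ⟨y, rfl⟩ := QuotientGroup.mk_surjective y
    rw [map_eq_one_iff θ hi, hd, mem_cell_one, QuotientGroup.eq]
  · obtain ⟨x, rfl⟩ := QuotientGroup.mk_surjective x
    obtain ⟨y, rfl⟩ := QuotientGroup.mk_surjective y
    rw [← map_inv, (hd y x _).2 (by simpa using inv_mem_cell (hd0 x y))]
  · obtain ⟨x, rfl⟩ := QuotientGroup.mk_surjective x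
    obtain ⟨y, rfl⟩ := QuotientGroup.mk_surjective y
    obtain ⟨z, rfl⟩ := QuotientGroup.mk_surjective z
    have h1 := (ds y z i).1 h
    have e1 : x⁻¹ * y * (y⁻¹ * z) = x⁻¹ * z := by group
    rw [← hs, ← map_mul, hi.eq_iff, hi.eq_iff, hd, hd, ← e1]
    by_cases p : R.Pos (θ (d x y) (R.α i))
    · exact Or.inl (mul_gen_mem_of_lt ((hl _ i).2 p) (hd0 x y) h1)
    · exact (mul_gen_mem (hd0 x y) h1).imp_right fun k => ⟨k, p⟩
  · obtain ⟨x, rfl⟩ := QuotientGroup.mk_surjective x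
    obtain ⟨y, rfl⟩ := QuotientGroup.mk_surjective y
    obtain ⟨n, hn⟩ := QuotientGroup.mk_surjective (d x y)
    obtain ⟨b, hb, b', hb', k⟩ := (mem_cell_mk P).1 (hn ▸ hd0 x y)
    refine ⟨(y * b'⁻¹ * e i : G), (ds _ _ i).2 ?_, ?_⟩
    · rw [mul_assoc, inv_mul_cancel_left]
      exact mul_mem_cell (inv_mem hb') (coe_mem_cell_gen P (e i))
    · rw [← hs, ← map_mul, hi.eq_iff, hd, ← hn, ← mk_genN, ← QuotientGroup.mk_mul, ← mul_assoc,
        ← mul_assoc, k, mul_inv_cancel_right, mul_assoc]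
      exact mul_mem_cell hb (coe_mem_cell P (n * genN P (e i)))
  · obtain ⟨x, rfl⟩ := QuotientGroup.mk_surjective x
    obtain ⟨u, hu, v, hv, k⟩ := exists_gen_mul_gen (P := P) (e i)
    refine ⟨(x * u : G), (x * (u * v) : G), (ds _ _ i).2 (by rwa [inv_mul_cancel_left]),
      (ds _ _ i).2 (by rwa [inv_mul_cancel_left]), fun q => gen_ne_one (e i) (eq_of_mem_cell hv ?_)⟩
    rw [mem_cell_one]
    simpa [mul_assoc] using QuotientGroup.eq.1 q
  · rw [← hr] at hv hw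
    obtain ⟨v, rfl⟩ := hv
    obtain ⟨w, rfl⟩ := hw
    rw [Function.leftInverse_invFun hi, Function.leftInverse_invFun hi, ← map_inv, ← map_mul,
      hi.eq_iff, hd]
    have := coe_mem_cell P (v.out⁻¹ * w.out)
    rwa [QuotientGroup.mk_mul, QuotientGroup.mk_inv, QuotientGroup.out_eq', QuotientGroup.out_eq'] at this
  · obtain ⟨x, rfl⟩ := QuotientGroup.mk_surjective x
    obtain ⟨y, rfl⟩ := QuotientGroup.mk_surjective y
    obtain ⟨x', rfl⟩ := QuotientGroup.mk_surjective x'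
    obtain ⟨y', rfl⟩ := QuotientGroup.mk_surjective y'
    obtain ⟨b, hb, b', hb', k⟩ := exists_eq_of_mem_cell (hd0 x y) ((hd x' y' _).1 (hi h).symm)
    refine ⟨x' * b * x⁻¹, ?_, ?_⟩
    · rw [sm, QuotientGroup.eq]
      simpa [mul_assoc] using inv_mem hb
    · rw [sm, QuotientGroup.eq, inv_mul_eq_iff_eq_mul.1 k]
      simpa [mul_assoc] using hb'
  · rw [← Subgroup.mem_bot, ← hc, Subgroup.normalCore_eq_ker]
    exact Equiv.ext h

end Tits
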