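import Mathlib
import Cfsg.Agent.Lib.Tits.NiceC
import Cfsg.Agent.Lib.Tits.Win
import Cfsg.Agent.Lib.Stein3.Core
import Cfsg.Agent.Lib.Stein3.Data
import Cfsg.Agent.Lib.Chev.Main

/-! Tits' theorem: the Chevalley groups of types `E₆`, `E₇`, `E₈`, `F₄` as models. -/

set_option autoImplicit false

open scoped commutatorElement

namespace Tits

open H63.St Cfsg

namespace ModE

open H38 H6 Cfsg.Lie

section gen

variable {ι l : Type} [Fintype l] [DecidableEq l] {R : RS ι l} {K : Type} [Field K]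
  {G : Type} [Group G]

lemma exists_vr (R : RS ι l) {I : Type} (g : I → l) (hg : Function.Surjective g) :
    ∃ V : VR ι I (l → ℤ), V.v = R.rt ∧ V.ht = RS.htL ∧ V.neg = R.neg ∧
      (∀ i, V.α i = R.sim (g i)) ∧ ∀ r, V.refl r = R.refl r := by
  refine ⟨
    { v := R.rt
      B := LinearMap.mk₂ ℤ R.form (fun a b c => R.form_add_left c a b)
        (fun c a b => R.form_smul_left b a c) (fun a b c => R.form_add_right a b c)
        (fun c a b => R.form_smul_right a b c)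
      ht := RS.htL
      neg := R.neg
      α := fun i => R.sim (g i)
      rf := fun r s => R.refl r s
      cf := R.pair
      inj := R.rt_inj
      symm := fun x y => R.form_symm x y
      B_pos := fun r => ?_
      cf_eq := fun r s => ?_
      v_neg := R.rt_neg
      v_rf := R.rt_refl
      ht_ne := R.ht_ne_zero
      pos_α := fun i => (R.ht_pos_iff _).2 (R.pos_sim _)
      rf_pos := fun i r h h' => ?_
      desc := fun r h => ?_
      cs := fun r s => R.pair_mul_pair_lt }, rfl, rfl, rfl, fun _ => rfl, fun _ => rfl⟩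
  · have := R.len_pos r
    rw [LinearMap.mk₂_apply, R.form_self]; omega
  · rw [LinearMap.mk₂_apply, LinearMap.mk₂_apply, R.form_self, R.form_rt, RS.pair]; ring
  · rw [R.refl_sim]
    exact (R.ht_pos_iff _).2 (R.pos_σ ((R.ht_pos_iff _).1 h) h')
  · obtain ⟨i, -, hi⟩ := R.exists_wt_pos ((R.ht_pos_iff _).1 h)
    obtain ⟨j, rfl⟩ := hg i
    exact ⟨j, by rwa [R.pair_sim_left]⟩

lemma acts_n (E : Elts R K G) (r : ι) {c : K} (hc : c ≠ 0) :
    H63.St.Acts E.X (E.n r c) (R.refl r) :=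
  acts_of_conj (fun _ _ hx => (E.rep_n r hc).conj_mem_X hx)
    (fun _ _ hx => by simpa using (E.rep_n r hc).inv.conj_mem_X hx)

lemma n_eq_neg (E : Elts R K G) (r : ι) {c : K} (hc : c ≠ 0) :
    E.n r c = E.x (R.neg r) (-c⁻¹) * E.x r c * E.x (R.neg r) (-c⁻¹) := by
  have e2 := E.n_neg_root r (c := -c⁻¹) (by simpa using hc)
  rw [inv_neg, inv_inv, neg_neg, PreElts.n, R.neg_neg, inv_neg, inv_inv, neg_neg] at e2
  exact e2.symm

lemma XS_le_XS (E : Elts R K G) {S T : Set ι} (h : S ⊆ T) : E.XS S ≤ H63.St.XS E.X T :=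
  E.XS_le.2 fun r hr t => mem_XS (h hr) (E.x_mem_X r t)

lemma XS_le_XS' (E : Elts R K G) {S T : Set ι} (h : S ⊆ T) : H63.St.XS E.X S ≤ E.XS T :=
  H63.St.XS_le.2 fun r hr => by
    rintro _ ⟨t, rfl⟩
    exact E.x_mem_XS (h hr) t

theorem exists_rgd (E : Elts R K G) (hF : E.Faith) (htop : E.Gp = ⊤) {I : Type} (g : I → l)
    (hg : Function.Surjective g) :
    ∃ (R' : Roots ι I) (E' : RGD R' G), (∀ i, R'.α i = R.sim (g i)) ∧
      (∀ i, R'.σ i = R.refl (R.sim (g i))) ∧ R'.neg = R.neg ∧ (∀ r, E'.X r = E.X r) ∧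
      E'.Faith ∧ E'.Gp = ⊤ := by
  obtain ⟨V, hv, hh, hn, ha, hr⟩ := exists_vr R g hg
  have hσ : ∀ i, V.toRoots.σ i = R.refl (R.sim (g i)) := fun i => by
    rw [VR.toRoots_σ, hr, ha]
  have hp : ∀ r, V.toRoots.Pos r ↔ R.Pos r := fun r => by
    rw [VR.toRoots_pos, hv, hh]; exact R.ht_pos_iff r
  have key : ∀ i, ∀ c : K, c ≠ 0 → ∃ u ∈ E.X (V.toRoots.neg (V.toRoots.α i)),
      E.n (R.sim (g i)) c = u * E.x (V.toRoots.α i) c * u := fun i c hc => by
    rw [VR.toRoots_neg, VR.toRoots_α, hn, ha]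
    exact ⟨_, E.x_mem_X _ _, n_eq_neg E _ hc⟩
  refine ⟨V.toRoots,
    { X := E.X
      comm := ?_
      n := fun i => E.n (R.sim (g i)) 1
      n_acts := fun i => by rw [hσ]; exact acts_n E _ one_ne_zero
      n_mem := fun i => ?_
      rgd2 := fun i => ?_ }, ha, hσ, hn, fun _ => rfl, fun x h1 h2 => ?_, ?_⟩
  · rintro r s h1 h2 h3 _ ⟨t, rfl⟩ _ ⟨u, rfl⟩
    have h4 : s ≠ R.neg r := hn ▸ V.ne_neg_of_pos h1 h2
    refine XS_le_XS E (T := V.Itv r s) ?_ (E.comm_of_ne_neg h4 t u)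
    rintro k ⟨i, j, hi, hj, e⟩
    exact V.mem_itv i j (by omega) (by omega) (by rw [hv]; exact e)
  · obtain ⟨u, hu, e⟩ := key i 1 one_ne_zero
    refine ⟨by rw [hσ]; exact acts_n E _ one_ne_zero, _, E.x_mem_X _ 1,
      fun h => one_ne_zero (hF.x_eq_one _ _ h), u, hu, u, hu, e⟩
  · rintro _ ⟨c, rfl⟩ hx
    have hc : c ≠ 0 := by rintro rfl; exact hx (E.x_zero _)
    obtain ⟨u, hu, e⟩ := key i c hc
    exact ⟨u, hu, u, hu, by rw [← e, hσ]; exact acts_n E _ hc⟩
  · exact hF.B_inf_V x (E.U_le_B (XS_le_XS' E (fun r hr => (hp r).1 hr) h1))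
      (XS_le_XS' E (fun r hr => mt (hp r).2 hr) h2)
  · exact top_le_iff.1 (htop ▸ XS_le_XS E subset_rfl)

lemma refl_mul_ne {a b : ι} {k : ℕ} {c : ℤ} (h : R.pair a (((R.refl a * R.refl b) ^ k) a) = c)
    (hc : c ≠ 2) : (R.refl a * R.refl b) ^ k ≠ 1 := fun e => by
  rw [e, Equiv.Perm.one_apply, R.pair_self] at h
  exact hc h.symm

lemma order_two {a b : ι} (h : R.pair a b = 0) : orderOf (R.refl a * R.refl b) = 2 := by
  have h' : R.pair b a = 0 := R.pair_eq_zero_comm.1 h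
  refine orderOf_eq_prime (Equiv.ext fun s => R.rt_inj ?_) ?_
  · simp only [pow_succ, pow_zero, one_mul, Equiv.Perm.mul_apply, Equiv.Perm.one_apply, R.rt_refl,
      pair_refl_right, R.pair_self, h, h']
    module
  · simpa using refl_mul_ne (k := 1) (a := a) (b := b) (c := -2) (by
      simp only [pow_succ, pow_zero, one_mul, Equiv.Perm.mul_apply, pair_refl_right, R.pair_self,
        h, h']
      norm_num) (by norm_num)

lemma order_three {a b : ι} (h : R.pair a b = -1) (h' : R.pair b a = -1) :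
    orderOf (R.refl a * R.refl b) = 3 := by
  refine orderOf_eq_prime (Equiv.ext fun s => R.rt_inj ?_) ?_
  · simp only [pow_succ, pow_zero, one_mul, Equiv.Perm.mul_apply, Equiv.Perm.one_apply, R.rt_refl,
      pair_refl_right, R.pair_self, h, h']
    module
  · simpa using refl_mul_ne (k := 1) (a := a) (b := b) (c := -1) (by
      simp only [pow_succ, pow_zero, one_mul, Equiv.Perm.mul_apply, pair_refl_right, R.pair_self,
        h, h']
      norm_num) (by norm_num)

lemma order_four {a b : ι}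
    (h : R.pair a b = -1 ∧ R.pair b a = -2 ∨ R.pair a b = -2 ∧ R.pair b a = -1) :
    orderOf (R.refl a * R.refl b) = 4 := by
  refine orderOf_eq_prime_pow (p := 2) (n := 1) ?_ (Equiv.ext fun s => R.rt_inj ?_)
  · refine refl_mul_ne (c := -2) ?_ (by norm_num)
    rcases h with ⟨h, h'⟩ | ⟨h, h'⟩ <;>
    · simp only [pow_one, sq, Equiv.Perm.mul_apply, pair_refl_right, R.pair_self, h, h']
      norm_num
  · rcases h with ⟨h, h'⟩ | ⟨h, h'⟩ <;>
    · simp only [show 2 ^ (1 + 1) = 4 from rfl, pow_succ, pow_zero, one_mul, Equiv.Perm.mul_apply,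
        Equiv.Perm.one_apply, R.rt_refl, pair_refl_right, R.pair_self, h, h']
      module

section Eta

variable {E : Elts R K G} (hF : E.Faith)
include hF

lemma η_neg_left {r s : ι} (h : Odd (R.pair r s)) : (E.η (R.neg r) s : K) = -E.η r s := by
  have h1 := E.nconj (R.neg r) s 1 one_ne_zero 1
  rw [E.n_neg_root r one_ne_zero, E.nconj r s _ (by simp), R.refl_neg_left] at h1
  simpa [h.neg_zpow] using (hF.x_inj _ h1).symm

lemma η_refl {r s : ι} (h : Odd (R.pair r s)) : (E.η r (R.refl r s) : K) = -E.η r s := by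
  have h1 := E.nconj r (R.refl r s) 1 one_ne_zero (E.η r s * (-1) ^ (-R.pair r s) * 1)
  rw [← E.nconj r s (-1) (by simp), E.n_neg, R.refl_refl] at h1
  have h2 := hF.x_inj s ((by group : E.x s 1 = _).trans h1)
  simp only [one_zpow, mul_one, h.neg.neg_one_zpow] at h2
  linear_combination (E.η r s : K) * h2 - E.η r (R.refl r s) * E.η_cast_mul_self r s

variable [Finite ι] (h2 : L2 R)
include h2

lemma comm_eq_η {a b : ι} (hp : R.pair a b = -1) (hba : R.pair b a = -1) (t u : K) :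
    ⁅E.x a t, E.x b u⁆ = E.x (R.refl a b) (E.η a b * t * u) := by
  by_cases ht : t = 0
  · simp [ht, E.x_zero]
  have hl : R.len a = R.len b := by
    have := R.len_mul_pair a b
    rw [hp, hba] at this; omega
  have hc : R.rt (R.refl a b) = R.rt a + R.rt b := by rw [R.rt_refl, hp]; module
  have hcb : R.pair b (R.refl a b) = 1 := by rw [pair_refl_right, R.pair_self, hp, hba]; rfl
  have hac : R.pair (R.neg a) (R.refl a b) = -1 := by
    rw [R.pair_neg_left, pair_refl_right, R.pair_self, hp]; rfl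
  have n1 := ne_of_pair (R := R) (a := a) (r := b) (by omega) (by omega)
  have n2 := ne_of_pair (R := R) (a := b) (r := R.refl a b) (by omega) (by omega)
  have n3 := ne_of_pair (R := R) (a := R.neg a) (r := R.refl a b) (by omega) (by omega)
  have c1 := E.XS_mono (h2.cone_single hl hp hc) (E.comm_of_ne_neg n1.2 t u)
  have c2 := E.XS_mono (h2.cone_single (r := b) (by rw [R.len_neg, R.len_refl, hl]) hac
    (by rw [hc, R.rt_neg]; abel)) (E.comm_of_ne_neg n3.2 t⁻¹ (E.η a b * t * u))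
  rw [PreElts.XS_singleton] at c1 c2
  obtain ⟨v, hv⟩ := c1
  obtain ⟨v', hv'⟩ := c2
  have e1 := E.nconj a b t ht u
  have e2 := E.n_neg_root a (c := -t⁻¹) (by simpa using ht)
  rw [inv_neg, inv_inv, neg_neg, PreElts.n, R.neg_neg, inv_neg, inv_inv, neg_neg] at e2
  have e3 := (commute_of_cone (E := E) (r := R.neg a) (s := b) (by rw [R.neg_neg]; exact n1.1)
    (h2.cone_empty_one (by rw [R.pair_neg_left]; omega)) (-t⁻¹) u).eq
  have e4 := (commute_of_cone (E := E) n2.2 (h2.cone_empty_one hcb.ge) u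
    (-(E.η a b * t * u))).eq
  rw [hp, neg_neg, zpow_one, ← e2, E.x_neg] at e1
  rw [E.x_neg] at e3 e4
  have e5 : E.x b (v' + -u) = E.x (R.refl a b) (v + -(E.η a b * t * u)) := by
    rw [← E.x_add, ← E.x_add, E.x_neg, E.x_neg, hv, hv']
    generalize E.x (R.refl a b) (E.η a b * t * u) = y at *
    generalize E.x (R.neg a) t⁻¹ = p at *
    generalize E.x b u = q at *
    generalize E.x a t = z at *
    calc _ = z * (p⁻¹ * q) * p * z⁻¹ * (y⁻¹ * q⁻¹) := by nth_rw 1 [← e1]; group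
      _ = z * q * z⁻¹ * q⁻¹ * (q * y⁻¹) * q⁻¹ := by rw [e3]; group
      _ = _ := by rw [e4]; group
  have e6 := eq_zero_of_x_eq hF n2.1 n2.2 e5
  rw [commutatorElement_def, ← hv, show v = E.η a b * t * u by linear_combination e6]

theorem exists_preStA {a b : ι} (hp : R.pair a b = -1) (hba : R.pair b a = -1) :
    ∃ S : PreStA (Fin 3) K G, ∀ p q, ∃ e : K, e ≠ 0 ∧ ∀ t, S.x p q t =
      E.x (!![a, a, R.refl a b; R.neg a, a, b; R.neg (R.refl a b), R.neg b, a] p q) (e * t) := by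
  have hl : R.len a = R.len b := by
    have := R.len_mul_pair a b
    rw [hp, hba] at this; omega
  have e1 : R.pair a (R.refl a b) = 1 := by rw [pair_refl_right, R.pair_self, hp]; rfl
  have e2 : R.pair b (R.refl a b) = 1 := by rw [pair_refl_right, R.pair_self, hp, hba]; rfl
  have e3 : R.pair (R.refl a b) a = 1 := by
    rw [pair_comm_of_len (show R.len a = _ by rw [R.len_refl, hl]), e1]
  have e4 : R.pair (R.refl a b) b = 1 := by
    rw [pair_comm_of_len (show R.len b = _ by rw [R.len_refl]), e2]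
  refine ⟨
    { x := fun p q t =>
        E.x (!![a, a, R.refl a b; R.neg a, a, b; R.neg (R.refl a b), R.neg b, a] p q)
          ((if p.1 + q.1 = 2 then (E.η a b : K) else 1) * t)
      add := fun _ t u => by rw [E.x_add, mul_add]
      c0 := ?_
      c1 := ?_ }, fun p q => ⟨_, ?_, fun _ => rfl⟩⟩
  · have key : ∀ r s, 1 ≤ R.pair r s → ∀ t u, Commute (E.x r t) (E.x s u) := fun r s h =>
      commute_of_cone (fun e => by rw [e, R.pair_neg_right, R.pair_self] at h; omega)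
        (h2.cone_empty_one h)
    intro i j k m h1 h2 h3 h4 t u
    refine key _ _ ?_ _ _
    fin_cases i <;> fin_cases j <;> fin_cases k <;> fin_cases m <;>
      simp_all [R.pair_neg_left, R.pair_neg_right, R.pair_self]
  · have anti : ∀ {r s}, R.pair r s = -1 → R.pair s r = -1 →
        R.refl s r = R.refl r s ∧ (E.η s r : K) = -E.η r s := fun {r s} h h' => by
      have e : R.refl s r = R.refl r s := R.rt_inj (by rw [R.rt_refl, R.rt_refl, h, h']; module)
      have h1 := comm_eq_η hF h2 h' h 1 1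
      rw [← commutatorElement_inv, comm_eq_η hF h2 h h', ← E.x_neg, e] at h1
      exact ⟨e, by simpa using (hF.x_inj _ h1).symm⟩
    have f1 : (E.η a (R.refl a b) : K) = -E.η a b := η_refl hF (by rw [hp]; decide)
    have f2 : (E.η b (R.refl a b) : K) = E.η a b := by
      rw [← (anti hp hba).1, η_refl hF (by rw [hba]; decide), (anti hp hba).2, neg_neg]
    have r1 : R.refl b (R.refl a b) = a := by rw [← (anti hp hba).1, R.refl_refl]
    have q1 : R.pair (R.neg b) (R.refl a b) = -1 := by rw [R.pair_neg_left, e2]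
    have q1' : R.pair (R.refl a b) (R.neg b) = -1 := by rw [R.pair_neg_right, e4]
    have q2 : R.pair a (R.neg (R.refl a b)) = -1 := by rw [R.pair_neg_right, e1]
    have q2' : R.pair (R.neg (R.refl a b)) a = -1 := by rw [R.pair_neg_left, e3]
    have hη := E.η_cast_mul_self a b
    intro i j k h1 h2' h3 t u
    fin_cases i <;> fin_cases j <;> fin_cases k <;> simp at h1 h2' h3 <;> simp
    · rw [comm_eq_η hF h2 hp hba, mul_assoc]
    · rw [comm_eq_η hF h2 q1' q1, (anti q1 q1').1, (anti q1 q1').2, R.refl_neg_left,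
        r1, η_neg_left hF (by rw [e2]; decide), f2]
      congr 1; linear_combination t * u * hη
    · rw [comm_eq_η hF h2 (by rw [R.pair_neg_left, e1]) (by rw [R.pair_neg_right, e3]),
        R.refl_neg_left, R.refl_refl, η_neg_left hF (by rw [e1]; decide), f1]
      congr 1; linear_combination t * u * hη
    · rw [comm_eq_η hF h2 (by rw [R.pair_neg_right, e2]) (by rw [R.pair_neg_left, e4]), R.refl_neg,
        r1, E.η_neg, f2]
      congr 1; linear_combination t * u * hη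
    · rw [comm_eq_η hF h2 q2' q2, (anti q2 q2').1, (anti q2 q2').2, R.refl_neg,
        R.refl_refl, E.η_neg, f1]
      congr 1; linear_combination t * u * hη
    · rw [comm_eq_η hF h2 (by rw [R.pair_neg_left, R.pair_neg_right, hba]; rfl)
        (by rw [R.pair_neg_left, R.pair_neg_right, hp]; rfl), R.refl_neg_left,
        R.refl_neg, (anti hp hba).1, E.η_neg, η_neg_left hF (by rw [hba]; decide), (anti hp hba).2]
      congr 1; ring
  · split_ifs
    exacts [E.η_cast_ne a b, one_ne_zero]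

end Eta

theorem model_gen [Finite ι] [Fintype K] (E : Elts R K G) (hF : E.Faith) (htop : E.Gp = ⊤)
    (h2 : L2 R) {n : ℕ} (g : Fin n → l) (hg : Function.Surjective g) (m : Fin n → Fin n → ℕ)
    (hm : ∀ i j, (i = j ∧ m i j = 1) ∨ (R.A (g i) (g j) = 0 ∧ m i j = 2) ∨
      (R.A (g i) (g j) = -1 ∧ R.A (g j) (g i) = -1 ∧ m i j = 3) ∨
      ((R.A (g i) (g j) = -1 ∧ R.A (g j) (g i) = -2 ∨ R.A (g i) (g j) = -2 ∧ R.A (g j) (g i) = -1) ∧
        m i j = 4)) :
    ∃ (R' : Roots ι (Fin n)) (E' : RGD R' G), cm R' = m ∧ Good E' ∧ E'.Gp = ⊤ ∧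
      (∀ i, q E' i = Fintype.card K) ∧ (∀ i, R'.α i = R.sim (g i)) ∧
      (∀ i, R'.σ i = R.refl (R.sim (g i))) ∧ ∀ r, E'.X r = E.X r := by
  obtain ⟨R', E', ha, hσ, hn, hX, hF', ht⟩ := exists_rgd E hF htop g hg
  have hA : ∀ i j, R.pair (R.sim i) (R.sim j) = R.A i j := fun i j => by
    rw [R.pair_sim_left, R.wt_sim]
  have hcm : cm R' = m := by
    funext i j
    rw [cm, hσ, hσ]
    rcases hm i j with ⟨rfl, h⟩ | ⟨h, h'⟩ | ⟨h, h', h''⟩ | ⟨h, h'⟩
    · rw [R.refl_mul_self, orderOf_one, h]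
    · rw [order_two (by rwa [hA]), h']
    · rw [order_three (by rwa [hA]) (by rwa [hA]), h'']
    · rw [order_four (by rwa [hA, hA]), h']
  refine ⟨R', E', hcm, ⟨hF', fun i j h => ⟨K, inferInstance, inferInstance, ?_⟩⟩, ht, fun i => ?_,
    ha, hσ, hX⟩
  · rw [hcm] at h
    have h3 : R.A (g i) (g j) = -1 ∧ R.A (g j) (g i) = -1 := by
      rcases hm i j with h1 | h1 | h1 | h1
      exacts [by omega, by omega, ⟨h1.1, h1.2.1⟩, by omega]
    obtain ⟨S, hS⟩ := exists_preStA hF h2 (a := R.sim (g i)) (b := R.sim (g j))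
      (by rw [hA, h3.1]) (by rw [hA, h3.2])
    refine ⟨S, fun a b _ => ?_⟩
    obtain ⟨e, he, h4⟩ := hS a b
    rw [hX, rt, ha, ha, hσ, hn]
    refine ⟨fun t u h5 => ?_, Set.ext fun x => ⟨?_, ?_⟩⟩
    · rw [h4, h4] at h5
      exact mul_left_cancel₀ he (hF.x_inj _ h5)
    · rintro ⟨t, rfl⟩
      rw [h4]
      exact E.x_mem_X _ _
    · rintro ⟨t, rfl⟩
      exact ⟨e⁻¹ * t, by rw [h4, mul_inv_cancel_left₀ he]⟩
  · rw [q, hX, hF.card_X, Nat.card_eq_fintype_card]

end gen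

lemma grp_over {D : ChevalleyDatum} {R : RootSys D} {K : Type} [Field K] [Fintype K]
    {E : Elts R.toRS K (GL D.Idx K)} (hE : IsMat R E) :
    D.IsGroupOver (D.group K ⧸ Subgroup.center (D.group K)) :=
  ⟨K, inferInstance, inferInstance,
    ⟨(QuotientGroup.quotientMulEquivOfEq hE.center_eq_bot).trans QuotientGroup.quotientBot⟩⟩

lemma lie_of {G : Type} [Group G] (h : IsExceptionalLieType G) : Lie G :=
  Or.inr (Or.inr (Or.inr (Or.inr (Or.inr (Or.inr h)))))

lemma rk6 : 6 = chevE6.rank := rfl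

lemma rk7 : 7 = chevE7.rank := rfl

lemma rk8 : 8 = chevE8.rank := rfl

lemma rk4 : 4 = chevF4.rank := rfl

lemma cast_surj {m n : ℕ} (h : m = n) : Function.Surjective (Fin.cast h) := (finCongr h).surjective

set_option synthInstance.maxSize 2048 in
lemma tabE6 : ∀ i j : Fin 6, (i = j ∧ mE 6 i j = 1) ∨
    (rsE6.A (i.cast rk6) (j.cast rk6) = 0 ∧ mE 6 i j = 2) ∨
    (rsE6.A (i.cast rk6) (j.cast rk6) = -1 ∧
      rsE6.A (j.cast rk6) (i.cast rk6) = -1 ∧ mE 6 i j = 3) ∨
    ((rsE6.A (i.cast rk6) (j.cast rk6) = -1 ∧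
      rsE6.A (j.cast rk6) (i.cast rk6) = -2 ∨
      rsE6.A (i.cast rk6) (j.cast rk6) = -2 ∧
      rsE6.A (j.cast rk6) (i.cast rk6) = -1) ∧ mE 6 i j = 4) := by
  decide +kernel

set_option synthInstance.maxSize 2048 in
lemma tabE7 : ∀ i j : Fin 7, (i = j ∧ mE 7 i j = 1) ∨
    (rsE7.A (i.cast rk7) (j.cast rk7) = 0 ∧ mE 7 i j = 2) ∨
    (rsE7.A (i.cast rk7) (j.cast rk7) = -1 ∧
      rsE7.A (j.cast rk7) (i.cast rk7) = -1 ∧ mE 7 i j = 3) ∨
    ((rsE7.A (i.cast rk7) (j.cast rk7) = -1 ∧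
      rsE7.A (j.cast rk7) (i.cast rk7) = -2 ∨
      rsE7.A (i.cast rk7) (j.cast rk7) = -2 ∧
      rsE7.A (j.cast rk7) (i.cast rk7) = -1) ∧ mE 7 i j = 4) := by
  decide +kernel

set_option synthInstance.maxSize 2048 in
lemma tabE8 : ∀ i j : Fin 8, (i = j ∧ mE 8 i j = 1) ∨
    (rsE8.A (i.cast rk8) (j.cast rk8) = 0 ∧ mE 8 i j = 2) ∨
    (rsE8.A (i.cast rk8) (j.cast rk8) = -1 ∧
      rsE8.A (j.cast rk8) (i.cast rk8) = -1 ∧ mE 8 i j = 3) ∨
    ((rsE8.A (i.cast rk8) (j.cast rk8) = -1 ∧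
      rsE8.A (j.cast rk8) (i.cast rk8) = -2 ∨
      rsE8.A (i.cast rk8) (j.cast rk8) = -2 ∧
      rsE8.A (j.cast rk8) (i.cast rk8) = -1) ∧ mE 8 i j = 4) := by
  decide +kernel

set_option synthInstance.maxSize 2048 in
lemma tabF4 : ∀ i j : Fin 4, (i = j ∧ mF i j = 1) ∨
    (rsF4.A (i.rev.cast rk4) (j.rev.cast rk4) = 0 ∧ mF i j = 2) ∨
    (rsF4.A (i.rev.cast rk4) (j.rev.cast rk4) = -1 ∧
      rsF4.A (j.rev.cast rk4) (i.rev.cast rk4) = -1 ∧ mF i j = 3) ∨
    ((rsF4.A (i.rev.cast rk4) (j.rev.cast rk4) = -1 ∧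
      rsF4.A (j.rev.cast rk4) (i.rev.cast rk4) = -2 ∨
      rsF4.A (i.rev.cast rk4) (j.rev.cast rk4) = -2 ∧
      rsF4.A (j.rev.cast rk4) (i.rev.cast rk4) = -1) ∧ mF i j = 4) := by
  decide +kernel

lemma flagF4 : rsF4.pair (rsF4.sim ((1 : Fin 4).rev.cast rk4))
      (rsF4.σ ((2 : Fin 4).rev.cast rk4) (rsF4.sim ((1 : Fin 4).rev.cast rk4))) = 0 ∧
    rsF4.len (rsF4.sim ((1 : Fin 4).rev.cast rk4)) = 2 := by
  decide +kernel

lemma nflagF4 : ∃ r s c : Fin chevF4.nroots, r = rsF4.sim ((2 : Fin 4).rev.cast rk4) ∧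
    s = rsF4.σ ((1 : Fin 4).rev.cast rk4) (rsF4.sim ((2 : Fin 4).rev.cast rk4)) ∧
    s.1 ≠ r.1 ∧ s.1 ≠ chevF4.neg r.1 ∧
    (chevF4.commTerms r s = [(c.1, 2, 1, 1)] ∨ chevF4.commTerms r s = [(c.1, -2, 1, 1)]) := by
  suffices h : ∃ c : Fin chevF4.nroots, _ from h.elim fun c hc => ⟨_, _, c, rfl, rfl, hc⟩
  decide +kernel

end ModE

open H38 H6 Cfsg.Lie ModE

theorem model_E (K : Type) [Field K] [Fintype K] {n : ℕ} (h : 6 ≤ n) (h' : n ≤ 8) :
    Model (mE n) fun E => ∀ i, q E i = Fintype.card K := by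
  interval_cases n
  · obtain ⟨E, hE⟩ := (matFacts (D := chevE6) (by simp) K).exists_isMat rsE6
    obtain ⟨R', E', h1, h2, h3, h4, -⟩ := model_gen hE.grp hE.grp_faith hE.grp_top
      (fun k => Or.inl (slE6 k)) (Fin.cast rk6) (cast_surj rk6) (mE 6) tabE6
    exact ⟨_, _, inferInstance, inferInstance, inferInstance, R', E', h1, h2, h3,
      lie_of (Or.inr (Or.inr (Or.inl (grp_over hE)))), h4⟩
  · obtain ⟨E, hE⟩ := (matFacts (D := chevE7) (by simp) K).exists_isMat rsE7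
    obtain ⟨R', E', h1, h2, h3, h4, -⟩ := model_gen hE.grp hE.grp_faith hE.grp_top
      (fun k => Or.inl (slE7 k)) (Fin.cast rk7) (cast_surj rk7) (mE 7) tabE7
    exact ⟨_, _, inferInstance, inferInstance, inferInstance, R', E', h1, h2, h3,
      lie_of (Or.inr (Or.inr (Or.inr (Or.inl (grp_over hE))))), h4⟩
  · obtain ⟨E, hE⟩ := (matFacts (D := chevE8) (by simp) K).exists_isMat rsE8
    obtain ⟨R', E', h1, h2, h3, h4, -⟩ := model_gen hE.grp hE.grp_faith hE.grp_top
      (fun k => Or.inl (slE8 k)) (Fin.cast rk8) (cast_surj rk8) (mE 8) tabE8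
    exact ⟨_, _, inferInstance, inferInstance, inferInstance, R', E', h1, h2, h3,
      lie_of (Or.inr (Or.inr (Or.inr (Or.inr (Or.inl (grp_over hE)))))), h4⟩

theorem model_F (K : Type) [Field K] [Fintype K] :
    Model mF fun E => (∀ i, q E i = Fintype.card K) ∧ Flag E 1 2 ∧
      (Odd (Fintype.card K) → ¬ Flag E 2 1) := by
  obtain ⟨E, hE⟩ := (matFacts (D := chevF4) (by simp) K).exists_isMat rsF4
  obtain ⟨R', E', h1, h2, h3, h4, ha, hσ, hX⟩ := model_gen hE.grp hE.grp_faith hE.grp_top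
    l2F4 (fun i => i.rev.cast rk4) ((cast_surj rk4).comp Fin.rev_surjective) mF tabF4
  refine ⟨_, _, inferInstance, inferInstance, inferInstance, R', E', h1, h2, h3,
    lie_of (Or.inr (Or.inl (grp_over hE))), h4, ?_, fun ho hf => ?_⟩
  · rw [Flag, hX, hX, hσ, ha, RS.refl_sim]
    rintro _ ⟨t, rfl⟩ _ ⟨u, rfl⟩
    have h5 := flagF4
    have h6 := rsF4.len_pos (rsF4.σ ((2 : Fin 4).rev.cast rk4)
      (rsF4.sim ((1 : Fin 4).rev.cast rk4)))
    exact commute_of_cone (ne_of_pair (R := rsF4.toRS) (by omega) (by omega)).2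
      (l2F4.cone_empty_zero h5.1 (by omega)) t u
  · rw [Flag, hX, hX, hσ, ha, RS.refl_sim] at hf
    obtain ⟨r, s, c, hr, hs, n1, n2, hc⟩ := nflagF4
    have h5 : Commute (hE.grp.x r 1) (hE.grp.x s 1) := by
      subst hr hs
      exact hf _ (hE.grp.x_mem_X _ 1) _ (hE.grp.x_mem_X _ 1)
    have h6 := hE.grpRel.comm r r.2 s s.2 n1 n2 1 1
    rw [hE.grpRel_x, hE.grpRel_x, ← h5.eq, left_eq_mul, ChevalleyDatum.commWord] at h6
    have h7 : (2 : K) = 0 := by
      rcases hc with hc | hc <;> rw [hc] at h6 <;>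
        simp only [List.map_cons, List.map_nil, List.prod_cons, List.prod_nil, mul_one,
          hE.grpRel_x] at h6 <;> simpa using hE.grp_faith.x_eq_one _ _ h6
    have h8 : ringChar K = 2 :=
      (Nat.prime_dvd_prime_iff_eq (CharP.char_is_prime K _) Nat.prime_two).1
        ((ringChar.spec K 2).1 (by exact_mod_cast h7))
    have := FiniteField.even_card_of_char_two h8
    rw [Nat.odd_iff] at ho
    omega

end Tits
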