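import Mathlib
import Cfsg.Agent.Lib.Tits.ModG
import Cfsg.Agent.Lib.Stein.OrthM
import Cfsg.Agent.Lib.QF.Classify

set_option autoImplicit false

open scoped commutatorElement

namespace Tits

open H63.St Cfsg

namespace ModO

open H12 QuadraticMap Module

lemma card_P {F W : Type} [Field F] [AddCommGroup W] [Module F W] {Q : QuadraticForm F W} {m : ℕ}
    [FiniteDimensional F W] (hQ : Nondeg Q) (ha : ∀ v, Q v = 0 → v = 0)
    (hG : H12.Good (hypN (m + 1) Q)) :
    Nat.card {x : ((Fin (m + 1) → F) × (Fin (m + 1) → F) × W) × F //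
      (Orth.E hQ ha hG).P x.1 x.2} = Nat.card W := by
  refine (Nat.card_congr ⟨fun x => x.1.1.2.2, fun w => ⟨((0, 0, w), hypN (m + 1) Q (0, 0, w)),
    (Orth.mem_V0 hQ ha hG).2 rfl, rfl⟩, fun x => ?_, fun _ => rfl⟩)
  have h1 := (Orth.mem_V0 hQ ha hG).1 x.2.1
  have h2 : hypN (m + 1) Q x.1.1 = x.1.2 := x.2.2
  exact Subtype.ext (Prod.ext h1.symm (by rw [← h2, h1]))

end ModO

open H12 QuadraticMap Module in
theorem model_D (K : Type) [Field K] [Fintype K] {n : ℕ} (h : 4 ≤ n) :
    Model (mD n) fun E => ∀ i, q E i = Fintype.card K := by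
  obtain ⟨m, rfl⟩ : ∃ m, n = m + 1 := ⟨n - 1, by omega⟩
  have hQ : Nondeg (0 : QuadraticForm K (Fin 0 → K)) := fun _ _ => Subsingleton.elim _ _
  have ha : ∀ v, (0 : QuadraticForm K (Fin 0 → K)) v = 0 → v = 0 := fun _ _ => Subsingleton.elim _ _
  have hn := Orth.finrank_hyp (F := K) (W := Fin 0 → K) (m + 1)
  have hG := good_of_finrank_ne (hQ.hypN (m + 1)) (by omega)
  have H := (Orth.cl hQ ha hG).hyp (show 1 ≤ m by omega)
  exact ⟨_, _, inferInstance, inferInstance, inferInstance, _, H.rgd, cm_VD m (by omega) _,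
    eich_good H fun _ => by omega, Orth.top hQ ha hG (by omega),
    Or.inr (Or.inr (Or.inr (Or.inr (Or.inl ⟨K, _, inferInstance, m + 1, h,
      ⟨(pcommCongr (congrO (plusEquiv K (m + 1)) (hypN_plusEquiv (m + 1)))).symm.trans
        (pcommCongr (plusIso K (m + 1))).symm⟩⟩)))),
    fun i => eich_q H i (by simp)⟩

open H12 QuadraticMap Module in
theorem model_O1 (K : Type) [Field K] [Fintype K] (hK : Odd (Fintype.card K)) (m : ℕ) :
    Model (mB (m + 3)) fun E => q E ⟨m + 1, by omega⟩ = Fintype.card K ∧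
      q E (Fin.last _) = Fintype.card K ∧ Flag E ⟨m + 1, by omega⟩ (Fin.last _) := by
  have h2 := two_ne_zero_of_odd hK
  have hQ := nondeg_sq h2
  have hn := Orth.finrank_hyp (F := K) (W := K) (m + 2 + 1)
  have hG := good_of_finrank_ne (hQ.hypN (m + 2 + 1)) (by omega)
  have hN : ∀ s, algebraMap K K (QuadraticMap.sq (R := K) s) = s * RingHom.id K s :=
    fun s => by simp
  have H := (Orth.A hQ _ (fun _ => rfl) hN hG).hyp
  exact ⟨_, _, inferInstance, inferInstance, inferInstance, _, H.rgd, cm_VB (m + 2) (by omega) _,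
    eich_good H (by simp), Orth.topB hQ _ (fun _ => rfl) hN hG,
    Or.inr (Or.inr (Or.inr (Or.inl ⟨K, _, inferInstance, m + 2 + 1, by omega, hK,
      ⟨(pcommCongr (congrO (oddEquiv K (m + 2 + 1)) (hypN_oddEquiv (m + 2 + 1)))).symm.trans
        (pcommCongr (oddIso K (m + 2 + 1))).symm⟩⟩))),
    eich_q H _ (fun _ => by simp [Fin.ext_iff]),
    (eich_q_last H).trans ((ModO.card_P _ _ _).trans Nat.card_eq_fintype_card),
    (eich_flag H _ rfl).2 (Orth.cl _ _ _)⟩

open H12 QuadraticMap Module in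
theorem model_O2 (K : Type) [Field K] [Fintype K] (m : ℕ) :
    Model (mB (m + 3)) fun E => q E ⟨m + 1, by omega⟩ = Fintype.card K ∧
      q E (Fin.last _) = Fintype.card K ^ 2 := by
  obtain ⟨a, b, hab⟩ : ∃ a b : K, H12.Aniso a b := ⟨1, H66.exists_aniso (F := K)⟩
  have := hab.fact
  have hQ := hab.nondeg_normForm
  have hn := Orth.finrank_hyp (F := K) (W := KA a b) (m + 2 + 1)
  have hG := good_of_finrank_ne (hQ.hypN (m + 2 + 1)) (by omega)
  have hN : ∀ s, algebraMap K (KA a b) (normForm a b s) = s * starRingEnd (KA a b) s := fun s => by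
    rw [normForm_apply, QuadraticAlgebra.algebraMap_norm_eq_mul_star]; rfl
  have e := (pcommCongr (congrO ((minusEquiv K (m + 2 + 1)).trans ((LinearEquiv.refl K _).prodCongr
    ((LinearEquiv.refl K _).prodCongr (QuadraticAlgebra.linearEquivTuple (-b) a).symm)))
    (Q := QMinus (m + 2 + 1) a b) (Q' := hypN (m + 2 + 1) (normForm a b)) fun v => by
      rw [← hypN_minusEquiv, hypN_apply, hypN_apply, ← binForm_tuple]
      exact congrArg (_ + binForm a b ·) (LinearEquiv.apply_symm_apply _ _))).symm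
  have H := (Orth.A hQ _ star_star hN hG).hyp
  exact ⟨_, _, inferInstance, inferInstance, inferInstance, _, H.rgd, cm_VB (m + 2) (by omega) _,
    eich_good H (by simp), Orth.topB hQ _ star_star hN hG,
    Or.inr (Or.inr (Or.inr (Or.inr (Or.inr (Or.inl ⟨K, _, inferInstance, m + 2 + 1 + 1, a, b, by omega, hab,
      ⟨e.trans (pcommCongr (minusIso (m + 2 + 1) a b)).symm⟩⟩))))),
    eich_q H _ (fun _ => by simp [Fin.ext_iff]),
    (eich_q_last H).trans ((ModO.card_P _ _ _).trans (by rw [card_KA, Nat.card_eq_fintype_card]))⟩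

end Tits
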