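import Mathlib
import Cfsg.Agent.Lib.Tits.Defs
import Cfsg.Agent.Lib.Twist.MultE6
import Cfsg.Agent.Lib.Twist.E6Mat

/-! The model of type `²E₆`. -/

set_option autoImplicit false
set_option linter.unusedSectionVars false

open scoped commutatorElement

namespace Tits

open H63.St Cfsg

namespace ModT

section pre

variable {K F G : Type*} [Field K] [Field F] [Group G]

theorem mem_of (S : PreStA (Fin 3) K G) (H : Subgroup G) (h01 : ∀ t, S.x 0 1 t ∈ H)
    (h10 : ∀ t, S.x 1 0 t ∈ H) (h12 : ∀ t, S.x 1 2 t ∈ H) (h21 : ∀ t, S.x 2 1 t ∈ H) (a b : Fin 3)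
    (h : a ≠ b) (t : K) : S.x a b t ∈ H := by
  have c : ∀ x ∈ H, ∀ y ∈ H, ⁅x, y⁆ ∈ H := fun x hx y hy =>
    mul_mem (mul_mem (mul_mem hx hy) (inv_mem hx)) (inv_mem hy)
  have h02 : S.x 0 2 t ∈ H := by
    have := S.c1 (i := 0) (j := 1) (l := 2) (by decide) (by decide) (by decide) t 1
    rw [mul_one] at this
    exact this ▸ c _ (h01 _) _ (h12 _)
  have h20 : S.x 2 0 t ∈ H := by
    have := S.c1 (i := 2) (j := 1) (l := 0) (by decide) (by decide) (by decide) t 1
    rw [mul_one] at this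
    exact this ▸ c _ (h21 _) _ (h10 _)
  fin_cases a <;> fin_cases b
  exacts [absurd rfl h, h01 t, h02, h10 t, absurd rfl h, h12 t, h20, h21 t, absurd rfl h]

/-- restriction of the field -/
def comap (S : PreStA (Fin 3) K G) (f : F →+* K) : PreStA (Fin 3) F G where
  x a b t := S.x a b (f t)
  add h a b := by rw [S.add h, map_add]
  c0 h1 h2 h3 h4 t u := S.c0 h1 h2 h3 h4 _ _
  c1 h1 h2 h3 t u := by rw [S.c1 h1 h2 h3, map_mul]

/-- the product of two commuting systems -/
def prod (S S' : PreStA (Fin 3) K G)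
    (h : ∀ a b, a ≠ b → ∀ c d, c ≠ d → ∀ t u, Commute (S.x a b t) (S'.x c d u)) : PreStA (Fin 3) K G where
  x a b t := S.x a b t * S'.x a b t
  add {i j} n a b := by
    rw [← S.add n, ← S'.add n, mul_assoc, mul_assoc, ← mul_assoc (S'.x i j a), ← (h _ _ n _ _ n b a).eq,
      mul_assoc]
  c0 h1 h2 h3 h4 t u := ((S.c0 h1 h2 h3 h4 _ _).mul_right (h _ _ h1 _ _ h2 _ _)).mul_left
    ((h _ _ h2 _ _ h1 _ _).symm.mul_right (S'.c0 h1 h2 h3 h4 _ _))
  c1 {i j l} h1 h2 h3 t u := by
    rw [← S.c1 h1 h2 h3, ← S'.c1 h1 h2 h3]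
    have a := h _ _ h1 _ _ h1 t t
    have b := h _ _ h1 _ _ h2 t u
    have c := h _ _ h2 _ _ h1 u t
    have d := h _ _ h2 _ _ h2 u u
    generalize S.x i j t = x at *
    generalize S.x j l u = y at *
    generalize S'.x i j t = x' at *
    generalize S'.x j l u = y' at *
    have w : Commute ⁅x', y'⁆ (x⁻¹ * y⁻¹) :=
      ((((a.mul_right b).mul_right a.inv_right).mul_right b.inv_right).inv_left.mul_left
        (((c.mul_right d).mul_right c.inv_right).mul_right d.inv_right).inv_left).symm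
    calc _ = x * (x' * y) * y' * x'⁻¹ * (x⁻¹ * y'⁻¹) * y⁻¹ := by rw [commutatorElement_def]; group
      _ = x * y * (⁅x', y'⁆ * (x⁻¹ * y⁻¹)) := by
        rw [← c.eq, b.inv_inv.eq, commutatorElement_def]; group
      _ = _ := by rw [w.eq, commutatorElement_def x]; group

/-- restriction to a subgroup -/
def res (S : PreStA (Fin 3) K G) (H : Subgroup G) (h : ∀ a b, a ≠ b → ∀ t, S.x a b t ∈ H) :
    PreStA (Fin 3) K H where
  x a b t := if e : a = b then 1 else ⟨S.x a b t, h a b e t⟩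
  add n a b := by simp only [dif_neg n]; exact Subtype.ext (S.add n a b)
  c0 h1 h2 h3 h4 t u := by simp only [dif_neg h1, dif_neg h2]; exact Subtype.ext (S.c0 h1 h2 h3 h4 t u)
  c1 h1 h2 h3 t u := by
    simp only [dif_neg h1, dif_neg h2, dif_neg h3]; exact Subtype.ext (S.c1 h1 h2 h3 t u)

end pre

theorem a2_of {Φ I : Type*} {R : Roots Φ I} {G : Type*} [Group G] {E : RGD R G} {i j : I} {K : Type}
    [Field K] (S : PreStA (Fin 3) K G)
    (h01 : Function.Injective (S.x 0 1) ∧ Set.range (S.x 0 1) = E.X (R.α i))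
    (h10 : Function.Injective (S.x 1 0) ∧ Set.range (S.x 1 0) = E.X (R.neg (R.α i)))
    (h12 : Function.Injective (S.x 1 2) ∧ Set.range (S.x 1 2) = E.X (R.α j))
    (h21 : Function.Injective (S.x 2 1) ∧ Set.range (S.x 2 1) = E.X (R.neg (R.α j)))
    (hw : Acts E.X (S.w 1 0 1) (R.σ i)) : A2 E i j K := by
  have key : ∀ (f g : K → G) (r : Φ), (∀ u, S.w 1 0 1 * f u * (S.w 1 0 1)⁻¹ = g (-u)) →
      Function.Injective f ∧ Set.range f = E.X r → Function.Injective g ∧ Set.range g = E.X (R.σ i r) := by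
    rintro f g r e ⟨h1, h2⟩
    refine ⟨fun a b k => ?_, Set.ext fun y => ⟨?_, fun hy => ?_⟩⟩
    · rw [← neg_neg a, ← neg_neg b, ← e, ← e] at k
      exact neg_injective (h1 (by simpa using k))
    · rintro ⟨u, rfl⟩
      rw [← neg_neg u, ← e]
      exact hw.conj_mem (h2.le ⟨_, rfl⟩)
    · have := hw.inv_conj_mem hy
      rw [R.σ_inv, R.σ_σ] at this
      obtain ⟨u, hu⟩ := h2.ge this
      exact ⟨-u, by rw [← e, hu]; group⟩
  have h02 := key _ (S.x 0 2) _ (fun u => by
    simpa using (S.w_col (i := 1) (j := 0) (l := 2) (by decide) (by decide) (by decide) one_ne_zero u).2) h12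
  have h20 := key _ (S.x 2 0) _ (fun u => by
    simpa using (S.w_row (i := 1) (j := 0) (l := 2) (by decide) (by decide) (by decide) one_ne_zero u).1) h21
  rw [R.σ_neg] at h20
  refine ⟨S, fun a b h => ?_⟩
  fin_cases a <;> fin_cases b
  exacts [absurd rfl h, h01, h02, h10, absurd rfl h, h12, h20, h21, absurd rfl h]

open H38 H39

section elts

variable {ι l : Type} [Fintype l] [DecidableEq l] {R : RS ι l} {K : Type*} [Field K]
  {G : Type*} [Group G] {E : Elts R K G}

theorem η_neg_left (hF : E.Faith) {r s : ι} (h : Odd (R.pair r s)) : (E.η (R.neg r) s : K) = -E.η r s := by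
  have h1 := E.nconj (R.neg r) s 1 one_ne_zero 1
  rw [E.n_neg_root r one_ne_zero, E.nconj r s _ (by simp), R.refl_neg_left] at h1
  simpa [h.neg_zpow] using (hF.x_inj _ h1).symm

theorem η_refl (hF : E.Faith) {r s : ι} (h : Odd (R.pair r s)) : (E.η r (R.refl r s) : K) = -E.η r s := by
  have h1 := E.nconj r (R.refl r s) 1 one_ne_zero (E.η r s * (-1) ^ (-R.pair r s) * 1)
  rw [← E.nconj r s (-1) (by simp), E.n_neg, R.refl_refl] at h1
  have h2 := hF.x_inj s ((by group : E.x s 1 = _).trans h1)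
  simp only [one_zpow, mul_one, h.neg.neg_one_zpow] at h2
  linear_combination (E.η r s : K) * h2 - E.η r (R.refl r s) * E.η_cast_mul_self r s

/-- The signs of the embedding of `A₂`. -/
def epsA (e : K) (p q : Fin 3) : K := if p.1 + q.1 = 2 then e else 1

/-- The embedding of `A₂` defined by two roots. -/
noncomputable def embA (R : RS ι l) (a b : ι) : Fin 3 → Fin 3 → ι :=
  ![![a, a, R.refl a b], ![R.neg a, a, b], ![R.neg (R.refl a b), R.neg b, a]]

variable [Finite ι]

/-- Two roots at an angle of `120°` define Steinberg elements of type `A₂`. -/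
noncomputable def preStA (hF : E.Faith) (hl : ∀ r s, R.len r = R.len s) {a b : ι} (hp : R.pair a b = -1) :
    PreStA (Fin 3) K G where
  x p q t := E.x (embA R a b p q) (epsA (E.η a b : K) p q * t)
  add _ t u := by rw [E.x_add, mul_add]
  c0 := by
    have hba : R.pair b a = -1 := by rw [pair_symm hl, hp]
    have key : ∀ r s, 1 ≤ R.pair r s → ∀ t u, Commute (E.x r t) (E.x s u) := fun r s h =>
      commute_x hl E (by omega)
    have e1 : R.pair a (R.refl a b) = 1 := by rw [pair_refl, R.pair_self, hp]; rfl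
    have e2 : R.pair b (R.refl a b) = 1 := by rw [pair_refl, R.pair_self, hp, hba]; rfl
    have e3 : R.pair (R.refl a b) a = 1 := by rw [pair_symm hl, e1]
    have e4 : R.pair (R.refl a b) b = 1 := by rw [pair_symm hl, e2]
    intro i j k m h1 h2 h3 h4 t u
    refine key _ _ ?_ _ _
    fin_cases i <;> fin_cases j <;> fin_cases k <;> fin_cases m <;>
      simp_all [embA, R.pair_neg_left, R.pair_neg_right, R.pair_self]
  c1 := by
    have hba : R.pair b a = -1 := by rw [pair_symm hl, hp]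
    have e1 : R.pair a (R.refl a b) = 1 := by rw [pair_refl, R.pair_self, hp]; rfl
    have e2 : R.pair b (R.refl a b) = 1 := by rw [pair_refl, R.pair_self, hp, hba]; rfl
    have e3 : R.pair (R.refl a b) a = 1 := by rw [pair_symm hl, e1]
    have e4 : R.pair (R.refl a b) b = 1 := by rw [pair_symm hl, e2]
    have anti : ∀ {r s}, R.pair r s = -1 → R.refl s r = R.refl r s ∧ (E.η s r : K) = -E.η r s :=
      fun {r s} h => by
        have h' : R.pair s r = -1 := by rw [pair_symm hl, h]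
        have e : R.refl s r = R.refl r s := R.rt_inj (by rw [R.rt_refl, R.rt_refl, h, h']; module)
        have h1 := comm_x hl hF h' 1 1
        rw [← commutatorElement_inv, comm_x hl hF h, ← E.x_neg, e] at h1
        exact ⟨e, by simpa using (hF.x_inj _ h1).symm⟩
    have f1 : (E.η a (R.refl a b) : K) = -E.η a b := η_refl hF (by rw [hp]; decide)
    have f2 : (E.η b (R.refl a b) : K) = E.η a b := by
      rw [← (anti hp).1, η_refl hF (by rw [hba]; decide), (anti hp).2, neg_neg]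
    have r1 : R.refl b (R.refl a b) = a := by rw [← (anti hp).1, R.refl_refl]
    have q1 : R.pair (R.neg b) (R.refl a b) = -1 := by rw [R.pair_neg_left, e2]
    have q2 : R.pair a (R.neg (R.refl a b)) = -1 := by rw [R.pair_neg_right, e1]
    have hη := E.η_cast_mul_self a b
    intro i j k h1 h2 h3 t u
    fin_cases i <;> fin_cases j <;> fin_cases k <;> simp at h1 h2 h3 <;>
      simp only [embA, epsA] <;> simp
    · rw [comm_x hl hF hp, mul_assoc]
    · rw [comm_x hl hF (by rw [R.pair_neg_right, e4]), (anti q1).1, (anti q1).2, R.refl_neg_left,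
        r1, η_neg_left hF (by rw [e2]; decide), f2]
      congr 1; linear_combination t * u * hη
    · rw [comm_x hl hF (by rw [R.pair_neg_left, e1]), R.refl_neg_left, R.refl_refl,
        η_neg_left hF (by rw [e1]; decide), f1]
      congr 1; linear_combination t * u * hη
    · rw [comm_x hl hF (by rw [R.pair_neg_right, e2]), R.refl_neg, r1, E.η_neg, f2]
      congr 1; linear_combination t * u * hη
    · rw [comm_x hl hF (by rw [R.pair_neg_left, e3]), (anti q2).1, (anti q2).2, R.refl_neg,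
        R.refl_refl, E.η_neg, f1]
      congr 1; linear_combination t * u * hη
    · rw [comm_x hl hF (by rw [R.pair_neg_left, R.pair_neg_right, hba]; rfl), R.refl_neg_left,
        R.refl_neg, (anti hp).1, E.η_neg, η_neg_left hF (by rw [hba]; decide), (anti hp).2]
      congr 1; ring

theorem exists_st (hF : E.Faith) (hl : ∀ r s, R.len r = R.len s) {a b : l} (hp : R.A a b = -1) :
    ∃ S : PreStA (Fin 3) K G, (∀ t, S.x 0 1 t = E.x (R.sim a) t) ∧ (∀ t, S.x 1 0 t = E.x (R.neg (R.sim a)) t) ∧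
      (∀ t, S.x 1 2 t = E.x (R.sim b) t) ∧ ∀ t, S.x 2 1 t = E.x (R.neg (R.sim b)) t :=
  ⟨preStA hF hl (a := R.sim a) (b := R.sim b) (by rw [R.pair_sim_left, R.wt_sim, hp]),
    by simp [preStA, embA, epsA]⟩

open H39.Tw H39.RTw

variable {T : Tw E} {I : Type*} {g : I → l} (hg : ∀ i, ∃ k, i ∈ T.S.orb (g k)) (hT : T.Good)

theorem a2_par {i j : I} {L L' : List l} {F : Type} [Field F] {φ φ' : l → F →+* K}
    (h : T.Par (g i) L φ) (h' : T.Par (g j) L' φ') (S : PreStA (Fin 3) F G)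
    (h01 : ∀ t, S.x 0 1 t = h.xx pmP t) (h10 : ∀ t, S.x 1 0 t = h.xx pmN t)
    (h12 : ∀ t, S.x 1 2 t = h'.xx pmP t) (h21 : ∀ t, S.x 2 1 t = h'.xx pmN t) :
    A2 (hT.rgd hg) i j F := by
  let S' := res S T.Γ (mem_of S _ (fun t => h01 t ▸ (h.xx pmP t).2) (fun t => h10 t ▸ (h.xx pmN t).2)
    (fun t => h12 t ▸ (h'.xx pmP t).2) fun t => h21 t ▸ (h'.xx pmN t).2)
  have e01 : S'.x 0 1 = h.xx pmP := funext fun t => Subtype.ext (h01 t)
  have e10 : S'.x 1 0 = h.xx pmN := funext fun t => Subtype.ext (h10 t)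
  have e12 : S'.x 1 2 = h'.xx pmP := funext fun t => Subtype.ext (h12 t)
  have e21 : S'.x 2 1 = h'.xx pmN := funext fun t => Subtype.ext (h21 t)
  refine a2_of S' ?_ ?_ ?_ ?_ ?_
  · exact e01 ▸ ⟨h.xx_inj _, Set.ext fun x => h.mem_pos.symm⟩
  · exact e10 ▸ ⟨h.xx_inj _, Set.ext fun x => h.mem_neg.symm⟩
  · exact e12 ▸ ⟨h'.xx_inj _, Set.ext fun x => h'.mem_pos.symm⟩
  · exact e21 ▸ ⟨h'.xx_inj _, Set.ext fun x => h'.mem_neg.symm⟩
  · rw [PreStA.w, e01, e10]
    exact acts_σ hg (h.rep_w one_ne_zero)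

theorem a2_one (hl : ∀ r s, R.len r = R.len s) {i j : I} {a b : l} {F : Type} [Field F] {f : F →+* K}
    (h : T.Par (g i) [a] fun _ => f) (h' : T.Par (g j) [b] fun _ => f) (hp : R.A a b = -1) :
    A2 (hT.rgd hg) i j F := by
  obtain ⟨S, h1, h2, h3, h4⟩ := exists_st T.hF hl hp
  refine a2_par hg hT h h' (comap S f) ?_ ?_ ?_ ?_ <;> intro t <;> simp [comap, Par.xx, h1, h2, h3, h4]

theorem a2_two (hl : ∀ r s, R.len r = R.len s) {i j : I} {a a' b b' : l} {F : Type} [Field F]
    {φ φ' : l → F →+* K} (h : T.Par (g i) [a, a'] φ) (h' : T.Par (g j) [b, b'] φ') (e : φ' b = φ a)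
    (e' : φ' b' = φ a') (hp : R.A a b = -1) (hp' : R.A a' b' = -1)
    (ho : ∀ c ∈ [a, b], ∀ d ∈ [a', b'], c ≠ d ∧ R.A c d = 0) : A2 (hT.rgd hg) i j F := by
  obtain ⟨S, h1, h2, h3, h4⟩ := exists_st T.hF hl hp
  obtain ⟨S', k1, k2, k3, k4⟩ := exists_st T.hF hl hp'
  have c0 : ∀ c ∈ [a, b], ∀ d ∈ [a', b'], ∀ {p p' : l → ι}, IsPM R p → IsPM R p' → ∀ t u,
      E.x (p c) t * E.x (p' d) u = E.x (p' d) u * E.x (p c) t := fun c hc d hd p p' hp hp' t u =>
    commute_orth E (ho c hc d hd).1 (ho c hc d hd).2 (E.x_mem_XS (hp.inSub c) _) (E.x_mem_XS (hp'.inSub d) _)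
  have c1 : ∀ c ∈ [a, b], ∀ {p : l → ι}, IsPM R p → ∀ t, ∀ r s, r ≠ s → ∀ u,
      S'.x r s u ∈ Subgroup.centralizer {E.x (p c) t} := fun c hc p hp t => by
    refine mem_of S' _ ?_ ?_ ?_ ?_ <;> intro u <;> rw [Subgroup.mem_centralizer_singleton_iff]
    · rw [k1]; exact (c0 c hc a' (by simp) hp pmP _ _).symm
    · rw [k2]; exact (c0 c hc a' (by simp) hp pmN _ _).symm
    · rw [k3]; exact (c0 c hc b' (by simp) hp pmP _ _).symm
    · rw [k4]; exact (c0 c hc b' (by simp) hp pmN _ _).symm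
  have c2 : ∀ r s, r ≠ s → ∀ u, ∀ r' s', r' ≠ s' → ∀ t, S.x r' s' t ∈ Subgroup.centralizer {S'.x r s u} :=
    fun r s n u => by
      refine mem_of S _ ?_ ?_ ?_ ?_ <;> intro t <;> rw [Subgroup.mem_centralizer_singleton_iff]
      · rw [h1]; exact (Subgroup.mem_centralizer_singleton_iff.1 (c1 a (by simp) pmP t r s n u)).symm
      · rw [h2]; exact (Subgroup.mem_centralizer_singleton_iff.1 (c1 a (by simp) pmN t r s n u)).symm
      · rw [h3]; exact (Subgroup.mem_centralizer_singleton_iff.1 (c1 b (by simp) pmP t r s n u)).symm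
      · rw [h4]; exact (Subgroup.mem_centralizer_singleton_iff.1 (c1 b (by simp) pmN t r s n u)).symm
  refine a2_par hg hT h h' (prod (comap S (φ a)) (comap S' (φ a')) fun r s n r' s' n' t u =>
    Subgroup.mem_centralizer_singleton_iff.1 (c2 r' s' n' _ r s n _)) ?_ ?_ ?_ ?_ <;> intro t <;>
    simp [prod, comap, Par.xx, h1, h2, h3, h4, k1, k2, k3, k4, e, e']

theorem q_par {i : I} {L : List l} {F : Type} [Field F] {φ : l → F →+* K} (h : T.Par (g i) L φ) :
    q (hT.rgd hg) i = Nat.card F :=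
  (Nat.card_congr (Equiv.ofBijective (fun t => (⟨h.xx pmP t, h.mem_pos.2 ⟨t, rfl⟩⟩ : T.X (T.S.cs (g i))))
    ⟨fun _ _ e => h.xx_inj pmP (congrArg Subtype.val e), fun x =>
      (h.mem_pos.1 x.2).imp fun _ e => Subtype.ext e⟩)).symm

theorem par1' {a b : l} (ha : T.S.Orth a [a]) (e : T.φ a = T.φ b) : T.Par a [a] fun _ => (T.FF b).subtype := by
  have h1 : T.ρ a = a := List.mem_singleton.1 (ha.ρ_mem.2 (List.mem_singleton_self a))
  refine ⟨ha, fun j hj t => ?_, fun t ht => ⟨⟨t a, ?_⟩, by simp⟩⟩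
  · rw [List.mem_singleton.1 hj, e]; exact t.2.symm
  · have := ht a (by simp)
    rw [h1, e] at this
    exact this.symm

theorem cm_eq (S : RTw R) (hg : ∀ i, ∃ k, i ∈ S.orb (g k)) (i j : I) :
    cm (S.roots g hg) i j = orderOf (S.wo (g i) * S.wo (g j)) := by
  have inj : Function.Injective (MulAction.toPermHom S.W1 S.Cl) := (injective_iff_map_eq_one _).2 fun w hw =>
    Subtype.ext (R.eq_one_of_pos w.2.1 fun k _ => by
      have e : w • S.cs k = S.cs k := DFunLike.congr_fun hw _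
      exact (Cl.pos_smul_iff w (S.sim_mem_PJ (S.mem_orb_self k))).1 (e.symm ▸ Cl.pos_cs k))
  rw [cm, roots_σ, roots_σ]
  have := orderOf_injective _ inj (S.wo1 (g i) * S.wo1 (g j))
  rw [map_mul] at this
  exact this.trans (Subgroup.orderOf_coe _).symm

end elts

section E6

variable {ι : Type} [Finite ι] {R : RS ι (Fin 6)} {K : Type} [Field K] [Fintype K]
  {G : Type*} [Group G] {E : Elts R K G} {T : Tw E} {n : ℕ} (h : IsE6 T n)
include h

theorem cm_E6 : cm (T.S.roots gE6 h.hg) = mF := by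
  funext i j
  rw [cm_eq, (h.orth _).wo_eq, (h.orth _).wo_eq, ← List.prod_append, ← List.map_append,
    ← coe_wordProd h.cartan, Subgroup.orderOf_coe]
  refine orderOf_wordProd alE6_len alE6_rows cartanE6 _ _ _ ?_ ?_ ?_ <;> revert i j <;> decide +kernel

theorem φ_eq (a b : Fin 6) : T.φ a = T.φ b := RingEquiv.ext fun t => by rw [h.hφ, h.hφ]

theorem good_E6 : Good (h.good.rgd h.hg) := by
  refine ⟨h.good.faith h.hg, fun i j e => ?_⟩
  rw [cm_E6 h] at e
  have p1 := par1' (b := 1) (h.orth 1) rfl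
  have p3 := par1' (b := 1) (h.orth 3) (φ_eq h _ _)
  have hA : ∀ i j, R.A i j = aE6 i j := h.hA
  have : (i = 0 ∧ j = 1) ∨ (i = 1 ∧ j = 0) ∨ (i = 2 ∧ j = 3) ∨ (i = 3 ∧ j = 2) := by
    revert i j; decide
  rcases this with ⟨rfl, rfl⟩ | ⟨rfl, rfl⟩ | ⟨rfl, rfl⟩ | ⟨rfl, rfl⟩
  · exact ⟨T.FF 1, _, Fintype.ofFinite _, a2_one h.hg h.good h.len_eq p1 p3 (by rw [hA]; rfl)⟩
  · exact ⟨T.FF 1, _, Fintype.ofFinite _, a2_one h.hg h.good h.len_eq p3 p1 (by rw [hA]; rfl)⟩
  · exact ⟨K, _, inferInstance, a2_two h.hg h.good h.len_eq h.par24 h.par0 (by simp)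
      (by simp [φ_eq h 0 2]) (by rw [hA]; rfl) (by rw [hA]; rfl) (by simp only [hA]; decide)⟩
  · exact ⟨K, _, inferInstance, a2_two h.hg h.good h.len_eq h.par0 h.par24 (by simp)
      (by simp [φ_eq h 0 2]) (by rw [hA]; rfl) (by rw [hA]; rfl) (by simp only [hA]; decide)⟩

end E6

end ModT

open H38 H39 ModT in
theorem model_2E6 (K : Type) [Field K] [Fintype K] :
    Model mF fun E => q E 1 = Fintype.card K ∧ q E 2 = Fintype.card K ^ 2 := by
  obtain ⟨p, hp, n, hpp, hc⟩ := FiniteField.card' K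
  have := Fact.mk hpp
  let K' := GaloisField p (n * 2)
  let _ : Fintype K' := Fintype.ofFinite _
  have hK : Fintype.card K' = Fintype.card K ^ 2 := by
    rw [← Nat.card_eq_fintype_card, GaloisField.card p _ (by simp), hc, pow_mul]
  have hq : IsPrimePow (Fintype.card K) := hc ▸ hpp.isPrimePow.pow n.ne_zero
  obtain ⟨R, E, hE, T, h, hA⟩ := exists_E6 hq hK
  have : Nonempty (Fin Lie.chevE6.rank) := ⟨⟨0, by decide⟩⟩
  obtain ⟨hs, hn⟩ := simple_tw hA h.good (R.connected (by simp)) h.perfect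
  let e : T.Γ ≃* Lie.twistedE6 K' (Fintype.card K) :=
    (T.Γ.equivMapOfInjective _ (Lie.chevE6.group K').subtype_injective).trans (MulEquiv.subgroupCongr hA.symm)
  have := e.isSimpleGroup
  have hz : Subgroup.center T.Γ = ⊥ := (IsSimpleGroup.eq_bot_or_eq_top_of_normal _ inferInstance).resolve_right
    fun k => hn ⟨⟨fun a b => e.symm.injective (by
      rw [map_mul, map_mul]; exact Subgroup.mem_center_iff.1 (k.ge trivial) _)⟩⟩
  refine ⟨T.S.Cl, T.Γ, inferInstance, inferInstance, inferInstance, _, h.good.rgd h.hg, cm_E6 h, good_E6 h,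
    h.good.Gp_eq h.hg h.G1_eq, ?_, ?_, ?_⟩
  · exact .inr (.inr (.inr (.inr (.inr (.inr (.inr (.inr (.inr (.inr (.inr (.inl
      ⟨K', inferInstance, inferInstance, _, hq, hK,
        ⟨((QuotientGroup.quotientMulEquivOfEq hz).trans QuotientGroup.quotientBot).trans e⟩⟩)))))))))))
  · exact (q_par h.hg h.good (i := 1) (par1' (b := 3) (h.orth 3) rfl)).trans (h.card_FF _)
  · exact (q_par h.hg h.good (i := 2) h.par24).trans (Nat.card_eq_fintype_card.trans hK)

end Tits
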