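import Mathlib
import Cfsg.Agent.Lib.Tits.ModA
import Cfsg.Agent.Lib.Tits.ModE
import Cfsg.Agent.Lib.Tits.ModT
import Cfsg.Agent.Lib.Tits.ModO
import Cfsg.Agent.Lib.Tits.ModS
import Cfsg.Agent.Lib.Tits.NB

set_option autoImplicit false

open scoped commutatorElement

namespace Tits

open H63.St Cfsg

namespace Pick

lemma par_iff {fl fl' : Prop} {q t : ℕ} (h : Par fl q t) (h' : Par fl' q t) (hq : 2 ≤ q)
    (hn : ¬ (t = q ∧ Odd q)) : fl ↔ fl' := by
  have k : (t = q ∨ t = q ^ 2) → ¬ (t ^ 2 = q ∨ t ^ 2 = q ^ 3) := by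
    rintro (rfl | rfl) (e | e)
    · nlinarith
    · have := Nat.pow_right_injective hq e; omega
    · rw [← pow_mul] at e
      have := Nat.pow_right_injective hq (e.trans (pow_one q).symm); omega
    · rw [← pow_mul] at e
      have := Nat.pow_right_injective hq e; omega
  unfold Par at h h'
  tauto

/-- Renumbering the nodes. -/
def rl {Φ I : Type*} (R : Roots Φ I) (e : I ≃ I) : Roots Φ I :=
  { R with
    α := fun i => R.α (e i)
    pos_α := fun i => R.pos_α (e i)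
    refl_α := fun i => R.refl_α (e i)
    refl_neg := fun i => R.refl_neg (e i)
    refl_refl := fun i => R.refl_refl (e i)
    refl_conj := fun i => R.refl_conj (e i)
    refl_pos := fun i => R.refl_pos (e i)
    itv_refl := fun i => R.itv_refl (e i)
    α_not_itv := fun i => R.α_not_itv (e i)
    ind := fun P h => R.ind P fun i => by simpa using h (e.symm i) }

/-- Renumbering the nodes of a root group datum. -/
def rlE {Φ I G : Type*} [Group G] {R : Roots Φ I} (E : RGD R G) (e : I ≃ I) : RGD (rl R e) G where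
  X := E.X
  comm := E.comm
  n i := E.n (e i)
  n_acts i := E.n_acts (e i)
  n_mem i := E.n_mem (e i)
  rgd2 i := E.rgd2 (e i)

theorem eqns_rl {Φ I G : Type*} [Group G] {R : Roots Φ I} (E : RGD R G) (e : I ≃ I) :
    rl R e = rl R e ∧ rlE E e = rlE E e :=
  ⟨(rl.eq_1 R e).trans (rl.eq_1 R e).symm, (rlE.eq_1 E e).trans (rlE.eq_1 E e).symm⟩

lemma rev {Q Q' : ∀ {Φ G : Type} [Group G] {R : Roots Φ (Fin 4)}, RGD R G → Prop}
    (h : Model mF Q) (hQ : ∀ {Φ G : Type} [Group G] {R : Roots Φ (Fin 4)} (E : RGD R G), Q E →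
      Q' (rlE E Fin.revPerm)) : Model mF Q' := by
  obtain ⟨Φ, G, _, _, _, R, E, h1, h2, h3, h4, h5⟩ := h
  refine ⟨Φ, G, inferInstance, inferInstance, inferInstance, _, rlE E Fin.revPerm, ?_,
    ⟨h2.1, fun i j hij => h2.2 _ _ hij⟩, h3, h4, hQ E h5⟩
  funext i j
  change cm R (Fin.rev i) (Fin.rev j) = _
  rw [h1]
  revert i j
  decide

lemma b3B {m : ℕ} {Φ : Type*} {R : Roots Φ (Fin (m + 3))} (h : cm R = mB (m + 3)) :
    B3 R ⟨m, by omega⟩ ⟨m + 1, by omega⟩ (Fin.last _) := by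
  simp [B3, h, mB, Fin.ext_iff]
  omega

lemma b3F {Φ : Type*} {R : Roots Φ (Fin 4)} (h : cm R = mF) : B3 R 0 1 2 := by
  simp only [B3, h]; decide

lemma fixB {m q₀ t : ℕ} {fl : Prop} (h : Par fl q₀ t) (hq : 2 ≤ q₀) (hn : ¬ (t = q₀ ∧ Odd q₀))
    (hm : Model (mB (m + 3)) fun E => q E ⟨m + 1, by omega⟩ = q₀ ∧ q E (Fin.last _) = t) :
    Model (mB (m + 3)) fun E => q E ⟨m + 1, by omega⟩ = q₀ ∧ q E (Fin.last _) = t ∧
      (Flag E ⟨m + 1, by omega⟩ (Fin.last _) ↔ fl) := by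
  obtain ⟨Φ, G, _, _, _, R, E, h1, h2, h3, h4, h5, h6⟩ := hm
  have := par_cases h2 (b3B h1)
  rw [h5, h6] at this
  exact ⟨Φ, G, inferInstance, inferInstance, inferInstance, R, E, h1, h2, h3, h4, h5, h6,
    par_iff this h hq hn⟩

lemma fixF {q₀ t : ℕ} {fl : Prop} (h : Par fl q₀ t) (hq : 2 ≤ q₀) (hn : ¬ (t = q₀ ∧ Odd q₀))
    (hm : Model mF fun E => q E 1 = q₀ ∧ q E 2 = t) :
    Model mF fun E => q E 1 = q₀ ∧ q E 2 = t ∧ (Flag E 1 2 ↔ fl) := by
  obtain ⟨Φ, G, _, _, _, R, E, h1, h2, h3, h4, h5, h6⟩ := hm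
  have := par_cases h2 (b3F h1)
  rw [h5, h6] at this
  exact ⟨Φ, G, inferInstance, inferInstance, inferInstance, R, E, h1, h2, h3, h4, h5, h6,
    par_iff this h hq hn⟩

lemma mono {n : ℕ} {m : Fin n → Fin n → ℕ}
    {Q Q' : ∀ {Φ G : Type} [Group G] {R : Roots Φ (Fin n)}, RGD R G → Prop} (h : Model m Q)
    (hQ : ∀ {Φ G : Type} [Group G] {R : Roots Φ (Fin n)} (E : RGD R G), Q E → Q' E) :
    Model m Q' := by
  obtain ⟨Φ, G, _, _, _, R, E, h1, h2, h3, h4, h5⟩ := h
  exact ⟨Φ, G, inferInstance, inferInstance, inferInstance, R, E, h1, h2, h3, h4, hQ E h5⟩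

end Pick

theorem model_SL (K : Type) [Field K] [Fintype K] {n : ℕ} {m : Fin n → Fin n → ℕ} (h : SL n m) :
    Model m fun E => ∀ i, q E i = Fintype.card K := by
  rcases h with ⟨h, rfl⟩ | ⟨h, rfl⟩ | ⟨h, h', rfl⟩
  exacts [model_A K h, model_D K h, model_E K h h']

theorem model_B (K : Type) [Field K] [Fintype K] (m : ℕ) {fl : Prop} {t : ℕ}
    (h : Par fl (Fintype.card K) t) :
    Model (mB (m + 3)) fun E => q E ⟨m + 1, by omega⟩ = Fintype.card K ∧ q E (Fin.last _) = t ∧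
      (Flag E ⟨m + 1, by omega⟩ (Fin.last _) ↔ fl) := by
  have hq : 2 ≤ Fintype.card K := Fintype.one_lt_card
  by_cases hn : t = Fintype.card K ∧ Odd (Fintype.card K)
  · obtain ⟨rfl, ho⟩ := hn
    by_cases hf : fl
    · exact Pick.mono (model_O1 K ho m) fun E h => ⟨h.1, h.2.1, iff_of_true h.2.2 hf⟩
    · exact Pick.mono (model_Sp K m) fun E h => ⟨h.1, h.2.1, iff_of_false (h.2.2 ho) hf⟩
  refine Pick.fixB h hq hn ?_
  rcases h with ⟨-, rfl | rfl⟩ | ⟨-, h | h | h⟩
  · exact Pick.mono (model_Sp K m) fun E h => ⟨h.1, h.2.1⟩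
  · exact model_O2 K m
  · exact absurd h hn
  · rw [← h]; exact model_U0 K h.symm m
  · obtain ⟨r, rfl⟩ : Fintype.card K ∣ t :=
      (Nat.pow_dvd_pow_iff two_ne_zero).1 ⟨Fintype.card K, by rw [h]; ring⟩
    have h1 : Fintype.card K = r ^ 2 := by
      apply Nat.eq_of_mul_eq_mul_left (show 0 < Fintype.card K ^ 2 by positivity)
      rw [← mul_pow, h]; ring
    have := model_U1 K h1 m
    rw [show r ^ 3 = r ^ 2 * r by ring, ← h1] at this
    exact this

theorem model_F4 (K K' : Type) [Field K] [Fintype K] [Field K'] [Fintype K'] {fl fl' : Prop}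
    (h : Par fl (Fintype.card K) (Fintype.card K')) (h' : Par fl' (Fintype.card K') (Fintype.card K)) :
    Model mF fun E => q E 1 = Fintype.card K ∧ q E 2 = Fintype.card K' ∧ (Flag E 1 2 ↔ fl) := by
  have hq : 2 ≤ Fintype.card K := Fintype.one_lt_card
  have hq' : 2 ≤ Fintype.card K' := Fintype.one_lt_card
  by_cases hn : Fintype.card K' = Fintype.card K ∧ Odd (Fintype.card K)
  · obtain ⟨e, ho⟩ := hn
    by_cases hf : fl
    · exact Pick.mono (model_F K) fun E h => ⟨h.1 1, (h.1 2).trans e.symm, iff_of_true h.2.1 hf⟩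
    · exact Pick.rev (model_F K) fun E h =>
        ⟨h.1 2, (h.1 1).trans e.symm, iff_of_false (h.2.2 ho) hf⟩
  refine Pick.fixF h hq hn ?_
  rcases h with ⟨-, h | h⟩ | ⟨-, h | h | h⟩
  · exact Pick.mono (model_F K) fun E k => ⟨k.1 1, (k.1 2).trans h.symm⟩
  · rw [h]; exact model_2E6 K
  · exact absurd h hn
  · exact Pick.rev (model_2E6 K') fun E k => ⟨k.2.trans h, k.1⟩
  · exfalso
    rcases h' with ⟨-, e | e⟩ | ⟨-, ⟨e, -⟩ | e | e⟩
    · rw [← e] at h; have := Nat.pow_right_injective hq h; omega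
    · rw [← e] at h
      have := Nat.pow_right_injective hq ((pow_one _).trans h); omega
    · rw [← e] at h; have := Nat.pow_right_injective hq h; omega
    · rw [← e, ← pow_mul] at h; have := Nat.pow_right_injective hq h; omega
    · have h2 : Fintype.card K' ^ 4 = Fintype.card K' ^ 9 := by
        rw [show 4 = 2 * 2 by rfl, pow_mul, h, ← pow_mul, mul_comm 3 2, pow_mul, e, ← pow_mul]
      have := Nat.pow_right_injective hq' h2; omega

end Tits
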