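import Mathlib
import Cfsg.Agent.Lib.Tits.Pick
import Cfsg.Agent.Lib.Tits.Mouf
import Cfsg.Agent.Lib.Tits.Uni
import Cfsg.Agent.Lib.Tits.OfBN
import Cfsg.Agent.Lib.Tits.Clas
import Cfsg.Agent.Lib.Tits.NiceE

set_option autoImplicit false

open scoped commutatorElement

namespace Tits

open H63.St Cfsg

namespace Main

theorem ne_congr {G H : Type*} [Group G] [Group H] (e : G ≃* H)
    (X : Type) [Group X] : Nonempty (G ≃* X) ↔ Nonempty (H ≃* X) :=
  ⟨fun ⟨f⟩ => ⟨e.symm.trans f⟩, fun ⟨f⟩ => ⟨e.trans f⟩⟩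

theorem lie_congr {G H : Type*} [Group G] [Group H] (e : G ≃* H) : Lie G ↔ Lie H := by
  delta Tits.Lie IsPSL IsPSp IsPSU IsPOmegaOdd IsPOmegaPlus IsPOmegaMinus
    IsExceptionalLieType Lie.IsoChevG2 Lie.IsoF4 Lie.IsoChevE6 Lie.IsoE7 Lie.IsoE8 Lie.Iso2E6
    Lie.Iso3D4 Lie.IsoSuzuki Lie.IsoRee Lie.Iso2F4 Lie.IsoTits Lie.ChevalleyDatum.IsGroupOver
  simp only [ne_congr e]

theorem gp_top {G : Type*} [Group G] [IsSimpleGroup G] {Φ I : Type*} {R : Roots Φ I}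
    (E : RGD R G) (i : I) (h : E.Gp.Normal) : E.Gp = ⊤ := by
  rcases h.eq_bot_or_eq_top with h | h
  · obtain ⟨x, hx, hx1⟩ := E.exists_ne_one i
    have := Pre.mem_Gp (E := E.toPre) hx
    rw [h] at this
    exact absurd (Subgroup.mem_bot.1 this) hx1
  · exact h

/-- A model, transported to the root system of the group. -/
theorem lie_of_model {G : Type*} [Group G] {n : ℕ} {Φ : Type*} [Finite Φ] {R : Roots Φ (Fin n)}
    (hF : Full R) (hR : Rk2 R) {E : RGD R G} (hE : Good E) (h1 : E.Gp = ⊤)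
    (hZ : Subgroup.center G = ⊥) {a b : Fin n} (hs : Shape (cm R) a b)
    {Φ' G' : Type} [Finite Φ'] [Group G'] {R' : Roots Φ' (Fin n)} {E' : RGD R' G'}
    (hm : cm R' = cm R) (hE' : Good E') (h2 : E'.Gp = ⊤) (hL : Lie (G' ⧸ Subgroup.center G'))
    (h : ∀ E'' : RGD R G', Good E'' → (∀ i, q E'' i = q E' i) →
      (∀ j k, Flag E'' j k ↔ Flag E' j k) → ∃ Z, Loc E E'' {a, b} Z) : Lie G := by
  obtain ⟨E'', g1, g2, g3, g4⟩ := transport (R := R') (R' := R) hF (g := id)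
    Function.surjective_id (fun i j => by rw [hm]; rfl) hE'
  obtain ⟨Z, hZ'⟩ := h E'' g1 g3 g4
  obtain ⟨e⟩ := equiv_of_edge hF hR hE g1 h1 (g2.trans h2) hZ hs hZ'
  exact (lie_congr e).2 hL

end Main

open Main in
theorem main {G : Type*} [Group G] [Finite G] [IsSimpleGroup G] (P : BNPair G) (h3 : 3 ≤ P.rank)
    (hirr : P.Irreducible) : Lie G := by
  have hne : Nonempty P.S := by
    by_contra h
    rw [not_nonempty_iff] at h
    have : P.rank = 0 := Nat.card_of_isEmpty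
    omega
  obtain ⟨s0⟩ := hne
  have hc : P.B.normalCore = ⊥ := by
    rcases (Subgroup.normalCore_normal P.B).eq_bot_or_eq_top with h | h
    · exact h
    · exact absurd (Subgroup.normalCore_le P.B (h ▸ Subgroup.mem_top _)) (H13.BN.gen_not_mem s0)
  have hZ : Subgroup.center G = ⊥ := by
    rcases (inferInstance : (Subgroup.center G).Normal).eq_bot_or_eq_top with h | h
    · exact h
    · obtain ⟨b, hb, hn⟩ := H13.BN.exists_conj_not_mem s0
      have hb' : b ∈ Subgroup.center G := h ▸ Subgroup.mem_top _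
      refine absurd ?_ hn
      rw [Subgroup.mem_center_iff.1 hb' s0, mul_assoc]
      exact mul_mem hb (P.sq_mem _ s0.2)
  have hcl := classify (H13.BN.invGen P) (H13.BN.exchange P) (H13.BN.gen_injective P) h3
    (fun J hJ hJ' => by
      obtain ⟨s, hs, t, ht, hst⟩ := hirr (Subtype.val '' J) (by rintro _ ⟨x, _, rfl⟩; exact x.2)
        (hJ.image _) (by
          obtain ⟨x, hx⟩ := (Set.ne_univ_iff_exists_notMem J).1 hJ'
          exact ⟨x, x.2, fun ⟨y, hy, e⟩ => hx (Subtype.ext e ▸ hy)⟩)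
      obtain ⟨i, hi, rfl⟩ := hs
      refine ⟨i, hi, ⟨t, ht.1⟩, fun h => ht.2 ⟨_, h, rfl⟩, fun e => hst ?_⟩
      have : (QuotientGroup.mk (H13.BN.genN P i * H13.BN.genN P ⟨t, ht.1⟩ * (H13.BN.genN P i)⁻¹ *
          (H13.BN.genN P ⟨t, ht.1⟩)⁻¹) : H13.BN.Weyl P) = 1 := by
        simp only [QuotientGroup.mk_mul, QuotientGroup.mk_inv, H13.BN.mk_genN, e]
        group
      exact (H13.BN.mk_eq_one_iff P).1 this)
    (fun i j h => order_mem P i j h)
  rcases hcl with ⟨n, m, e, hS, hm⟩ | ⟨m, e, hm⟩ | ⟨e, hm⟩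
  · obtain ⟨Φ, _, R, hF, hR, rfl⟩ := exists_nice_SL hS
    obtain ⟨D⟩ := exists_bd P hc e hm
    obtain ⟨E, hE, hN⟩ := good_SL hF hS D
    obtain ⟨a, b, hab, hs⟩ := shape_SL hS
    obtain ⟨K, _, _, hK⟩ := hE.2 a b hab
    obtain ⟨Φ', G', _, _, _, R', E', c1, c2, c3, c4, c5⟩ := model_SL K hS
    exact lie_of_model hF hR hE (gp_top E a hN) hZ hs c1 c2 c3 c4 fun E'' g1 g3 _ =>
      loc_start hF hE g1 hab (by rw [g3, c5, hK.card.1])
  · have hs : true = false → 1 ≤ m + 2 := fun _ => by omega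
    have hcm : cm (VC true (m + 2) hs).toRoots = mB (m + 3) := cm_VB (m + 2) (by omega) hs
    have hF := vr_full (VC true (m + 2) hs)
    obtain ⟨D⟩ := exists_bd (R := (VC true (m + 2) hs).toRoots) P hc e (by rw [hcm]; exact hm)
    obtain ⟨E, hE, hN, -⟩ := good_B D
    have hB : B3 (VC true (m + 2) hs).toRoots ⟨m, by omega⟩ ⟨m + 1, by omega⟩ (Fin.last _) := by
      refine ⟨?_, ?_, ?_⟩ <;> rw [hcm] <;> simp [mB, Fin.ext_iff]
      omega
    obtain ⟨K, _, _, hK⟩ := hE.2 _ _ hB.1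
    have hp := par_cases hE hB
    rw [hK.card.2] at hp
    obtain ⟨Φ', G', _, _, _, R', E', c1, c2, c3, c4, c5, c6, c7⟩ := model_B K m hp
    exact lie_of_model hF (rk2_VC _ _ _) hE (gp_top E 0 hN) hZ (hcm ▸ shape_B m)
      (c1.trans hcm.symm) c2 c3 c4 fun E'' g1 g3 g4 =>
      loc_four hF hE g1 hB (by rw [g3, c5, hK.card.2]) (by rw [g3, c6]) (by rw [g4, c7])
  · obtain ⟨Φ, _, R, hF, hR, hcm⟩ := exists_nice_F
    obtain ⟨D⟩ := exists_bd (R := R) P hc e (by rw [hcm]; exact hm)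
    obtain ⟨E, hE, hN⟩ := good_F hF hcm D
    have hB : B3 R 0 1 2 := by refine ⟨?_, ?_, ?_⟩ <;> rw [hcm] <;> rfl
    have hB' : B3 R 3 2 1 := by refine ⟨?_, ?_, ?_⟩ <;> rw [hcm] <;> rfl
    obtain ⟨K, _, _, hK⟩ := hE.2 _ _ hB.1
    obtain ⟨K', _, _, hK'⟩ := hE.2 _ _ hB'.1
    have hp := par_cases hE hB
    have hp' := par_cases hE hB'
    rw [hK.card.2, hK'.card.2] at hp hp'
    obtain ⟨Φ', G', _, _, _, R', E', c1, c2, c3, c4, c5, c6, c7⟩ := model_F4 K K' hp hp'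
    exact lie_of_model hF hR hE (gp_top E 0 hN) hZ (hcm ▸ shape_F)
      (c1.trans hcm.symm) c2 c3 c4 fun E'' g1 g3 g4 =>
      loc_four hF hE g1 hB (by rw [g3, c5, hK.card.2]) (by rw [g3, c6, hK'.card.2])
        (by rw [g4, c7])

end Tits
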