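import Mathlib

/-! Finite generalized quadrangles: the variance inequality and Higman's inequality. -/

set_option autoImplicit false
set_option linter.unusedSectionVars false

namespace Tits.GQ

open Finset

/-- A generalized quadrangle of order `(s, t)`. -/
structure Q {P L : Type*} (I : P → L → Prop) (s t : ℕ) : Prop where
  pts : ∀ l, {p | I p l}.ncard = s + 1
  lns : ∀ p, {l | I p l}.ncard = t + 1
  ex : ∀ p l, ∃ v m, I p m ∧ I v m ∧ I v l
  dig : ∀ {p v l m}, I p l → I p m → I v l → I v m → p = v ∨ l = m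
  tri : ∀ {p l v m v' m'}, ¬ I p l → I p m → I v m → I v l → I p m' → I v' m' → I v' l → v = v'

/-- collinear points -/
def Col {P L : Type*} (I : P → L → Prop) (u v : P) : Prop := ∃ l, I u l ∧ I v l

variable {P L : Type*} {I : P → L → Prop} {s t : ℕ}

theorem Col.symm {u v : P} (h : Col I u v) : Col I v u := let ⟨l, a, b⟩ := h; ⟨l, b, a⟩

namespace Q

variable (h : Q I s t)
include h

theorem tri' {p v v' : P} {l : L} (n : ¬ I p l) (c : Col I p v) (a : I v l) (c' : Col I p v') (a' : I v' l) :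
    v = v' := let ⟨_, b, d⟩ := c; let ⟨_, b', d'⟩ := c'; h.tri n b d a b' d' a'

theorem ex' (p : P) (l : L) : ∃ v, Col I p v ∧ I v l := let ⟨v, m, a, b, c⟩ := h.ex p l; ⟨v, ⟨m, a, b⟩, c⟩

theorem exists_line (p : P) : ∃ l, I p l := Set.nonempty_of_ncard_ne_zero (s := {l | I p l}) (by
  rw [h.lns]; omega)

theorem col_self (p : P) : Col I p p := let ⟨l, a⟩ := h.exists_line p; ⟨l, a, a⟩

variable [Fintype P] [Fintype L]

open Classical in
theorem cp (l : L) : #{p | I p l} = s + 1 := by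
  rw [← h.pts l, ← Set.ncard_coe_finset]; congr 1; ext; simp

open Classical in
theorem cl (p : P) : #{l | I p l} = t + 1 := by
  rw [← h.lns p, ← Set.ncard_coe_finset]; congr 1; ext; simp

open Classical in
theorem cp' {l : L} {v : P} (a : I v l) : #{p | I p l ∧ p ≠ v} = s := by
  have := card_erase_of_mem (s := univ.filter fun p => I p l) (a := v) (by simpa using a)
  rw [h.cp, Nat.add_sub_cancel] at this
  rw [← this]; congr 1; ext; simp [and_comm]

open Classical in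
theorem cl' {l : L} {v : P} (a : I v l) : #{m | I v m ∧ m ≠ l} = t := by
  have := card_erase_of_mem (s := univ.filter fun m => I v m) (a := l) (by simpa using a)
  rw [h.cl, Nat.add_sub_cancel] at this
  rw [← this]; congr 1; ext; simp [and_comm]

open Classical in
theorem c1 {x v : P} (c : Col I x v) (n : v ≠ x) : #{z | ¬ Col I x z ∧ Col I v z} = t * s := by
  obtain ⟨l, a, b⟩ := c
  have := card_mul_eq_card_mul (s := univ.filter fun m => I v m ∧ m ≠ l)
    (t := univ.filter fun z => ¬ Col I x z ∧ Col I v z) (fun m z => I z m) (m := s) (n := 1)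
    (fun m hm => by
      obtain ⟨m1, m2⟩ := (mem_filter.1 hm).2
      rw [← h.cp' m1]
      congr 1
      ext z
      simp only [bipartiteAbove, mem_filter, mem_univ, true_and]
      refine ⟨fun k => ⟨k.2, fun e => k.1.1 (e ▸ ⟨l, a, b⟩)⟩, fun k => ⟨⟨fun e => k.2 ?_, m, m1, k.1⟩, k.1⟩⟩
      exact h.tri' (fun i => (h.dig i a m1 b).elim n.symm m2) e k.1 ⟨l, a, b⟩ m1)
    (fun z hz => by
      obtain ⟨z1, m, m1, m2⟩ := (mem_filter.1 hz).2
      rw [card_eq_one]
      refine ⟨m, eq_singleton_iff_unique_mem.2 ⟨?_, fun m' k => ?_⟩⟩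
      · simp only [bipartiteBelow, mem_filter, mem_univ, true_and]
        exact ⟨⟨m1, fun e => z1 ⟨l, a, e ▸ m2⟩⟩, m2⟩
      · simp only [bipartiteBelow, mem_filter, mem_univ, true_and] at k
        exact (h.dig k.1.1 m1 k.2 m2).resolve_left fun e => z1 (e ▸ ⟨l, a, b⟩))
  rw [h.cl' b, mul_one] at this
  exact this.symm

open Classical in
theorem c0 (x : P) : #{z | ¬ Col I x z} ≤ s * (t * s) := by
  obtain ⟨l, a⟩ := h.exists_line x
  have := card_mul_le_card_mul (s := univ.filter fun z => ¬ Col I x z)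
    (t := univ.filter fun v => I v l ∧ v ≠ x) (fun z v => Col I v z) (m := 1) (n := t * s)
    (fun z hz => by
      obtain ⟨v, c, b⟩ := h.ex' z l
      refine card_pos.2 ⟨v, ?_⟩
      simp only [bipartiteAbove, mem_filter, mem_univ, true_and]
      exact ⟨⟨b, fun e => (mem_filter.1 hz).2 (e ▸ c.symm)⟩, c.symm⟩)
    (fun v hv => by
      obtain ⟨v1, v2⟩ := (mem_filter.1 hv).2
      rw [← h.c1 ⟨l, a, v1⟩ v2]
      refine le_of_eq ?_
      congr 1
      ext z
      simp [bipartiteBelow])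
  rwa [h.cp' a, mul_one] at this

open Classical in
theorem c2 {x v v' : P} (c : Col I x v) (n : ¬ Col I v v') :
    #{z | ¬ Col I x z ∧ Col I v z ∧ Col I v' z} ≤ t := by
  obtain ⟨l, a, b⟩ := c
  rw [← h.cl' b]
  refine card_le_card_of_forall_subsingleton (fun z m => I z m) (fun z hz => ?_) fun m hm z hz z' hz' => ?_
  · obtain ⟨z1, ⟨m, m1, m2⟩, -⟩ := (mem_filter.1 hz).2
    exact ⟨m, mem_filter.2 ⟨mem_univ _, m1, fun e => z1 ⟨l, a, e ▸ m2⟩⟩, m2⟩
  · exact h.tri' (fun i => n ⟨m, (mem_filter.1 hm).2.1, i⟩) (mem_filter.1 hz.1).2.2.2 hz.2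
      (mem_filter.1 hz'.1).2.2.2 hz'.2

open Classical in
theorem var {x : P} {V B : Finset P} (h1 : ∀ v ∈ V, Col I x v ∧ v ≠ x)
    (h2 : ∀ v ∈ V, ∀ v' ∈ V, v ≠ v' → ¬ Col I v v') (hB : ∀ z ∈ B, ¬ Col I x z) (d e : ℤ) :
    ∑ z ∈ B, (d * (#{v ∈ V | Col I v z} : ℕ) - e) ^ 2 ≤
      d ^ 2 * (#V * (t * s + (#V - 1) * t)) - 2 * (d * e) * (#V * (t * s)) + e ^ 2 * (s * (t * s)) := by
  set W := univ.filter fun z => ¬ Col I x z with hW
  have s1 : ∑ z ∈ W, ((#{v ∈ V | Col I v z} : ℕ) : ℤ) = #V * (t * s) := by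
    simp only [card_filter, Nat.cast_sum]
    rw [sum_comm, ← nsmul_eq_mul]
    refine sum_eq_card_nsmul fun v hv => ?_
    rw [← Nat.cast_sum, ← card_filter, filter_filter, h.c1 (h1 v hv).1 (h1 v hv).2]
    simp
  have s2 : ∑ z ∈ W, ((#{v ∈ V | Col I v z} : ℕ) : ℤ) ^ 2 ≤ #V * (t * s + (#V - 1) * t) := by
    have e1 : ∀ z, ((#{v ∈ V | Col I v z} : ℕ) : ℤ) ^ 2 =
        ∑ v ∈ V, ∑ v' ∈ V, if Col I v z ∧ Col I v' z then 1 else 0 := fun z => by
      simp only [card_filter, Nat.cast_sum, pow_two, sum_mul_sum]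
      refine sum_congr rfl fun v _ => sum_congr rfl fun v' _ => ?_
      by_cases a : Col I v z <;> by_cases b : Col I v' z <;> simp [a, b]
    simp only [e1]
    rw [sum_comm, ← nsmul_eq_mul]
    refine sum_le_card_nsmul _ _ _ fun v hv => ?_
    rw [sum_comm, ← add_sum_erase _ _ hv]
    refine add_le_add (le_of_eq ?_) ?_
    · rw [sum_boole, filter_filter]
      simp only [and_self]
      rw [h.c1 (h1 v hv).1 (h1 v hv).2]
      simp
    · refine (sum_le_card_nsmul _ _ (t : ℤ) fun v' hv' => ?_).trans (le_of_eq ?_)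
      · rw [sum_boole, filter_filter]
        exact_mod_cast h.c2 (h1 v hv).1 (h2 v hv v' (mem_of_mem_erase hv') (ne_of_mem_erase hv').symm)
      · rw [card_erase_of_mem hv, nsmul_eq_mul, Nat.cast_sub (card_pos.2 ⟨v, hv⟩)]
        simp
  have s0 : (#W : ℤ) ≤ s * (t * s) := by exact_mod_cast h.c0 x
  refine (sum_le_sum_of_subset_of_nonneg (t := W) (fun z hz => mem_filter.2 ⟨mem_univ _, hB z hz⟩)
    fun _ _ _ => sq_nonneg _).trans ?_
  have e2 : ∑ z ∈ W, (d * (#{v ∈ V | Col I v z} : ℕ) - e) ^ 2 =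
      d ^ 2 * ∑ z ∈ W, ((#{v ∈ V | Col I v z} : ℕ) : ℤ) ^ 2 -
        2 * (d * e) * ∑ z ∈ W, ((#{v ∈ V | Col I v z} : ℕ) : ℤ) + e ^ 2 * #W := by
    rw [mul_sum, mul_sum, ← sum_sub_distrib, mul_comm (e ^ 2), ← nsmul_eq_mul, ← sum_const, ← sum_add_distrib]
    exact sum_congr rfl fun z _ => by ring
  rw [e2, s1]
  have := mul_le_mul_of_nonneg_left s2 (sq_nonneg d)
  have := mul_le_mul_of_nonneg_left s0 (sq_nonneg e)
  linarith

open Classical in
theorem higman (hs : 2 ≤ s) (ht : 2 ≤ t) {x y : P} (n : ¬ Col I x y) : t ≤ s ^ 2 := by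
  set V := univ.filter fun v => Col I x v ∧ Col I y v with hV
  set N := univ.filter fun z => Col I y z ∧ z ≠ y ∧ ¬ Col I x z with hN
  have mV : ∀ v, v ∈ V ↔ Col I x v ∧ Col I y v := fun v => by simp [hV]
  have mN : ∀ v, v ∈ N ↔ Col I y v ∧ v ≠ y ∧ ¬ Col I x v := fun v => by simp [hN]
  have cV : #V = t + 1 := by
    have := card_mul_eq_card_mul (s := V) (t := univ.filter fun l => I x l) (fun v l => I v l) (m := 1) (n := 1)
      (fun v hv => by
        obtain ⟨⟨l, a, b⟩, c⟩ := (mV v).1 hv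
        refine card_eq_one.2 ⟨l, eq_singleton_iff_unique_mem.2 ⟨by simp [bipartiteAbove, a, b], fun m k => ?_⟩⟩
        simp only [bipartiteAbove, mem_filter, mem_univ, true_and] at k
        exact (h.dig k.1 a k.2 b).resolve_left fun e => n (e ▸ c.symm))
      (fun l hl => by
        have a := (mem_filter.1 hl).2
        obtain ⟨v, c, b⟩ := h.ex' y l
        refine card_eq_one.2 ⟨v, eq_singleton_iff_unique_mem.2 ⟨?_, fun w k => ?_⟩⟩
        · exact mem_filter.2 ⟨(mV v).2 ⟨⟨l, a, b⟩, c⟩, b⟩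
        · exact h.tri' (fun i => n ⟨l, a, i⟩) ((mV w).1 (mem_filter.1 k).1).2 (mem_filter.1 k).2 c b)
    rwa [h.cl, mul_one, mul_one] at this
  have cN : (t + 1) * (s - 1) ≤ #N := by
    have := card_mul_le_card_mul (s := univ.filter fun l => I y l) (t := N) (fun l z => I z l)
      (m := s - 1) (n := 1)
      (fun l hl => by
        have a := (mem_filter.1 hl).2
        obtain ⟨v, c, b⟩ := h.ex' x l
        refine le_trans ?_ (card_le_card (s := (univ.filter fun p => I p l ∧ p ≠ y).erase v) fun z hz => ?_)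
        · rw [← h.cp' a]; exact pred_card_le_card_erase
        · obtain ⟨z1, z2⟩ := (mem_filter.1 (mem_of_mem_erase hz)).2
          exact mem_filter.2 ⟨(mN z).2 ⟨⟨l, a, z1⟩, z2, fun k => ne_of_mem_erase hz
            (h.tri' (fun i => n ⟨l, i, a⟩) k z1 c b)⟩, z1⟩)
      (fun z hz => card_le_one.2 fun l hl m hm => by
        simp only [bipartiteBelow, mem_filter, mem_univ, true_and] at hl hm
        exact (h.dig hl.1 hm.1 hl.2 hm.2).resolve_left ((mN z).1 hz).2.1.symm)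
    rwa [h.cl, mul_one] at this
  have t1 : ∀ z ∈ N, #{v ∈ V | Col I v z} = 1 := fun z hz => by
    obtain ⟨⟨l, a, b⟩, z2, z3⟩ := (mN z).1 hz
    obtain ⟨v, c, d⟩ := h.ex' x l
    refine card_eq_one.2 ⟨v, eq_singleton_iff_unique_mem.2 ⟨mem_filter.2 ⟨(mV v).2 ⟨c, l, a, d⟩, l, d, b⟩,
      fun w k => ?_⟩⟩
    obtain ⟨k1, k2⟩ := mem_filter.1 k
    obtain ⟨k3, k4⟩ := (mV w).1 k1
    exact h.tri' (fun i => n ⟨l, i, a⟩) k3 (by_contra fun i => z2 (h.tri' i k2 b k4.symm a)) c d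
  have t2 : #{v ∈ V | Col I v y} = t + 1 := by
    rw [filter_true_of_mem fun v hv => ((mV v).1 hv).2.symm, cV]
  obtain ⟨a, rfl⟩ : ∃ a, s = a + 2 := ⟨s - 2, by omega⟩
  obtain ⟨b, rfl⟩ : ∃ b, t = b + 2 := ⟨t - 2, by omega⟩
  obtain ⟨d, hd⟩ : ∃ d : ℤ, d = (a + 2) * (a * (b + 2) + b + 1) + (b + 2) := ⟨_, rfl⟩
  obtain ⟨e, he⟩ : ∃ e : ℤ, e = (b + 3) * (a + 2) * (b + 1) := ⟨_, rfl⟩
  have d0 : 0 < d := by rw [hd]; positivity
  have k := h.var (x := x) (V := V) (B := insert y N)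
    (fun v hv => ⟨((mV v).1 hv).1, fun e => n (e ▸ ((mV v).1 hv).2.symm)⟩)
    (fun v hv w hw ne ⟨l, a, b⟩ => by
      by_cases i : I x l
      · exact ne (h.tri' (fun j => n ⟨l, i, j⟩) ((mV v).1 hv).2 a ((mV w).1 hw).2 b)
      · exact ne (h.tri' i ((mV v).1 hv).1 a ((mV w).1 hw).1 b))
    (fun z hz => by
      rcases mem_insert.1 hz with rfl | hz
      exacts [n, ((mN z).1 hz).2.2]) d e
  rw [sum_insert fun i => ((mN y).1 i).2.1 rfl, t2, sum_congr rfl fun z hz => by rw [t1 z hz], sum_const,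
    nsmul_eq_mul, cV] at k
  have cN' : ((b : ℤ) + 3) * (a + 1) ≤ #N := by exact_mod_cast cN
  have k2 := mul_le_mul_of_nonneg_right cN' (sq_nonneg (d - e))
  by_contra lt
  have lt' : (0 : ℤ) < b + 2 - (a + 2) ^ 2 := by
    have : ((a + 2 : ℕ) : ℤ) ^ 2 < (b + 2 : ℕ) := by exact_mod_cast not_le.1 lt
    push_cast at this
    linarith
  have pos : 0 < d * ((b + 3) * (b + 1) * (b + 2) * (a + 1) * (b + 2 - (a + 2) ^ 2)) := by positivity
  push_cast at k
  have id : d ^ 2 * ((b + 2 + 1) * ((b + 2) * (a + 2) + (b + 2 + 1 - 1) * (b + 2))) -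
      2 * (d * e) * ((b + 2 + 1) * ((b + 2) * (a + 2))) + e ^ 2 * ((a + 2) * ((b + 2) * (a + 2))) =
      (d * (b + 2 + 1) - e) ^ 2 + (b + 3) * (a + 1) * (d - e) ^ 2 -
        d * ((b + 3) * (b + 1) * (b + 2) * (a + 1) * (b + 2 - (a + 2) ^ 2)) := by
    rw [hd, he]; ring
  simp only [mul_one] at k
  linarith

end Q

end Tits.GQ
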